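import Cfsg.Agent.H6.HeI

/-! Wrap-up of the Held trichotomy from generators and relators. -/

set_option autoImplicit false

namespace Cfsg.Agent.H6.He

open Cfsg.Agent.H8.TC Cfsg.Agent.H6.TT Cfsg.Agent.H4 Matrix

/-- `G` is generated by eight letters satisfying one of the four lists of relators -/
def Held (G : Type*) [Group G] : Prop :=
  ∃ lt : ℕ → G, lt 0 = 1 ∧ gen lt 8 = ⊤ ∧ ((∀ w ∈ RL_LL, val lt w = 1) ∨ (∀ w ∈ RL_LT, val lt w = 1) ∨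
    (∀ w ∈ RL_TL, val lt w = 1) ∨ (∀ w ∈ RL_TT, val lt w = 1))

theorem Held.iso {G : Type*} [Group G] [Nontrivial G] (h : Held G) :
    Nonempty (G ≃* SpecialLinearGroup (Fin 5) (ZMod 2)) ∨ Nonempty (G ≃* M24) ∨
      Nonempty (G ≃* He.qG) := by
  obtain ⟨lt, h0, hg, h | h | h | h⟩ := h
  exacts [Or.inl (iso_LL lt h0 h hg), Or.inr (Or.inl (iso_LT lt h0 h hg)),
    Or.inr (Or.inl (iso_TL lt h0 h hg)), Or.inr (Or.inr (iso_TT lt h0 h hg))]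

theorem Held.tri {G : Type*} [Group G] [hs : IsSimpleGroup G] (h : Held G) :
    Nonempty (G ≃* SpecialLinearGroup (Fin 5) (ZMod 2)) ∨ IsM24 G ∨ IsHe G := by
  rcases h.iso with h | ⟨⟨e⟩⟩ | ⟨⟨e⟩⟩
  · exact Or.inl h
  · exact Or.inr (Or.inl ⟨hs, (Nat.card_congr e.toEquiv).trans card_M24⟩)
  · exact Or.inr (Or.inr ⟨hs, (Nat.card_congr e.toEquiv).trans He.cardG⟩)

theorem Held.uniq {G H : Type*} [Group G] [Group H] [Nontrivial G] [Nontrivial H] (h : Held G)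
    (k : Held H) (hc : Nat.card G = Nat.card H) : Nonempty (G ≃* H) := by
  have c := card_SL_of 5 (ZMod 2) (q := 2) (N := 9999360) (ZMod.card 2) (by decide)
  rcases h.iso with ⟨⟨e⟩⟩ | ⟨⟨e⟩⟩ | ⟨⟨e⟩⟩ <;> rcases k.iso with ⟨⟨f⟩⟩ | ⟨⟨f⟩⟩ | ⟨⟨f⟩⟩ <;>
    first
    | exact ⟨e.trans f.symm⟩
    | (rw [Nat.card_congr e.toEquiv, Nat.card_congr f.toEquiv] at hc
       simp only [c, card_M24, He.cardG] at hc
       omega)

end Cfsg.Agent.H6.He
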