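import Mathlib.GroupTheory.SpecificGroups.Alternating.Simple
import Mathlib.GroupTheory.Perm.ViaEmbedding
import Mathlib.GroupTheory.Perm.List

/-!
Central extensions of alternating groups: canonical lifts of cycles of odd order.
-/

set_option autoImplicit false

namespace Cfsg.Agent.H6A

open Equiv Equiv.Perm

section perm
variable {α : Type*} [DecidableEq α]

/-- the three-cycle `a → b → c → a` -/
def cy (a b c : α) : Perm α := swap a c * swap a b

/-- pairwise distinct -/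
def D3 (a b c : α) : Prop := a ≠ b ∧ a ≠ c ∧ b ≠ c

lemma cy_apply {a b c : α} (h : D3 a b c) (x : α) :
    cy a b c x = if x = a then b else if x = b then c else if x = c then a else x := by
  unfold cy D3 at *
  simp only [Perm.mul_apply, swap_apply_def]
  grind

lemma cy_a {a b c : α} (h : D3 a b c) : cy a b c a = b := by simp [cy_apply h]
lemma cy_b {a b c : α} (h : D3 a b c) : cy a b c b = c := by simp [cy_apply h, h.1.symm]
lemma cy_c {a b c : α} (h : D3 a b c) : cy a b c c = a := by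
  simp [cy_apply h, h.2.1.symm, h.2.2.symm]
lemma cy_ne (a b c : α) {x : α} (h1 : x ≠ a) (h2 : x ≠ b) (h3 : x ≠ c) : cy a b c x = x := by
  simp [cy, swap_apply_of_ne_of_ne, h1, h2, h3]

lemma cy_conj (g : Perm α) (a b c : α) : g * cy a b c * g⁻¹ = cy (g a) (g b) (g c) := by
  simp only [cy, swap_apply_apply]; group

lemma cy_rot {a b c : α} (h : D3 a b c) : cy b c a = cy a b c := by
  have h' : D3 b c a := ⟨h.2.2, h.1.symm, h.2.1.symm⟩
  ext x; rw [cy_apply h, cy_apply h']; unfold D3 at h; grind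

lemma cy_inv (a b c : α) : (cy a b c)⁻¹ = cy a c b := by simp [cy]

lemma cy_sq {a b c : α} (h : D3 a b c) : cy a b c * cy a b c = cy a c b := by
  have h' : D3 a c b := ⟨h.2.1, h.1, h.2.2.symm⟩
  ext x; rw [Perm.mul_apply, cy_apply h, cy_apply h, cy_apply h']; unfold D3 at h; grind

lemma cy_pow {a b c : α} (h : D3 a b c) : cy a b c ^ 3 = 1 := by
  rw [pow_succ, pow_two, cy_sq h, ← cy_inv, inv_mul_cancel]

lemma cy_ne_one {a b c : α} (h : D3 a b c) : cy a b c ≠ 1 := fun e => by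
  have := cy_a h; rw [e] at this; exact h.1 this

variable [Fintype α]

lemma sign_cy {a b c : α} (h : D3 a b c) : sign (cy a b c) = 1 := by
  simp [cy, sign_swap h.1, sign_swap h.2.1]

lemma cy_isCycle {a b c : α} (h : D3 a b c) : (cy a b c).IsCycle :=
  (isThreeCycle_swap_mul_swap_same h.2.1 h.1 h.2.2.symm).isCycle

omit [Fintype α] in
lemma two_swaps (P : Subgroup (Perm α)) (p : α → Prop)
    (h : ∀ a b c, p a → p b → p c → D3 a b c → cy a b c ∈ P) {x y u v : α} (hx : p x) (hy : p y)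
    (hu : p u) (hv : p v) (h1 : x ≠ y) (h2 : u ≠ v) : swap x y * swap u v ∈ P := by
  have key : ∀ x y v, p x → p y → p v → x ≠ y → x ≠ v → swap x y * swap x v ∈ P := by
    intro x y v hx hy hv h1 h2
    by_cases e : y = v
    · subst e; simp
    · exact h x v y hx hv hy ⟨h2, h1, Ne.symm e⟩
  by_cases e : x = u
  · subst e; exact key x y v hx hy hv h1 h2
  · have : swap x y * swap u v = swap x y * swap x u * (swap u x * swap u v) := by
      rw [swap_comm u x]; simp [mul_assoc]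
    rw [this]
    exact P.mul_mem (key x y u hx hy hu h1 e) (key u x v hu hx hv (Ne.symm e) h2)

lemma gen2 (P : Subgroup (Perm α)) (p : α → Prop)
    (h : ∀ x y u v, p x → p y → p u → p v → x ≠ y → u ≠ v → swap x y * swap u v ∈ P)
    (σ : Perm α) (hσ : ∀ x, σ x ≠ x → p x) (hs : sign σ = 1) : σ ∈ P := by
  have : ∀ n, ∀ σ : Perm α, σ.support.card = n → (∀ x, σ x ≠ x → p x) →
      (sign σ = 1 → σ ∈ P) ∧ (sign σ = -1 → ∀ u v, p u → p v → u ≠ v → swap u v * σ ∈ P) := by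
    intro n
    induction n using Nat.strong_induction_on with
    | _ n ih =>
    intro σ hn hσ
    by_cases h1 : σ = 1
    · subst h1; exact ⟨fun _ => P.one_mem, fun h => by simp at h⟩
    obtain ⟨x, hx⟩ : ∃ x, σ x ≠ x := by
      by_contra hc; push Not at hc; exact h1 (Equiv.ext hc)
    have hx' : p (σ x) := hσ _ fun e => hx (σ.injective e)
    obtain ⟨i1, i2⟩ := ih _ (hn ▸ card_support_swap_mul hx) (swap x (σ x) * σ) rfl
      fun y hy => hσ y (ne_and_ne_of_swap_mul_apply_ne_self hy).1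
    have e : σ = swap x (σ x) * (swap x (σ x) * σ) := by simp
    have hs : sign (swap x (σ x) * σ) = - sign σ := by simp [sign_swap hx.symm]
    refine ⟨fun h1 => ?_, fun h1 u v hu hv huv => ?_⟩
    · rw [e]; exact i2 (by rw [hs, h1]) _ _ (hσ x hx) hx' hx.symm
    · rw [e, ← mul_assoc]
      exact P.mul_mem (h _ _ _ _ hu hv (hσ x hx) hx' huv hx.symm) (i1 (by rw [hs, h1, neg_neg]))
  exact (this _ σ rfl hσ).1 hs

lemma gen3 (P : Subgroup (Perm α)) (p : α → Prop)
    (h : ∀ a b c, p a → p b → p c → D3 a b c → cy a b c ∈ P)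
    (σ : Perm α) (hσ : ∀ x, σ x ≠ x → p x) (hs : sign σ = 1) : σ ∈ P :=
  gen2 P p (fun _ _ _ _ hx hy hu hv h1 h2 => two_swaps P p h hx hy hu hv h1 h2) σ hσ hs

lemma genC (P : Subgroup (Perm α)) {b c : α} (hbc : b ≠ c)
    (h : ∀ i, i ≠ b → i ≠ c → cy b i c ∈ P) (σ : Perm α) (hs : sign σ = 1) : σ ∈ P := by
  have h1 : ∀ i, i ≠ b → swap b c * swap b i ∈ P := fun i hi => by
    by_cases e : i = c
    · subst e; simp
    · exact h i hi e
  have h2 : ∀ i j, i ≠ j → swap b c * swap i j ∈ P := fun i j hij => by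
    by_cases e : i = b
    · subst e; exact h1 j hij.symm
    by_cases e' : j = b
    · subst e'; rw [swap_comm i j]; exact h1 i hij
    have : swap b c * swap i j =
        swap b c * swap b i * (swap b c * swap b j)⁻¹ * (swap b c * swap b i) := by
      have := swap_mul_swap_mul_swap (x := j) (y := b) (z := i) e' (Ne.symm hij)
      rw [swap_comm j b] at this
      rw [← this]; simp [mul_assoc]
    rw [this]
    exact P.mul_mem (P.mul_mem (h1 i e) (P.inv_mem (h1 j e'))) (h1 i e)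
  refine gen2 P (fun _ => True) (fun x y u v _ _ _ _ h3 h4 => ?_) σ (fun _ _ => trivial) hs
  have : swap x y * swap u v = (swap b c * swap x y)⁻¹ * (swap b c * swap u v) := by
    simp [mul_assoc]
  rw [this]
  exact P.mul_mem (P.inv_mem (h2 x y h3)) (h2 u v h4)

omit [DecidableEq α] in
lemma exists_notMem (s : Finset α) (h : s.card < Fintype.card α) : ∃ x, x ∉ s := by
  by_contra hc; push Not at hc
  rw [Finset.eq_univ_of_forall hc, Finset.card_univ] at h
  exact lt_irrefl _ h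

lemma exists_notMem_list (l : List α) (h : l.length < Fintype.card α) : ∃ x, x ∉ l := by
  obtain ⟨x, hx⟩ := exists_notMem l.toFinset (lt_of_le_of_lt (List.toFinset_card_le l) h)
  exact ⟨x, by simpa using hx⟩

/-- odd-order real cycles -/
def Nc (σ : Perm α) : Prop :=
  σ.IsCycle ∧ (∃ o, Odd o ∧ σ ^ o = 1) ∧ ∃ s : Perm α, sign s = 1 ∧ s * σ * s⁻¹ = σ⁻¹

lemma sign_of_odd {σ : Perm α} {o : ℕ} (ho : Odd o) (h : σ ^ o = 1) : sign σ = 1 := by
  have := congrArg sign h
  rw [map_pow, map_one] at this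
  rcases Int.units_eq_one_or (sign σ) with e | e
  · exact e
  · rw [e, ho.neg_one_pow] at this; exact absurd this (by decide)

lemma nc_cy (h5 : 5 ≤ Fintype.card α) {a b c : α} (h : D3 a b c) : Nc (cy a b c) := by
  obtain ⟨d, hd⟩ := exists_notMem_list [a, b, c] (by simp; omega)
  obtain ⟨e, he⟩ := exists_notMem_list [a, b, c, d] (by simp; omega)
  simp only [List.mem_cons, List.not_mem_nil, or_false, not_or] at hd he
  refine ⟨cy_isCycle h, ⟨3, by decide, cy_pow h⟩, swap b c * swap d e,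
    by simp [sign_swap h.2.2, sign_swap (Ne.symm he.2.2.2)], ?_⟩
  rw [cy_conj, cy_inv]
  unfold D3 at h
  congr 1 <;> simp only [Perm.mul_apply, swap_apply_def] <;> grind

section emb
variable {β : Type*} [DecidableEq β] [Fintype β] (ι : β ↪ α)

lemma sign_emb (σ : Perm β) : sign (viaEmbeddingHom ι σ) = sign σ := by
  exact @sign_extendDomain _ _ _ _ _ _ σ _ (fun _ => Classical.propDecidable _)
    (ofInjective ι.1 ι.2)

omit [Fintype α] [Fintype β] [DecidableEq α] [DecidableEq β] in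
lemma emb_apply (σ : Perm β) (x : β) : viaEmbeddingHom ι σ (ι x) = ι (σ x) :=
  viaEmbedding_apply σ ι x

omit [Fintype α] [Fintype β] [DecidableEq α] [DecidableEq β] in
lemma emb_out (σ : Perm β) {x : α} (hx : x ∉ Set.range ι) : viaEmbeddingHom ι σ x = x :=
  viaEmbedding_apply_of_notMem σ ι x hx

omit [Fintype α] [Fintype β] in
lemma emb_swap (a b : β) : viaEmbeddingHom ι (swap a b) = swap (ι a) (ι b) := by
  ext x
  by_cases hx : x ∈ Set.range ι
  · obtain ⟨y, rfl⟩ := hx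
    rw [emb_apply, ι.injective.swap_apply]
  · rw [emb_out ι _ hx, swap_apply_of_ne_of_ne] <;> rintro rfl <;> exact hx ⟨_, rfl⟩

omit [Fintype α] [Fintype β] in
lemma emb_cy (a b c : β) : viaEmbeddingHom ι (cy a b c) = cy (ι a) (ι b) (ι c) := by
  simp [cy, emb_swap]

lemma Nc.emb {σ : Perm β} (h : Nc σ) : Nc (viaEmbeddingHom ι σ) := by
  obtain ⟨h1, ⟨o, ho, h2⟩, s, h3, h4⟩ := h
  refine ⟨@IsCycle.extendDomain _ _ _ _ (fun _ => Classical.propDecidable _)
    (ofInjective ι.1 ι.2) h1, ⟨o, ho, by rw [← map_pow, h2, map_one]⟩,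
    viaEmbeddingHom ι s, by rw [sign_emb, h3], ?_⟩
  rw [← map_inv, ← map_mul, ← map_mul, h4, map_inv]

end emb

lemma exists_emb {m n : ℕ} (hm : m ≤ n) (hn : n ≤ Fintype.card α) (f : Fin m ↪ α) :
    ∃ ι : Fin n ↪ α, ∀ i, ι (i.castLE hm) = f i := by
  induction n, hm using Nat.le_induction with
  | base => exact ⟨f, fun _ => rfl⟩
  | succ n hmn ih =>
    obtain ⟨ι, hι⟩ := ih (by omega)
    obtain ⟨x, hx⟩ := exists_notMem (Finset.univ.map ι) (by simp; omega)
    refine ⟨⟨Fin.snoc (α := fun _ => α) ι x, ?_⟩, fun i => ?_⟩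
    · rw [Fin.snoc_injective_iff]
      exact ⟨ι.injective, fun ⟨i, hi⟩ => hx (by simp; exact ⟨i, hi⟩)⟩
    · rw [← hι i]
      exact Fin.snoc_castSucc (α := fun _ => α) x ι (i.castLE hmn)

end perm

variable {α : Type*} [DecidableEq α] [Fintype α] {H : Type*} [Group H]

/-- a central extension of the alternating group -/
structure CE (φ : H →* Perm α) : Prop where
  sgn : ∀ h, sign (φ h) = 1
  sur : ∀ σ, sign σ = 1 → ∃ h, φ h = σ
  cen : ∀ h, φ h = 1 → ∀ g, g * h = h * g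

/-- real elements of odd order -/
def Can (x : H) : Prop := (∃ o, Odd o ∧ x ^ o = 1) ∧ ∃ s, s * x * s⁻¹ = x⁻¹

variable {φ : H →* Perm α} (hφ : CE φ)
include hφ

lemma CE.comm_of_eq {x x' y : H} (h : φ x = φ x') (h2 : x' * y = y * x') : x * y = y * x := by
  have := hφ.cen (x * x'⁻¹) (by simp [h]) y
  calc x * y = x * x'⁻¹ * (x' * y) := by group
    _ = x * x'⁻¹ * y * x' := by rw [h2]; group
    _ = y * x := by rw [← this]; group

lemma CE.comm_of_comm {a b x y : H} (ha : Commute (φ a) (φ y)) (hb : Commute (φ b) (φ y))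
    (hx : φ x = φ a * φ b * (φ a)⁻¹ * (φ b)⁻¹) : x * y = y * x := by
  refine hφ.comm_of_eq (x' := a * b * a⁻¹ * b⁻¹) (by simp [hx]) ?_
  have h1 := hφ.cen (y⁻¹ * a⁻¹ * y * a) (by simp [mul_assoc, ← ha.eq])
  have h2 := hφ.cen (y⁻¹ * b⁻¹ * y * b) (by simp [mul_assoc, ← hb.eq])
  set c := y⁻¹ * a⁻¹ * y * a
  set d := y⁻¹ * b⁻¹ * y * b
  have e1 : y * a = a * y * c := by simp [c, mul_assoc]
  have e2 : y * b = b * y * d := by simp [d, mul_assoc]
  have : y * (a * b) = a * b * y * (d * c) := by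
    rw [← mul_assoc, e1, mul_assoc _ c, ← h1 b, ← mul_assoc, mul_assoc a, e2]; group
  have this2 : y * (b * a) = b * a * y * (d * c) := by
    rw [← mul_assoc, e2, mul_assoc _ d, ← h2 a, ← mul_assoc, mul_assoc b, e1, ← h2 c]; group
  calc a * b * a⁻¹ * b⁻¹ * y = a * b * (b * a)⁻¹ * y := by group
    _ = a * b * y * (d * c) * (b * a)⁻¹ := by
      have : y = (b * a) * y * (d * c) * (b * a)⁻¹ := by rw [← this2]; group
      conv_lhs => rw [this]
      group
    _ = y * (a * b * a⁻¹ * b⁻¹) := by rw [← this]; group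

lemma CE.disj (h8 : 8 ≤ Fintype.card α) {x y : H} (h : (φ x).Disjoint (φ y)) : x * y = y * x := by
  have s1 : ∀ a b c d e f x y, D3 a b c → D3 d e f → φ x = cy a b c → φ y = cy d e f →
      (∀ z, z = a ∨ z = b ∨ z = c → cy d e f z = z) → x * y = y * x := by
    intro a b c d e f x y h1 h2 hx hy hd
    obtain ⟨g, hg⟩ := exists_notMem_list [a, b, c, d, e, f] (by simp; omega)
    obtain ⟨i, hi⟩ := exists_notMem_list [a, b, c, d, e, f, g] (by simp; omega)
    simp only [List.mem_cons, List.not_mem_nil, or_false, not_or] at hg hi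
    obtain ⟨s, hs⟩ := hφ.sur (swap b c * swap g i)
      (by simp [sign_swap h1.2.2, sign_swap (Ne.symm hi.2.2.2.2.2.2)])
    have ha := hd a (by simp); have hb := hd b (by simp); have hc := hd c (by simp)
    rw [cy_apply h2] at ha hb hc
    have e1 : φ s * cy a b c * (φ s)⁻¹ = cy a c b := by
      rw [cy_conj, hs]; unfold D3 at h1
      congr 1 <;> simp only [Perm.mul_apply, swap_apply_def] <;> grind
    refine hφ.comm_of_comm (a := s) (b := x) ?_ ?_ ?_
    · rw [Commute, SemiconjBy, ← mul_inv_eq_iff_eq_mul, hy, cy_conj, hs]; unfold D3 at h1 h2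
      congr 1 <;> simp only [Perm.mul_apply, swap_apply_def] <;> grind
    · rw [Commute, SemiconjBy, ← mul_inv_eq_iff_eq_mul, hy, cy_conj, hx]; unfold D3 at h2
      congr 1 <;> apply cy_ne <;> unfold D3 at h1 <;> grind
    · rw [hx, e1, cy_inv, cy_sq ⟨h1.2.1, h1.1, h1.2.2.symm⟩]
  have s2 : ∀ (q : Perm α) (y : H), (∀ a b c x, q a = a → q b = b → q c = c → D3 a b c →
      φ x = cy a b c → x * y = y * x) → ∀ x, (φ x).Disjoint q → x * y = y * x := by
    intro q y hy x hx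
    obtain ⟨x', h1, h2⟩ := gen3 ((Subgroup.centralizer {y}).map φ) (fun z => q z = z)
      (fun a b c ha hb hc h => by
        obtain ⟨x, hx⟩ := hφ.sur _ (sign_cy h)
        exact ⟨x, Subgroup.mem_centralizer_singleton_iff.mpr (hy a b c x ha hb hc h hx), hx⟩)
      (φ x) (fun z hz => (hx z).resolve_left hz) (hφ.sgn x)
    exact hφ.comm_of_eq h2.symm (Subgroup.mem_centralizer_singleton_iff.mp h1)
  refine s2 (φ y) y (fun a b c x ha hb hc h1 hx => ?_) x h
  refine (s2 (cy a b c) x (fun d e f y hd he hf h2 hy => s1 d e f a b c y x h2 h1 hy hx ?_) y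
    fun z => ?_).symm
  · rintro z (rfl | rfl | rfl) <;> assumption
  · by_cases e1 : z = a; · left; rw [e1, ha]
    by_cases e2 : z = b; · left; rw [e2, hb]
    by_cases e3 : z = c; · left; rw [e3, hc]
    right; exact cy_ne _ _ _ e1 e2 e3

lemma CE.good (h8 : 8 ≤ Fintype.card α) {x h : H} (hx : (φ x).IsCycle)
    (hc : Commute (φ h) (φ x)) : h * x = x * h := by
  obtain ⟨a, ha, hs⟩ := hx
  obtain ⟨k, hk⟩ := hs (y := φ h a) fun e => ha ((φ h).injective (by
    rw [← Perm.mul_apply, hc.eq, Perm.mul_apply, e]))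
  have : (h * (x ^ k)⁻¹) * x = x * (h * (x ^ k)⁻¹) := by
    refine hφ.disj h8 fun z => ?_
    by_cases hz : φ x z = z
    · exact Or.inr hz
    left
    obtain ⟨j, rfl⟩ := hs hz
    have e1 : (φ x ^ k)⁻¹ * φ x ^ j = φ x ^ j * (φ x ^ k)⁻¹ := by group
    rw [map_mul, map_inv, map_zpow, Perm.mul_apply, ← Perm.mul_apply (φ x ^ k)⁻¹, e1,
      ← Perm.mul_apply, ← mul_assoc, (hc.zpow_right j).eq, mul_assoc, Perm.mul_apply]
    congr 1
    have e2 : φ h * (φ x ^ k)⁻¹ = (φ x ^ k)⁻¹ * φ h := (hc.zpow_right k).inv_right.eq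
    rw [e2, Perm.mul_apply, ← hk]; simp
  calc h * x = h * (x ^ k)⁻¹ * x * x ^ k := by group
    _ = x * h := by rw [this]; group

lemma CE.uniq (h8 : 8 ≤ Fintype.card α) {x y : H} (hx : (φ x).IsCycle) (h : φ y = φ x)
    (h1 : Can x) (h2 : Can y) : y = x := by
  obtain ⟨⟨o, ho, e1⟩, s, hs⟩ := h1
  obtain ⟨⟨o', ho', e2⟩, t, ht⟩ := h2
  have hz := hφ.cen (y * x⁻¹) (by simp [h])
  set e := y * x⁻¹ with he
  have hy : y = e * x := by simp [he]
  have h3 : (s⁻¹ * t) * x = x * (s⁻¹ * t) := by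
    refine hφ.good h8 hx ?_
    have a1 := congrArg φ hs; have a2 := congrArg φ ht
    simp only [map_mul, map_inv, h] at a1 a2 ⊢
    rw [Commute, SemiconjBy]
    calc (φ s)⁻¹ * φ t * φ x = (φ s)⁻¹ * (φ t * φ x * (φ t)⁻¹) * φ t := by group
      _ = φ x * ((φ s)⁻¹ * φ t) := by rw [a2, ← a1]; group
  have h4 : t * x * t⁻¹ = x⁻¹ := by
    calc t * x * t⁻¹ = s * (s⁻¹ * t * x) * t⁻¹ := by group
      _ = x⁻¹ := by rw [h3, ← hs]; group
  have h5 : e ^ 2 = 1 := by
    have : e * x⁻¹ = x⁻¹ * e⁻¹ := by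
      rw [← mul_inv_rev, ← hy, ← ht, ← h4, hy, ← mul_assoc t e x, hz t]; group
    rw [← hz] at this
    rw [pow_two, mul_eq_one_iff_eq_inv]; exact mul_left_cancel this
  have h6 : e ^ (o * o') = 1 := by
    have c : Commute e x := (hz x).symm
    have : y ^ (o * o') = e ^ (o * o') * x ^ (o * o') := by rw [hy, c.mul_pow]
    rw [pow_mul x, e1, mul_comm o, pow_mul, e2, one_pow, one_pow, mul_one, mul_comm o'] at this
    exact this.symm
  obtain ⟨m, hm⟩ := ho.mul ho'
  rw [hm, pow_succ, pow_mul, h5, one_pow, one_mul] at h6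
  rw [hy, h6, one_mul]

lemma CE.exists_can {σ : Perm α} (h : Nc σ) : ∃ x, φ x = σ ∧ Can x := by
  obtain ⟨-, ⟨o, ⟨m, hm⟩, h1⟩, s', h2, h3⟩ := h
  obtain ⟨x, rfl⟩ := hφ.sur σ (sign_of_odd ⟨m, hm⟩ h1)
  obtain ⟨s, rfl⟩ := hφ.sur s' h2
  have hc := hφ.cen (s * x * s⁻¹ * x) (by simp [h3])
  have hd := hφ.cen (x ^ o) (by simp [h1])
  set c := s * x * s⁻¹ * x with hcd
  set d := x ^ o with hdd
  have e1 : s * x * s⁻¹ = c * x⁻¹ := by simp [hcd]
  have cx : Commute c x := (hc x).symm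
  have cd : Commute c d := (hc d).symm
  have dx : Commute d x := (hd x).symm
  have e2 : d ^ 2 = c ^ o := by
    have : (s * x * s⁻¹) ^ o = d := by rw [conj_pow, ← hdd, hd s]; group
    rw [e1, cx.inv_right.mul_pow, inv_pow, ← hdd] at this
    rw [pow_two]; nth_rewrite 1 [← this]; group
  have ce : Commute (d⁻¹ * c ^ m) x := dx.inv_left.mul_left (cx.pow_left m)
  refine ⟨d⁻¹ * c ^ m * x, by simp [hdd, h1, hcd, h3], ⟨o, ⟨m, hm⟩, ?_⟩, s, ?_⟩
  · rw [ce.mul_pow, (cd.symm.inv_left.pow_right m).mul_pow, ← pow_mul, mul_comm m, pow_mul, ← e2,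
      ← hdd, hm]; group
  · have h4 : s * (d⁻¹ * c ^ m) = (d⁻¹ * c ^ m) * s :=
      ((Commute.inv_right (hd s)).mul_right (Commute.pow_right (hc s) m)).eq
    rw [← mul_assoc s, h4, mul_assoc _ s, mul_assoc _ (s * x), e1, mul_inv_rev,
      ← ce.inv_inv.eq, ← mul_assoc]
    congr 1
    rw [eq_inv_iff_mul_eq_one]
    calc d⁻¹ * c ^ m * c * (d⁻¹ * c ^ m) = d⁻¹ * (c ^ (m + 1) * d⁻¹) * c ^ m := by group
      _ = (d ^ 2)⁻¹ * c ^ o := by rw [(cd.inv_right.pow_left (m + 1)).eq, hm]; group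
      _ = 1 := by rw [e2]; group

omit hφ in
open Classical in
/-- the canonical lift -/
noncomputable def tau (φ : H →* Perm α) (σ : Perm α) : H :=
  if h : ∃ x, φ x = σ ∧ Can x then h.choose else 1

lemma CE.tau_spec {σ : Perm α} (h : Nc σ) : φ (tau φ σ) = σ ∧ Can (tau φ σ) := by
  rw [tau, dif_pos (hφ.exists_can h)]; exact (hφ.exists_can h).choose_spec

lemma CE.tau_eq (h8 : 8 ≤ Fintype.card α) {σ : Perm α} (h : σ.IsCycle) {x : H} (h1 : φ x = σ)
    (h2 : Can x) : tau φ σ = x := by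
  have e : ∃ x, φ x = σ ∧ Can x := ⟨x, h1, h2⟩
  rw [tau, dif_pos e]
  exact hφ.uniq h8 (h1 ▸ h) (e.choose_spec.1.trans h1.symm) h2 e.choose_spec.2

omit hφ in
lemma Can.conj {x : H} (h : Can x) (g : H) : Can (g * x * g⁻¹) := by
  obtain ⟨⟨o, ho, h1⟩, s, hs⟩ := h
  refine ⟨⟨o, ho, by rw [conj_pow, h1]; group⟩, g * s * g⁻¹, ?_⟩
  calc _ = g * (s * x * s⁻¹) * g⁻¹ := by group
    _ = _ := by rw [hs]; group

omit hφ in
lemma Can.pow {x : H} (h : Can x) (n : ℕ) : Can (x ^ n) := by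
  obtain ⟨⟨o, ho, h1⟩, s, hs⟩ := h
  exact ⟨⟨o, ho, by rw [← pow_mul, mul_comm, pow_mul, h1, one_pow]⟩, s, by
    rw [← conj_pow, hs, inv_pow]⟩

/-- the basic transport rule for canonical lifts -/
lemma CE.tau_conj (h8 : 8 ≤ Fintype.card α) {σ σ' : Perm α} (h : Nc σ) (h' : Nc σ') {g : H}
    {n : ℕ} (e : φ g * σ * (φ g)⁻¹ = σ' ^ n) : g * tau φ σ * g⁻¹ = tau φ σ' ^ n := by
  refine (hφ.uniq h8 ?_ ?_ ((hφ.tau_spec h).2.conj g) ((hφ.tau_spec h').2.pow n)).symm
  · simp only [map_mul, map_inv, (hφ.tau_spec h).1]; exact h.1.conj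
  · simp only [map_mul, map_inv, map_pow, (hφ.tau_spec h).1, (hφ.tau_spec h').1, e]

lemma CE.tau_pow {σ : Perm α} (h : Nc σ) {o : ℕ} (ho : Odd o) (e : σ ^ o = 1) :
    tau φ σ ^ o = 1 := by
  obtain ⟨h1, ⟨o', ⟨m, hm⟩, h2⟩, s, hs⟩ := hφ.tau_spec h
  have hc := hφ.cen (tau φ σ ^ o) (by rw [map_pow, h1, e])
  have h3 : (tau φ σ ^ o) ^ 2 = 1 := by
    have : s * tau φ σ ^ o * s⁻¹ = (tau φ σ ^ o)⁻¹ := by rw [← conj_pow, hs, inv_pow]
    rw [hc s, mul_inv_cancel_right] at this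
    rw [pow_two, mul_eq_one_iff_eq_inv, ← this]
  have h4 : (tau φ σ ^ o) ^ o' = 1 := by rw [← pow_mul, mul_comm, pow_mul, h2, one_pow]
  rwa [hm, pow_succ, pow_mul, h3, one_pow, one_mul] at h4

omit hφ in
/-- canonical lift of a three-cycle -/
noncomputable def t3 (φ : H →* Perm α) (a b c : α) : H := tau φ (cy a b c)

section t3
variable (h8 : 8 ≤ Fintype.card α) {a b c : α} (h : D3 a b c)
include h8 h

lemma CE.t3_map : φ (t3 φ a b c) = cy a b c := (hφ.tau_spec (nc_cy (by omega) h)).1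

lemma CE.t3_pow : t3 φ a b c ^ 3 = 1 := hφ.tau_pow (nc_cy (by omega) h) (by decide) (cy_pow h)

lemma CE.t3_conj (g : H) : g * t3 φ a b c * g⁻¹ = t3 φ (φ g a) (φ g b) (φ g c) := by
  have := hφ.tau_conj h8 (nc_cy (by omega) h) (nc_cy (a := φ g a) (b := φ g b) (c := φ g c)
    (by omega) ⟨by simp [h.1], by simp [h.2.1], by simp [h.2.2]⟩) (g := g) (n := 1)
    (by rw [cy_conj, pow_one])
  rwa [pow_one] at this

lemma CE.t3_sq : t3 φ a c b = t3 φ a b c ^ 2 := by
  have := hφ.tau_conj h8 (nc_cy (by omega) ⟨h.2.1, h.1, h.2.2.symm⟩) (nc_cy (by omega) h) (g := 1)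
    (n := 2) (by rw [pow_two, cy_sq h]; simp)
  simpa [t3] using this

lemma CE.t3_inv : t3 φ a c b = (t3 φ a b c)⁻¹ := by
  rw [hφ.t3_sq h8 h, eq_inv_iff_mul_eq_one, ← pow_succ, hφ.t3_pow h8 h]

omit hφ h8 in
lemma t3_rot : t3 φ b c a = t3 φ a b c := by rw [t3, cy_rot h, t3]

lemma CE.t3_comm {g : H} (ha : φ g a = a) (hb : φ g b = b) (hc : φ g c = c) :
    g * t3 φ a b c = t3 φ a b c * g := by
  have := hφ.t3_conj h8 h g
  rw [ha, hb, hc] at this
  rw [← mul_inv_eq_iff_eq_mul, this]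

end t3

end Cfsg.Agent.H6A
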