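import Cfsg.Agent.H6.AS9
import Mathlib.LinearAlgebra.Eigenspace.Pi
import Mathlib.LinearAlgebra.Eigenspace.Semisimple
import Mathlib.LinearAlgebra.Dual.Lemmas

/-!
Covers of the alternating group of degree 12 preserving a trilinear form in dimension 27:
the monomial case.
-/

set_option autoImplicit false

namespace Cfsg.Agent.H6A

open Equiv Equiv.Perm Module Subgroup

section lin
variable {k V : Type*} [Field k] [AddCommGroup V] [Module k V] [FiniteDimensional k V]

lemma exists_eigbasis [IsAlgClosed k] {I : Type*} (x : I → End k V) (hc : ∀ i j, Commute (x i) (x j))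
    (hx : ∀ i, ∃ m : ℕ, (m : k) ≠ 0 ∧ x i ^ m = 1) : ∃ s : Finset V, Submodule.span k (s : Set V) = ⊤ ∧
      LinearIndepOn k id (s : Set V) ∧ ∀ v ∈ s, ∀ i, ∃ c : k, x i v = c • v := by
  obtain ⟨b, h1, h2, h3⟩ := exists_linearIndependent k {v : V | ∀ i, ∃ c : k, x i v = c • v}
  lift b to Finset V using h3.set_finite_of_isNoetherian
  refine ⟨b, ?_, h3, h1⟩
  rw [h2, eq_top_iff,
    ← End.iSup_iInf_maxGenEigenspace_eq_top_of_iSup_maxGenEigenspace_eq_top_of_commute x
      (fun i j _ => hc i j) fun i => End.iSup_maxGenEigenspace_eq_top _]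
  refine iSup_le fun χ v hv => Submodule.subset_span fun i => ⟨χ i, ?_⟩
  obtain ⟨m, h4, h5⟩ := hx i
  have := (Submodule.mem_iInf _).mp hv i
  rwa [(End.isSemisimple_of_squarefree_aeval_eq_zero
    (Polynomial.X_pow_sub_one_separable_iff.mpr h4).squarefree
      (by simp [h5])).isFinitelySemisimple.maxGenEigenspace_eq_eigenspace,
    End.mem_eigenspace_iff] at this

lemma rk44 (β : V →ₗ[k] V →ₗ[k] k) (h27 : finrank k V = 27) (h : finrank k (LinearMap.ker β) ≤ 17)
    (U W : Submodule k V) (h0 : ∀ u ∈ U, ∀ w ∈ W, β u w = 0) : finrank k U + finrank k W ≤ 44 := by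
  have h1 := (β ∘ₗ U.subtype).finrank_range_add_finrank_ker
  have h2 := Subspace.finrank_add_finrank_dualAnnihilator_eq W
  have h3 := Submodule.finrank_mono (show LinearMap.range (β ∘ₗ U.subtype) ≤ W.dualAnnihilator by
    rintro _ ⟨u, rfl⟩; exact (Submodule.mem_dualAnnihilator _).mpr (h0 u u.2))
  have h4 := Submodule.finrank_mono (show (LinearMap.ker (β ∘ₗ U.subtype)).map U.subtype ≤
    LinearMap.ker β by rintro _ ⟨u, hu, rfl⟩; exact hu)
  rw [Submodule.finrank_map_subtype_eq] at h4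
  have h5 := h1.symm.trans_le (add_le_add h3 (h4.trans h))
  have h6 := (add_le_add h5 (le_refl (finrank k W))).trans_eq (by rw [add_right_comm, add_comm _ (finrank k W), h2])
  omega

end lin

section
variable {α : Type*} [DecidableEq α] [Fintype α] {H : Type*} [Group H] {φ : H →* Perm α}
  (sur : ∀ σ, sign σ = 1 → ∃ h, φ h = σ) (sgn : ∀ h, sign (φ h) = 1) (h4 : 4 ≤ Fintype.card α)
include sur sgn h4

lemma top2 {S : Subgroup H} {i j : α} (hij : i ≠ j) (hi : ∀ g, φ g i = i → g ∈ S)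
    (hj : ∀ g, φ g j = j → g ∈ S) : S = ⊤ := by
  obtain ⟨b, hb⟩ := exists_notMem_list [i, j] (by simp; omega)
  obtain ⟨c, hc⟩ := exists_notMem_list [i, j, b] (by simp; omega)
  simp only [List.mem_cons, List.not_mem_nil, or_false, not_or] at hb hc
  refine top_le_iff.mp fun g _ => ?_
  obtain ⟨x, hx, e⟩ := genC (S.map φ) (Ne.symm hc.2.2) (fun x h1 h2 => by
    obtain ⟨y, hy⟩ := sur _ (sign_cy (a := b) (b := x) (c := c) ⟨h1.symm, Ne.symm hc.2.2, h2⟩)
    refine ⟨y, ?_, hy⟩
    by_cases e : i = x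
    · exact hj y (hy ▸ cy_ne _ _ _ (Ne.symm hb.2) (e ▸ hij.symm) (Ne.symm hc.2.1))
    · exact hi y (hy ▸ cy_ne _ _ _ (Ne.symm hb.1) e (Ne.symm hc.1))) _ (sgn g)
  simpa using mul_mem hx (hi (x⁻¹ * g) (by simp [e]))

lemma top1 {S : Subgroup H} {i : α} (hi : ∀ g, φ g i = i → g ∈ S) {x : H} (hx : x ∈ S)
    (h : φ x i ≠ i) : S = ⊤ :=
  top2 sur sgn h4 h (fun g hg => by
    simpa [mul_assoc] using mul_mem (mul_mem hx (hi (x⁻¹ * g * x) (by simp [hg]))) (inv_mem hx)) hi

end

/-- the stabilizer of a weight -/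
def St {H k : Type*} [Group H] (N : Subgroup H) [N.Normal] (χ : N → k) : Subgroup H where
  carrier := {g | ∀ n : N, χ (MulAut.conjNormal g⁻¹ n) = χ n}
  mul_mem' := fun {a b} ha hb n => by rw [mul_inv_rev, map_mul, MulAut.mul_apply, hb, ha]
  one_mem' := fun n => by simp
  inv_mem' := fun {a} ha n => by rw [← ha, ← MulAut.mul_apply, ← map_mul]; simp

variable {α : Type} [DecidableEq α] [Fintype α] {H : Type} [Group H] [Finite H]
  {φ : H →* Perm α} {k V : Type} [Field k] [IsAlgClosed k] [AddCommGroup V] [Module k V]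
  [FiniteDimensional k V] (ρ : H →* End k V)

/-- the data of an invariant trilinear form of large rank -/
structure Cub (B : V →ₗ[k] V →ₗ[k] V →ₗ[k] k) : Prop where
  inv : ∀ g r u w, B (ρ g r) (ρ g u) (ρ g w) = B r u w
  rk : ∀ r, r ≠ 0 → finrank k (LinearMap.ker (B r)) ≤ 17
  dim : finrank k V = 27
  inj : Function.Injective ρ

theorem mono_case {B : V →ₗ[k] V →ₗ[k] V →ₗ[k] k} (hB : Cub ρ B)
    (sur : ∀ σ, sign σ = 1 → ∃ h, φ h = σ) (sgn : ∀ h, sign (φ h) = 1)
    (h12 : Fintype.card α = 12) (h30 : (30 : k) ≠ 0) (N : Subgroup H) [N.Normal] (h1 : N ≤ φ.ker)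
    (h2 : ∀ x ∈ N, ∀ y ∈ φ.ker, y * x = x * y) (h3 : ∀ x ∈ N, ∃ m : ℕ, (m : k) ≠ 0 ∧ x ^ m = 1) :
    N ≤ center H := by
  classical
  have h4 : 4 ≤ Fintype.card α := by omega
  obtain ⟨s, s1, s2, s3⟩ := exists_eigbasis (fun n : N => ρ n)
    (fun a b => Commute.map (h2 b b.2 a (h1 a.2)) ρ)
    fun n => (h3 n n.2).imp fun m h => ⟨h.1, by rw [← map_pow, h.2, map_one]⟩
  choose! χ hχ using s3
  have s0 : ∀ v ∈ s, v ≠ 0 := fun v hv => s2.ne_zero hv
  have k1 : ∀ v ∈ s, ∀ g (n : N), ρ n (ρ g v) = χ v (MulAut.conjNormal g⁻¹ n) • ρ g v :=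
    fun v hv g n => by rw [← map_smul, ← hχ v hv, ← rho_mul, ← rho_mul]; simp [mul_assoc]
  have k2 : ∀ v ∈ s, ∃ i, ∀ g, φ g i = i → g ∈ St N (χ v) := fun v hv => by
    obtain ⟨S, a1, a2⟩ := index_le ρ (s0 v hv) (χ v) (hχ v hv)
    refine small_index k sgn sur h12 h30 _ (fun y hy n => ?_) ((index_antitone (H := S)
      (show S ≤ St N (χ v) from fun g hg n => ?_)).trans (hB.dim ▸ a1))
    · congr 1; ext; simp [h2 n n.2 _ (inv_mem hy)]
    · exact smul_left_injective k (fun e => s0 v hv (rho_inj ρ g e))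
        ((k1 v hv g n).symm.trans (a2 g hg n))
  by_contra hN
  obtain ⟨v, hv, v1⟩ : ∃ v ∈ s, St N (χ v) ≠ ⊤ := by
    by_contra h
    push Not at h
    refine hN fun x hx => mem_center_iff.mpr fun g => hB.inj (LinearMap.ext_on s1 fun v hv => ?_)
    rw [rho_mul, rho_mul, k1 v hv g ⟨x, hx⟩, hχ v hv ⟨x, hx⟩, map_smul, (h v hv).ge (mem_top g)]
  obtain ⟨i, v2⟩ := k2 v hv
  let I : α → Finset V := fun j => s.filter fun u => St N (χ u) ≠ ⊤ ∧ ∀ g, φ g j = j → g ∈ St N (χ u)
  have k3 : ∀ j, ∀ u ∈ s \ I j, ∃ a, a ≠ j ∧ ∀ g, φ g a = a → g ∈ St N (χ u) := fun j u hu => by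
    simp only [I, Finset.mem_sdiff, Finset.mem_filter, not_and] at hu
    by_cases h : St N (χ u) = ⊤
    · obtain ⟨a, ha⟩ := exists_notMem_list [j] (by simp; omega)
      exact ⟨a, by simpa using ha, fun g _ => h ▸ mem_top g⟩
    obtain ⟨a, ha⟩ := k2 u hu.1
    exact ⟨a, fun e => hu.2 hu.1 h (e ▸ ha), ha⟩
  have k4 : ∀ j, 5 ≤ (I j).card := fun j => by
    obtain ⟨g, hg⟩ : ∃ g, φ g i = j := by
      by_cases e : i = j
      · exact ⟨1, by simp [e]⟩
      obtain ⟨c, hc⟩ := exists_notMem_list [i, j] (by simp; omega)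
      have : D3 i j c := ⟨e, by grind, by grind⟩
      exact (sur _ (sign_cy this)).imp fun g hg => by rw [hg, cy_a this]
    have r0 : ρ g v ≠ 0 := fun e => s0 v hv (rho_inj ρ g e)
    have := rk44 _ hB.dim (hB.rk _ r0) (Submodule.span k (s \ I j : Finset V))
      (Submodule.span k (s \ I j : Finset V)) fun u hu => (Submodule.span_le (p := LinearMap.ker _)).mpr
        fun w hw => (Submodule.span_le (p := LinearMap.ker ((B (ρ g v)).flip w))).mpr
          (fun u hu => ?_) hu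
    · rw [finrank_span_finset_eq_card (s2.mono (by simp)), Finset.card_sdiff_of_subset
        (show I j ⊆ s from Finset.filter_subset _ _), ← finrank_span_finset_eq_card s2, s1, finrank_top, hB.dim] at this
      omega
    by_contra h
    obtain ⟨a, a1, a2⟩ := k3 j u hu
    obtain ⟨b, b1, b2⟩ := k3 j w hw
    obtain ⟨c, hc⟩ := exists_notMem_list [j, a, b] (by simp; omega)
    obtain ⟨d, hd⟩ := exists_notMem_list [j, a, b, c] (by simp; omega)
    simp only [List.mem_cons, List.not_mem_nil, or_false, not_or] at hc hd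
    have h5 : D3 j c d := ⟨by grind, by grind, by grind⟩
    obtain ⟨x, hx⟩ := sur _ (sign_cy h5)
    have h6 : ∀ n : N, χ v (MulAut.conjNormal g⁻¹ n) * (χ u n * χ w n) = 1 := fun n => by
      have := hB.inv n (ρ g v) u w
      rw [k1 v hv, hχ u (Finset.mem_sdiff.mp hu).1, hχ w (Finset.mem_sdiff.mp hw).1] at this
      simp only [map_smul, LinearMap.smul_apply, smul_eq_mul] at this
      exact mul_right_cancel₀ (show B (ρ g v) u w ≠ 0 from h) (by linear_combination this)
    refine v1 (top1 sur sgn h4 v2 (x := g⁻¹ * x * g) (fun n => ?_) ?_)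
    · have e1 := h6 (MulAut.conjNormal g n)
      have e2 := h6 (MulAut.conjNormal x⁻¹ (MulAut.conjNormal g n))
      rw [a2 x (hx ▸ cy_ne _ _ _ a1 (by grind) (by grind)),
        b2 x (hx ▸ cy_ne _ _ _ b1 (by grind) (by grind))] at e2
      simp only [← MulAut.mul_apply, ← map_mul, inv_mul_cancel, map_one, MulAut.one_apply] at e1 e2
      rw [mul_inv_rev, mul_inv_rev, inv_inv, ← mul_assoc, mul_assoc]
      exact mul_right_cancel₀ (right_ne_zero_of_mul_eq_one e1) (e2.trans e1.symm)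
    · simp only [map_mul, map_inv, Perm.mul_apply, hg, hx, cy_a h5, Ne, Perm.inv_eq_iff_eq]
      exact hc.1
  have k5 := Finset.card_biUnion (s := Finset.univ) (t := I) fun a _ b _ hab =>
    Finset.disjoint_left.mpr fun u ha hb => by
      simp only [I, Finset.mem_filter] at ha hb
      exact ha.2.1 (top2 sur sgn h4 hab ha.2.2 hb.2.2)
  have k6 := Finset.card_le_card (Finset.biUnion_subset (s := Finset.univ) (t := I).mpr
    fun a _ => Finset.filter_subset _ s)
  have k7 := Finset.sum_le_sum (s := Finset.univ) fun j _ => k4 j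
  rw [← finrank_span_finset_eq_card s2, s1, finrank_top, hB.dim] at k6
  rw [Finset.sum_const, Finset.card_univ, h12, smul_eq_mul] at k7
  omega

end Cfsg.Agent.H6A
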