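import Cfsg.Agent.H6.AS10

/-!
The alternating group of degree 12 is not a section of a group preserving a trilinear form of large
rank in dimension 27 when the characteristic is at least 7.
-/

set_option autoImplicit false

namespace Cfsg.Agent.H6A

open Equiv Equiv.Perm Module Subgroup

section gen
variable {α : Type*} [DecidableEq α] [Fintype α] {H : Type*} [Group H] {φ : H →* Perm α}
  {k V : Type*} [Field k] [AddCommGroup V] [Module k V] [FiniteDimensional k V] (ρ : H →* End k V)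

lemma exists_mn [Finite H] (sgn : ∀ h, sign (φ h) = 1) (sur : ∀ σ, sign σ = 1 → ∃ h, φ h = σ) :
    ∃ S : Subgroup H, Mn (φ.comp S.subtype) := by
  obtain ⟨S, h1, h2⟩ := wellFounded_lt.has_min
    {S : Subgroup H | ∀ σ, sign σ = 1 → ∃ h ∈ S, φ h = σ}
    ⟨⊤, fun σ hσ => (sur σ hσ).imp fun h e => ⟨trivial, e⟩⟩
  refine ⟨S, fun h => sgn h, fun σ hσ => (h1 σ hσ).elim fun h e => ⟨⟨h, e.1⟩, e.2⟩, fun T hT => ?_⟩
  by_contra h
  refine h2 (T.map S.subtype) (fun σ hσ => (hT σ hσ).elim fun h e => ⟨h, ⟨h, e.1, rfl⟩, e.2⟩) ?_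
  exact (map_subtype_lt_map_subtype.mpr (lt_top_iff_ne_top.mpr h)).trans_le (map_subtype_le _)

lemma Mn.comm_ker [Finite H] (hm : Mn φ) {N : Subgroup H} [N.Normal] (h1 : N ≤ φ.ker)
    (h3 : ∀ M : Subgroup H, M.Normal → M < N → M ≤ center H) {x y : H} (hx : x ∈ N)
    (hy : y ∈ φ.ker) : y * x * y⁻¹ * x⁻¹ ∈ center H := by
  by_cases h : ⁅N, φ.ker⁆ = N
  · obtain ⟨n, hn⟩ := (isNilpotent_iff_lowerCentralSeries _).mp hm.nilp
    have : ∀ n, N ≤ φ.ker.lowerCentralSeries n := fun n => by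
      induction n with
      | zero => exact h1
      | succ n ih => exact h.ge.trans (commutator_mono ih le_rfl)
    simp [mem_bot.mp (hn ▸ this n hx), one_mem]
  refine h3 _ inferInstance (lt_of_le_of_ne (commutator_le_left _ _) h) ?_
  rw [Subgroup.commutator_comm]
  exact commutator_mem_commutator hy hx

lemma card_W_le' [Nontrivial V] {N M : Subgroup H}
    (h1 : ∀ x ∈ N, ∀ y ∈ M, ∃ c : k, ρ (y * x * y⁻¹ * x⁻¹) = c • 1)
    (h2 : ∀ x ∈ N, (∀ y ∈ M, ρ (y * x) = ρ (x * y)) → x ∈ center H) [Finite H] :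
    Nat.card (N.map (QuotientGroup.mk' (center H))) ≤ finrank k V ^ 2 := by
  choose x hx e using fun w : N.map (QuotientGroup.mk' (center H)) => w.2
  choose c hc using h1
  have k1 : ∀ w (y : M), ρ (y * x w) = c _ (hx w) y y.2 • ρ (x w * y) := fun w y => by
    rw [← one_mul (ρ (x w * y)), ← smul_mul_assoc, ← hc, ← map_mul]; congr 1; group
  haveI := Fintype.ofFinite (N.map (QuotientGroup.mk' (center H)))
  have k0 : ∀ g, ρ g ≠ 0 := fun g e => by
    obtain ⟨v, hv⟩ := exists_ne (0 : V)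
    exact hv (rho_inj ρ g (by rw [e]; rfl))
  have := (eig_indep (fun y : M => LinearMap.mulLeftRight k (ρ y, ρ y⁻¹)) (fun w => ρ (x w))
    (fun w y => c _ (hx w) y y.2) (fun w => k0 _) (fun w y => by
      rw [LinearMap.mulLeftRight_apply, ← map_mul, k1, smul_mul_assoc, ← map_mul]; simp)
    fun w w' h => by
      have := h2 ((x w)⁻¹ * x w') (mul_mem (inv_mem (hx w)) (hx w')) fun y hy => by
        have a1 := congrArg (fun T => ρ (x w)⁻¹ * T * ρ ((x w)⁻¹ * x w')) (k1 w ⟨y, hy⟩)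
        have a2 := congrArg (ρ (x w)⁻¹ * ·) (k1 w' ⟨y, hy⟩)
        have a3 : c _ (hx w) y hy = c _ (hx w') y hy := congrFun h ⟨y, hy⟩
        simp only [mul_smul_comm, smul_mul_assoc, ← map_mul, mul_assoc, mul_inv_cancel_left,
          inv_mul_cancel_left, a3] at a1 a2
        rw [mul_assoc]
        exact smul_right_injective _ (fun e => k0 _ (by rw [a2, e, zero_smul])) (a1.symm.trans a2)
      exact Subtype.ext (by
        rw [← e w, ← e w']; exact QuotientGroup.eq.mpr this)).fintype_card_le_finrank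
  rwa [finrank_linearMap, ← pow_two, ← Nat.card_eq_fintype_card] at this

lemma eig_le (W : Submodule k V) (hW : ∀ g, W ≤ W.comap (ρ g)) (t : H) (μ : k) :
    finrank k ((ρ t).eigenspace μ) ≤
      finrank k (End.eigenspace (Representation.subrepresentation ρ W hW t) μ) +
        finrank k (End.eigenspace (Representation.quotient ρ W hW t) μ) := by
  let f : (ρ t).eigenspace μ →ₗ[k] End.eigenspace (Representation.quotient ρ W hW t) μ :=
    (W.mkQ ∘ₗ Submodule.subtype _).codRestrict _ fun x => by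
      simp [Representation.quotient, End.mem_eigenspace_iff, End.mem_eigenspace_iff.mp x.2]
  let i : LinearMap.ker f →ₗ[k] End.eigenspace (Representation.subrepresentation ρ W hW t) μ :=
    LinearMap.codRestrict _ (LinearMap.codRestrict W
      (Submodule.subtype _ ∘ₗ (LinearMap.ker f).subtype) fun x =>
        (Submodule.Quotient.mk_eq_zero W).mp (congrArg Subtype.val x.2))
      fun x => End.mem_eigenspace_iff.mpr (Subtype.ext (End.mem_eigenspace_iff.mp x.1.2))
  have hi : Function.Injective i := fun x y h =>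
    Subtype.ext (Subtype.ext (congrArg (fun z => z.1.1) h))
  rw [← f.finrank_range_add_finrank_ker, add_comm]
  exact add_le_add (LinearMap.finrank_le_finrank_of_injective hi) (Submodule.finrank_le _)

end gen

variable {α : Type} [DecidableEq α] [Fintype α] {H : Type} [Group H] [Finite H]
  {φ : H →* Perm α} {k : Type} [Field k] [IsAlgClosed k]

theorem es_case (hm : Mn φ) (h12 : Fintype.card α = 12) {N : Subgroup H} [N.Normal]
    (h1 : N ≤ φ.ker) (h3 : ∀ M : Subgroup H, M.Normal → M < N → M ≤ center H) {x y : H}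
    (hx : x ∈ N) (hy : y ∈ φ.ker) (n : ℕ) : ∀ (V : Type) [AddCommGroup V] [Module k V]
      [FiniteDimensional k V] [Nontrivial V] (ρ : H →* End k V), finrank k V = n → n ≤ 27 →
      ¬ ∀ v, v ≠ 0 → ρ (y * x * y⁻¹ * x⁻¹) v ≠ v := by
  induction n using Nat.strong_induction_on with
  | _ n ih =>
  intro V _ _ _ _ ρ hn h27 hz
  by_cases m3 : ∀ U : Submodule k V, (∀ g, U ≤ U.comap (ρ g)) → U = ⊥ ∨ U = ⊤
  swap
  · push Not at m3
    obtain ⟨U, a1, a2, a3⟩ := m3
    haveI := Submodule.nontrivial_iff_ne_bot.mpr a2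
    have := Submodule.finrank_lt a3
    exact ih _ (hn ▸ this) U (Representation.subrepresentation ρ U a1) rfl (by omega)
      fun v hv e => hz v (fun e => hv (Subtype.ext e)) (congrArg Subtype.val e)
  have schur : ∀ z ∈ center H, ∃ c : k, ρ z = c • 1 := fun z hz => by
    obtain ⟨c, hc⟩ := End.exists_eigenvalue (ρ z)
    refine ⟨c, LinearMap.ext fun v => End.mem_eigenspace_iff.mp
      (((m3 _ fun g v hv => ?_).resolve_left hc).ge Submodule.mem_top)⟩
    rw [Submodule.mem_comap, End.mem_eigenspace_iff] at *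
    rw [← rho_mul, ← mem_center_iff.mp hz, rho_mul, hv, map_smul]
  obtain ⟨v, hv⟩ := exists_ne (0 : V)
  have h4 : ρ (y * x) ≠ ρ (x * y) := fun e => hz v hv (by
    rw [map_mul, map_mul, e, ← map_mul, ← map_mul]; simp)
  obtain ⟨l, d, θ, l1, l2, -, l4⟩ := hm.exists_W (by omega) h1 h3 fun h =>
    h4 (by rw [mem_center_iff.mp (h hx)])
  haveI := Fact.mk l1
  have b1 := claim 12 (by decide) _ _ (AlgebraicClosure (ZMod l)) l α H _ φ
    (matRep (algebraMap _ _) θ) h12 rfl rfl
    ⟨hm.sgn, hm.sur, fun h e => l2 h ((matRep_eq_one _ θ h).mp e)⟩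
  let M : Subgroup H := (centralizer (φ.ker.map ρ.toHomUnits)).comap ρ.toHomUnits
  have hM : ∀ x, x ∈ M ↔ ∀ y ∈ φ.ker, ρ (y * x) = ρ (x * y) := fun x => by
    simp only [M, mem_comap, mem_centralizer_iff, SetLike.mem_coe, mem_map]
    exact ⟨fun h y hy => by simpa using congrArg Units.val (h _ ⟨y, hy, rfl⟩),
      by rintro h _ ⟨y, hy, rfl⟩; exact Units.ext (by simpa using h y hy)⟩
  haveI : M.Normal := ⟨fun a ha g => (hM _).mpr fun y hy => by
    have := congrArg (fun T => ρ g * T * ρ g⁻¹)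
      ((hM a).mp ha _ ((MonoidHom.normal_ker φ).conj_mem' y hy g))
    simpa only [← map_mul, ← mul_assoc, mul_inv_cancel, one_mul, mul_inv_cancel_right] using this⟩
  have b2 := card_W_le' ρ (N := N) (M := φ.ker)
    (fun x hx y hy => schur _ (hm.comm_ker h1 h3 hx hy))
    fun z hz h => mem_center_of h3 (M := M) (fun e => h4 ((hM x).mp (e hx) y hy)) hz ((hM z).mpr h)
  rw [finrank_fintype_fun_eq_card, Fintype.card_fin] at b1
  have b3 : 2 ^ 10 ≤ l ^ d := (Nat.pow_le_pow_right (by decide) (by split_ifs at b1 <;> omega)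
    ).trans (Nat.pow_le_pow_left l1.two_le d)
  have := Nat.pow_le_pow_left (hn ▸ h27) 2
  omega

variable {V : Type} [AddCommGroup V] [Module k V] [FiniteDimensional k V] (ρ : H →* End k V)
  (p : ℕ) [Fact p.Prime] [CharP k p]

theorem exists_P {B : V →ₗ[k] V →ₗ[k] V →ₗ[k] k} (hB : Cub ρ B) (hm : Mn φ)
    (h12 : Fintype.card α = 12) (h30 : (30 : k) ≠ 0) : ∃ P : Subgroup H, P.Normal ∧ IsPGroup p P ∧
      P ≤ φ.ker ∧ φ.ker ≤ P ⊔ center H := by
  haveI := hm.nilp
  have k1 : ∀ (l : ℕ) [Fact l.Prime] (S : Sylow l φ.ker), (S.1.map φ.ker.subtype).Normal :=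
    fun l _ S => by
      haveI := S.characteristic_of_normal inferInstance
      infer_instance
  have k2 : ∀ (l : ℕ) [Fact l.Prime] (S : Sylow l φ.ker), l ≠ p → S.1.map φ.ker.subtype ≤ center H :=
    fun l hl S h => by
      by_contra h0
      obtain ⟨N, ⟨n1, n2, n3⟩, n4⟩ := wellFounded_lt.has_min
        {N : Subgroup H | N.Normal ∧ N ≤ S.1.map φ.ker.subtype ∧ ¬ N ≤ center H}
        ⟨_, k1 l S, le_rfl, h0⟩
      have n5 : ∀ M : Subgroup H, M.Normal → M < N → M ≤ center H := fun M h1 h2 => by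
        by_contra h; exact n4 M ⟨h1, h2.le.trans n2, h⟩ h2
      have n6 := n2.trans (map_subtype_le _)
      have n7 : ∀ x ∈ N, ∃ m : ℕ, (m : k) ≠ 0 ∧ x ^ m = 1 := fun x hx => by
        obtain ⟨e, he⟩ := S.2.map φ.ker.subtype ⟨x, n2 hx⟩
        refine ⟨l ^ e, fun h' => h ?_, congrArg Subtype.val he⟩
        exact ((Nat.prime_dvd_prime_iff_eq Fact.out hl.out).mp ((Fact.out : p.Prime).dvd_of_dvd_pow
          ((CharP.cast_eq_zero_iff k p _).mp h'))).symm
      refine n3 (mono_case ρ hB hm.sur hm.sgn h12 h30 N n6 (fun x hx y hy => ?_) n7)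
      by_contra h4
      have z1 := hm.comm_ker n6 n5 hx hy
      obtain ⟨m, m1, m2⟩ := n7 _ (mul_mem (n1.conj_mem x hx y) (inv_mem hx))
      haveI : Nontrivial (LinearMap.range (ρ (y * x * y⁻¹ * x⁻¹) - 1)) :=
        Submodule.nontrivial_iff_ne_bot.mpr fun e => h4 (by
          have := hB.inj ((sub_eq_zero.mp (LinearMap.range_eq_bot.mp e)).trans (map_one ρ).symm)
          rwa [mul_inv_eq_one, mul_inv_eq_iff_eq_mul] at this)
      refine es_case hm h12 n6 n5 hx hy _ _ (Representation.subrepresentation ρ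
        (LinearMap.range (ρ (y * x * y⁻¹ * x⁻¹) - 1)) ?_) rfl (hB.dim ▸ Submodule.finrank_le _)
          fun v hv e => ?_
      · rintro g _ ⟨w, rfl⟩
        refine ⟨ρ g w, ?_⟩
        simp only [LinearMap.sub_apply, map_sub, End.one_apply, ← rho_mul, mem_center_iff.mp z1 g]
      · obtain ⟨w, hw⟩ := v.2
        exact moved_of_range (by rw [← map_pow, m2, map_one]) m1 (fun e => hv (Subtype.ext e))
          hw.symm (congrArg Subtype.val e)
  let S : Sylow p φ.ker := default
  refine ⟨_, k1 p S, S.2.map _, map_subtype_le _, subgroupOf_eq_top.mp (index_eq_one.mp ?_)⟩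
  by_contra h
  obtain ⟨l, hl, h1⟩ := Nat.exists_prime_and_dvd h
  haveI := Fact.mk hl
  by_cases e : l = p
  · subst e
    exact S.not_dvd_index (h1.trans (index_dvd_of_le fun x hx => mem_sup_left ⟨x, hx, rfl⟩))
  · exact (default : Sylow l φ.ker).not_dvd_index
      (h1.trans (index_dvd_of_le fun x hx => mem_sup_right (k2 l _ e ⟨x, hx, rfl⟩)))

theorem sub8 {P : Subgroup H} [P.Normal] (hP : IsPGroup p P) {ψ : H ⧸ P →* Perm α} (hψ : CE ψ)
    (h12 : Fintype.card α = 12) (h30 : (30 : k) ≠ 0) {a b c : α} (h : D3 a b c) {t : H}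
    (ht : t3 ψ a b c = t) {ζ : k} (hζ : ζ ^ 2 + ζ + 1 = 0) (n : ℕ) : ∀ (V : Type) [AddCommGroup V]
      [Module k V] [FiniteDimensional k V] (ρ : H →* End k V), finrank k V = n → n ≤ 27 →
      8 * finrank k ((ρ t).eigenspace ζ) ≤ n := by
  induction n using Nat.strong_induction_on with
  | _ n ih =>
  intro V _ _ _ ρ hn h27
  by_cases m3 : ∀ U : Submodule k V, (∀ g, U ≤ U.comap (ρ g)) → U = ⊥ ∨ U = ⊤
  swap
  · push Not at m3
    obtain ⟨U, a1, a2, a3⟩ := m3
    have d1 := U.finrank_quotient_add_finrank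
    have d2 := Submodule.finrank_lt a3
    have d3 : 0 < finrank k U := by
      rw [finrank_pos_iff, Submodule.nontrivial_iff_ne_bot]; exact a2
    have d4 := eig_le ρ U a1 t ζ
    have d5 := ih _ (by omega) U (Representation.subrepresentation ρ U a1) rfl (by omega)
    have d6 := ih _ (by omega) (V ⧸ U) (Representation.quotient ρ U a1) rfl (by omega)
    omega
  rcases subsingleton_or_nontrivial V with hV | hV
  · rw [finrank_zero_of_subsingleton]; omega
  obtain ⟨v, hv⟩ := exists_ne (0 : V)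
  haveI := hP.isNilpotent
  haveI : ExpChar k p := ExpChar.prime Fact.out
  obtain ⟨w, w0, hw⟩ := H2.exists_fixed_of_pow_mem p ρ (F := P) (N := ⊥) bot_le
    le_normalizer_of_normal
    (fun x hx => (hP ⟨x, hx⟩).imp fun j e => mem_bot.mpr (congrArg Subtype.val e))
    hv (by simp)
  have h1 := (m3 (⨅ x : P, (ρ x).eigenspace 1) fun g u hu => by
    simp only [Submodule.mem_comap, Submodule.mem_iInf, End.mem_eigenspace_iff, one_smul] at hu ⊢
    intro x
    nth_rewrite 2 [← hu ⟨_, ‹P.Normal›.conj_mem' x x.2 g⟩]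
    rw [← rho_mul, ← rho_mul]; congr 2; simp [mul_assoc]).resolve_left
      ((Submodule.ne_bot_iff _).mpr ⟨w, by simpa [End.mem_eigenspace_iff] using hw, w0⟩)
  have h2 : ∀ x ∈ P, ρ x = 1 := fun x hx => LinearMap.ext fun u => by
    simpa using End.mem_eigenspace_iff.mp ((Submodule.mem_iInf _).mp (h1.ge Submodule.mem_top) ⟨x, hx⟩)
  have := eig8 _ hψ h12.ge (fun e => h30 (by linear_combination 10 * e))
    (nc27 (QuotientGroup.lift P ρ h2) hψ h12 h30 (hn ▸ h27)) hζ h
  rwa [ht, hn] at this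

include p in
theorem no12 {B : V →ₗ[k] V →ₗ[k] V →ₗ[k] k} (hB : Cub ρ B) (sgn : ∀ h, sign (φ h) = 1)
    (sur : ∀ σ, sign σ = 1 → ∃ h, φ h = σ) (h12 : Fintype.card α = 12) (h30 : (30 : k) ≠ 0) :
    False := by
  wlog hm : Mn φ generalizing H
  · obtain ⟨S, hS⟩ := exists_mn sgn sur
    exact this (ρ.comp S.subtype) ⟨fun g => hB.inv g, hB.rk, hB.dim,
      hB.inj.comp Subtype.val_injective⟩ hS.sgn hS.sur hS
  obtain ⟨P, _, p2, p3, p4⟩ := exists_P ρ p hB hm h12 h30
  have h3 : (3 : k) ≠ 0 := fun e => h30 (by linear_combination 10 * e)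
  have hψ : CE (QuotientGroup.lift P φ p3) := ⟨fun q => ?_, fun σ hσ => ?_, fun q e g => ?_⟩
  rotate_left
  · obtain ⟨g, rfl⟩ := QuotientGroup.mk_surjective q; exact sgn g
  · obtain ⟨g, rfl⟩ := sur σ hσ; exact ⟨g, rfl⟩
  · obtain ⟨g, rfl⟩ := QuotientGroup.mk_surjective g
    obtain ⟨x, rfl⟩ := QuotientGroup.mk_surjective q
    obtain ⟨y, hy, z, hz, rfl⟩ := mem_sup_of_normal_right.mp (p4 e)
    rw [QuotientGroup.mk_mul, (QuotientGroup.eq_one_iff y).mpr hy, one_mul, ← QuotientGroup.mk_mul,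
      mem_center_iff.mp hz, QuotientGroup.mk_mul]
  obtain ⟨ι⟩ : Nonempty (Fin 3 ↪ α) := Function.Embedding.nonempty_of_card_le (by simp; omega)
  have d : D3 (ι 0) (ι 1) (ι 2) := by simp [D3]
  obtain ⟨t, t1, t2⟩ : ∃ t : H, t3 (QuotientGroup.lift P φ p3) (ι 0) (ι 1) (ι 2) = t ∧ t ^ 3 = 1 := by
    obtain ⟨x, hx⟩ := QuotientGroup.mk_surjective (t3 (QuotientGroup.lift P φ p3) (ι 0) (ι 1) (ι 2))
    have h1 := hψ.t3_pow (by omega) d
    rw [← hx] at h1 ⊢
    obtain ⟨e, he⟩ := p2 ⟨x ^ 3, (QuotientGroup.eq_one_iff _).mp h1⟩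
    refine ⟨x ^ (p ^ e * p ^ e), ?_, ?_⟩
    · have : ¬ 3 ∣ p ^ e := fun h => h3 (by
        have := (CharP.cast_eq_zero_iff k p 3).mpr ((Nat.prime_dvd_prime_iff_eq (by decide)
          Fact.out).mp (Nat.prime_three.dvd_of_dvd_pow h)).symm.dvd
        exact_mod_cast this)
      rw [QuotientGroup.mk_pow, pow_eq_pow_mod _ h1, Nat.mul_mod]
      have : p ^ e % 3 = 1 ∨ p ^ e % 3 = 2 := by omega
      rcases this with h | h <;> simp [h]
    · rw [← pow_mul, mul_comm, ← mul_assoc, pow_mul, pow_mul, show (x ^ 3) ^ p ^ e = 1 from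
        congrArg Subtype.val he, one_pow]
  have r1 : ∀ v, ρ t (ρ t (ρ t v)) = v := fun v => by
    simpa [pow_succ] using congrArg (ρ · v) t2
  have r2 : ∀ ζ η : k, ζ + η = -1 → ζ * η = 1 → LinearMap.range (ρ t - 1) ≤
      (ρ t).eigenspace ζ ⊔ (ρ t).eigenspace η := fun ζ η h1 h2 => by
    have h4 : ζ - η ≠ 0 := fun e => h3 (by linear_combination (η - ζ) * e + (ζ + η - 1) * h1 - 4 * h2)
    have h5 : ∀ ζ η : k, ζ + η = -1 → ζ * η = 1 → ∀ v, ρ t (ρ t v - v) - η • (ρ t v - v) ∈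
        (ρ t).eigenspace ζ := fun ζ η h1 h2 v => by
      simp only [End.mem_eigenspace_iff, map_sub, map_smul, r1]
      match_scalars
      · linear_combination (-1 : k) * h2
      · linear_combination (-1 : k) * h1
      · linear_combination h1 + h2
    rintro _ ⟨v, rfl⟩
    rw [← Submodule.smul_mem_iff _ h4]
    convert sub_mem (Submodule.mem_sup_left (h5 ζ η h1 h2 v)) (Submodule.mem_sup_right
      (h5 η ζ (add_comm ζ η ▸ h1) (mul_comm ζ η ▸ h2) v)) using 1
    simp only [LinearMap.sub_apply, End.one_apply]; module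
  have r3 : ∀ ζ η : k, ζ + η = -1 → ζ * η = 1 → (ρ t).eigenspace ζ = ⊥ := fun ζ η h1 h2 => by
    by_contra h
    obtain ⟨r, hr, r0⟩ := (Submodule.ne_bot_iff _).mp h
    have a1 := sub8 p p2 hψ h12 h30 d t1 (ζ := ζ) (by linear_combination ζ * h1 - h2) _ V ρ hB.dim le_rfl
    have a2 := sub8 p p2 hψ h12 h30 d t1 (ζ := η) (by linear_combination η * h1 - h2) _ V ρ hB.dim le_rfl
    have a3 := (ρ t - 1).finrank_range_add_finrank_ker
    have a4 := (Submodule.finrank_mono (r2 ζ η h1 h2)).trans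
      (Submodule.finrank_add_le_finrank_add_finrank _ _)
    have a5 := (ρ t - η • 1).finrank_range_add_finrank_ker
    have a6 := rk44 _ hB.dim (hB.rk r r0) (LinearMap.ker (ρ t - 1)) (LinearMap.range (ρ t - η • 1))
      (by
        rintro u hu _ ⟨w, rfl⟩
        have := hB.inv t r u w
        rw [End.mem_eigenspace_iff.mp hr, sub_eq_zero.mp (show ρ t u - u = 0 from hu)] at this
        simp only [map_smul, LinearMap.smul_apply, smul_eq_mul, LinearMap.sub_apply, map_sub,
          End.one_apply] at this ⊢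
        linear_combination η * this - B r u (ρ t w) * h2)
    rw [← End.eigenspace_def] at a5
    have := hB.dim
    omega
  haveI : NeZero ((3 : ℕ) : k) := ⟨by exact_mod_cast h3⟩
  obtain ⟨ζ, hζ⟩ := HasEnoughRootsOfUnity.exists_primitiveRoot k 3
  have z1 : ζ + ζ ^ 2 = -1 := by
    have := hζ.geom_sum_eq_zero (by decide)
    simp only [Finset.sum_range_succ, Finset.range_zero, Finset.sum_empty] at this
    linear_combination this
  have z3 : ζ * ζ ^ 2 = 1 := by linear_combination hζ.pow_eq_one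
  have := r2 _ _ z1 z3
  rw [r3 _ _ z1 z3, r3 _ _ (add_comm ζ _ ▸ z1) (mul_comm ζ _ ▸ z3), bot_sup_eq, le_bot_iff,
    LinearMap.range_eq_bot, sub_eq_zero, ← map_one ρ] at this
  have h1 := hψ.t3_map (by omega) d
  rw [t1, hB.inj this, QuotientGroup.mk_one, map_one] at h1
  exact cy_ne_one d h1.symm

end Cfsg.Agent.H6A
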