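import Cfsg.Agent.H6.AS1
import Mathlib.LinearAlgebra.FiniteDimensional.Lemmas
import Mathlib.LinearAlgebra.Dimension.Constructions
import Mathlib.Algebra.CharP.Basic

/-!
Modules for central extensions of alternating groups on which disjoint three-cycles act with
product of commutators zero are quotients of the deleted permutation module.
-/

set_option autoImplicit false

namespace Cfsg.Agent.H6A

open Equiv Equiv.Perm Module

variable {α : Type*} [DecidableEq α] [Fintype α] {H : Type*} [Group H] {φ : H →* Perm α}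
  {k V : Type*} [Field k] [AddCommGroup V] [Module k V] (ρ : H →* End k V)

/-- six distinct points -/
def D6 (a b c d e f : α) : Prop := [a, b, c, d, e, f].Nodup

omit [DecidableEq α] [Fintype α] in
lemma d6_iff {a b c d e f : α} : D6 a b c d e f ↔ D3 a b c ∧ D3 d e f ∧
    (d ≠ a ∧ d ≠ b ∧ d ≠ c) ∧ (e ≠ a ∧ e ≠ b ∧ e ≠ c) ∧ (f ≠ a ∧ f ≠ b ∧ f ≠ c) := by
  simp only [D6, D3, List.nodup_cons, List.mem_cons, List.not_mem_nil, List.nodup_nil]
  grind

/-- the natural condition -/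
def NC (φ : H →* Perm α) (ρ : H →* End k V) : Prop :=
  ∀ a b c d e f, D6 a b c d e f → (ρ (t3 φ d e f) - 1) * (ρ (t3 φ a b c) - 1) = 0

lemma rho_mul (g h : H) (v : V) : ρ (g * h) v = ρ g (ρ h v) := by rw [map_mul]; rfl

lemma rho_inv (g : H) (v : V) : ρ g⁻¹ (ρ g v) = v := by rw [← rho_mul]; simp

lemma rho_inj (g : H) {v : V} (h : ρ g v = 0) : v = 0 := by rw [← rho_inv ρ g v, h, map_zero]

/-- stabilizer of a vector -/
def stab (v : V) : Subgroup H where
  carrier := {g | ρ g v = v}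
  mul_mem' {a b} ha hb := by simp only [Set.mem_ofPred_eq] at *; rw [rho_mul, hb, ha]
  one_mem' := by simp
  inv_mem' {a} ha := by simp only [Set.mem_ofPred_eq] at *; nth_rewrite 1 [← ha]; rw [rho_inv]

/-- the subgroup generated by canonical three-cycles inside a set -/
def LS (φ : H →* Perm α) (p : α → Prop) : Subgroup H :=
  Subgroup.closure {x | ∃ a b c, p a ∧ p b ∧ p c ∧ D3 a b c ∧ x = t3 φ a b c}

lemma t3_mem {p : α → Prop} {a b c : α} (ha : p a) (hb : p b) (hc : p c) (h : D3 a b c) :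
    t3 φ a b c ∈ LS φ p := Subgroup.subset_closure ⟨a, b, c, ha, hb, hc, h, rfl⟩

lemma LS_le {p : α → Prop} {P : Subgroup H}
    (h : ∀ a b c, p a → p b → p c → D3 a b c → t3 φ a b c ∈ P) : LS φ p ≤ P := by
  rw [LS, Subgroup.closure_le]
  rintro _ ⟨a, b, c, ha, hb, hc, h1, rfl⟩
  exact h a b c ha hb hc h1

variable (hφ : CE φ) (h9 : 9 ≤ Fintype.card α)
include hφ h9

lemma LS_fix {p : α → Prop} {g : H} (hg : g ∈ LS φ p) {x : α} (hx : ¬ p x) : φ g x = x := by
  refine LS_le (P := (MulAction.stabilizer (Perm α) x).comap φ) (fun a b c ha hb hc h => ?_) hg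
  change φ (t3 φ a b c) x = x
  rw [hφ.t3_map (by omega) h]
  apply cy_ne <;> rintro rfl <;> contradiction

lemma LS_sur {p : α → Prop} {σ : Perm α} (h1 : ∀ x, σ x ≠ x → p x) (h2 : sign σ = 1) :
    ∃ g ∈ LS φ p, φ g = σ :=
  gen3 ((LS φ p).map φ) p (fun a b c ha hb hc h =>
    ⟨_, t3_mem ha hb hc h, hφ.t3_map (by omega) h⟩) σ h1 h2

lemma t3_conj_any {a b c d e f : α} (h : D3 a b c) (h' : D3 d e f) :
    ∃ g : H, g * t3 φ a b c * g⁻¹ = t3 φ d e f := by
  have := alternatingGroup.isConj_of (σ := ⟨cy a b c, mem_alternatingGroup.mpr (sign_cy h)⟩)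
    (τ := ⟨cy d e f, mem_alternatingGroup.mpr (sign_cy h')⟩)
    (isConj_iff_cycleType_eq.mpr ((isThreeCycle_swap_mul_swap_same h.2.1 h.1 h.2.2.symm).trans
      (isThreeCycle_swap_mul_swap_same h'.2.1 h'.1 h'.2.2.symm).symm))
    (by
      have := (isThreeCycle_swap_mul_swap_same h.2.1 h.1 h.2.2.symm).card_support
      change (swap a c * swap a b).support.card + 2 ≤ _
      omega)
  obtain ⟨⟨σ, hσ⟩, h1⟩ := isConj_iff.mp this
  obtain ⟨g, rfl⟩ := hφ.sur σ (mem_alternatingGroup.mp hσ)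
  refine ⟨g, ?_⟩
  have := hφ.tau_conj (by omega) (nc_cy (by omega) h) (nc_cy (by omega) h') (g := g) (n := 1)
    (by simpa using congrArg Subtype.val h1)
  simpa [t3] using this

variable (nc : NC φ ρ) (hK : ∀ h, φ h = 1 → ∀ v, v ≠ 0 → ρ h v = v → h = 1)
  (hN : ∀ v, (∀ σ, sign σ = 1 → ∃ h, φ h = σ ∧ ρ h v = v) → v = 0) [Nontrivial V]
include hN

lemma exists_moved {a b c : α} (h : D3 a b c) : ∃ v, ρ (t3 φ a b c) v - v ≠ 0 := by
  by_contra hc; push Not at hc
  obtain ⟨v, hv⟩ := exists_ne (0 : V)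
  refine hv (hN v fun σ hσ => ?_)
  obtain ⟨g, hg, rfl⟩ := LS_sur hφ h9 (p := fun _ => True) (fun _ _ => trivial) hσ
  refine ⟨g, rfl, LS_le (P := stab ρ v) (fun d e f _ _ _ h' => ?_) hg⟩
  obtain ⟨x, hx⟩ := t3_conj_any hφ h9 h h'
  change ρ _ v = v
  rw [← hx, rho_mul, rho_mul, sub_eq_zero.mp (hc _), ← rho_mul]; simp

omit hN hφ h9 [Nontrivial V] in
include nc in
lemma nc_fix {a b c : α} (h : D3 a b c) (v : V) :
    LS φ (fun x => x ≠ a ∧ x ≠ b ∧ x ≠ c) ≤ stab ρ (ρ (t3 φ a b c) v - v) :=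
  LS_le fun d e f hd he hf h' =>
    sub_eq_zero.mp (LinearMap.congr_fun (nc a b c d e f (d6_iff.mpr ⟨h, h', hd, he, hf⟩)) v)

include nc hK

lemma small_fix (l : List α) (hl : l.length ≤ 6) {g : H} (hg : g ∈ LS φ (· ∈ l)) {p : α → Prop}
    {y : V} (hy : LS φ p ≤ stab ρ y) (hp : ∀ x, φ g x ≠ x → p x) : ρ g y = y := by
  obtain ⟨g', h1, h2⟩ := LS_sur hφ h9 (p := fun x => x ∈ l ∧ p x) (σ := φ g)
    (fun x hx => ⟨by by_contra e; exact hx (LS_fix hφ h9 hg e), hp x hx⟩) (hφ.sgn g)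
  obtain ⟨a, ha⟩ := exists_notMem_list l (by omega)
  obtain ⟨b, hb⟩ := exists_notMem_list (a :: l) (by simp; omega)
  obtain ⟨c, hc⟩ := exists_notMem_list (a :: b :: l) (by simp; omega)
  simp only [List.mem_cons, not_or] at hb hc
  have h3 : D3 a b c := ⟨Ne.symm hb.1, Ne.symm hc.1, Ne.symm hc.2.1⟩
  obtain ⟨v, hv⟩ := exists_moved ρ hφ h9 hN h3
  have h4 : LS φ (· ∈ l) ≤ stab ρ (ρ (t3 φ a b c) v - v) := by
    refine le_trans (LS_le fun d e f hd he hf h => t3_mem ?_ ?_ ?_ h) (nc_fix ρ nc h3 v) <;> grind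
  have h5 : g' ∈ LS φ (· ∈ l) := LS_le (fun d e f hd he hf h => t3_mem hd.1 he.1 hf.1 h) h1
  have h6 := hK (g'⁻¹ * g) (by simp [h2]) _ hv (h4 (mul_mem (inv_mem h5) hg))
  rw [← inv_mul_eq_one.mp h6]
  exact hy (LS_le (fun d e f hd he hf h => t3_mem hd.2 he.2 hf.2 h) h1)

lemma family (A : List α) (hA : A.length ≤ 2) {b : α} (hb : b ∉ A) {y : V}
    (hy : LS φ (fun x => x ∉ A ∧ x ≠ b) ≤ stab ρ y) : ∃ Y : α → V, Y b = y ∧
      ∀ j l m, j ∉ A → l ∉ A → m ∉ A → D3 j l m → ∀ i, i ∉ A →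
        ρ (t3 φ j l m) (Y i) = Y (cy j l m i) := by
  have hc : ∀ i, ∃ c, c ∉ b :: i :: A := fun i => exists_notMem_list _ (by simp; omega)
  choose c hc using hc
  simp only [List.mem_cons, not_or] at hc
  let g : α → H := fun i => if i = b then 1 else t3 φ b i (c i)
  have g1 : ∀ i, φ (g i) b = i := fun i => by
    by_cases e : i = b
    · simp [g, e]
    · have : D3 b i (c i) := ⟨Ne.symm e, Ne.symm (hc i).1, Ne.symm (hc i).2.1⟩
      simp only [g, if_neg e]; rw [hφ.t3_map (by omega) this, cy_a this]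
  have g2 : ∀ i (p : α → Prop), p b → p i → p (c i) → g i ∈ LS φ p := fun i p h1 h2 h3 => by
    by_cases e : i = b
    · simp only [g, if_pos e]; exact one_mem _
    · simp only [g, if_neg e]
      exact t3_mem h1 h2 h3 ⟨Ne.symm e, Ne.symm (hc i).1, Ne.symm (hc i).2.1⟩
  refine ⟨fun i => ρ (g i) y, by simp [g], fun j l m hj hl hm h i hi => ?_⟩
  have key : ∀ L : List α, L.length ≤ 6 → (∀ x ∈ L, x ∉ A) →
      (g (cy j l m i))⁻¹ * t3 φ j l m * g i ∈ LS φ (· ∈ L) →
      ρ (t3 φ j l m) (ρ (g i) y) = ρ (g (cy j l m i)) y := fun L h1 h2 h3 => by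
    have := small_fix ρ hφ h9 nc hK hN L h1 h3 hy fun x hx => ⟨fun e => hx (LS_fix hφ h9 h3
      fun e' => h2 x e' e), by
        rintro rfl
        apply hx
        rw [map_mul, map_mul, Perm.mul_apply, Perm.mul_apply, g1, hφ.t3_map (by omega) h, map_inv,
          Perm.inv_eq_iff_eq, g1]⟩
    nth_rewrite 2 [← this]
    rw [← rho_mul, ← rho_mul]; congr 2; group
  by_cases e : i = j ∨ i = l ∨ i = m
  · have e' : cy j l m i = j ∨ cy j l m i = l ∨ cy j l m i = m := by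
      rcases e with rfl | rfl | rfl
      · simp [cy_a h]
      · simp [cy_b h]
      · simp [cy_c h]
    refine key [b, c i, c (cy j l m i), j, l, m] le_rfl (by simp [hb, hj, hl, hm, hc])
      (mul_mem (mul_mem (inv_mem (g2 _ _ ?_ ?_ ?_)) (t3_mem ?_ ?_ ?_ h)) (g2 _ _ ?_ ?_ ?_)) <;>
      simp [e, e']
  · push Not at e
    refine key [b, c i, i, j, l, m] le_rfl (by simp [hb, hj, hl, hm, hc, hi])
      (mul_mem (mul_mem (inv_mem (g2 _ _ ?_ ?_ ?_)) (t3_mem ?_ ?_ ?_ h)) (g2 _ _ ?_ ?_ ?_)) <;>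
      simp [cy_ne _ _ _ e.1 e.2.1 e.2.2]

omit hK in
lemma exists_config : ∃ (a s s' b c : α) (x : V), D3 a s s' ∧ (b ≠ a ∧ b ≠ s ∧ b ≠ s') ∧
    (c ≠ a ∧ c ≠ s ∧ c ≠ s') ∧ b ≠ c ∧ LS φ (fun z => z ≠ a ∧ z ≠ s ∧ z ≠ s') ≤ stab ρ x ∧
      ρ (t3 φ a b c) x ≠ x := by
  obtain ⟨ι⟩ : Nonempty (Fin 5 ↪ α) := Function.Embedding.nonempty_of_card_le (by simp; omega)
  have h : D3 (ι 0) (ι 1) (ι 2) := by simp [D3]
  obtain ⟨v, hv⟩ := exists_moved ρ hφ h9 hN h
  have h1 := nc_fix ρ nc h v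
  set x := ρ (t3 φ (ι 0) (ι 1) (ι 2)) v - v
  by_contra hc; push Not at hc
  refine hv (hN x fun σ hσ => ?_)
  refine (genC ((stab ρ x).map φ) (b := ι 3) (c := ι 4) (by simp)
    (fun i h3 h4 => ?_) σ hσ).imp fun g hg => ⟨hg.2, hg.1⟩
  have h5 : D3 i (ι 4) (ι 3) := ⟨h4, h3, by simp⟩
  refine ⟨t3 φ i (ι 4) (ι 3), ?_, by
    rw [hφ.t3_map (by omega) h5, cy_rot ⟨Ne.symm h3, by simp, h4⟩]⟩
  by_cases e0 : i = ι 0
  · subst e0; exact hc _ _ _ _ _ x h (by simp) (by simp) (by simp) h1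
  by_cases e1 : i = ι 1
  · subst e1
    exact hc _ (ι 0) (ι 2) _ _ x (by simp [D3]) (by simp) (by simp) (by simp)
      (le_trans (LS_le fun _ _ _ _ _ _ h => t3_mem (by tauto) (by tauto) (by tauto) h) h1)
  by_cases e2 : i = ι 2
  · subst e2
    exact hc _ (ι 0) (ι 1) _ _ x (by simp [D3]) (by simp) (by simp) (by simp)
      (le_trans (LS_le fun _ _ _ _ _ _ h => t3_mem (by tauto) (by tauto) (by tauto) h) h1)
  · exact h1 (t3_mem ⟨e0, e1, e2⟩ (by simp) (by simp) h5)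

/-- the vectors `e_i - e_a` -/
lemma exists_nat : ∃ (a j c : α) (f : α → V), D3 a j c ∧ f a = 0 ∧ (∀ i, i ≠ a → f i ≠ 0) ∧
    (∀ l m n, l ≠ a → m ≠ a → n ≠ a → D3 l m n → ∀ i, ρ (t3 φ l m n) (f i) = f (cy l m n i)) ∧
    ∀ i, ρ (t3 φ a j c) (f i) = f (cy a j c i) - f j := by
  obtain ⟨a, s, s', b, c, x, h, hb, hc, hbc, h1, h2⟩ := exists_config ρ hφ h9 nc hN
  obtain ⟨X, X1, X2⟩ := family ρ hφ h9 nc hK hN [s, s'] le_rfl (b := a) (y := x)
    (by simp [h.1, h.2.1]) (le_trans (LS_le fun _ _ _ _ _ _ h =>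
      t3_mem (by grind) (by grind) (by grind) h) h1)
  simp only [List.mem_cons, List.not_mem_nil, or_false, not_or] at X2
  have ha : a ≠ s ∧ a ≠ s' := ⟨h.1, h.2.1⟩
  have X3 : ∀ d, d ≠ a → d ≠ b → d ≠ s → d ≠ s' → X b = ρ (t3 φ a b d) x := fun d h1 h2 h3 h4 => by
    have e : D3 a b d := ⟨Ne.symm hb.1, Ne.symm h1, Ne.symm h2⟩
    rw [← X1, X2 a b d ha hb.2 ⟨h3, h4⟩ e a ha, cy_a e]
  obtain ⟨F, F1, F2⟩ := family ρ hφ h9 nc hK hN [a] (by simp) (b := b) (y := X b - X a)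
    (by simp [hb.1]) (LS_le fun l m n hl hm hn e => by
      obtain ⟨d, hd⟩ := exists_notMem_list [a, b, s, s', l, m, n] (by simp; omega)
      simp only [List.mem_cons, List.not_mem_nil, or_false, not_or] at hd hl hm hn
      rw [X3 d (by tauto) (by tauto) (by tauto) (by tauto), X1]
      exact nc_fix ρ nc ⟨Ne.symm hb.1, by tauto, by tauto⟩ x
        (t3_mem (by tauto) (by tauto) (by tauto) e))
  simp only [List.mem_cons, List.not_mem_nil, or_false] at F2
  have u0 : X b - X a ≠ 0 := by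
    rw [X3 c hc.1 hbc.symm hc.2.1 hc.2.2, X1, sub_ne_zero]; exact h2
  let f : α → V := fun i => if i = a then 0 else F i
  have f1 : ∀ l m n, l ≠ a → m ≠ a → n ≠ a → D3 l m n → ∀ i,
      ρ (t3 φ l m n) (f i) = f (cy l m n i) := fun l m n hl hm hn e i => by
    have e1 : cy l m n a = a := cy_ne _ _ _ hl.symm hm.symm hn.symm
    by_cases hi : i = a
    · simp [f, hi, e1]
    · have : cy l m n i ≠ a := fun e2 => hi ((cy l m n).injective (e2.trans e1.symm))
      simp only [f, if_neg hi, if_neg this]; exact F2 l m n hl hm hn e i hi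
  have fb : f b = X b - X a := by simp only [f, if_neg hb.1, F1]
  have f2 : ∀ i, i ≠ s → i ≠ s' → f i = X i - X a := fun i h1 h2 => by
    by_cases hi : i = a
    · simp [f, hi]
    by_cases hi' : i = b
    · rw [hi', fb]
    obtain ⟨d, hd⟩ := exists_notMem_list [a, b, s, s', i] (by simp; omega)
    simp only [List.mem_cons, List.not_mem_nil, or_false, not_or] at hd
    have e : D3 b i d := ⟨Ne.symm hi', by tauto, by tauto⟩
    have := f1 b i d hb.1 hi hd.1 e b
    rw [cy_a e, fb, map_sub, X2 b i d hb.2 ⟨h1, h2⟩ (by tauto) e b hb.2,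
      X2 b i d hb.2 ⟨h1, h2⟩ (by tauto) e a ha, cy_a e,
      cy_ne _ _ _ (Ne.symm hb.1) (Ne.symm hi) (Ne.symm hd.1)] at this
    exact this.symm
  have e : D3 a b c := ⟨Ne.symm hb.1, Ne.symm hc.1, hbc⟩
  have f3 : ∀ i, i ≠ s → i ≠ s' → ρ (t3 φ a b c) (f i) = f (cy a b c i) - f b := fun i h1 h2 => by
    have e1 : cy a b c s = s := cy_ne _ _ _ ha.1.symm hb.2.1.symm hc.2.1.symm
    have e2 : cy a b c s' = s' := cy_ne _ _ _ ha.2.symm hb.2.2.symm hc.2.2.symm
    rw [f2 i h1 h2, map_sub, X2 a b c ha hb.2 hc.2 e i ⟨h1, h2⟩, X2 a b c ha hb.2 hc.2 e a ha,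
      f2 _ (fun e3 => h1 ((cy a b c).injective (e3.trans e1.symm)))
        (fun e3 => h2 ((cy a b c).injective (e3.trans e2.symm))), fb, cy_a e]
    abel
  refine ⟨a, b, c, f, e, by simp [f], fun i hi h0 => ?_, f1, fun i => ?_⟩
  · by_cases hi' : i = b
    · rw [hi', fb] at h0; exact u0 h0
    obtain ⟨d, hd⟩ := exists_notMem_list [a, b, i] (by simp; omega)
    simp only [List.mem_cons, List.not_mem_nil, or_false, not_or] at hd
    have e : D3 b i d := ⟨Ne.symm hi', by tauto, by tauto⟩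
    have := f1 b i d hb.1 hi hd.1 e b
    rw [cy_a e, h0, fb] at this
    exact u0 (rho_inj ρ _ this)
  by_cases hi : i ≠ s ∧ i ≠ s'
  · exact f3 i hi.1 hi.2
  obtain ⟨l, hl⟩ := exists_notMem_list [a, b, c, s, s'] (by simp; omega)
  obtain ⟨d, hd⟩ := exists_notMem_list [a, b, c, s, s', l] (by simp; omega)
  simp only [List.mem_cons, List.not_mem_nil, or_false, not_or] at hd hl
  have e' : D3 l i d := by unfold D3; grind
  have h3 : i ≠ a ∧ i ≠ b ∧ i ≠ c := by grind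
  have h4 := f1 l i d hl.1 h3.1 hd.1 e'
  have h5 := hφ.t3_comm (by omega) e' (g := t3 φ a b c)
    (by rw [hφ.t3_map (by omega) e]; apply cy_ne <;> tauto)
    (by rw [hφ.t3_map (by omega) e]; apply cy_ne <;> tauto)
    (by rw [hφ.t3_map (by omega) e]; apply cy_ne <;> tauto)
  rw [cy_ne _ _ _ h3.1 h3.2.1 h3.2.2]
  nth_rewrite 1 [← cy_a e']
  rw [← h4, ← rho_mul, h5, rho_mul, f3 l (by tauto) (by tauto), map_sub, h4, h4,
    cy_ne a b c hl.1 hl.2.1 hl.2.2.1, cy_a e', cy_ne l i d (by tauto) (by tauto) (by tauto)]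

theorem natural_bound [FiniteDimensional k V] (p : ℕ) [CharP k p] :
    Fintype.card α - 1 - (if p ∣ Fintype.card α then 1 else 0) ≤ finrank k V := by
  obtain ⟨a, j, c, f, e, f0, f1, f2, f3⟩ := exists_nat ρ hφ h9 nc hK hN
  have inj : ∀ i m, i ≠ a → m ≠ a → i ≠ m → f i ≠ f m := fun i m hi hm him h => by
    have h1 : ∀ l, l ≠ a → f l = f m := fun l hl => by
      by_cases e1 : l = i; · rw [e1, h]
      by_cases e2 : l = m; · rw [e2]
      obtain ⟨d, hd⟩ := exists_notMem_list [a, i, l, m] (by simp; omega)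
      simp only [List.mem_cons, List.not_mem_nil, or_false, not_or] at hd
      have e' : D3 i l d := ⟨Ne.symm e1, by tauto, by tauto⟩
      have := congrArg (ρ (t3 φ i l d)) h
      rwa [f2 i l d hi hl hd.1 e', f2 i l d hi hl hd.1 e', cy_a e',
        cy_ne _ _ _ him.symm (Ne.symm e2) (by tauto)] at this
    have := f3 j
    rw [cy_b e, h1 c e.2.1.symm, h1 j e.1.symm, sub_self] at this
    exact f1 m hm (rho_inj ρ _ this)
  let Ψ : ({i // i ≠ a} → k) →ₗ[k] V := Fintype.linearCombination k fun i => f i.1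
  have hΨ : ∀ x, Ψ x = ∑ i, x i • f i.1 := fun x => Fintype.linearCombination_apply _ _ _
  have k1 : ∀ x, Ψ x = 0 → ∀ i m, x i = x m := fun x hx i m => by
    by_contra hne
    have him : i.1 ≠ m.1 := fun h => hne (by rw [Subtype.ext h])
    obtain ⟨l, hl⟩ := exists_notMem_list [a, i, m] (by simp; omega)
    obtain ⟨n, hn⟩ := exists_notMem_list [a, i, m, l] (by simp; omega)
    obtain ⟨q, hq⟩ := exists_notMem_list [a, i, m, l, n] (by simp; omega)
    simp only [List.mem_cons, List.not_mem_nil, or_false, not_or] at hl hn hq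
    have e1 : D3 i.1 m.1 l := ⟨him, by tauto, by tauto⟩
    have e2 : D3 m.1 n q := ⟨by tauto, by tauto, by tauto⟩
    have g1 := f2 _ _ _ i.2 m.2 hl.1 e1
    have g2 := f2 _ _ _ m.2 hn.1 hq.1 e2
    have := congrArg ((ρ (t3 φ m n q) - 1) * (ρ (t3 φ i m l) - 1) : End k V) hx
    rw [map_zero, hΨ, map_sum, Fintype.sum_eq_add i m (fun h => hne (by rw [h]))] at this
    · simp only [map_smul, End.mul_apply, LinearMap.sub_apply, End.one_apply, map_sub, g1, g2,
        cy_a e1, cy_b e1, cy_a e2] at this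
      rw [cy_ne m.1 n q him (by tauto) (by tauto), cy_ne m.1 n q hl.2.2 (by tauto) (by tauto)]
        at this
      have h3 : (x i - x m) • (f n - f m) = 0 := by rw [← this, sub_smul]; module
      exact inj n m hn.1 m.2 hn.2.2.1
        (sub_eq_zero.mp ((smul_eq_zero.mp h3).resolve_left (sub_ne_zero.mpr hne)))
    · rintro z ⟨h1, h2⟩
      have h1' : z.1 ≠ i.1 := fun h => h1 (Subtype.ext h)
      have h2' : z.1 ≠ m.1 := fun h => h2 (Subtype.ext h)
      simp only [map_smul, End.mul_apply, LinearMap.sub_apply, End.one_apply, map_sub, g1, g2]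
      by_cases h3 : z.1 = l
      · rw [h3, cy_c e1, cy_ne m.1 n q him (by tauto) (by tauto),
          cy_ne m.1 n q hl.2.2 (by tauto) (by tauto)]; simp
      · rw [cy_ne _ _ _ h1' h2' h3]; simp
  have k2 : LinearMap.ker Ψ ≤ Submodule.span k {fun _ => 1} := fun x hx => by
    rw [Submodule.mem_span_singleton]
    exact ⟨x ⟨j, e.1.symm⟩, funext fun i => by simp [k1 x hx i ⟨j, e.1.symm⟩]⟩
  have k3 := Ψ.finrank_range_add_finrank_ker
  have k4 := (LinearMap.range Ψ).finrank_le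
  rw [finrank_fintype_fun_eq_card, Fintype.card_subtype_compl, Fintype.card_subtype_eq] at k3
  split_ifs with hp
  · have := (Submodule.finrank_mono k2).trans (finrank_span_le_card _)
    simp only [Set.toFinset_singleton, Finset.card_singleton] at this
    omega
  · have : LinearMap.ker Ψ = ⊥ := by
      rw [eq_bot_iff]
      intro x hx
      obtain ⟨t, rfl⟩ := Submodule.mem_span_singleton.mp (k2 hx)
      by_cases ht : t = 0
      · simp [ht]
      have h1 : ∑ i, f i = 0 := by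
        have := (smul_eq_zero.mp ((map_smul Ψ t _).symm.trans hx)).resolve_left ht
        rw [hΨ] at this
        rw [Fintype.sum_eq_add_sum_subtype_ne f a, f0, zero_add]
        simpa using this
      have h2 := congrArg (ρ (t3 φ a j c)) h1
      simp only [map_sum, f3, Finset.sum_sub_distrib, map_zero] at h2
      rw [Equiv.sum_comp (cy a j c) f, h1, zero_sub, neg_eq_zero, Finset.sum_const,
        ← Nat.cast_smul_eq_nsmul k, smul_eq_zero, Finset.card_univ] at h2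
      exact (h2.elim (fun h => hp ((CharP.cast_eq_zero_iff k p _).mp h)) (f1 j e.1.symm)).elim
    rw [this, finrank_bot] at k3
    omega

end Cfsg.Agent.H6A
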