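import Cfsg.Agent.H6.AS2
import Cfsg.Agent.H2.FrobMod
import Mathlib.RingTheory.RootsOfUnity.AlgebraicallyClosed
import Mathlib.NumberTheory.LegendreSymbol.AddCharacter

/-!
Weight arguments for small modules of central extensions of alternating groups.
-/

set_option autoImplicit false

namespace Cfsg.Agent.H6A

open Equiv Equiv.Perm Module

section lin
variable {k V : Type*} [Field k] [AddCommGroup V] [Module k V]

theorem eig_indep {I J : Type*} (x : I → End k V) (v : J → V) (c : J → I → k)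
    (hv : ∀ j, v j ≠ 0) (he : ∀ j i, x i (v j) = c j i • v j) (hc : Function.Injective c) :
    LinearIndependent k v := by
  classical
  rw [linearIndependent_iff']
  intro s
  induction s using Finset.induction_on with
  | empty => simp
  | insert a s ha ih =>
    intro g hg
    have h1 : ∀ j ∈ s, g j = 0 := fun j hj => by
      obtain ⟨i, hi⟩ := Function.ne_iff.mp (hc.ne (fun e : j = a => ha (e ▸ hj)))
      have := congrArg (x i - c a i • (1 : End k V)) hg
      rw [map_zero, map_sum, Finset.sum_insert ha] at this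
      simp only [map_smul, LinearMap.sub_apply, he, LinearMap.smul_apply, End.one_apply, sub_self,
        smul_zero, zero_add, ← sub_smul, smul_smul] at this
      exact (mul_eq_zero.mp (ih _ this j hj)).resolve_right (sub_ne_zero.mpr hi)
    rw [Finset.sum_insert ha, Finset.sum_eq_zero fun j hj => by rw [h1 j hj, zero_smul],
      add_zero] at hg
    intro j hj
    rcases Finset.mem_insert.mp hj with rfl | hj
    · exact (smul_eq_zero.mp hg).resolve_right (hv _)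
    · exact h1 j hj

theorem exists_eig [IsAlgClosed k] [FiniteDimensional k V] {I : Type*} (x : I → End k V)
    (hc : ∀ i j, x i * x j = x j * x i) (W : Submodule k V) (hW : W ≠ ⊥)
    (h : ∀ i, ∀ w ∈ W, x i w ∈ W) : ∃ v ∈ W, v ≠ 0 ∧ ∀ i, ∃ c : k, x i v = c • v := by
  haveI : Nontrivial W := Submodule.nontrivial_iff_ne_bot.mpr hW
  obtain ⟨u, hu, h1⟩ := H2.exists_common_eigenvector (fun i => (x i).restrict (h i))
    fun a b => LinearMap.ext fun w => Subtype.ext (LinearMap.congr_fun (hc a b) w)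
  exact ⟨u, u.2, fun e => hu (Subtype.ext e), fun i => (h1 i).imp fun c e => congrArg Subtype.val e⟩

lemma moved_of_range {x : End k V} {l : ℕ} (hx : x ^ l = 1) (hl : (l : k) ≠ 0) {v w : V}
    (hv : v ≠ 0) (h : v = x w - w) : x v ≠ v := fun e => by
  have h1 : ∀ n, (x ^ n) v = v := fun n => by
    induction n with
    | zero => rfl
    | succ n ih => rw [pow_succ, End.mul_apply, e, ih]
  have h2 := LinearMap.congr_fun (geom_sum_mul x l) w
  rw [hx, sub_self, End.mul_apply, LinearMap.sub_apply, End.one_apply, ← h, LinearMap.sum_apply,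
    Finset.sum_congr rfl fun i _ => h1 i, Finset.sum_const, Finset.card_range,
    ← Nat.cast_smul_eq_nsmul k] at h2
  exact hv ((smul_eq_zero.mp h2).resolve_left hl)

end lin

/-- orbit enumeration -/
def reach {B : Type*} [DecidableEq B] (L : List (B → B)) : ℕ → List B → List B
  | 0, s => s
  | n + 1, s => reach L n (s ++ s.flatMap fun b => L.map (· b)).dedup

lemma reach_mem {B : Type*} [DecidableEq B] {L : List (B → B)} {P : B → Prop}
    (h : ∀ f ∈ L, ∀ b, P b → P (f b)) (n : ℕ) : ∀ s, (∀ b ∈ s, P b) → ∀ b ∈ reach L n s, P b := by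
  induction n with
  | zero => exact fun s hs => hs
  | succ n ih =>
    refine fun s hs => ih _ fun b hb => ?_
    simp only [List.mem_dedup, List.mem_append, List.mem_flatMap, List.mem_map] at hb
    rcases hb with hb | ⟨a, ha, f, hf, rfl⟩
    · exact hs b hb
    · exact h f hf a (hs a ha)

variable {α : Type*} [DecidableEq α] [Fintype α] {H : Type*} [Group H] {φ : H →* Perm α}
  {k V : Type*} [Field k] [AddCommGroup V] [Module k V] (ρ : H →* End k V)

section wt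
variable {l : ℕ} [NeZero l] {ζ : k} (hζ : IsPrimitiveRoot ζ l) {n : ℕ} (x : Fin n → H)

/-- weights -/
def Wt (ζ : k) (x : Fin n → H) (a : Fin n → ZMod l) : Prop :=
  ∃ v, v ≠ 0 ∧ ∀ i, ρ (x i) v = ζ ^ (a i).val • v

include hζ

lemma wt_le [FiniteDimensional k V] (s : List (Fin n → ZMod l)) (hs : ∀ a ∈ s, Wt ρ ζ x a) :
    s.dedup.length ≤ finrank k V := by
  choose v h1 h2 using fun a : s.toFinset => hs a (List.mem_toFinset.mp a.2)
  have := (eig_indep (fun i => ρ (x i)) v _ h1 h2 fun a b e => Subtype.ext (funext fun i =>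
    ZMod.val_injective _ (hζ.pow_inj (ZMod.val_lt _) (ZMod.val_lt _) (congrFun e i)))
    ).fintype_card_le_finrank
  rwa [Fintype.card_coe, List.card_toFinset] at this

lemma pow_val_add (a b : ZMod l) : ζ ^ (a + b).val = ζ ^ a.val * ζ ^ b.val :=
  (AddChar.zmodChar l hζ.pow_eq_one).map_add_eq_mul a b

lemma pow_val_nsmul (e : ℕ) (a : ZMod l) : ζ ^ ((e : ZMod l) * a).val = (ζ ^ a.val) ^ e := by
  rw [← nsmul_eq_mul]; exact (AddChar.zmodChar l hζ.pow_eq_one).map_nsmul_eq_pow e a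

omit hζ [NeZero l] in
lemma Wt.trans {a b : Fin n → ZMod l} (h : Wt ρ ζ x a) (g : H) (hb : ∀ v,
    (∀ i, ρ (x i) v = ζ ^ (a i).val • v) → ∀ i, ρ (g * x i * g⁻¹) v = ζ ^ (b i).val • v) :
    Wt ρ ζ x b := by
  obtain ⟨v, hv, h1⟩ := h
  refine ⟨ρ g⁻¹ v, fun e => hv (rho_inj ρ _ e), fun i => ?_⟩
  rw [← map_smul, ← hb v h1 i, ← rho_mul, ← rho_mul]; congr 2; group

omit [NeZero l] hζ in
lemma rho_pow {y : H} {v : V} {c : k} (h : ρ y v = c • v) (e : ℕ) : ρ (y ^ e) v = c ^ e • v := by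
  induction e with
  | zero => simp
  | succ e ih => rw [pow_succ, rho_mul, h, map_smul, ih, smul_smul, pow_succ']

lemma Wt.mono {a : Fin n → ZMod l} (h : Wt ρ ζ x a) {g : H} {π : Fin n → Fin n} {e : Fin n → ℕ}
    (hg : ∀ i, g * x i * g⁻¹ = x (π i) ^ e i) : Wt ρ ζ x fun i => (e i : ZMod l) * a (π i) :=
  h.trans ρ x g fun v hv i => by rw [hg, rho_pow ρ (hv _), pow_val_nsmul hζ]

lemma exists_wt [IsAlgClosed k] [FiniteDimensional k V] (hl : (l : k) ≠ 0)
    (hc : ∀ i j, x i * x j = x j * x i) (hx : ∀ i, x i ^ l = 1) (E : End k V) (hE : E ≠ 0)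
    (h : ∀ i, ρ (x i) * E = E * ρ (x i)) : ∃ a : Fin n → ZMod l, Wt ρ ζ x a ∧
      ∀ i E', E = (ρ (x i) - 1) * E' → a i ≠ 0 := by
  obtain ⟨v, ⟨w, hw⟩, hv, h1⟩ := exists_eig (fun i => ρ (x i))
    (fun i j => by rw [← map_mul, hc, map_mul]) (LinearMap.range E)
    (fun e => hE (LinearMap.range_eq_bot.mp e))
    (by rintro i _ ⟨w, rfl⟩; exact ⟨_, (LinearMap.congr_fun (h i) w).symm⟩)
  have h2 : ∀ i, ∃ a : ZMod l, ρ (x i) v = ζ ^ a.val • v := fun i => by
    obtain ⟨c, hc⟩ := h1 i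
    have := rho_pow ρ hc l
    rw [hx, map_one, End.one_apply] at this
    obtain ⟨j, hj, rfl⟩ := hζ.eq_pow_of_pow_eq_one (ξ := c) (smul_left_injective k hv
      (by simpa using this.symm))
    exact ⟨j, by rw [ZMod.val_cast_of_lt hj, hc]⟩
  choose a ha using h2
  refine ⟨a, ⟨v, hv, ha⟩, fun i E' e h0 => ?_⟩
  refine moved_of_range (x := ρ (x i)) (by rw [← map_pow, hx, map_one]) hl hv (w := E' w)
    (by rw [← hw, e]; rfl) ?_
  rw [ha, h0]; simp

end wt

/-- products of transpositions -/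
def sw {m : ℕ} (L : List (Fin m × Fin m)) : Perm (Fin m) := (L.map fun x => swap x.1 x.2).prod

lemma sign_sw {m : ℕ} (L : List (Fin m × Fin m)) (h : (∀ x ∈ L, x.1 ≠ x.2) ∧ Even L.length) :
    sign (sw L) = 1 := by
  rw [sw, sign_prod_list_swap, List.length_map, h.2.neg_one_pow]
  simp only [List.mem_map]
  rintro _ ⟨x, hx, rfl⟩
  exact ⟨_, _, h.1 x hx, rfl⟩

variable (hφ : CE φ) (h8 : 8 ≤ Fintype.card α)
include hφ h8

lemma CE.emb_conj {m : ℕ} (ι : Fin m ↪ α) {σ σ' g₀ : Perm (Fin m)} (h : Nc σ) (h' : Nc σ') {g : H}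
    (hg : φ g = viaEmbeddingHom ι g₀) {n : ℕ} (e : g₀ * σ = σ' ^ n * g₀) :
    g * tau φ (viaEmbeddingHom ι σ) * g⁻¹ = tau φ (viaEmbeddingHom ι σ') ^ n :=
  hφ.tau_conj h8 (h.emb ι) (h'.emb ι)
    (by rw [hg, ← map_mul, e, map_mul, map_pow, mul_inv_cancel_right])

theorem wt_bound [IsAlgClosed k] [FiniteDimensional k V] {m n l : ℕ} [NeZero l] (ho : Odd l)
    (hl : (l : k) ≠ 0) (ι : Fin m ↪ α) (σ : Fin n → Perm (Fin m)) (h1 : ∀ i, Nc (σ i))
    (h2 : ∀ i, σ i ^ l = 1) (h3 : ∀ i j, σ i * σ j = σ j * σ i)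
    (L : List (List (Fin m × Fin m) × (Fin n → Fin n) × (Fin n → ℕ)))
    (hL : ∀ y ∈ L, ((∀ x ∈ y.1, x.1 ≠ x.2) ∧ Even y.1.length) ∧
      ∀ i, sw y.1 * σ i = σ (y.2.1 i) ^ y.2.2 i * sw y.1) (i j : Fin n) (N B : ℕ)
    (hB : ∀ a : Fin n → ZMod l, a i ≠ 0 → a j ≠ 0 → B ≤ (reach (L.map fun y a i =>
      (y.2.2 i : ZMod l) * a (y.2.1 i)) N [a]).dedup.length)
    (hE : (ρ (tau φ (viaEmbeddingHom ι (σ i))) - 1) *
      (ρ (tau φ (viaEmbeddingHom ι (σ j))) - 1) ≠ 0) : B ≤ finrank k V := by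
  haveI : NeZero (l : k) := ⟨hl⟩
  obtain ⟨ζ, hζ⟩ := HasEnoughRootsOfUnity.exists_primitiveRoot k l
  set x : Fin n → H := fun i => tau φ (viaEmbeddingHom ι (σ i))
  have hc : ∀ i j, x i * x j = x j * x i := fun i j => by
    have := hφ.emb_conj h8 ι (h1 j) (h1 j) (hφ.tau_spec ((h1 i).emb ι)).1 (n := 1)
      (by rw [pow_one, h3])
    rw [pow_one] at this
    exact mul_inv_eq_iff_eq_mul.mp this
  have hc' : ∀ i j, Commute (ρ (x i)) (ρ (x j)) := fun i j => by
    rw [Commute, SemiconjBy, ← map_mul, hc, map_mul]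
  obtain ⟨a, ha, h4⟩ := exists_wt ρ hζ x hl hc
    (fun i => hφ.tau_pow ((h1 i).emb ι) ho (by rw [← map_pow, h2, map_one])) _ hE
    fun q => (((hc' q i).sub_right (Commute.one_right _)).mul_right
      ((hc' q j).sub_right (Commute.one_right _))).eq
  refine (hB a (h4 i _ rfl) (h4 j _ (((hc' i j).sub_right (Commute.one_right _)).sub_left
    (Commute.one_left _)).eq)).trans (wt_le ρ hζ x _ (reach_mem ?_ N _ (by simpa using ha)))
  simp only [List.mem_map]
  rintro _ ⟨y, hy, rfl⟩ b hb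
  obtain ⟨g, hg⟩ := hφ.sur _ ((sign_emb ι _).trans (sign_sw _ (hL y hy).1))
  exact hb.mono ρ hζ x fun i => hφ.emb_conj h8 ι (h1 _) (h1 _) hg ((hL y hy).2 i)

omit hφ h8 in
lemma emb6 {a b c d e f : α} (h : D6 a b c d e f) {m : ℕ} (h6 : 6 ≤ m) (hm : m ≤ Fintype.card α) :
    ∃ ι : Fin m ↪ α, ι ⟨0, by omega⟩ = a ∧ ι ⟨1, by omega⟩ = b ∧ ι ⟨2, by omega⟩ = c ∧
      ι ⟨3, by omega⟩ = d ∧ ι ⟨4, by omega⟩ = e ∧ ι ⟨5, by omega⟩ = f := by
  obtain ⟨ι, hι⟩ := exists_emb h6 hm ⟨![a, b, c, d, e, f], List.nodup_ofFn.mp (by simpa [D6] using h)⟩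
  exact ⟨ι, hι 0, hι 1, hι 2, hι 3, hι 4, hι 5⟩

/-- three commuting three-cycles -/
theorem bound_three [IsAlgClosed k] [FiniteDimensional k V] (h9 : 9 ≤ Fintype.card α)
    (h3 : (3 : k) ≠ 0) (h : ¬ NC φ ρ) : 8 ≤ finrank k V := by
  simp only [NC, not_forall] at h
  obtain ⟨a, b, c, d, e, f, h6, h⟩ := h
  obtain ⟨ι, rfl, rfl, rfl, rfl, rfl, rfl⟩ := emb6 h6 (m := 9) (by omega) h9
  refine wt_bound ρ hφ h8 (l := 3) (by decide) (by exact_mod_cast h3) ι
    ![cy 0 1 2, cy 3 4 5, cy 6 7 8]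
    (fun i => by fin_cases i <;> exact nc_cy (by simp) (by simp [D3])) (by decide +kernel)
    (by decide +kernel)
    [([(1, 2), (4, 5)], ![0, 1, 2], ![2, 2, 1]), ([(1, 2), (7, 8)], ![0, 1, 2], ![2, 1, 2]),
      ([(0, 3), (1, 4), (2, 5), (7, 8)], ![1, 0, 2], ![1, 1, 2]),
      ([(0, 3), (1, 4), (2, 5), (3, 6), (4, 7), (5, 8)], ![1, 2, 0], ![1, 1, 1])]
    (by decide +kernel) 1 0 3 8 (by decide +kernel) ?_
  simpa [emb_cy, t3] using h

/-- annihilator subgroup -/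
def ann (T : End k V) : Subgroup H where
  carrier := {g | ρ g * T = T}
  mul_mem' {a b} ha hb := by
    simp only [Set.mem_ofPred_eq] at *; rw [map_mul, mul_assoc, hb, ha]
  one_mem' := by simp
  inv_mem' {a} ha := by
    simp only [Set.mem_ofPred_eq] at *
    nth_rewrite 1 [← ha]; rw [← mul_assoc, ← map_mul]; simp

omit hφ h8 in
lemma mem_ann {T : End k V} {g : H} : g ∈ ann ρ T ↔ (ρ g - 1) * T = 0 := by
  rw [sub_mul, one_mul, sub_eq_zero]; rfl

omit hφ h8 in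
lemma ann_conj {z g y : H} (h : g * z = z * g) (hy : y ∈ ann ρ (ρ z - 1)) :
    g * y * g⁻¹ ∈ ann ρ (ρ z - 1) := by
  have h1 : ρ g⁻¹ * (ρ z - 1) = (ρ z - 1) * ρ g⁻¹ := by
    rw [mul_sub, sub_mul, ← map_mul, ← map_mul, (Commute.inv_left h).eq]; simp
  have h2 : ρ g * (ρ z - 1) = (ρ z - 1) * ρ g := by
    rw [mul_sub, sub_mul, ← map_mul, ← map_mul, h]; simp
  change ρ _ * _ = _
  rw [map_mul, map_mul, mul_assoc, h1, mul_assoc, ← mul_assoc (ρ y), show ρ y * _ = _ from hy,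
    ← mul_assoc, h2, mul_assoc, ← map_mul]; simp

lemma t3_mem_of {B : Subgroup H} {a b c : α} (h : D3 a b c) {x s : H} (hx : x ∈ B)
    (h1 : φ x = cy a b c) (ha : φ s a = a) (hb : φ s b = c) (hc : φ s c = b)
    (hs : s * x * s⁻¹ ∈ B) : t3 φ a b c ∈ B := by
  have h2 := hφ.cen (x * (t3 φ a b c)⁻¹) (by simp [h1, hφ.t3_map h8 h])
  have h3 := hφ.t3_conj h8 h s
  rw [ha, hb, hc, hφ.t3_inv h8 h] at h3
  have h4 := hφ.t3_pow h8 h
  set t := t3 φ a b c
  set z := x * t⁻¹ with hz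
  have e : x = z * t := by simp [hz]
  have : s * x * s⁻¹ * x⁻¹ = t := by
    calc s * x * s⁻¹ * x⁻¹ = s * z * t * s⁻¹ * t⁻¹ * z⁻¹ := by rw [e]; group
      _ = z * (s * t * s⁻¹ * t⁻¹) * z⁻¹ := by rw [h2 s]; group
      _ = t * (t ^ 3)⁻¹ := by rw [← h2, h3]; group
      _ = t := by rw [h4]; group
  exact this ▸ B.mul_mem hs (B.inv_mem hx)

lemma five_step (ι : Fin 10 ↪ α) {σ σ' : Perm (Fin 10)} (h' : Nc σ') {y : H}
    (hy : φ y = viaEmbeddingHom ι σ) (L : List (Fin 10 × Fin 10)) {a b c : Fin 10}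
    (h : ((∀ x ∈ L, x.1 ≠ x.2) ∧ Even L.length) ∧ sw L * σ' = σ' ^ 1 * sw L ∧
      σ ^ 2 * (sw L * σ ^ 3 * (sw L)⁻¹) = cy a b c ∧ sw L a = a ∧ sw L b = c ∧ sw L c = b ∧
        a ≠ b ∧ a ≠ c ∧ b ≠ c)
    (h1 : y ∈ ann ρ (ρ (tau φ (viaEmbeddingHom ι σ')) - 1)) :
    t3 φ (ι a) (ι b) (ι c) ∈ ann ρ (ρ (tau φ (viaEmbeddingHom ι σ')) - 1) := by
  obtain ⟨h2, h3, h4, h5, h6, h7, h9⟩ := h
  obtain ⟨s, hs⟩ := hφ.sur _ ((sign_emb ι _).trans (sign_sw _ h2))
  have h10 := hφ.emb_conj h8 ι h' h' hs h3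
  rw [pow_one, mul_inv_eq_iff_eq_mul] at h10
  have h11 := mul_mem (pow_mem h1 2) (ann_conj ρ h10 (pow_mem h1 3))
  refine t3_mem_of hφ h8 (by simpa [D3] using h9) h11 ?_ (by rw [hs, emb_apply, h5])
    (by rw [hs, emb_apply, h6]) (by rw [hs, emb_apply, h7]) (ann_conj ρ h10 h11)
  rw [← emb_cy, ← h4]; simp [hs, hy]

/-- two commuting five-cycles -/
theorem bound_five [IsAlgClosed k] [FiniteDimensional k V] (h10 : 10 ≤ Fintype.card α)
    (h5 : (5 : k) ≠ 0) (h : ¬ NC φ ρ) : 16 ≤ finrank k V := by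
  simp only [NC, not_forall] at h
  obtain ⟨a, b, c, d, e, f, h6, h⟩ := h
  obtain ⟨ι, rfl, rfl, rfl, rfl, rfl, rfl⟩ := emb6 h6 (m := 10) (by omega) h10
  have n1 : Nc (List.formPerm [0, 1, 2, 6, 7] : Perm (Fin 10)) :=
    ⟨List.isCycle_formPerm (by decide) (by decide), ⟨5, by decide, by decide +kernel⟩,
      sw [(1, 7), (2, 6)], sign_sw _ (by decide), by decide +kernel⟩
  have n2 : Nc (List.formPerm [3, 4, 5, 8, 9] : Perm (Fin 10)) :=
    ⟨List.isCycle_formPerm (by decide) (by decide), ⟨5, by decide, by decide +kernel⟩,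
      sw [(4, 9), (5, 8)], sign_sw _ (by decide), by decide +kernel⟩
  refine wt_bound ρ hφ h8 (l := 5) (by decide) (by exact_mod_cast h5) ι
    ![List.formPerm [0, 1, 2, 6, 7], List.formPerm [3, 4, 5, 8, 9]]
    (fun i => by fin_cases i <;> assumption) (by decide +kernel) (by decide +kernel)
    [([(1, 7), (2, 6)], ![0, 1], ![4, 1]),
      ([(0, 3), (1, 4), (2, 5), (4, 5), (5, 7), (6, 8), (7, 9), (8, 9)], ![1, 0], ![1, 2])]
    (by decide +kernel) 0 1 5 16 (by decide +kernel) fun h1 => h ?_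
  have h2 := five_step ρ hφ h8 ι n2 (hφ.tau_spec (n1.emb ι)).1 [(1, 2), (6, 7)] (a := 0) (b := 1)
    (c := 2) (by decide +kernel) ((mem_ann ρ).mpr h1)
  have n3 : Nc (cy 0 1 2 : Perm (Fin 10)) := nc_cy (by simp) (by simp [D3])
  have h3 := hφ.emb_conj h8 ι n3 n3 (hφ.tau_spec (n2.emb ι)).1 (n := 1) (by decide +kernel)
  rw [pow_one, mul_inv_eq_iff_eq_mul] at h3
  rw [mem_ann, t3, ← emb_cy] at h2
  have h4 := five_step ρ hφ h8 ι n3 (hφ.tau_spec (n2.emb ι)).1 [(4, 5), (8, 9)] (a := 3) (b := 4)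
    (c := 5) (by decide +kernel) ((mem_ann ρ).mpr (by
      rw [← h2]; simp only [mul_sub, sub_mul, ← map_mul, h3, mul_one, one_mul]; abel))
  rwa [mem_ann, emb_cy] at h4

/-- the Frobenius group of order 56 -/
theorem bound_seven [IsAlgClosed k] [FiniteDimensional k V] (h2 : (2 : k) ≠ 0)
    (hf : ∀ h, ρ h = 1 → φ h = 1) : 7 ≤ finrank k V := by
  obtain ⟨ι⟩ : Nonempty (Fin 8 ↪ α) := Function.Embedding.nonempty_of_card_le (by simpa)
  have lift : ∀ L : List (Fin 8 × Fin 8), ((∀ x ∈ L, x.1 ≠ x.2) ∧ Even L.length) →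
      ∃ g, φ g = viaEmbeddingHom ι (sw L) := fun L h =>
    hφ.sur _ ((sign_emb ι _).trans (sign_sw _ h))
  obtain ⟨F, hF⟩ := lift [(1, 2), (2, 4), (3, 6), (4, 6), (5, 6), (6, 7)] (by decide)
  obtain ⟨x, hx⟩ := lift [(0, 1), (2, 3), (4, 5), (6, 7)] (by decide)
  obtain ⟨g, hg⟩ := lift [(4, 6), (5, 7)] (by decide)
  obtain ⟨g', hg'⟩ := lift [(2, 6), (3, 7)] (by decide)
  obtain ⟨y, hy⟩ : ∃ y, y = F * x * F⁻¹ := ⟨_, rfl⟩
  obtain ⟨z, hz⟩ : ∃ z, z = F * y * F⁻¹ := ⟨_, rfl⟩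
  have hy' : φ y = viaEmbeddingHom ι (sw [(0, 2), (1, 3), (4, 6), (5, 7)]) := by
    simp only [hy, map_mul, map_inv, hF, hx]
    simp only [← map_inv, ← map_mul]; exact congrArg _ (by decide +kernel)
  have hz' : φ z = viaEmbeddingHom ι (sw [(0, 4), (1, 5), (2, 6), (3, 7)]) := by
    simp only [hz, map_mul, map_inv, hF, hy']
    simp only [← map_inv, ← map_mul]; exact congrArg _ (by decide +kernel)
  have c1 : y * x = x * y := hφ.comm_of_comm (a := g) (b := z)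
    (by rw [hg, hx]; exact Commute.map (by unfold Commute SemiconjBy; decide +kernel) _)
    (by rw [hz', hx]; exact Commute.map (by unfold Commute SemiconjBy; decide +kernel) _)
    (by simp only [hz', hy', hg, ← map_inv, ← map_mul]; exact congrArg _ (by decide +kernel))
  have c2 : z * x = x * z := hφ.comm_of_comm (a := g') (b := y)
    (by rw [hg', hx]; exact Commute.map (by unfold Commute SemiconjBy; decide +kernel) _)
    (by rw [hy', hx]; exact Commute.map (by unfold Commute SemiconjBy; decide +kernel) _)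
    (by simp only [hz', hy', hg', ← map_inv, ← map_mul]; exact congrArg _ (by decide +kernel))
  have c3 : z * y = y * z := by
    calc z * y = F * (y * x) * F⁻¹ := by rw [hz]; nth_rewrite 2 [hy]; group
      _ = y * z := by rw [c1, hz]; nth_rewrite 2 [hy]; group
  have c4 := hφ.cen (F * z * F⁻¹ * (x * y)⁻¹) (by
    simp only [map_mul, map_inv, hF, hx, hy', hz']
    simp only [← map_inv, ← map_mul]
    rw [← map_one (viaEmbeddingHom ι)]; exact congrArg _ (by decide +kernel))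
  have c5 := hφ.cen (x ^ 2) (by
    rw [map_pow, hx, ← map_pow, ← map_one (viaEmbeddingHom ι)]; exact congrArg _ (by decide +kernel))
  obtain ⟨w, hw⟩ : ∃ w, w = F * z * F⁻¹ * (x * y)⁻¹ := ⟨_, rfl⟩
  rw [← hw] at c4
  have e4 : F * z * F⁻¹ = w * (x * y) := by rw [hw]; group
  have xy : Commute x y := c1.symm
  have xz : Commute x z := c2.symm
  have yz : Commute y z := c3.symm
  have cw : ∀ u, Commute u w := c4
  have q1 : (x * y⁻¹) ^ 2 = 1 := by
    rw [xy.inv_right.mul_pow, inv_pow, hy, conj_pow, c5 F]; group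
  have r1 : F * (x * y⁻¹) * F⁻¹ = y * z⁻¹ := by rw [hz]; nth_rewrite 2 [hy]; group
  have r2 : F * (y * z⁻¹) * F⁻¹ = z * (w * (x * y))⁻¹ := by rw [← e4]; nth_rewrite 2 [hz]; group
  have r3 : F * (z * (w * (x * y))⁻¹) * F⁻¹ = x * y⁻¹ * (y * z⁻¹) := by
    calc _ = (F * z * F⁻¹) * (F * w * F⁻¹ * ((F * x * F⁻¹) * (F * y * F⁻¹)))⁻¹ := by group
      _ = w * (x * (y * z⁻¹) * y⁻¹) * w⁻¹ := by rw [e4, ← hy, ← hz, c4 F]; group
      _ = _ := by rw [← c4]; nth_rewrite 1 [yz.inv_right.eq]; group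
  have hζ : IsPrimitiveRoot (-1 : k) 2 := by
    haveI := ringChar.charP k
    exact IsPrimitiveRoot.neg_one (ringChar k) fun e => h2 (by
      have := ringChar.Nat.cast_ringChar (R := k); rwa [e] at this)
  let X : Fin 3 → H := ![x * y⁻¹, y * z⁻¹, z * (w * (x * y))⁻¹]
  have S : ∀ u, Commute u x → Commute u y → Commute u z → ∀ i, Commute u (X i) :=
    fun u h1 h2 h3 i => by
      fin_cases i
      · exact h1.mul_right h2.inv_right
      · exact h2.mul_right h3.inv_right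
      · exact h3.mul_right ((cw u).mul_right (h1.mul_right h2)).inv_right
  have cX : ∀ i j, Commute (X i) (X j) := fun i j =>
    S _ (S x rfl xy xz i).symm (S y xy.symm rfl yz i).symm (S z xz.symm yz.symm rfl i).symm j
  obtain ⟨a, ha, h4⟩ := exists_wt ρ hζ X (by exact_mod_cast h2) cX
    (fun i => by
      fin_cases i
      · exact q1
      · change (y * z⁻¹) ^ 2 = 1; rw [← r1, conj_pow, q1]; group
      · change (z * _) ^ 2 = 1; rw [← r2, ← r1, conj_pow, conj_pow, q1]; group)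
    (ρ (X 0) - 1) (fun e => by
      have := hf _ (sub_eq_zero.mp e)
      simp only [X, Matrix.cons_val_zero, hy', map_mul, map_inv, hx] at this
      rw [← map_one (viaEmbeddingHom ι), ← map_inv, ← map_mul] at this
      exact absurd (viaEmbeddingHom_injective ι this) (by decide +kernel))
    fun i => (((cX i 0).map ρ).sub_right (Commute.one_right _)).eq
  have hB : ∀ a : Fin 3 → ZMod 2, a 0 ≠ 0 →
      7 ≤ (reach [fun a => ![a 1, a 2, a 0 + a 1]] 6 [a]).dedup.length := by decide +kernel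
  refine (hB a (h4 0 1 (mul_one _).symm)).trans
    (wt_le ρ hζ X _ (reach_mem ?_ 6 _ (by simpa using ha)))
  simp only [List.mem_singleton]
  rintro _ rfl b hb
  refine hb.trans ρ X F fun v hv i => ?_
  fin_cases i
  · exact r1 ▸ hv 1
  · exact r2 ▸ hv 2
  · change ρ (F * (z * _) * F⁻¹) v = (-1) ^ (b 0 + b 1).val • v
    rw [r3, rho_mul, show ρ (y * z⁻¹) v = _ from hv 1, map_smul, show ρ (x * y⁻¹) v = _ from hv 0,
      smul_smul, pow_val_add hζ, mul_comm]

end Cfsg.Agent.H6A
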