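import Cfsg.Agent.H6.AS3
import Mathlib.RepresentationTheory.Basic

/-!
Halving the dimension with the centralizer of a three-cycle; normal subgroups.
-/

set_option autoImplicit false

namespace Cfsg.Agent.H6A

open Equiv Equiv.Perm Module

variable {α : Type*} [DecidableEq α] [Fintype α] {H : Type*} [Group H] {φ : H →* Perm α}
  {k V : Type*} [Field k] [AddCommGroup V] [Module k V] (ρ : H →* End k V)

lemma normal_cases (h5 : 5 ≤ Fintype.card α) (sgn : ∀ h, sign (φ h) = 1)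
    (sur : ∀ σ, sign σ = 1 → ∃ h, φ h = σ) (N : Subgroup H) [N.Normal] :
    (∀ h ∈ N, φ h = 1) ∨ ∀ σ, sign σ = 1 → ∃ h ∈ N, φ h = σ := by
  let ψ : H →* alternatingGroup α := φ.codRestrict _ fun h => mem_alternatingGroup.mpr (sgn h)
  have hψ : Function.Surjective ψ := fun σ => (sur σ (mem_alternatingGroup.mp σ.2)).imp
    fun h e => Subtype.ext e
  haveI := alternatingGroup.isSimpleGroup (α := α) (by simpa using h5)
  rcases (Subgroup.Normal.map ‹N.Normal› ψ hψ).eq_bot_or_eq_top with h | h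
  · refine Or.inl fun x hx => ?_
    have : ψ x = 1 := Subgroup.mem_bot.mp (h ▸ Subgroup.mem_map_of_mem ψ hx)
    exact congrArg Subtype.val this
  · refine Or.inr fun σ hσ => ?_
    obtain ⟨x, hx, e⟩ := h.ge (Subgroup.mem_top (⟨σ, mem_alternatingGroup.mpr hσ⟩ :
      alternatingGroup α))
    exact ⟨x, hx, congrArg Subtype.val e⟩

lemma restr {β : Type*} (ι : β ↪ α) (φ : H →* Perm α) :
    ∃ (C : Subgroup H) (ψ : C →* Perm β), (∀ h : C, φ h = viaEmbeddingHom ι (ψ h)) ∧
      ∀ h σ, φ h = viaEmbeddingHom ι σ → h ∈ C := by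
  let e := MonoidHom.ofInjective (viaEmbeddingHom_injective ι)
  refine ⟨(viaEmbeddingHom ι).range.comap φ, e.symm.toMonoidHom.comp
    ((φ.comp (Subgroup.subtype _)).codRestrict _ fun h => h.2), fun h => ?_, fun h σ e => ⟨σ, e.symm⟩⟩
  exact (congrArg Subtype.val (e.apply_symm_apply ⟨φ h, h.2⟩)).symm

lemma CE.restr {β : Type*} [DecidableEq β] [Fintype β] {ι : β ↪ α} (hφ : CE φ) {C : Subgroup H}
    {ψ : C →* Perm β} (h1 : ∀ h : C, φ h = viaEmbeddingHom ι (ψ h))
    (h2 : ∀ h σ, φ h = viaEmbeddingHom ι σ → h ∈ C) : CE ψ := by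
  refine ⟨fun h => by rw [← sign_emb ι, ← h1, hφ.sgn], fun σ hσ => ?_, fun h e g => ?_⟩
  · obtain ⟨h, e⟩ := hφ.sur _ ((sign_emb ι σ).trans hσ)
    exact ⟨⟨h, h2 h σ e⟩, viaEmbeddingHom_injective ι ((h1 _).symm.trans e)⟩
  · exact Subtype.ext (hφ.cen h (by rw [h1, e, map_one]) g)

variable (hφ : CE φ) (h8 : 8 ≤ Fintype.card α)
include hφ h8

lemma exists_inverter {a b c d e f : α} (h : D6 a b c d e f) : ∃ g i : α,
    D6 a b c e g f ∧ D6 a b c g i e ∧ φ (t3 φ e g f * t3 φ g i e) a = a ∧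
      φ (t3 φ e g f * t3 φ g i e) b = b ∧ φ (t3 φ e g f * t3 φ g i e) c = c ∧
      φ (t3 φ e g f * t3 φ g i e) d = d ∧ φ (t3 φ e g f * t3 φ g i e) e = f ∧
      φ (t3 φ e g f * t3 φ g i e) f = e := by
  obtain ⟨g, hg⟩ := exists_notMem_list [a, b, c, d, e, f] (by simp; omega)
  obtain ⟨i, hi⟩ := exists_notMem_list [a, b, c, d, e, f, g] (by simp; omega)
  simp only [List.mem_cons, List.not_mem_nil, or_false, not_or] at hg hi
  rw [d6_iff] at h
  have h1 : D3 e g f := by unfold D3 at *; grind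
  have h2 : D3 g i e := by unfold D3 at *; grind
  refine ⟨g, i, d6_iff.mpr (by grind), d6_iff.mpr (by grind), ?_⟩
  simp only [map_mul, hφ.t3_map h8 h1, hφ.t3_map h8 h2, Perm.mul_apply, cy_apply h1, cy_apply h2]
  unfold D3 at *
  grind

lemma dich [IsAlgClosed k] [FiniteDimensional k V] (h : ¬ NC φ ρ) : ∃ a b c, D3 a b c ∧
    ∃ Y : Submodule k V, (∀ g, φ g a = a → φ g b = b → φ g c = c → ∀ v ∈ Y, ρ g v ∈ Y) ∧
      2 * finrank k Y ≤ finrank k V ∧ ∃ d e f, D6 a b c d e f ∧ ∃ v ∈ Y, ρ (t3 φ d e f) v ≠ v := by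
  simp only [NC, not_forall] at h
  obtain ⟨a, b, c, d, e, f, h6, h⟩ := h
  have h3 := (d6_iff.mp h6).1
  refine ⟨a, b, c, h3, ?_⟩
  by_contra hc
  push Not at hc
  have t3' : ρ (t3 φ a b c) ^ 3 = 1 := by rw [← map_pow, hφ.t3_pow h8 h3, map_one]
  have cm : ∀ g, φ g a = a → φ g b = b → φ g c = c → Commute (ρ g) (ρ (t3 φ a b c)) :=
    fun g h1 h2 h4 => Commute.map (hφ.t3_comm h8 h3 h1 h2 h4) ρ
  have cm' : ∀ d e f, D6 a b c d e f → Commute (ρ (t3 φ d e f)) (ρ (t3 φ a b c)) :=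
    fun d e f h => by
      rw [d6_iff] at h
      apply cm <;> rw [hφ.t3_map h8 h.2.1] <;> apply cy_ne <;> grind
  set t := ρ (t3 φ a b c) with ht
  by_cases p3 : (3 : k) = 0
  · have N3 : (t - 1) * ((t - 1) * (t - 1)) = 0 := by
      have : (3 : End k V) = 0 := by
        have := congrArg (algebraMap k (End k V)) p3; rwa [map_ofNat, map_zero] at this
      calc _ = t ^ 3 - 1 - 3 * (t ^ 2 - t) := by noncomm_ring
        _ = 0 := by rw [t3', this]; simp
    have hY := hc (LinearMap.range (t - 1) ⊓ LinearMap.ker (t - 1)) (fun g h1 h2 h4 v hv => by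
      have e := ((cm g h1 h2 h4).sub_right (Commute.one_right _)).eq
      obtain ⟨⟨w, rfl⟩, hw⟩ := hv
      refine ⟨⟨ρ g w, (LinearMap.congr_fun e w).symm⟩, ?_⟩
      rw [SetLike.mem_coe, LinearMap.mem_ker] at hw ⊢
      rw [← End.mul_apply, ← e, End.mul_apply, hw, map_zero]) (by
        have h1 := (t - 1).finrank_range_add_finrank_ker
        have h2 := Submodule.finrank_mono (inf_le_left (a := LinearMap.range (t - 1))
          (b := LinearMap.ker (t - 1)))
        have h4 := Submodule.finrank_mono (inf_le_right (a := LinearMap.range (t - 1))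
          (b := LinearMap.ker (t - 1)))
        omega)
    have k1 : ∀ d e f, D6 a b c d e f → ∀ T : End k V, Commute T (t - 1) →
        (t - 1) * (T * (t - 1)) = 0 → ρ (t3 φ d e f) * (T * (t - 1)) = T * (t - 1) :=
      fun d e f h T h1 h2 => LinearMap.ext fun v =>
        hY d e f h _ ⟨⟨T v, (LinearMap.congr_fun h1.eq v).symm⟩, LinearMap.congr_fun h2 v⟩
    have k2 : ∀ d e f d' e' f', D6 a b c d e f → D6 a b c d' e' f' →
        ρ (t3 φ d e f) * (ρ (t3 φ d' e' f') * (t - 1)) =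
          ρ (t3 φ d e f) * (t - 1) + ρ (t3 φ d' e' f') * (t - 1) - (t - 1) :=
      fun d e f d' e' f' h h' => by
        have c1 := ((cm' _ _ _ h').sub_right (Commute.one_right _)).sub_left (Commute.one_left _)
        have := k1 d e f h _ c1 (by
          rw [← mul_assoc, ← c1.eq, mul_assoc, sub_mul, one_mul,
            k1 _ _ _ h' _ (Commute.refl _) N3, sub_self])
        rw [sub_mul, mul_sub, one_mul, sub_eq_iff_eq_add] at this
        rw [this]; abel
    obtain ⟨g, i, g1, g2, -, -, -, g3, g4, g5⟩ := exists_inverter hφ h8 h6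
    have h4 := (d6_iff.mp h6).2.1
    have g6 := hφ.t3_conj h8 h4 (t3 φ e g f * t3 φ g i e)
    rw [g3, g4, g5, mul_inv_eq_iff_eq_mul] at g6
    have h7 : D6 a b c d f e := by rw [d6_iff] at *; unfold D3 at *; grind
    have g7 := congrArg (fun x => ρ x * (t - 1)) g6
    simp only [map_mul, mul_assoc] at g7
    rw [k2 _ _ _ _ _ _ g2 h6, k2 _ _ _ _ _ _ g1 g2, mul_sub _ (_ + _), mul_sub _ (_ + _), mul_add,
      mul_add, k2 _ _ _ _ _ _ g1 g2, k2 _ _ _ _ _ _ g1 h6, k2 _ _ _ _ _ _ h7 g1, k2 _ _ _ _ _ _ h7 g2] at g7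
    have g8 : ρ (t3 φ d e f) * (t - 1) = ρ (t3 φ d f e) * (t - 1) := by
      linear_combination (norm := abel1) g7
    apply h
    have g9 := congrArg (ρ (t3 φ d e f)⁻¹ * ·) g8
    simp only [← mul_assoc, ← map_mul] at g9
    rw [hφ.t3_sq h8 h4, pow_two, inv_mul_cancel_left, inv_mul_cancel, map_one] at g9
    rw [sub_mul, g9, sub_self]
  haveI : NeZero ((3 : ℕ) : k) := ⟨by exact_mod_cast p3⟩
  obtain ⟨ζ, hζ⟩ := HasEnoughRootsOfUnity.exists_primitiveRoot k 3
  have z1 : ζ ^ 2 + ζ + 1 = 0 := by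
    have := hζ.geom_sum_eq_zero (by decide)
    simp only [Finset.sum_range_succ, Finset.range_zero, Finset.sum_empty] at this
    linear_combination this
  have key : ∀ x y : k, x + y = -1 → x * y = 1 → ∀ v, t (t (t v)) = v →
      ρ (t3 φ d e f) (t (t v - v) - y • (t v - v)) = t (t v - v) - y • (t v - v) := by
    intro x y h1 h2 v hv
    refine hc (LinearMap.ker (t - x • 1)) (fun g g1 g2 g3 v hv => ?_) ?_ d e f h6 _ ?_
    · have e := ((cm g g1 g2 g3).sub_right ((Commute.one_right _).smul_right x)).eq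
      rw [LinearMap.mem_ker] at hv ⊢
      rw [← End.mul_apply, ← e, End.mul_apply, hv, map_zero]
    · obtain ⟨g, i, -, -, -, -, -, g3, g4, g5⟩ := exists_inverter hφ h8 (a := d) (b := e) (c := f)
        (d := a) (e := b) (f := c) (by rw [d6_iff] at *; grind)
      have g6 := hφ.t3_conj h8 h3 (t3 φ b g c * t3 φ g i b)
      rw [g3, g4, g5, hφ.t3_inv h8 h3] at g6
      set s := t3 φ b g c * t3 φ g i b
      have g7 : t3 φ a b c * s * t3 φ a b c = s := by
        rw [mul_inv_eq_iff_eq_mul] at g6; rw [mul_assoc, g6]; group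
      set Y := LinearMap.ker (t - x • 1)
      have i1 := LinearEquiv.finrank_eq (Submodule.equivMapOfInjective (ρ s)
        (fun v w e => by simpa [rho_inv] using congrArg (ρ s⁻¹) e) Y)
      have i2 := Submodule.finrank_sup_add_finrank_inf_eq Y (Y.map (ρ s))
      have i3 : Y ⊓ Y.map (ρ s) = ⊥ := by
        rw [eq_bot_iff]
        rintro _ ⟨h4, w, h5, rfl⟩
        simp only [Y, SetLike.mem_coe, LinearMap.mem_ker, LinearMap.sub_apply,
          LinearMap.smul_apply, End.one_apply, sub_eq_zero] at h4 h5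
        have := congrArg (fun x => ρ x w) g7
        simp only [rho_mul, ← ht, h5, map_smul, h4, smul_smul] at this
        have h6 : (x * x - 1) • ρ s w = 0 := by rw [sub_smul, this, one_smul, sub_self]
        refine (smul_eq_zero.mp h6).resolve_left fun e => p3 ?_
        have : x = y := by linear_combination y * e - x * h2
        subst this
        linear_combination (2 * x - 1) * h1 - 4 * h2
      have i4 := (Y ⊔ Y.map (ρ s)).finrank_le
      rw [i3, finrank_bot] at i2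
      omega
    · simp only [LinearMap.mem_ker, LinearMap.sub_apply, map_sub, map_smul, hv,
        LinearMap.smul_apply, End.one_apply]
      match_scalars
      · linear_combination (-1 : k) * h2
      · linear_combination (-1 : k) * h1
      · linear_combination h1 + h2
  apply h
  ext v
  have hv : t (t (t v)) = v := by
    have := LinearMap.congr_fun t3' v; simpa [pow_succ] using this
  have z3 := hζ.pow_eq_one
  have e1 := key ζ (ζ ^ 2) (by linear_combination z1) (by linear_combination z3) v hv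
  have e2 := key (ζ ^ 2) ζ (by linear_combination z1) (by linear_combination z3) v hv
  have e3 : (ζ - ζ ^ 2) • (ρ (t3 φ d e f) (t v - v) - (t v - v)) = 0 := by
    rw [map_sub (ρ _) (t (t v - v)), map_smul] at e1 e2
    linear_combination (norm := module) e1 - e2
  refine (smul_eq_zero.mp e3).resolve_left fun e => hζ.ne_one (by decide) ?_
  linear_combination (-ζ ^ 2) * e - (ζ - 1) * z3

theorem half [IsAlgClosed k] [FiniteDimensional k V] (h : ¬ NC φ ρ) :
    ∃ (a b c : α) (C : Subgroup H) (ψ : C →* Perm {x // ¬ (x = a ∨ x = b ∨ x = c)})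
      (Y : Submodule k V) (ρ' : C →* End k Y),
      Fintype.card {x // ¬ (x = a ∨ x = b ∨ x = c)} + 3 = Fintype.card α ∧ CE ψ ∧
        (∀ h, ρ' h = 1 → ψ h = 1) ∧ 2 * finrank k Y ≤ finrank k V := by
  obtain ⟨a, b, c, h3, Y, h1, h2, d, e, f, h6, v, hv, h4⟩ := dich ρ hφ h8 h
  set ι := Function.Embedding.subtype fun x => ¬ (x = a ∨ x = b ∨ x = c)
  obtain ⟨C, ψ, c1, c2⟩ := restr ι φ
  have fx : ∀ (g : C) x, x = a ∨ x = b ∨ x = c → φ g x = x := fun g x hx => by
    rw [c1, emb_out]; rintro ⟨y, rfl⟩; exact y.2 hx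
  have hc : Fintype.card {x // ¬ (x = a ∨ x = b ∨ x = c)} + 3 = Fintype.card α := by
    have : Fintype.card {x // x = a ∨ x = b ∨ x = c} = 3 := by
      rw [Fintype.card_of_subtype {a, b, c} (by simp)]
      exact Finset.card_eq_three.mpr ⟨a, b, c, h3.1, h3.2.1, h3.2.2, rfl⟩
    rw [Fintype.card_subtype_compl, this]; omega
  let ρ' := Representation.subrepresentation (ρ.comp C.subtype) Y fun g v hv =>
    h1 g (fx g a (by simp)) (fx g b (by simp)) (fx g c (by simp)) v hv
  have hψ := hφ.restr c1 c2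
  refine ⟨a, b, c, C, ψ, Y, ρ', hc, hψ, ?_, h2⟩
  refine (normal_cases (by omega) hψ.sgn hψ.sur (MonoidHom.ker ρ')).resolve_right fun h5 => h4 ?_
  obtain ⟨g, i, g1, g2, -, -, -, g3, g4, g5⟩ := exists_inverter hφ h8 h6
  have m : ∀ d e f, D6 a b c d e f → ∃ σ, cy d e f = viaEmbeddingHom ι σ ∧ sign σ = 1 :=
    fun d e f h => by
      rw [d6_iff] at h
      exact ⟨cy ⟨d, by tauto⟩ ⟨e, by tauto⟩ ⟨f, by tauto⟩, by rw [emb_cy]; rfl,
        sign_cy (by simpa [D3] using h.2.1)⟩
  have m' : ∀ d e f, D6 a b c d e f → t3 φ d e f ∈ C := fun d e f h => by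
    obtain ⟨σ, e, -⟩ := m d e f h
    exact c2 _ σ ((hφ.t3_map h8 (d6_iff.mp h).2.1).trans e)
  obtain ⟨σ, e1, e2⟩ := m d e f h6
  obtain ⟨x, hx, rfl⟩ := h5 σ e2
  obtain ⟨y, hy, e3⟩ := t3_mem_of hφ h8 (B := (MonoidHom.ker ρ').map C.subtype)
    (d6_iff.mp h6).2.1 ⟨x, hx, rfl⟩ ((c1 x).trans e1.symm) g3 g4 g5
    ⟨_, (MonoidHom.normal_ker ρ').conj_mem x hx ⟨_, mul_mem (m' _ _ _ g1) (m' _ _ _ g2)⟩, rfl⟩
  rw [← e3]
  exact congrArg Subtype.val (LinearMap.congr_fun (MonoidHom.mem_ker.mp hy) ⟨v, hv⟩)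

end Cfsg.Agent.H6A
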