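import Cfsg.Agent.H6.AS4
import Mathlib.GroupTheory.Frattini
import Mathlib.Algebra.Module.ZMod
import Mathlib.FieldTheory.Finiteness
import Mathlib.LinearAlgebra.FreeModule.Finite.Matrix
import Mathlib.Algebra.Group.TransferInstance

/-!
Degrees of linear groups with an alternating section (Feit-Tits reduction).
-/

set_option autoImplicit false

namespace Cfsg.Agent.H6A

open Equiv Equiv.Perm Module Subgroup

variable {α : Type*} [DecidableEq α] [Fintype α] {H : Type*} [Group H] {φ : H →* Perm α}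

/-- minimal covers of the alternating group -/
structure Mn (φ : H →* Perm α) : Prop where
  sgn : ∀ h, sign (φ h) = 1
  sur : ∀ σ, sign σ = 1 → ∃ h, φ h = σ
  min : ∀ S : Subgroup H, (∀ σ, sign σ = 1 → ∃ h ∈ S, φ h = σ) → S = ⊤

lemma exists_mat0 {G W : Type*} [Group G] [AddCommGroup W] [Finite W] {l : ℕ} [Fact l.Prime]
    [Module (ZMod l) W] (θ : G → W →+ W) (h1 : ∀ w, θ 1 w = w)
    (h2 : ∀ a b w, θ (a * b) w = θ a (θ b w)) :
    ∃ (d : ℕ) (θ' : G →* Matrix (Fin d) (Fin d) (ZMod l)), (∀ g, θ' g = 1 ↔ ∀ w, θ g w = w) ∧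
      Nat.card W = l ^ d := by
  haveI : Module.Finite (ZMod l) W := Module.Finite.of_finite
  let θ' : G →* End (ZMod l) W :=
    { toFun := fun g => (θ g).toZModLinearMap l
      map_one' := LinearMap.ext h1
      map_mul' := fun a b => LinearMap.ext (h2 a b) }
  let e := LinearMap.toMatrixAlgEquiv (finBasis (ZMod l) W)
  refine ⟨_, e.toMonoidHom.comp θ', fun g => ?_, ?_⟩
  · change e (θ' g) = 1 ↔ _
    rw [map_eq_one_iff e e.injective]
    exact LinearMap.ext_iff
  · have := natCard_eq_pow_finrank (K := ZMod l) (V := W)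
    rwa [Nat.card_zmod] at this

lemma exists_mat {G W : Type*} [Group G] [CommGroup W] [Finite W] {l : ℕ} (hl : l.Prime)
    (hW : ∀ w : W, w ^ l = 1) (θ : G →* MulAut W) :
    ∃ (d : ℕ) (θ' : G →* Matrix (Fin d) (Fin d) (ZMod l)), (∀ g, θ' g = 1 ↔ θ g = 1) ∧
      Nat.card W = l ^ d := by
  haveI := Fact.mk hl
  letI : Module (ZMod l) (Additive W) := AddCommGroup.zmodModule hW
  obtain ⟨d, θ', h1, h2⟩ := exists_mat0 (W := Additive W) (l := l)
    (fun g => MonoidHom.toAdditive (θ g).toMonoidHom)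
    (fun w => MulEquiv.congr_fun (map_one θ) w) fun a b w => MulEquiv.congr_fun (map_mul θ a b) w
  exact ⟨d, θ', fun g => (h1 g).trans (MulEquiv.ext_iff (f := θ g) (g := 1)).symm, h2⟩

section mn
variable (hm : Mn φ) (h5 : 5 ≤ Fintype.card α)
include hm h5

lemma Mn.normal (N : Subgroup H) [N.Normal] : (∀ h ∈ N, φ h = 1) ∨ N = ⊤ :=
  (normal_cases h5 hm.sgn hm.sur N).imp id (hm.min N)

lemma Mn.perfect {M : Type*} [Monoid M] (f : H →* M) (hf : ∀ g h, f g * f h = f h * f g) (g : H) :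
    f g = 1 := by
  refine ((hm.normal h5 f.ker).resolve_left fun h => ?_).ge (mem_top g)
  obtain ⟨ι⟩ : Nonempty (Fin 4 ↪ α) := Function.Embedding.nonempty_of_card_le (by simp; omega)
  obtain ⟨x, hx⟩ := hm.sur _ ((sign_emb ι (sw [(0, 1), (0, 2)])).trans (sign_sw _ (by decide)))
  obtain ⟨y, hy⟩ := hm.sur _ ((sign_emb ι (sw [(0, 1), (0, 3)])).trans (sign_sw _ (by decide)))
  have := h (x * y * (y * x)⁻¹) (by
    rw [MonoidHom.mem_ker, map_mul, map_mul, hf x, ← map_mul, ← map_mul]; simp)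
  simp only [map_mul, map_inv, hx, hy] at this
  simp only [← map_mul, ← map_inv] at this
  rw [← map_one (viaEmbeddingHom ι)] at this
  exact absurd (viaEmbeddingHom_injective ι this) (by decide +kernel)

lemma Mn.exists_ne : ∃ h, φ h ≠ 1 := by
  obtain ⟨ι⟩ : Nonempty (Fin 3 ↪ α) := Function.Embedding.nonempty_of_card_le (by simp; omega)
  have : D3 (ι 0) (ι 1) (ι 2) := by simp [D3]
  obtain ⟨x, hx⟩ := hm.sur _ (sign_cy this)
  exact ⟨x, hx ▸ cy_ne_one this⟩

variable [Finite H]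

lemma Mn.index {S : Subgroup H} (hS : S ≠ ⊤) : Fintype.card α ≤ S.index := by
  classical
  have h1 : S.normalCore ≤ φ.ker := (hm.normal h5 S.normalCore).resolve_right
    fun e => hS (top_le_iff.mp (e ▸ S.normalCore_le))
  have h2 := Nat.le_of_dvd (Nat.pos_of_ne_zero index_ne_zero_of_finite) (index_dvd_of_le h1)
  have h3 : φ.range = alternatingGroup α := by
    ext σ; exact ⟨by rintro ⟨x, rfl⟩; exact hm.sgn x, hm.sur σ⟩
  haveI : Nontrivial α := Fintype.one_lt_card_iff_nontrivial.mp (by omega)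
  have h4 := two_mul_nat_card_alternatingGroup (α := α)
  rw [index_ker, h3, normalCore_eq_ker, index_ker] at h2
  have h6 := h2.trans (card_le_card_group _)
  rw [Nat.card_perm] at h4 h6
  rw [Nat.card_eq_fintype_card (α := α)] at h4
  by_contra h7
  obtain ⟨r, hr⟩ : ∃ r, Fintype.card α = r + 1 := ⟨Fintype.card α - 1, by omega⟩
  have h8 := Nat.factorial_le (m := Nat.card (H ⧸ S)) (n := r) (by unfold Subgroup.index at h7; omega)
  rw [hr, Nat.factorial_succ] at h4
  have := Nat.factorial_pos r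
  nlinarith

omit h5 in
lemma Mn.nilp : Group.IsNilpotent φ.ker := by
  haveI := frattini_nilpotent (G := H)
  have : φ.ker ≤ frattini H := by
    refine le_iInf₂ fun M hM => ?_
    by_contra h
    refine hM.1 (hm.min M fun σ hσ => ?_)
    obtain ⟨x, rfl⟩ := hm.sur σ hσ
    have := hM.2 (M ⊔ φ.ker) (lt_of_le_of_ne le_sup_left fun e => h (e ▸ le_sup_right))
    obtain ⟨y, hy, z, hz, e⟩ := mem_sup_of_normal_right.mp (this.ge (mem_top x))
    exact ⟨y, hy, by rw [← e, map_mul, MonoidHom.mem_ker.mp hz, mul_one]⟩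
  exact Group.nilpotent_of_mulEquiv (subgroupOfEquivOfLe this)

variable {N : Subgroup H} [N.Normal] (h1 : N ≤ φ.ker)
  (h3 : ∀ M : Subgroup H, M.Normal → M < N → M ≤ center H)
include h1 h3

omit h5 in
lemma Mn.comm_mem {x y : H} (hx : x ∈ N) (hy : y ∈ N) : x * y * x⁻¹ * y⁻¹ ∈ center H := by
  by_cases h : N = ⊥
  · rw [h, mem_bot] at hx; simp [hx, one_mem]
  haveI := hm.nilp
  haveI : Group.IsNilpotent N := Group.nilpotent_of_mulEquiv (subgroupOfEquivOfLe h1)
  refine h3 ⁅N, N⁆ inferInstance ?_ (commutator_mem_commutator hx hy)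
  haveI := (nontrivial_iff_ne_bot N).mpr h
  rw [← N.range_subtype, MonoidHom.range_eq_map, ← map_commutator, map_subtype_lt_map_subtype]
  exact Group.IsSolvable.commutator_lt_top_of_nontrivial N

omit h5 hm h1 [Finite H] in
lemma mem_center_of {M : Subgroup H} [M.Normal] (h : ¬ N ≤ M) {x : H} (hx : x ∈ N) (h' : x ∈ M) :
    x ∈ center H :=
  h3 (N ⊓ M) inferInstance (lt_of_le_of_ne inf_le_left fun e => h (e ▸ inf_le_right)) ⟨hx, h'⟩

lemma Mn.exists_W (h2 : ¬ N ≤ center H) : ∃ (l d : ℕ) (θ : H →* Matrix (Fin d) (Fin d) (ZMod l)),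
    l.Prime ∧ (∀ h, θ h = 1 → φ h = 1) ∧ (∃ h ≠ 1, θ h = 1) ∧
      Nat.card (N.map (QuotientGroup.mk' (center H))) = l ^ d := by
  set π := QuotientGroup.mk' (center H)
  have hπ : ∀ x, π x = 1 ↔ x ∈ center H := fun x => QuotientGroup.eq_one_iff x
  have c1 : ∀ x ∈ N, ∀ y ∈ N, Commute (π x) (π y) := fun x hx y hy => by
    have := (hπ _).mpr (hm.comm_mem h1 h3 hx hy)
    rwa [map_mul, map_mul, map_mul, map_inv, map_inv, mul_inv_eq_one, mul_inv_eq_iff_eq_mul] at this
  obtain ⟨x, hx, hx'⟩ := SetLike.not_le_iff_exists.mp h2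
  obtain ⟨l, hl, m, hm'⟩ := Nat.exists_prime_and_dvd (n := orderOf (π x))
    fun e => hx' ((hπ x).mp (orderOf_eq_one_iff.mp e))
  let M : Subgroup H :=
    { carrier := {y | y ∈ N ∧ π y ^ l = 1}
      mul_mem' := fun {a b} ha hb => ⟨mul_mem ha.1 hb.1, by
        rw [map_mul, (c1 a ha.1 b hb.1).mul_pow, ha.2, hb.2, one_mul]⟩
      one_mem' := ⟨one_mem _, by simp⟩
      inv_mem' := fun {a} ha => ⟨inv_mem ha.1, by rw [map_inv, inv_pow, ha.2, inv_one]⟩ }
  have M1 : M.Normal := ⟨fun a ha g => ⟨Normal.conj_mem ‹_› a ha.1 g, by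
    rw [map_mul, map_mul, map_inv, conj_pow, ha.2]; simp⟩⟩
  have M2 : N ≤ M := by
    by_contra h
    have := (hπ _).mpr (mem_center_of h3 h (pow_mem hx m) ⟨pow_mem hx m, by
      rw [map_pow, ← pow_mul, mul_comm, ← hm', pow_orderOf_eq_one]⟩)
    rw [map_pow, ← orderOf_dvd_iff_pow_eq_one, hm'] at this
    have h0 : 0 < m := Nat.pos_of_ne_zero fun e => (orderOf_pos (π x)).ne' (by rw [hm', e]; rfl)
    have := Nat.le_of_dvd h0 this
    nlinarith [hl.two_le]
  haveI : (N.map π).Normal := Normal.map ‹_› π (QuotientGroup.mk'_surjective _)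
  letI : CommGroup (N.map π) :=
    { (inferInstance : Group (N.map π)) with
      mul_comm := by rintro ⟨_, a, ha, rfl⟩ ⟨_, b, hb, rfl⟩; exact Subtype.ext (c1 a ha b hb) }
  obtain ⟨d, θ, h4, h6⟩ := exists_mat (W := N.map π) hl
    (by rintro ⟨_, a, ha, rfl⟩; exact Subtype.ext (M2 ha).2)
    ((MulAut.conjNormal (H := N.map π)).comp π)
  have hθ : ∀ g, θ g = 1 ↔ ∀ y ∈ N, π g * π y * (π g)⁻¹ = π y := fun g => (h4 g).trans
    ⟨fun h y hy => congrArg Subtype.val (MulEquiv.congr_fun h ⟨_, y, hy, rfl⟩),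
      fun h => MulEquiv.ext (by rintro ⟨_, y, hy, rfl⟩; exact Subtype.ext (h y hy))⟩
  refine ⟨l, d, θ, hl, (hm.normal h5 θ.ker).resolve_right (fun h4 => hx' ?_),
    ⟨x, fun e => hx' (e ▸ one_mem _), (hθ x).mpr fun y hy => by rw [(c1 x hx y hy).eq]; simp⟩, h6⟩
  have h6 : ∀ g, g * x * g⁻¹ * x⁻¹ ∈ center H := fun g => (hπ _).mp (by
    simp only [map_mul, map_inv, (hθ g).mp (h4.ge (mem_top g)) x hx, mul_inv_cancel])
  refine mem_center_iff.mpr fun g => ?_
  have := hm.perfect h5 (MonoidHom.mk' (fun g => g * x * g⁻¹ * x⁻¹) fun a b => by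
    have := mem_center_iff.mp (h6 b) (x * a⁻¹ * x⁻¹)
    calc _ = a * (b * x * b⁻¹ * x⁻¹ * (x * a⁻¹ * x⁻¹)) := by group
      _ = _ := by rw [← this]; group) (fun a b => mem_center_iff.mp (h6 b) _) g
  rwa [MonoidHom.mk'_apply, mul_inv_eq_one, mul_inv_eq_iff_eq_mul] at this

end mn

section rep
variable {k V : Type*} [Field k] [AddCommGroup V] [Module k V] [FiniteDimensional k V]
  (ρ : H →* End k V)

/-- a nonabelian normal subgroup needs a large degree -/
lemma card_W_le [Nontrivial V] {N : Subgroup H}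
    (h1 : ∀ x ∈ N, ∀ y ∈ N, ∃ c : k, ρ (y * x * y⁻¹ * x⁻¹) = c • 1)
    (h2 : ∀ x ∈ N, (∀ y ∈ N, ρ (y * x) = ρ (x * y)) → x ∈ center H) [Finite H] :
    Nat.card (N.map (QuotientGroup.mk' (center H))) ≤ finrank k V ^ 2 := by
  choose x hx e using fun w : N.map (QuotientGroup.mk' (center H)) => w.2
  choose c hc using h1
  have k1 : ∀ w (y : N), ρ (y * x w) = c _ (hx w) y y.2 • ρ (x w * y) := fun w y => by
    rw [← one_mul (ρ (x w * y)), ← smul_mul_assoc, ← hc, ← map_mul]; congr 1; group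
  haveI := Fintype.ofFinite (N.map (QuotientGroup.mk' (center H)))
  have k0 : ∀ g, ρ g ≠ 0 := fun g e => by
    obtain ⟨v, hv⟩ := exists_ne (0 : V)
    exact hv (rho_inj ρ g (by rw [e]; rfl))
  have := (eig_indep (fun y : N => LinearMap.mulLeftRight k (ρ y, ρ y⁻¹)) (fun w => ρ (x w))
    (fun w y => c _ (hx w) y y.2) (fun w => k0 _) (fun w y => by
      rw [LinearMap.mulLeftRight_apply, ← map_mul, k1, smul_mul_assoc, ← map_mul]; simp)
    fun w w' h => by
      have := h2 ((x w)⁻¹ * x w') (mul_mem (inv_mem (hx w)) (hx w')) fun y hy => by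
        have a1 := congrArg (fun T => ρ (x w)⁻¹ * T * ρ ((x w)⁻¹ * x w')) (k1 w ⟨y, hy⟩)
        have a2 := congrArg (ρ (x w)⁻¹ * ·) (k1 w' ⟨y, hy⟩)
        have a3 : c _ (hx w) y hy = c _ (hx w') y hy := congrFun h ⟨y, hy⟩
        simp only [mul_smul_comm, smul_mul_assoc, ← map_mul, mul_assoc, mul_inv_cancel_left,
          inv_mul_cancel_left, a3] at a1 a2
        rw [mul_assoc]
        exact smul_right_injective _ (fun e => k0 _ (by rw [a2, e, zero_smul])) (a1.symm.trans a2)
      exact Subtype.ext (by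
        rw [← e w, ← e w']; exact QuotientGroup.eq.mpr this)).fintype_card_le_finrank
  rwa [finrank_linearMap, ← pow_two, ← Nat.card_eq_fintype_card] at this

/-- an abelian normal subgroup with a non-invariant weight -/
lemma index_le {N : Subgroup H} [N.Normal] [Finite H] {v : V} (hv : v ≠ 0) (χ : N → k)
    (hχ : ∀ n : N, ρ n v = χ n • v) : ∃ S : Subgroup H, S.index ≤ finrank k V ∧
      ∀ g ∈ S, ∀ n : N, ρ n (ρ g v) = χ n • ρ g v := by
  let S : Subgroup H :=
    { carrier := {g | ∀ n : N, χ (MulAut.conjNormal g⁻¹ n) = χ n}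
      mul_mem' := fun {a b} ha hb n => by
        rw [mul_inv_rev, map_mul, MulAut.mul_apply, hb, ha]
      one_mem' := fun n => by simp
      inv_mem' := fun {a} ha n => by
        rw [← ha, ← MulAut.mul_apply, ← map_mul]; simp }
  have k1 : ∀ g (n : N), ρ n (ρ g v) = χ (MulAut.conjNormal g⁻¹ n) • ρ g v := fun g n => by
    rw [← map_smul, ← hχ, ← rho_mul, ← rho_mul]; simp [mul_assoc]
  refine ⟨S, ?_, fun g hg n => by rw [k1, hg n]⟩
  haveI := Fintype.ofFinite (H ⧸ S)
  have := (eig_indep (fun n : N => ρ n) (fun q : H ⧸ S => ρ q.out v)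
    (fun q n => χ (MulAut.conjNormal q.out⁻¹ n)) (fun q e => hv (rho_inj ρ _ e))
    (fun q n => k1 _ n) fun q q' h => by
      rw [← q.out_eq, ← q'.out_eq]
      refine QuotientGroup.eq.mpr fun n => ?_
      have := congrFun h (MulAut.conjNormal q.out n)
      simp only [← MulAut.mul_apply, ← map_mul] at this
      rw [mul_inv_rev, inv_inv, ← this]; simp).fintype_card_le_finrank
  rwa [← Nat.card_eq_fintype_card] at this

end rep

/-- the data of an alternating section of a linear group -/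
structure Sec {k V : Type*} [Field k] [AddCommGroup V] [Module k V] (φ : H →* Perm α)
    (ρ : H →* End k V) : Prop where
  sgn : ∀ h, sign (φ h) = 1
  sur : ∀ σ, sign σ = 1 → ∃ h, φ h = σ
  fth : ∀ h, ρ h = 1 → φ h = 1

/-- change of the ground field -/
noncomputable def matRep {F k : Type*} [CommRing F] [Field k] (σ : F →+* k) {I : Type*} [Fintype I]
    [DecidableEq I] (θ : H →* Matrix I I F) : H →* End k (I → k) :=
  (Matrix.toLinAlgEquiv' (R := k)).toMonoidHom.comp (σ.mapMatrix.toMonoidHom.comp θ)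

lemma matRep_eq_one {F k : Type*} [Field F] [Field k] (σ : F →+* k) {I : Type*} [Fintype I]
    [DecidableEq I] (θ : H →* Matrix I I F) (h : H) : matRep σ θ h = 1 ↔ θ h = 1 := by
  change Matrix.toLinAlgEquiv' (σ.mapMatrix (θ h)) = 1 ↔ _
  rw [map_eq_one_iff _ (AlgEquiv.injective _), map_eq_one_iff]
  exact Matrix.map_injective σ.injective

lemma sq_lt {n : ℕ} (h : 5 ≤ n) : n ^ 2 < 2 ^ n := by
  induction n, h using Nat.le_induction with
  | base => decide
  | succ n h ih => rw [pow_succ 2]; nlinarith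

/-- the statement for all groups, for a given degree -/
def Claim (r N n : ℕ) : Prop :=
  ∀ (k : Type) [Field k] [IsAlgClosed k] (p : ℕ) [CharP k p] (α : Type) [DecidableEq α]
    [Fintype α] (H : Type) [Group H] [Finite H] (V : Type) [AddCommGroup V] [Module k V]
    [FiniteDimensional k V] (φ : H →* Perm α) (ρ : H →* End k V), Fintype.card α = r →
    Nat.card H = N → finrank k V = n → Sec φ ρ → r - 1 - (if p ∣ r then 1 else 0) ≤ n

theorem claim (r : ℕ) : 9 ≤ r → ∀ N n, Claim r N n := by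
  induction r using Nat.strong_induction_on with
  | _ r ihr =>
  intro h9 N
  induction N using Nat.strong_induction_on with
  | _ N ihN =>
  have quo : ∀ (k : Type) [Field k] [IsAlgClosed k] (p : ℕ) [CharP k p] (α : Type) [DecidableEq α]
      [Fintype α] (H : Type) [Group H] [Finite H] (V : Type) [AddCommGroup V] [Module k V]
      [FiniteDimensional k V] (φ : H →* Perm α) (ρ : H →* End k V), Fintype.card α = r →
      Nat.card H = N → Sec φ ρ → (∃ h ≠ 1, ρ h = 1) →
      r - 1 - (if p ∣ r then 1 else 0) ≤ finrank k V := by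
    intro k _ _ p _ α _ _ H _ _ V _ _ _ φ ρ hr hN hs ⟨x, hx, hx'⟩
    refine ihN _ ?_ _ k p α (H ⧸ ρ.ker) V (QuotientGroup.lift ρ.ker φ hs.fth)
      (QuotientGroup.lift ρ.ker ρ le_rfl) hr rfl rfl ⟨fun q => ?_, fun σ hσ => ?_, fun q => ?_⟩
    · rw [← hN, card_eq_card_quotient_mul_card_subgroup ρ.ker]
      exact lt_mul_of_one_lt_right Nat.card_pos ((one_lt_card_iff_ne_bot _).mpr
        fun e => hx (mem_bot.mp (e ▸ hx')))
    · obtain ⟨g, rfl⟩ := QuotientGroup.mk_surjective q; exact hs.sgn g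
    · obtain ⟨g, rfl⟩ := hs.sur σ hσ; exact ⟨g, rfl⟩
    · obtain ⟨g, rfl⟩ := QuotientGroup.mk_surjective q; exact hs.fth g
  intro n
  induction n using Nat.strong_induction_on with
  | _ n ihn =>
  intro k _ _ p _ α _ _ H _ _ V _ _ _ φ ρ hr hN hn hs
  by_cases m1 : ∀ S : Subgroup H, (∀ σ, sign σ = 1 → ∃ h ∈ S, φ h = σ) → S = ⊤
  swap
  · push Not at m1
    obtain ⟨S, h1, h2⟩ := m1
    refine ihN _ ?_ n k p α S V (φ.comp S.subtype) (ρ.comp S.subtype) hr rfl hn
      ⟨fun h => hs.sgn h, fun σ hσ => ?_, fun h => hs.fth h⟩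
    · by_contra h; exact h2 (eq_top_of_le_card S (by omega))
    · obtain ⟨h, h3, h4⟩ := h1 σ hσ; exact ⟨⟨h, h3⟩, h4⟩
  have hm : Mn φ := ⟨hs.sgn, hs.sur, m1⟩
  by_cases m2 : ∀ h, ρ h = 1 → h = 1
  swap
  · push Not at m2
    obtain ⟨h, h1, h2⟩ := m2
    exact hn ▸ quo k p α H V φ ρ hr hN hs ⟨h, h2, h1⟩
  have h5 : 5 ≤ Fintype.card α := by omega
  obtain ⟨x₀, hx₀⟩ := hm.exists_ne h5
  haveI : Nontrivial V := by
    by_contra h
    rw [not_nontrivial_iff_subsingleton] at h
    exact hx₀ (hs.fth _ (Subsingleton.elim _ _))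
  by_cases m3 : ∀ U : Submodule k V, (∀ g, U ≤ U.comap (ρ g)) → U = ⊥ ∨ U = ⊤
  swap
  · push Not at m3
    obtain ⟨U, h1, h2, h3⟩ := m3
    have d1 := U.finrank_quotient_add_finrank
    have d2 := Submodule.finrank_lt h3
    have d3 : 0 < finrank k U := by
      rw [finrank_pos_iff, Submodule.nontrivial_iff_ne_bot]; exact h2
    rcases hm.normal h5 (MonoidHom.ker (Representation.subrepresentation ρ U h1)) with h4 | h4
    · exact (ihn _ (by omega) k p α H U φ _ hr hN rfl ⟨hs.sgn, hs.sur, h4⟩).trans (by omega)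
    rcases hm.normal h5 (MonoidHom.ker (Representation.quotient ρ U h1)) with h6 | h6
    · exact (ihn _ (by omega) k p α H (V ⧸ U) φ _ hr hN rfl ⟨hs.sgn, hs.sur, h6⟩).trans (by omega)
    have e : ∀ g h v, ρ g (ρ h v - v) = ρ h v - v := fun g h v =>
      congrArg Subtype.val (LinearMap.congr_fun (MonoidHom.mem_ker.mp (h4.ge (mem_top g)))
        ⟨_, (Submodule.Quotient.eq U).mp (LinearMap.congr_fun
          (MonoidHom.mem_ker.mp (h6.ge (mem_top h))) (Submodule.Quotient.mk v))⟩)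
    refine (hx₀ (hs.fth _ (hm.perfect h5 ρ (fun g h => LinearMap.ext fun v => ?_) _))).elim
    have e1 := e g h v
    have e2 := e h g v
    rw [map_sub] at e1 e2
    simp only [End.mul_apply]
    linear_combination (norm := abel1) e1 - e2
  have schur : ∀ z ∈ center H, ∃ c : k, ρ z = c • 1 := fun z hz => by
    obtain ⟨c, hc⟩ := End.exists_eigenvalue (ρ z)
    refine ⟨c, LinearMap.ext fun v => End.mem_eigenspace_iff.mp
      (((m3 _ fun g v hv => ?_).resolve_left hc).ge Submodule.mem_top)⟩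
    rw [Submodule.mem_comap, End.mem_eigenspace_iff] at *
    rw [← rho_mul, ← mem_center_iff.mp hz, rho_mul, hv, map_smul]
  by_cases m4 : φ.ker ≤ center H
  · have hφ : CE φ := ⟨hs.sgn, hs.sur, fun h e => mem_center_iff.mp (m4 e)⟩
    have h8 : 8 ≤ Fintype.card α := by omega
    by_cases nc : NC φ ρ
    · rw [← hr, ← hn]
      refine natural_bound ρ hφ (by omega) nc (fun h e v hv e1 => ?_) (fun v hv => ?_) p
      · obtain ⟨c, hc⟩ := schur h (m4 e)
        rw [hc] at e1
        rw [smul_left_injective k hv (e1.trans (one_smul k v).symm), one_smul] at hc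
        exact m2 h hc
      · have e1 := m1 (stab ρ v) fun σ hσ => (hv σ hσ).imp fun h e => ⟨e.2, e.1⟩
        have e2 : ∀ g, ρ g v = v := fun g => e1.ge (mem_top g)
        rcases m3 (k ∙ v) (fun g => by
          rw [Submodule.span_singleton_le_iff_mem, Submodule.mem_comap, e2]
          exact Submodule.mem_span_singleton_self v) with e3 | e3
        · exact Submodule.span_singleton_eq_bot.mp e3
        · refine (hx₀ (hs.fth _ (LinearMap.ext fun w => ?_))).elim
          obtain ⟨c, rfl⟩ := Submodule.mem_span_singleton.mp (e3.ge (Submodule.mem_top (x := w)))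
          simp [e2]
    have pc : ∀ q : ℕ, q.Prime → (q : k) = 0 → p = q := fun q hq e =>
      ((Nat.dvd_prime hq).mp ((CharP.cast_eq_zero_iff k p q).mp e)).resolve_left
        (CharP.char_ne_one k p)
    obtain ⟨a, b, c, C, ψ, Y, ρ', e1, e2, e3, e4⟩ := half ρ hφ h8 nc
    by_cases r12 : 12 ≤ r
    · have := ihr (r - 3) (by omega) (by omega) _ _ k p _ C Y ψ ρ' (by omega) rfl rfl
        ⟨e2.sgn, e2.sur, e3⟩
      split_ifs at * <;> omega
    have n2 : (5 : k) = 0 ∨ (3 : k) = 0 → (2 : k) ≠ 0 := fun h e => by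
      have := pc 2 (by decide) (by exact_mod_cast e)
      rcases h with h | h
      · have := pc 5 (by decide) (by exact_mod_cast h); omega
      · have := pc 3 (by decide) (by exact_mod_cast h); omega
    by_cases r9 : r = 9
    · by_cases p3 : (3 : k) = 0
      · have := bound_seven ρ hφ h8 (n2 (Or.inr p3)) hs.fth
        rw [pc 3 (by decide) (by exact_mod_cast p3), r9, if_pos (by decide)]; omega
      · have := bound_three ρ hφ h8 (by omega) p3 nc; omega
    by_cases p5 : (5 : k) = 0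
    swap
    · have := bound_five ρ hφ h8 (by omega) p5 nc; omega
    by_cases r10 : r = 10
    · have := bound_three ρ hφ h8 (by omega) (fun e => by
        have := pc 3 (by decide) (by exact_mod_cast e)
        have := pc 5 (by decide) (by exact_mod_cast p5); omega) nc
      rw [pc 5 (by decide) (by exact_mod_cast p5), r10, if_pos (by decide)]; omega
    · have := bound_seven ρ' e2 (by omega) (n2 (Or.inl p5)) e3; omega
  obtain ⟨N, ⟨n1, n2, n3⟩, n4⟩ := wellFounded_lt.has_min
    {N : Subgroup H | N.Normal ∧ N ≤ φ.ker ∧ ¬ N ≤ center H} ⟨φ.ker, inferInstance, le_rfl, m4⟩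
  have n5 : ∀ M : Subgroup H, M.Normal → M < N → M ≤ center H := fun M h1 h2 => by
    by_contra h; exact n4 M ⟨h1, h2.le.trans n2, h⟩ h2
  have ρi : Function.Injective ρ := fun a b e => by
    rw [← mul_inv_eq_one]; apply m2; rw [map_mul, e, ← map_mul]; simp
  by_cases m5 : N ≤ centralizer N
  · obtain ⟨v, hv, h1⟩ := H2.exists_common_eigenvector (fun n : N => ρ n) fun a b => by
      rw [← map_mul, ← map_mul, m5 b.2 a a.2]
    choose χ hχ using h1
    obtain ⟨S, h2, h3⟩ := index_le ρ hv χ hχ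
    by_cases h4 : S = ⊤
    swap
    · have := hm.index h5 h4; omega
    refine (n3 fun x hx => mem_center_iff.mpr fun g => ρi ?_).elim
    have := (m3 (⨅ n : N, (ρ n).eigenspace (χ n)) (fun g w hw => ?_)).resolve_left
      ((Submodule.ne_bot_iff _).mpr ⟨v, by simpa [End.mem_eigenspace_iff] using hχ, hv⟩)
    · have e : ρ x = χ ⟨x, hx⟩ • 1 := LinearMap.ext fun w => End.mem_eigenspace_iff.mp
        ((Submodule.mem_iInf _).mp (this.ge Submodule.mem_top) ⟨x, hx⟩)
      simp [e]
    · simp only [Submodule.mem_comap, Submodule.mem_iInf, End.mem_eigenspace_iff] at hw ⊢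
      intro n
      have a1 := h3 g (h4.ge (mem_top g)) n
      have a2 : ∀ u, ρ n (ρ g u) = ρ g (ρ (MulAut.conjNormal g⁻¹ n : N) u) := fun u => by
        rw [← rho_mul, ← rho_mul]; simp [mul_assoc]
      rw [a2, hχ, map_smul] at a1
      rw [a2, hw, map_smul, smul_left_injective k (fun e => hv (rho_inj ρ g e)) a1]
  obtain ⟨l, d, θ, l1, l2, l3, l4⟩ := hm.exists_W h5 n2 n5 n3
  haveI := Fact.mk l1
  have b1 := quo (AlgebraicClosure (ZMod l)) l α H _ φ (matRep (algebraMap _ _) θ) hr hN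
    ⟨hs.sgn, hs.sur, fun h e => l2 h ((matRep_eq_one _ θ h).mp e)⟩
    (l3.imp fun h e => ⟨e.1, (matRep_eq_one _ θ h).mpr e.2⟩)
  have b2 := card_W_le ρ (N := N) (fun x hx y hy => schur _ (hm.comm_mem n2 n5 hy hx))
    fun x hx h => mem_center_of n5 m5 hx fun y hy => ρi (h y hy)
  rw [finrank_fintype_fun_eq_card, Fintype.card_fin] at b1
  have b3 : 2 ^ (r - 2) ≤ l ^ d := (Nat.pow_le_pow_right (by decide) (by split_ifs at b1 <;> omega)
    ).trans (Nat.pow_le_pow_left l1.two_le d)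
  have b4 := sq_lt (n := r - 2) (by omega)
  have := lt_of_pow_lt_pow_left₀ 2 (Nat.zero_le _) (b4.trans_le (b3.trans (l4 ▸ b2)))
  omega

theorem matrix_bound {F : Type*} [Field F] [Finite F] (p : ℕ) [Fact p.Prime] [CharP F p]
    {I : Type} [Fintype I] [DecidableEq I] {G : Type*} [Group G] [Finite G] {r : ℕ} (hr : 9 ≤ r)
    (φ : G →* Perm (Fin r)) (θ : G →* Matrix I I F) (h1 : ∀ h, sign (φ h) = 1)
    (h2 : ∀ σ, sign σ = 1 → ∃ h, φ h = σ) (h3 : ∀ h, θ h = 1 → φ h = 1) :
    r - 1 - (if p ∣ r then 1 else 0) ≤ Fintype.card I := by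
  letI := ZMod.algebra F p
  let σ : F →ₐ[ZMod p] AlgebraicClosure (ZMod p) := IsAlgClosed.lift
  letI := (Fin.equivSubtype.symm.trans (Finite.equivFin G).symm).group
  let e : {i // i < Nat.card G} ≃* G := (Fin.equivSubtype.symm.trans (Finite.equivFin G).symm).mulEquiv
  haveI : Finite {i // i < Nat.card G} := Finite.of_equiv _ e.symm.toEquiv
  have := claim r hr _ _ (AlgebraicClosure (ZMod p)) p (Fin r) ({i // i < Nat.card G}) _
    (φ.comp e.toMonoidHom) (matRep σ.toRingHom (θ.comp e.toMonoidHom)) (by simp) rfl rfl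
    ⟨fun h => h1 _, fun σ hσ => (h2 σ hσ).elim fun h e' => ⟨e.symm h, by simpa using e'⟩,
      fun h e' => h3 _ ((matRep_eq_one _ _ h).mp e')⟩
  rwa [finrank_fintype_fun_eq_card] at this

end Cfsg.Agent.H6A
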