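import Cfsg.Agent.H6.AS5

/-!
Clifford relations and sums of weight spaces.
-/

set_option autoImplicit false

namespace Cfsg.Agent.H6A

open Module

variable {k V : Type*} [Field k] [AddCommGroup V] [Module k V] [FiniteDimensional k V]

lemma sum_finrank_le {I J : Type*} [Fintype J] (x : I → End k V) (W : J → Submodule k V)
    (c : J → I → k) (he : ∀ j i, ∀ v ∈ W j, x i v = c j i • v) (hc : Function.Injective c) :
    ∑ j, finrank k (W j) ≤ finrank k V := by
  classical
  rw [← finrank_pi_fintype]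
  refine LinearMap.finrank_le_finrank_of_injective
    (f := ∑ j, (W j).subtype ∘ₗ LinearMap.proj j) ((injective_iff_map_eq_zero _).mpr fun w hw => ?_)
  funext j
  by_contra hj
  have := Fintype.linearIndependent_iff.mp (eig_indep x (fun i : {i // w i ≠ 0} => (w i : V))
    (fun i => c i) (fun i e => i.2 (Subtype.ext e)) (fun j i => he j i _ (w j).2)
    (hc.comp Subtype.val_injective)) (fun _ => 1) (by
      simp only [LinearMap.sum_apply, LinearMap.comp_apply, LinearMap.proj_apply,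
        Submodule.subtype_apply] at hw
      simp only [one_smul]
      rw [← hw, ← Finset.sum_subtype (Finset.univ.filter fun i => w i ≠ 0) (by simp)
        fun i => (w i : V)]
      exact Finset.sum_filter_of_ne fun i _ h e => h (by rw [e]; rfl)) ⟨j, hj⟩
  exact one_ne_zero this

lemma two_le {Y W : Submodule k V} {s : End k V} (hs : Function.Injective s) (h1 : Y ≤ W)
    (h2 : Y.map s ≤ W) (h3 : Y ⊓ Y.map s = ⊥) : 2 * finrank k Y ≤ finrank k W := by
  have i1 := LinearEquiv.finrank_eq (Submodule.equivMapOfInjective s hs Y)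
  have i2 := Submodule.finrank_sup_add_finrank_inf_eq Y (Y.map s)
  have i4 := Submodule.finrank_mono (sup_le h1 h2)
  rw [h3, finrank_bot] at i2
  omega

lemma cliff [IsAlgClosed k] (h2 : (2 : k) ≠ 0) (e : ℕ → End k V) (n : ℕ) :
    (∀ a < 2 * n, ∀ b < 2 * n, a ≠ b → e a * e b = -(e b * e a)) →
    (∀ a < 2 * n, ∃ c : k, c ≠ 0 ∧ e a * e a = c • 1) →
    ∀ W : Submodule k V, W ≠ ⊥ → (∀ a < 2 * n, ∀ v ∈ W, e a v ∈ W) → 2 ^ n ≤ finrank k W := by
  induction n with
  | zero => exact fun _ _ W hW _ => by simpa [Nat.one_le_iff_ne_zero] using hW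
  | succ n ih =>
    intro h3 h4 W hW h5
    obtain ⟨c, c0, hc⟩ := h4 (2 * n) (by omega)
    obtain ⟨d, d0, hd⟩ := h4 (2 * n + 1) (by omega)
    have h6 := h3 (2 * n + 1) (by omega) (2 * n) (by omega) (by omega)
    have h7 : ∀ a < 2 * n, e (2 * n) * e (2 * n + 1) * e a = e a * (e (2 * n) * e (2 * n + 1)) :=
      fun a ha => by
        rw [mul_assoc, h3 (2 * n + 1) (by omega) a (by omega) (by omega), mul_neg, ← mul_assoc,
          h3 (2 * n) (by omega) a (by omega) (by omega)]
        simp [mul_assoc]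
    have m1 := h5 (2 * n) (by omega)
    have m2 := h5 (2 * n + 1) (by omega)
    set x := e (2 * n)
    set y := e (2 * n + 1)
    obtain ⟨l, hl⟩ := IsAlgClosed.exists_eq_mul_self (-(c * d))
    have l0 : l ≠ 0 := by rintro rfl; simp [c0, d0] at hl
    have a1 : ∀ v, x (x v) = c • v := LinearMap.congr_fun hc
    have a2 : ∀ v, y (y v) = d • v := LinearMap.congr_fun hd
    have a3 : ∀ v, y (x v) = -x (y v) := LinearMap.congr_fun h6
    have xi : Function.Injective x := (injective_iff_map_eq_zero _).mpr fun v hv =>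
      (smul_eq_zero.mp ((a1 v).symm.trans (by rw [hv, map_zero]))).resolve_left c0
    have mem : ∀ v, v ∈ W ⊓ (x * y).eigenspace l ↔ v ∈ W ∧ x (y v) = l • v := fun v => by
      rw [Submodule.mem_inf, End.mem_eigenspace_iff]; rfl
    have i1 := ih (fun a ha b hb => h3 a (by omega) b (by omega)) (fun a ha => h4 a (by omega))
      (W ⊓ (x * y).eigenspace l) (by
        obtain ⟨w, hw, w0⟩ := (Submodule.ne_bot_iff _).mp hW
        rw [Submodule.ne_bot_iff]
        by_cases h : x (y w) + l • w = 0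
        · refine ⟨x w, (mem _).mpr ⟨m1 w hw, ?_⟩, fun e => w0 (xi (by rw [e, map_zero]))⟩
          rw [a3, ← map_smul, eq_neg_of_add_eq_zero_left h, neg_neg]
        · refine ⟨_, (mem _).mpr ⟨add_mem (m1 _ (m2 _ hw)) (W.smul_mem _ hw), ?_⟩, h⟩
          simp only [map_add, map_smul, a3, map_neg, a1, a2, smul_add, smul_smul, ← hl]
          module)
      fun a ha v hv => by
        rw [mem] at hv ⊢
        refine ⟨h5 a (by omega) v hv.1, ?_⟩
        have := LinearMap.congr_fun (h7 a ha) v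
        simp only [End.mul_apply] at this
        rw [this, hv.2, map_smul]
    have i2 := two_le (Y := W ⊓ (x * y).eigenspace l) (W := W) xi inf_le_left
      (by rintro _ ⟨v, hv, rfl⟩; exact m1 v hv.1) (by
        rw [eq_bot_iff]
        rintro _ ⟨g1, v, g2, rfl⟩
        rw [SetLike.mem_coe, mem] at g1 g2
        have := g1.2
        rw [a3, g2.2, map_neg, map_smul, neg_eq_iff_add_eq_zero, ← add_smul, ← two_mul] at this
        exact (smul_eq_zero.mp this).resolve_left (mul_ne_zero h2 l0))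
    omega

/-- orthogonal vectors for the Gram matrix `1 + 2 δ` -/
def clM (a : ℕ) : Fin 10 → ℤ :=
  [![1, -1, 0, 0, 0, 0, 0, 0, 0, 0], ![0, 0, 1, -1, 0, 0, 0, 0, 0, 0],
    ![0, 0, 0, 0, 1, -1, 0, 0, 0, 0], ![0, 0, 0, 0, 0, 0, 1, -1, 0, 0],
    ![0, 0, 0, 0, 0, 0, 0, 0, 1, -1], ![1, 1, -1, -1, 0, 0, 0, 0, 0, 0],
    ![0, 0, 0, 0, 1, 1, -1, -1, 0, 0], ![1, 1, 1, 1, -1, -1, -1, -1, 0, 0],
    ![1, 1, 1, 1, 1, 1, 1, 1, -4, -4], ![1, 1, 1, 1, 1, 1, 1, 1, 1, 1]].getD a 0

lemma cliff10 [IsAlgClosed k] [Nontrivial V] (h30 : (30 : k) ≠ 0) (T : Fin 10 → End k V)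
    (h1 : ∀ i, T i * T i + T i + 1 = 0)
    (h2 : ∀ i j, i ≠ j → T i * T j + T j * T i + T i + T j + 1 = 0) : 32 ≤ finrank k V := by
  have n2 : (2 : k) ≠ 0 := fun e => h30 (by linear_combination 15 * e)
  let U : (Fin 10 → ℤ) → End k V := fun x => ∑ i, x i • (2 * T i + 1)
  let G : (Fin 10 → ℤ) → (Fin 10 → ℤ) → ℤ := fun x y =>
    ∑ i, ∑ j, x i * y j * (if i = j then -6 else -2)
  have key : ∀ x y, U x * U y + U y * U x = (G x y : k) • 1 := fun x y => by
    simp only [U, G, Finset.sum_mul_sum, Int.cast_smul_eq_zsmul, Finset.sum_smul]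
    rw [Finset.sum_comm (f := fun i j => y i • (2 * T i + 1) * x j • (2 * T j + 1)),
      ← Finset.sum_add_distrib]
    refine Finset.sum_congr rfl fun i _ => ?_
    rw [← Finset.sum_add_distrib]
    refine Finset.sum_congr rfl fun j _ => ?_
    rw [smul_mul_smul_comm, smul_mul_smul_comm, mul_comm (y j), ← smul_add, mul_smul (x i * y j)]
    congr 1
    split_ifs with h
    · subst h
      linear_combination (norm := noncomm_ring) 8 * h1 i
    · linear_combination (norm := noncomm_ring) 4 * h2 i j h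
  have d1 : ∀ a < 10, ∀ b < 10, a ≠ b → G (clM a) (clM b) = 0 := by decide +kernel
  have d2 : ∀ a < 10, G (clM a) (clM a) ∣ 480 := by decide +kernel
  rw [← finrank_top]
  refine cliff n2 (fun a => U (clM a)) 5 (fun a ha b hb h => ?_) (fun a ha => ?_) ⊤ top_ne_bot
    fun _ _ _ _ => trivial
  · rw [eq_neg_iff_add_eq_zero, key, d1 a ha b hb h]; simp
  · refine ⟨2⁻¹ * G (clM a) (clM a), mul_ne_zero (inv_ne_zero n2) fun e => ?_, ?_⟩
    · obtain ⟨c, hc⟩ := d2 a ha
      have := congrArg (Int.cast : ℤ → k) hc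
      rw [Int.cast_mul, e, zero_mul, Int.cast_ofNat] at this
      exact mul_ne_zero (pow_ne_zero 4 n2) h30 (by linear_combination this)
    · rw [mul_smul, ← key, ← two_smul k, smul_smul, inv_mul_cancel₀ n2, one_smul]

end Cfsg.Agent.H6A
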