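import Cfsg.Agent.H6.AS6

/-!
Modules of dimension at most 27 for central extensions of the alternating group of degree 12.
-/

set_option autoImplicit false

namespace Cfsg.Agent.H6A

open Equiv Equiv.Perm Module

def σ4 : Fin 4 → Perm (Fin 12) := ![cy 0 1 2, cy 3 4 5, cy 6 7 8, cy 9 10 11]

def L4 : List (List (Fin 12 × Fin 12) × (Fin 4 → Fin 4) × (Fin 4 → ℕ)) :=
  [([(0, 3), (1, 4), (2, 5), (1, 2)], ![1, 0, 2, 3], ![2, 1, 1, 1]),
   ([(3, 6), (4, 7), (5, 8), (4, 5)], ![0, 2, 1, 3], ![1, 2, 1, 1]),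
   ([(6, 9), (7, 10), (8, 11), (7, 8)], ![0, 1, 3, 2], ![1, 1, 2, 1]),
   ([(0, 9), (1, 10), (2, 11), (1, 2)], ![3, 1, 2, 0], ![2, 1, 1, 1])]

lemma hL4 : ∀ y ∈ L4, ((∀ x ∈ y.1, x.1 ≠ x.2) ∧ Even y.1.length) ∧
    ∀ i, sw y.1 * σ4 i = σ4 (y.2.1 i) ^ y.2.2 i * sw y.1 := by decide +kernel

def R4 (a : Fin 4 → ZMod 3) : List (Fin 4 → ZMod 3) :=
  reach (L4.map fun y a i => (y.2.2 i : ZMod 3) * a (y.2.1 i)) 4 [a]

def S12 : List (Fin 4 → ZMod 3) :=
  [![0, 1, 1, 0], ![0, 1, 2, 0], ![0, 2, 1, 0], ![0, 2, 2, 0], ![0, 1, 0, 1], ![0, 1, 0, 2],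
    ![0, 2, 0, 1], ![0, 2, 0, 2], ![0, 0, 1, 1], ![0, 0, 1, 2], ![0, 0, 2, 1], ![0, 0, 2, 2]]

lemma hR4 : ∀ a : Fin 4 → ZMod 3, a 0 ≠ 0 → a 1 ≠ 0 → a 2 = 0 → 28 ≤ (R4 a).dedup.length ∨
    ∀ b ∈ ![1, 1, 0, 0] :: ![2, 1, 0, 0] :: S12, b ∈ R4 a := by decide +kernel

variable {α : Type} [DecidableEq α] [Fintype α] {H : Type} [Group H] [Finite H]
  {φ : H →* Perm α} {k V : Type} [Field k] [IsAlgClosed k] [AddCommGroup V] [Module k V]
  [FiniteDimensional k V] (ρ : H →* End k V)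

omit [Finite H] in
lemma exists_wt' {l : ℕ} [NeZero l] {ζ : k} (hζ : IsPrimitiveRoot ζ l) {n : ℕ} (x : Fin n → H)
    (hl : (l : k) ≠ 0) (hc : ∀ i j, x i * x j = x j * x i) (hx : ∀ i, x i ^ l = 1) (E : End k V)
    (hE : E ≠ 0) (h : ∀ i, ρ (x i) * E = E * ρ (x i)) : ∃ a : Fin n → ZMod l, Wt ρ ζ x a ∧
      (∀ i E', E = (ρ (x i) - 1) * E' → a i ≠ 0) ∧ ∀ i, ρ (x i) * E = E → a i = 0 := by
  obtain ⟨v, ⟨w, hw⟩, hv, h1⟩ := exists_eig (fun i => ρ (x i))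
    (fun i j => by rw [← map_mul, hc, map_mul]) (LinearMap.range E)
    (fun e => hE (LinearMap.range_eq_bot.mp e))
    (by rintro i _ ⟨w, rfl⟩; exact ⟨_, (LinearMap.congr_fun (h i) w).symm⟩)
  have h2 : ∀ i, ∃ a : ZMod l, ρ (x i) v = ζ ^ a.val • v := fun i => by
    obtain ⟨c, hc⟩ := h1 i
    have := rho_pow ρ hc l
    rw [hx, map_one, End.one_apply] at this
    obtain ⟨j, hj, rfl⟩ := hζ.eq_pow_of_pow_eq_one (ξ := c) (smul_left_injective k hv
      (by simpa using this.symm))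
    exact ⟨j, by rw [ZMod.val_cast_of_lt hj, hc]⟩
  choose a ha using h2
  refine ⟨a, ⟨v, hv, ha⟩, fun i E' e h0 => ?_, fun i e => ?_⟩
  · refine moved_of_range (x := ρ (x i)) (by rw [← map_pow, hx, map_one]) hl hv (w := E' w)
      (by rw [← hw, e]; rfl) ?_
    rw [ha, h0]; simp
  · have := LinearMap.congr_fun e w
    rw [End.mul_apply, hw, ha] at this
    rw [← ZMod.val_eq_zero]
    exact hζ.pow_inj (ZMod.val_lt _) (NeZero.pos l)
      (smul_left_injective k hv (by simpa using this))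

variable (hφ : CE φ) (h12 : Fintype.card α = 12) (h30 : (30 : k) ≠ 0)
include hφ h12 h30

lemma nine {a b c d e f : α} (h6 : D6 a b c d e f) (Y : Submodule k V)
    (h1 : ∀ g, φ g a = a → φ g b = b → φ g c = c → ∀ v ∈ Y, ρ g v ∈ Y) {v : V} (hv : v ∈ Y)
    (h4 : ρ (t3 φ d e f) v ≠ v) : 8 ≤ finrank k Y := by
  have h8 : 8 ≤ Fintype.card α := by omega
  have h3 := (d6_iff.mp h6).1
  set ι := Function.Embedding.subtype fun x => ¬ (x = a ∨ x = b ∨ x = c)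
  obtain ⟨C, ψ, c1, c2⟩ := restr ι φ
  have fx : ∀ (g : C) x, x = a ∨ x = b ∨ x = c → φ g x = x := fun g x hx => by
    rw [c1, emb_out]; rintro ⟨y, rfl⟩; exact y.2 hx
  have hc : Fintype.card {x // ¬ (x = a ∨ x = b ∨ x = c)} = 9 := by
    have : Fintype.card {x // x = a ∨ x = b ∨ x = c} = 3 := by
      rw [Fintype.card_of_subtype {a, b, c} (by simp)]
      exact Finset.card_eq_three.mpr ⟨a, b, c, h3.1, h3.2.1, h3.2.2, rfl⟩
    rw [Fintype.card_subtype_compl, this]; omega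
  let ρ' := Representation.subrepresentation (ρ.comp C.subtype) Y fun g v hv =>
    h1 g (fx g a (by simp)) (fx g b (by simp)) (fx g c (by simp)) v hv
  have hψ := hφ.restr c1 c2
  haveI := ringChar.charP k
  have := claim 9 le_rfl _ _ k (ringChar k) _ C Y ψ ρ' hc rfl rfl ⟨hψ.sgn, hψ.sur, ?_⟩
  · rwa [if_neg fun h => h30 ?_] at this
    have : (3 : k) ^ 2 = 0 := by
      have := (CharP.cast_eq_zero_iff k _ 9).mpr h
      rw [Nat.cast_ofNat] at this; linear_combination this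
    linear_combination 10 * (pow_eq_zero_iff two_ne_zero).mp this
  refine (normal_cases (by omega) hψ.sgn hψ.sur (MonoidHom.ker ρ')).resolve_right fun h5 => h4 ?_
  obtain ⟨g, i, g1, g2, -, -, -, g3, g4, g5⟩ := exists_inverter hφ h8 h6
  have m : ∀ d e f, D6 a b c d e f → ∃ σ, cy d e f = viaEmbeddingHom ι σ ∧ sign σ = 1 :=
    fun d e f h => by
      rw [d6_iff] at h
      exact ⟨cy ⟨d, by tauto⟩ ⟨e, by tauto⟩ ⟨f, by tauto⟩, by rw [emb_cy]; rfl,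
        sign_cy (by simpa [D3] using h.2.1)⟩
  have m' : ∀ d e f, D6 a b c d e f → t3 φ d e f ∈ C := fun d e f h => by
    obtain ⟨σ, e, -⟩ := m d e f h
    exact c2 _ σ ((hφ.t3_map h8 (d6_iff.mp h).2.1).trans e)
  obtain ⟨σ, e1, e2⟩ := m d e f h6
  obtain ⟨x, hx, rfl⟩ := h5 σ e2
  obtain ⟨y, hy, e3⟩ := t3_mem_of hφ h8 (B := (MonoidHom.ker ρ').map C.subtype)
    (d6_iff.mp h6).2.1 ⟨x, hx, rfl⟩ ((c1 x).trans e1.symm) g3 g4 g5
    ⟨_, (MonoidHom.normal_ker ρ').conj_mem x hx ⟨_, mul_mem (m' _ _ _ g1) (m' _ _ _ g2)⟩, rfl⟩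
  rw [← e3]
  exact congrArg Subtype.val (LinearMap.congr_fun (MonoidHom.mem_ker.mp hy) ⟨v, hv⟩)

/-- the quadratic condition for three disjoint three-cycles -/
lemma qc (h27 : finrank k V ≤ 27) (ι : Fin 12 ↪ α) :
    (ρ (t3 φ (ι 0) (ι 1) (ι 2)) - 1) * ((ρ (t3 φ (ι 3) (ι 4) (ι 5)) - 1) *
      (ρ (t3 φ (ι 6) (ι 7) (ι 8)) ^ 2 + ρ (t3 φ (ι 6) (ι 7) (ι 8)) + 1)) = 0 := by
  have h8 : 8 ≤ Fintype.card α := by omega
  have h3 : ((3 : ℕ) : k) ≠ 0 := fun e => h30 (by rw [Nat.cast_ofNat] at e; linear_combination 10 * e)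
  haveI : NeZero ((3 : ℕ) : k) := ⟨h3⟩
  obtain ⟨ζ, hζ⟩ := HasEnoughRootsOfUnity.exists_primitiveRoot k 3
  have h1 : ∀ i, Nc (σ4 i) := fun i => by fin_cases i <;> exact nc_cy (by simp) (by simp [D3])
  set x : Fin 4 → H := fun i => tau φ (viaEmbeddingHom ι (σ4 i))
  have x0 : x 0 = t3 φ (ι 0) (ι 1) (ι 2) := congrArg (tau φ) (emb_cy ι 0 1 2)
  have x1 : x 1 = t3 φ (ι 3) (ι 4) (ι 5) := congrArg (tau φ) (emb_cy ι 3 4 5)
  have x2 : x 2 = t3 φ (ι 6) (ι 7) (ι 8) := congrArg (tau φ) (emb_cy ι 6 7 8)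
  have hc : ∀ i j, x i * x j = x j * x i := fun i j => by
    have := hφ.emb_conj h8 ι (h1 j) (h1 j) (hφ.tau_spec ((h1 i).emb ι)).1 (n := 1)
      (by rw [pow_one]; revert i j; decide +kernel)
    rw [pow_one] at this
    exact mul_inv_eq_iff_eq_mul.mp this
  have hc' : ∀ i j, Commute (ρ (x i)) (ρ (x j)) := fun i j => Commute.map (hc i j) ρ
  have hx : ∀ i, x i ^ 3 = 1 := fun i => hφ.tau_pow ((h1 i).emb ι) (by decide)
    (by rw [← map_pow, show σ4 i ^ 3 = 1 by revert i; decide +kernel, map_one])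
  rw [← x0, ← x1, ← x2]
  by_contra hE
  have o1 := fun i j => (hc' i j).sub_right (Commute.one_right _)
  obtain ⟨a, ha, h4, h5⟩ := exists_wt' ρ hζ x h3 hc hx _ hE fun q => ((o1 q 0).mul_right
    ((o1 q 1).mul_right ((((hc' q 2).pow_right 2).add_right (hc' q 2)).add_right
      (Commute.one_right _)))).eq
  have hR : ∀ b ∈ R4 a, Wt ρ ζ x b := reach_mem (by
    simp only [List.mem_map]
    rintro _ ⟨y, hy, rfl⟩ b hb
    obtain ⟨g, hg⟩ := hφ.sur _ ((sign_emb ι _).trans (sign_sw _ (hL4 y hy).1))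
    exact hb.mono ρ hζ x fun i => hφ.emb_conj h8 ι (h1 _) (h1 _) hg ((hL4 y hy).2 i)) _ _
      (by simpa using ha)
  rcases hR4 a (h4 0 _ rfl) (h4 1 _ (by
    rw [← mul_assoc, ((o1 0 1).sub_left (Commute.one_left _)).eq, mul_assoc])) (h5 2 (by
      rw [← mul_assoc, (o1 2 0).eq, mul_assoc, ← mul_assoc (ρ (x 2)), (o1 2 1).eq, mul_assoc]
      have : ρ (x 2) ^ 3 = 1 := by rw [← map_pow, hx, map_one]
      congr 2
      linear_combination (norm := noncomm_ring) this)) with h | h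
  · have := wt_le ρ hζ x _ hR; omega
  have k1 : ∀ (c : ZMod 3), Wt ρ ζ x ![c, 1, 0, 0] →
      8 ≤ finrank k ((ρ (x 0)).eigenspace (ζ ^ c.val)) := fun c ⟨v, hv, h6⟩ => by
    refine nine ρ hφ h12 h30 (a := ι 0) (b := ι 1) (c := ι 2) (d := ι 3) (e := ι 4) (f := ι 5)
      (by simp [D6]) _ (fun g g1 g2 g3 w hw => ?_) (End.mem_eigenspace_iff.mpr (h6 0)) fun e => ?_
    · rw [End.mem_eigenspace_iff] at hw ⊢
      rw [← map_smul, ← hw, ← rho_mul, ← rho_mul, x0, hφ.t3_comm h8 (by simp [D3]) g1 g2 g3]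
    · rw [← x1, h6 1] at e
      exact hζ.ne_one (by decide) (smul_left_injective k hv
        (by simpa [show (1 : ZMod 3).val = 1 from rfl] using e))
  have k2 := k1 1 (hR _ (h _ (by simp)))
  have k3 := k1 2 (hR _ (h _ (by simp)))
  have k4 : 12 ≤ finrank k ((ρ (x 0)).eigenspace (ζ ^ (0 : ZMod 3).val)) := by
    choose v v1 v2 using fun b : S12.toFinset => hR b (h b (by
      simp only [List.mem_cons]; exact Or.inr (Or.inr (List.mem_toFinset.mp b.2))))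
    have := LinearIndependent.of_comp (v := fun b : S12.toFinset =>
      (⟨v b, End.mem_eigenspace_iff.mpr (by
        rw [v2, (by decide : ∀ b ∈ S12, b 0 = 0) b (List.mem_toFinset.mp b.2)])⟩ :
        (ρ (x 0)).eigenspace (ζ ^ (0 : ZMod 3).val))) (Submodule.subtype _)
      (eig_indep (fun i => ρ (x i)) v _ v1 v2 fun a b e => Subtype.ext (funext fun i =>
        ZMod.val_injective _ (hζ.pow_inj (ZMod.val_lt _) (ZMod.val_lt _) (congrFun e i))))
    have := this.fintype_card_le_finrank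
    rwa [Fintype.card_coe, show S12.toFinset.card = 12 by decide +kernel] at this
  have := sum_finrank_le (fun _ : Unit => ρ (x 0)) (fun c : ZMod 3 => (ρ (x 0)).eigenspace (ζ ^ c.val))
    (fun c _ => ζ ^ c.val) (fun _ _ _ => End.mem_eigenspace_iff.mp) fun a b e =>
      ZMod.val_injective _ (hζ.pow_inj (ZMod.val_lt _) (ZMod.val_lt _) (congrFun e ()))
  have h7 := Fin.sum_univ_three fun c : ZMod 3 => finrank k ((ρ (x 0)).eigenspace (ζ ^ c.val))
  erw [h7] at this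
  omega

end Cfsg.Agent.H6A
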