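import Cfsg.Agent.H6.AS7

/-!
Modules of dimension at most 27 satisfy the natural condition; subgroups of small index.
-/

set_option autoImplicit false

namespace Cfsg.Agent.H6A

open Equiv Equiv.Perm Module

lemma spin_rel {k R : Type*} [Field k] [Ring R] [Algebra k R] (h6 : (6 : k) ≠ 0) {A B C Z : R}
    (hA : A * A + A + 1 = 0) (hB : B * B + B + 1 = 0) (hC : C * C + C + 1 = 0) (hZ : Z * Z = 1)
    (h1 : A * B * (A * B) = Z) (h2 : B * A * (B * A) = Z) (h3 : A * C * (A * C) = Z)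
    (h4 : C * A * (C * A) = Z) (h5 : B * C * (B * C) = Z) (h7 : C * B * (C * B) = Z) :
    A * B + B * A + A + B + 1 = 0 := by
  have e : ∀ A B : R, A * A + A + 1 = 0 → B * B + B + 1 = 0 → A * B * (A * B) = Z →
      A * B = Z * ((B + 1) * (A + 1)) := fun A B hA hB h => by
    linear_combination (norm := noncomm_ring) h * ((B + 1) * (A + 1)) -
      A * B * A * hB * (A + 1) + A * B * hA
  have f : ∀ A B : R, A * A + A + 1 = 0 → B * B + B + 1 = 0 → A * B * (A * B) = Z →
      B * A * (B * A) = Z → 2 * ((1 + Z) * (A + B + 1)) = 0 := fun A B hA hB h h' => by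
    linear_combination (norm := noncomm_ring) -((1 + Z) * (e A B hA hB h + e B A hB hA h')) -
      hZ * ((B + 1) * (A + 1) + (A + 1) * (B + 1))
  have g : (6 : k) • (1 + Z) = 0 := by
    rw [Algebra.smul_def, map_ofNat]
    linear_combination (norm := noncomm_ring) 8 * (1 + Z) * hA -
      (f A B hA hB h1 h2 + f A C hA hC h3 h4 - f B C hB hC h5 h7) * (2 * A + 1)
  have g' := (smul_eq_zero.mp g).resolve_left h6
  linear_combination (norm := noncomm_ring) e A B hA hB h1 + g' * ((B + 1) * (A + 1))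

section
variable {α : Type*} [DecidableEq α] [Fintype α] {H : Type*} [Group H] {φ : H →* Perm α}

lemma zrel (hφ : CE φ) (h8 : 8 ≤ Fintype.card α) {a b c d e f : α} (h : D6 a b c d e f) :
    ∃ z : H, z * z = 1 ∧ (∀ g, g * z = z * g) ∧
      t3 φ a b c * t3 φ a b d * (t3 φ a b c * t3 φ a b d) = z ∧
      t3 φ a b c * t3 φ a b e * (t3 φ a b c * t3 φ a b e) = z ∧
      t3 φ a b d * t3 φ a b e * (t3 φ a b d * t3 φ a b e) = z := by
  rw [d6_iff] at h
  have d1 : D3 a b c := h.1
  have d2 : D3 a b d := by unfold D3 at *; grind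
  have d3 : D3 a b e := by unfold D3 at *; grind
  have d4 : D3 d e f := h.2.1
  have d5 : D3 c d f := by unfold D3 at *; grind
  have z1 := hφ.cen (t3 φ a b c * t3 φ a b d * (t3 φ a b c * t3 φ a b d)) (by
    simp only [map_mul, hφ.t3_map h8 d1, hφ.t3_map h8 d2]
    ext x
    simp only [Perm.mul_apply, cy_apply d1, cy_apply d2, one_apply]
    unfold D3 at *; grind)
  have cj : ∀ (g : H) x y, D3 a b x → D3 a b y → g * (t3 φ a b x * t3 φ a b y *
      (t3 φ a b x * t3 φ a b y)) * g⁻¹ = t3 φ (φ g a) (φ g b) (φ g x) * t3 φ (φ g a) (φ g b) (φ g y) *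
        (t3 φ (φ g a) (φ g b) (φ g x) * t3 φ (φ g a) (φ g b) (φ g y)) := fun g x y hx hy => by
    rw [← hφ.t3_conj h8 hx, ← hφ.t3_conj h8 hy]; group
  have z2 := cj (t3 φ d e f) c d d1 d2
  rw [z1, mul_inv_cancel_right, hφ.t3_map h8 d4, cy_a d4, cy_ne d e f (x := a) (by grind) (by grind)
    (by grind), cy_ne d e f (x := b) (by grind) (by grind) (by grind),
    cy_ne d e f (x := c) (by grind) (by grind) (by grind)] at z2
  have z3 := cj (t3 φ c d f) c e d1 d3
  unfold D3 at h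
  rw [← z2, z1, mul_inv_cancel_right, hφ.t3_map h8 d5, cy_a d5, cy_ne c d f (x := a) (by grind)
    (by grind) (by grind), cy_ne c d f (x := b) (by grind) (by grind) (by grind),
    cy_ne c d f (x := e) (by grind) (by grind) (by grind)] at z3
  refine ⟨_, ?_, z1, rfl, z2.symm, z3.symm⟩
  obtain ⟨g, hg⟩ := hφ.sur (swap a b * swap c d) (by
    simp [sign_swap d1.1, sign_swap d5.1])
  have z4 := cj g c d d1 d2
  have g1 : φ g a = b := by rw [hg]; simp only [Perm.mul_apply, swap_apply_def]; grind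
  have g2 : φ g b = a := by rw [hg]; simp only [Perm.mul_apply, swap_apply_def]; grind
  have g3 : φ g c = d := by rw [hg]; simp only [Perm.mul_apply, swap_apply_def]; grind
  have g4 : φ g d = c := by rw [hg]; simp only [Perm.mul_apply, swap_apply_def]; grind
  rw [z1, mul_inv_cancel_right, g1, g2, g3, g4, ← t3_rot (a := b) (by unfold D3; grind),
    ← t3_rot (a := b) (c := c) (by unfold D3; grind), hφ.t3_inv h8 d1, hφ.t3_inv h8 d2] at z4
  nth_rewrite 2 [z4]
  group

end

variable {α : Type} [DecidableEq α] [Fintype α] {H : Type} [Group H] [Finite H]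
  {φ : H →* Perm α} {k V : Type} [Field k] [IsAlgClosed k] [AddCommGroup V] [Module k V]
  [FiniteDimensional k V] (ρ : H →* End k V)
  (hφ : CE φ) (h12 : Fintype.card α = 12) (h30 : (30 : k) ≠ 0)
include hφ h12 h30

theorem nc27 (h27 : finrank k V ≤ 27) : NC φ ρ := by
  have h8 : 8 ≤ Fintype.card α := by omega
  by_contra h
  simp only [NC, not_forall] at h
  obtain ⟨a, b, c, d, e, f, h6, h⟩ := h
  obtain ⟨ι, rfl, rfl, rfl, rfl, rfl, rfl⟩ := emb6 h6 (m := 12) (by omega) h12.ge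
  let t : Fin 12 → Fin 12 → Fin 12 → End k V := fun a b c => ρ (t3 φ (ι a) (ι b) (ι c))
  let q : End k V → End k V := fun x => x ^ 2 + x + 1
  have inj : ∀ (x : End k V) v, q x v = 0 → (x - 1) v = 0 → v = 0 := fun x v h1 h2 => by
    have := LinearMap.congr_fun (show q x = (x + 1 + 1) * (x - 1) + (3 : k) • 1 by
      rw [Algebra.smul_def, map_ofNat]; simp only [q]; noncomm_ring) v
    rw [h1, LinearMap.add_apply, End.mul_apply, h2, map_zero, zero_add] at this
    exact (smul_eq_zero.mp this.symm).resolve_left fun e => h30 (by linear_combination 10 * e)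
  have cm : ∀ a b c d e f, D6 a b c d e f → Commute (t a b c) (t d e f) := fun a b c d e f h => by
    rw [d6_iff] at h
    have h1 : D3 (ι a) (ι b) (ι c) := by simpa [D3] using h.1
    refine Commute.map (hφ.t3_comm h8 (by simpa [D3] using h.2.1) ?_ ?_ ?_) ρ <;>
      rw [hφ.t3_map h8 h1] <;> apply cy_ne <;> simp <;> grind
  have cq : ∀ {x y : End k V}, Commute x y → Commute x (q y) := fun h =>
    ((h.pow_right 2).add_right h).add_right (Commute.one_right _)
  have Q : ∀ a b c d e f g h i, [a, b, c, d, e, f, g, h, i].Nodup → ∀ v, q (t a b c) v = 0 →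
      q (t d e f) v = 0 → q (t g h i) v = 0 := fun a b c d e f g h i hn v h1 h2 => by
    obtain ⟨κ, hκ⟩ := exists_emb (m := 9) (n := 12) (by omega) (by simp)
      ⟨![a, b, c, d, e, f, g, h, i], List.nodup_ofFn.mp (by simpa using hn)⟩
    have := LinearMap.congr_fun (qc ρ hφ h12 h30 h27 (κ.trans ι)) v
    simp only [Function.Embedding.trans_apply, show κ 0 = a from hκ 0, show κ 1 = b from hκ 1,
      show κ 2 = c from hκ 2, show κ 3 = d from hκ 3, show κ 4 = e from hκ 4,
      show κ 5 = f from hκ 5, show κ 6 = g from hκ 6, show κ 7 = h from hκ 7,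
      show κ 8 = i from hκ 8] at this
    have c1 := cm a b c d e f (hn.sublist (List.sublist_append_left [a, b, c, d, e, f] [g, h, i]))
    have c2 := cq (cq (cm a b c g h i
      (hn.sublist ((List.sublist_append_right [d, e, f] [g, h, i]).append_left [a, b, c])))).symm
    have c3 := cq (cq (cm d e f g h i (hn.sublist (List.sublist_append_right [a, b, c] _)))).symm
    refine inj (t d e f) _ (by rw [← End.mul_apply, ← c3.eq, End.mul_apply, h2, map_zero])
      (inj (t a b c) _ ?_ this)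
    rw [← End.mul_apply, ← ((cq c1.symm).sub_left (Commute.one_left _)).eq, End.mul_apply,
      ← End.mul_apply (q _), ← c2.eq, End.mul_apply, h1, map_zero, map_zero]
  obtain ⟨w, hw⟩ : ∃ w, ((t 3 4 5 - 1) * (t 0 1 2 - 1)) w ≠ 0 := by
    by_contra h1; push Not at h1; exact h (LinearMap.ext h1)
  have t1 : ∀ a b c, D3 a b c → q (t a b c) * (t a b c - 1) = 0 := fun a b c h => by
    have : t a b c ^ 3 = 1 := by
      rw [← map_pow, hφ.t3_pow h8 (by simpa [D3] using h), map_one]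
    simp only [q]
    linear_combination (norm := noncomm_ring) this
  have v1 : q (t 3 4 5) (((t 3 4 5 - 1) * (t 0 1 2 - 1)) w) = 0 := by
    rw [← End.mul_apply, ← mul_assoc, t1 _ _ _ (by simp [D3]), zero_mul]; rfl
  have v2 : q (t 0 1 2) (((t 3 4 5 - 1) * (t 0 1 2 - 1)) w) = 0 := by
    rw [← End.mul_apply, (((cm 3 4 5 0 1 2 (by simp [D6])).sub_right (Commute.one_right _)).sub_left
      (Commute.one_left _)).eq, ← mul_assoc, t1 _ _ _ (by simp [D3]), zero_mul]; rfl
  set v := ((t 3 4 5 - 1) * (t 0 1 2 - 1)) w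
  have s1 : ∀ a b c : Fin 12, D3 a b c → 6 ≤ a → 6 ≤ b → 6 ≤ c → q (t a b c) v = 0 :=
    fun a b c h h1 h2 h3 => Q 0 1 2 3 4 5 a b c (by unfold D3 at h; simp; omega) v v2 v1
  have s2 : ∀ a b c : Fin 12, D3 a b c → a < 6 → b < 6 → c < 6 → q (t a b c) v = 0 :=
    fun a b c h h1 h2 h3 => Q 6 7 8 9 10 11 a b c (by unfold D3 at h; simp; omega) v
      (s1 _ _ _ (by simp [D3]) (by decide) (by decide) (by decide))
      (s1 _ _ _ (by simp [D3]) (by decide) (by decide) (by decide))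
  have s3 : ∀ a b c : Fin 12, D3 a b c → q (t a b c) v = 0 := fun a b c h => by
    have := (by decide +kernel : ∀ a b c : Fin 12, a ≠ b ∧ a ≠ c ∧ b ≠ c →
      let A := ([0, 1, 2, 3, 4, 5] : List (Fin 12)).filter fun x => x ≠ a ∧ x ≠ b ∧ x ≠ c
      let B := ([6, 7, 8, 9, 10, 11] : List (Fin 12)).filter fun x => x ≠ a ∧ x ≠ b ∧ x ≠ c
      [A.getD 0 0, A.getD 1 0, A.getD 2 0, B.getD 0 0, B.getD 1 0, B.getD 2 0, a, b, c].Nodup ∧
        (A.getD 0 0 < 6 ∧ A.getD 1 0 < 6 ∧ A.getD 2 0 < 6) ∧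
          6 ≤ B.getD 0 0 ∧ 6 ≤ B.getD 1 0 ∧ 6 ≤ B.getD 2 0) a b c h
    simp only at this
    generalize List.filter _ [0, 1, 2, 3, 4, 5] = A, List.filter _ [6, 7, 8, 9, 10, 11] = B at this
    obtain ⟨h1, h2, h3⟩ := this
    refine Q _ _ _ _ _ _ _ _ _ h1 v (s2 _ _ _ ?_ h2.1 h2.2.1 h2.2.2) (s1 _ _ _ ?_ h3.1 h3.2.1 h3.2.2)
      <;> simp only [List.nodup_cons, List.mem_cons, not_or] at h1 <;> unfold D3 <;> tauto
  let Y : Submodule k V := ⨅ (a) (b) (c) (_ : D3 a b c), LinearMap.ker (q (ρ (t3 φ a b c)))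
  have hY : ∀ u, u ∈ Y ↔ ∀ a b c, D3 a b c → q (ρ (t3 φ a b c)) u = 0 := by simp [Y]
  have sur : Function.Surjective ι :=
    ((Fintype.bijective_iff_injective_and_card ι).mpr ⟨ι.injective, by simp [h12]⟩).2
  haveI : Nontrivial Y := Submodule.nontrivial_iff_ne_bot.mpr ((Submodule.ne_bot_iff _).mpr
    ⟨v, (hY v).mpr fun a b c h => by
      obtain ⟨a, rfl⟩ := sur a
      obtain ⟨b, rfl⟩ := sur b
      obtain ⟨c, rfl⟩ := sur c
      exact s3 a b c (by simpa [D3] using h), hw⟩)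
  let ρ' := Representation.subrepresentation ρ Y fun g u hu => (hY _).mpr fun a b c h => by
    have h1 := hφ.t3_conj h8 h g⁻¹
    have h2 := (hY u).mp hu _ _ _ (show D3 (φ g⁻¹ a) (φ g⁻¹ b) (φ g⁻¹ c) by simpa [D3] using h)
    have h3 : q (ρ (t3 φ a b c)) * ρ g = ρ g * q (ρ (g⁻¹ * t3 φ a b c * g⁻¹⁻¹)) := by
      simp only [q, pow_two, mul_add, add_mul, ← map_mul, one_mul, mul_one]
      congr 3 <;> group
    rw [← End.mul_apply, h3, End.mul_apply, h1, h2, map_zero]
  have r1 : ∀ a b c, D3 a b c → ρ' (t3 φ a b c) * ρ' (t3 φ a b c) + ρ' (t3 φ a b c) + 1 = 0 :=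
    fun a b c h => LinearMap.ext fun u => Subtype.ext (by
      have := (hY u).mp u.2 a b c h
      simp only [q, pow_two] at this
      exact this)
  have := cliff10 h30 (fun i => ρ' (t3 φ (ι 0) (ι 1) (ι (i.natAdd 2))))
    (fun i => r1 _ _ _ (by simp [D3, Fin.ext_iff]; omega)) fun i j hij => by
      obtain ⟨l, m, h⟩ := (by decide +kernel : ∀ i j : Fin 10, i ≠ j → ∃ l m : Fin 12,
        [0, 1, i.natAdd 2, j.natAdd 2, l, m].Nodup) i j hij
      have h' : D6 (ι 0) (ι 1) (ι (i.natAdd 2)) (ι (j.natAdd 2)) (ι l) (ι m) :=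
        h.map ι.injective
      obtain ⟨z, z1, z2, z3, z4, z5⟩ := zrel hφ h8 h'
      have fl : ∀ x y : H, x * y * (x * y) = z → y * x * (y * x) = z := fun x y h => by
        rw [← mul_inv_cancel_right z y, ← z2, ← h]; group
      have mp : ∀ x y : H, x * y * (x * y) = z → ρ' x * ρ' y * (ρ' x * ρ' y) = ρ' z :=
        fun x y h => by rw [← h]; simp only [map_mul]
      rw [d6_iff] at h'
      exact spin_rel (k := k) (fun e => h30 (by linear_combination 5 * e)) (r1 _ _ _ h'.1)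
        (r1 _ _ _ (by unfold D3 at *; grind)) (r1 (ι 0) (ι 1) (ι l) (by unfold D3 at *; grind))
        (by rw [← map_mul, z1, map_one]) (mp _ _ z3) (mp _ _ (fl _ _ z3)) (mp _ _ z4)
        (mp _ _ (fl _ _ z4)) (mp _ _ z5) (mp _ _ (fl _ _ z5))
  have := Y.finrank_le
  omega

end Cfsg.Agent.H6A
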