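import Cfsg.Agent.H6.AS8

/-!
Eigenspaces of three-cycles; subgroups of index at most 27.
-/

set_option autoImplicit false

namespace Cfsg.Agent.H6A

open Equiv Equiv.Perm Module

section
variable {α : Type*} [DecidableEq α] [Fintype α] {H : Type*} [Group H] {φ : H →* Perm α}
  {k V : Type*} [Field k] [AddCommGroup V] [Module k V] [FiniteDimensional k V] (ρ : H →* End k V)

lemma genP (P : Subgroup (Perm α)) (p : α → Prop) {b c : α} (hb : p b) (hbc : b ≠ c)
    (h : ∀ i, p i → i ≠ b → i ≠ c → cy b i c ∈ P) (σ : Perm α) (hσ : ∀ x, σ x ≠ x → p x)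
    (hs : sign σ = 1) : σ ∈ P := by
  have h1 : ∀ i, p i → i ≠ b → swap b c * swap b i ∈ P := fun i pi hi => by
    by_cases e : i = c
    · subst e; simp
    · exact h i pi hi e
  have h2 : ∀ i j, p i → p j → i ≠ j → swap b c * swap i j ∈ P := fun i j pi pj hij => by
    by_cases e : i = b
    · subst e; exact h1 j pj hij.symm
    by_cases e' : j = b
    · subst e'; rw [swap_comm i j]; exact h1 i pi hij
    have : swap b c * swap i j =
        swap b c * swap b i * (swap b c * swap b j)⁻¹ * (swap b c * swap b i) := by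
      have := swap_mul_swap_mul_swap (x := j) (y := b) (z := i) e' (Ne.symm hij)
      rw [swap_comm j b] at this
      rw [← this]; simp [mul_assoc]
    rw [this]
    exact P.mul_mem (P.mul_mem (h1 i pi e) (P.inv_mem (h1 j pj e'))) (h1 i pi e)
  refine gen2 P p (fun x y u v hx hy hu hv h3 h4 => ?_) σ hσ hs
  have : swap x y * swap u v = (swap b c * swap x y)⁻¹ * (swap b c * swap u v) := by
    simp [mul_assoc]
  rw [this]
  exact P.mul_mem (P.inv_mem (h2 x y hx hy h3)) (h2 u v hu hv h4)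

lemma one_of_two (h7 : 7 ≤ Fintype.card α) (P : Subgroup (Perm α))
    (h : ∀ a b c d e f, D6 a b c d e f → cy a b c ∈ P ∨ cy d e f ∈ P) :
    ∃ i, ∀ σ : Perm α, sign σ = 1 → σ i = i → σ ∈ P := by
  by_cases h1 : ∀ a b c, D3 a b c → cy a b c ∈ P
  · obtain ⟨i, -⟩ := exists_notMem_list ([] : List α) (by simp; omega)
    exact ⟨i, fun σ h2 _ => gen3 P (fun _ => True) (fun a b c _ _ _ => h1 a b c) σ
      (fun _ _ => trivial) h2⟩
  push Not at h1
  obtain ⟨a, b, c, h1, h2⟩ := h1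
  have h3 : ∀ d e f, (d ≠ a ∧ d ≠ b ∧ d ≠ c) → (e ≠ a ∧ e ≠ b ∧ e ≠ c) → (f ≠ a ∧ f ≠ b ∧ f ≠ c) →
      D3 d e f → cy d e f ∈ P := fun d e f hd he hf h4 =>
    (h a b c d e f (d6_iff.mpr ⟨h1, h4, hd, he, hf⟩)).resolve_left h2
  obtain ⟨y, hy⟩ := exists_notMem_list [a, b, c] (by simp; omega)
  obtain ⟨z, hz⟩ := exists_notMem_list [a, b, c, y] (by simp; omega)
  obtain ⟨u, hu⟩ := exists_notMem_list [a, b, c, y, z] (by simp; omega)
  obtain ⟨v, hv⟩ := exists_notMem_list [a, b, c, y, z, u] (by simp; omega)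
  simp only [List.mem_cons, List.not_mem_nil, or_false, not_or] at hy hz hu hv
  have h4 := two_swaps P _ h3 (x := y) (y := u) (u := z) (v := v) hy (by tauto) (by tauto)
    (by tauto) (by grind) (by grind)
  have h5 : ∀ x x', x = a ∨ x = b ∨ x = c → x' = a ∨ x' = b ∨ x' = c → x ≠ x' →
      cy y x z ∉ P → cy y x' z ∈ P := fun x x' hx hx' h5 h6 => by
    have h8 := (h y x z u x' v (d6_iff.mpr (by unfold D3; grind))).resolve_left h6
    have h9 := P.mul_mem (P.mul_mem h4 h8) (P.inv_mem h4)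
    rw [cy_conj] at h9
    convert h9 using 2 <;> simp only [Perm.mul_apply, swap_apply_def] <;> grind
  obtain ⟨i, hi, h6⟩ : ∃ i, (i = a ∨ i = b ∨ i = c) ∧ ∀ x, x = a ∨ x = b ∨ x = c → x ≠ i →
      cy y x z ∈ P := by
    by_cases h6 : ∀ x, x = a ∨ x = b ∨ x = c → cy y x z ∈ P
    · exact ⟨a, Or.inl rfl, fun x hx _ => h6 x hx⟩
    push Not at h6
    obtain ⟨i, hi, h6⟩ := h6
    exact ⟨i, hi, fun x hx h8 => h5 i x hi hx h8.symm h6⟩
  refine ⟨i, fun σ h8 h9 => genP P (· ≠ i) (b := y) (c := z) (by grind) (by grind)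
    (fun x g1 g2 g3 => ?_) σ (fun x hx e => hx (e ▸ h9)) h8⟩
  by_cases hx : x = a ∨ x = b ∨ x = c
  · exact h6 x hx g1
  · exact h3 y x z hy (by tauto) (by tauto) ⟨g2.symm, by grind, g3⟩

omit [DecidableEq α] [Fintype α] in
lemma eig_conj (g x : H) (μ : k) :
    finrank k ((ρ x).eigenspace μ) ≤ finrank k ((ρ (g * x * g⁻¹)).eigenspace μ) := by
  rw [LinearEquiv.finrank_eq (Submodule.equivMapOfInjective (ρ g)
    ((injective_iff_map_eq_zero _).mpr fun v => rho_inj ρ g) _)]
  refine Submodule.finrank_mono ?_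
  rintro _ ⟨v, hv, rfl⟩
  rw [SetLike.mem_coe, End.mem_eigenspace_iff] at hv
  rw [End.mem_eigenspace_iff, ← map_smul, ← hv, ← rho_mul, ← rho_mul, inv_mul_cancel_right]

lemma eig8 (hφ : CE φ) (h12 : 12 ≤ Fintype.card α) (h3 : (3 : k) ≠ 0) (nc : NC φ ρ) {ζ : k}
    (hζ : ζ ^ 2 + ζ + 1 = 0) {a b c : α} (h : D3 a b c) :
    8 * finrank k ((ρ (t3 φ a b c)).eigenspace ζ) ≤ finrank k V := by
  have h8 : 8 ≤ Fintype.card α := by omega
  obtain ⟨ι⟩ : Nonempty (Fin 12 ↪ α) := Function.Embedding.nonempty_of_card_le (by simpa)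
  let A : Fin 4 → Fin 12 := ![0, 3, 6, 9]
  let B : Fin 4 × Bool → Fin 12 := fun j => if j.2 then ![2, 5, 8, 11] j.1 else ![1, 4, 7, 10] j.1
  let C : Fin 4 × Bool → Fin 12 := fun j => B (j.1, !j.2)
  have d1 : ∀ j, [A j.1, B j, C j].Nodup := by decide +kernel
  have d2 : ∀ j i, i ≠ j.1 → [A j.1, B j, C j, A i, B (i, false), C (i, false)].Nodup := by
    decide +kernel
  have d3 : ∀ j, D3 (ι (A j.1)) (ι (B j)) (ι (C j)) := fun j => by simpa [D3, and_assoc] using d1 j
  have z1 : ζ ≠ 1 := by rintro rfl; exact h3 (by linear_combination hζ)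
  have z2 : ζ ^ 2 ≠ 1 := fun e => h3 (by linear_combination (2 - ζ) * hζ + (ζ - 1) * e)
  have z3 : ζ ^ 2 ≠ ζ := fun e => h3 (by linear_combination (3 - 2 * ζ) * hζ + (2 * ζ + 1) * e)
  have := sum_finrank_le (fun i => ρ (t3 φ (ι (A i)) (ι (B (i, false))) (ι (C (i, false)))))
    (fun j => (ρ (t3 φ (ι (A j.1)) (ι (B j)) (ι (C j)))).eigenspace ζ)
    (fun j i => if i = j.1 then (if j.2 then ζ ^ 2 else ζ) else 1) (fun j i v hv => ?_) ?_
  · refine le_trans ?_ this
    have : ∀ j, finrank k ((ρ (t3 φ a b c)).eigenspace ζ) ≤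
        finrank k ((ρ (t3 φ (ι (A j.1)) (ι (B j)) (ι (C j)))).eigenspace ζ) := fun j => by
      obtain ⟨g, hg⟩ := t3_conj_any hφ (by omega) h (d3 j)
      exact hg ▸ eig_conj ρ g _ ζ
    simpa using Finset.sum_le_sum (s := Finset.univ) fun j _ => this j
  · rw [End.mem_eigenspace_iff] at hv
    obtain ⟨j, s⟩ := j
    split_ifs with h1 h2
    · subst h1
      simp only at h2
      subst h2
      have := hφ.t3_sq h8 (d3 (i, true))
      exact (congrArg (ρ · v) this).trans (rho_pow ρ hv 2)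
    · subst h1
      simp only [Bool.not_eq_true] at h2
      subst h2
      exact hv
    · have := LinearMap.congr_fun (nc _ _ _ _ _ _ ((d2 (j, s) i h1).map ι.injective)) v
      simp only [End.mul_apply, LinearMap.sub_apply, End.one_apply, hv, map_sub, map_smul,
        LinearMap.zero_apply] at this
      rw [one_smul, ← sub_eq_zero]
      refine (smul_eq_zero.mp ?_).resolve_left (sub_ne_zero.mpr z1)
      linear_combination (norm := module) this
  · rintro ⟨i, s⟩ ⟨j, r⟩ e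
    have := congrFun e i
    by_cases h1 : i = j
    · subst h1
      cases s <;> cases r <;> simp_all [z3.symm]
    · cases s <;> simp_all

end

variable {α : Type} [DecidableEq α] [Fintype α] {H : Type} [Group H] [Finite H]
  {φ : H →* Perm α} (k : Type) [Field k] [IsAlgClosed k]

theorem small_index (sgn : ∀ h, sign (φ h) = 1) (sur : ∀ σ, sign σ = 1 → ∃ h, φ h = σ)
    (h12 : Fintype.card α = 12) (h30 : (30 : k) ≠ 0) (S : Subgroup H) (hK : φ.ker ≤ S)
    (h27 : S.index ≤ 27) : ∃ i, ∀ g, φ g i = i → g ∈ S := by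
  classical
  haveI := Fintype.ofFinite (H ⧸ S)
  let ρ : H →* End k (H ⧸ S → k) :=
    { toFun := fun g => LinearMap.funLeft k k (g⁻¹ • ·)
      map_one' := by ext; simp
      map_mul' := fun a b => by ext; simp [mul_smul] }
  have hψ : CE (QuotientGroup.kerLift φ) := ⟨fun q => ?_, fun σ hσ => ?_, fun q e g => ?_⟩
  rotate_left
  · obtain ⟨g, rfl⟩ := QuotientGroup.mk_surjective q; exact sgn g
  · obtain ⟨g, rfl⟩ := sur σ hσ; exact ⟨g, rfl⟩
  · rw [QuotientGroup.kerLift_injective φ (e.trans (map_one _).symm), mul_one, one_mul]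
  have nc := nc27 (QuotientGroup.lift φ.ker ρ fun x hx => by
    ext f q
    obtain ⟨g, rfl⟩ := QuotientGroup.mk_surjective q
    have : x⁻¹ • (g : H ⧸ S) = g := QuotientGroup.eq.mpr (hK (by
      simpa [mul_assoc] using (MonoidHom.normal_ker φ).conj_mem x hx g⁻¹))
    simp [ρ, this]) hψ h12 h30 (by
      rwa [finrank_fintype_fun_eq_card, ← Nat.card_eq_fintype_card])
  obtain ⟨i, hi⟩ := one_of_two (by omega) (S.map φ) fun a b c d e f h => by
    obtain ⟨x, hx⟩ := QuotientGroup.mk_surjective (t3 (QuotientGroup.kerLift φ) a b c)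
    obtain ⟨y, hy⟩ := QuotientGroup.mk_surjective (t3 (QuotientGroup.kerLift φ) d e f)
    have h1 := congrFun (LinearMap.congr_fun (nc a b c d e f h) (Pi.single (1 : H) 1)) (1 : H)
    rw [← hψ.t3_map (by omega) (d6_iff.mp h).1, ← hψ.t3_map (by omega) (d6_iff.mp h).2.1]
    rw [← hx, ← hy] at *
    by_contra h2
    rw [not_or] at h2
    have h3 : ∀ z : H, QuotientGroup.kerLift φ z ∉ S.map φ → z⁻¹ • ((1 : H) : H ⧸ S) ≠ (1 : H) :=
      fun z hz e => hz ⟨z, by simpa using QuotientGroup.eq.mp e, rfl⟩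
    change ((ρ y - 1) * (ρ x - 1)) _ _ = _ at h1
    have h4 : ∀ z f q, ρ z f q = f (z⁻¹ • q) := fun _ _ _ => rfl
    simp only [End.mul_apply, LinearMap.sub_apply, End.one_apply, Pi.sub_apply, h4,
      Pi.single_apply, if_neg (h3 x h2.1), if_neg (h3 y h2.2), LinearMap.zero_apply,
      Pi.zero_apply, if_true] at h1
    split_ifs at h1
    · exact h30 (by linear_combination 15 * h1)
    · simp at h1
  refine ⟨i, fun g hg => ?_⟩
  obtain ⟨x, hx, e⟩ := hi _ (sgn g) hg
  simpa using mul_mem hx (hK (show x⁻¹ * g ∈ φ.ker by simp [MonoidHom.mem_ker, e]))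

end Cfsg.Agent.H6A
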