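import Cfsg.Agent.H6.V27a
import Cfsg.Agent.H6.AS11
import Cfsg.Agent.H7.AltF4

/-!
The alternating group of degree 12 is not a section of E6(q) in characteristic at least 7.
-/

set_option autoImplicit false
set_option maxRecDepth 100000

namespace Cfsg.Agent.H6A

open Cfsg.Lie Cfsg.Agent.H4 Cfsg.Agent.H9.Chev Matrix Module Equiv Equiv.Perm

variable {k : Type*} [Field k]

lemma lin_of_basis {I J : Type*} [Fintype I] [Fintype J] (R : I → Matrix J J k) (a : Matrix I I k)
    (P Q P' : Matrix J J k) (h : ∀ c, ∑ c', a c' c • (P * R c' * Q) = P' * R c) (X : I → k) :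
    P * Fintype.linearCombination k R (a *ᵥ X) * Q = P' * Fintype.linearCombination k R X := by
  simp only [Fintype.linearCombination_apply, mulVec, dotProduct, Finset.sum_smul, Finset.mul_sum,
    Finset.sum_mul, Matrix.mul_smul, Matrix.smul_mul, ← h, Finset.smul_sum, smul_smul]
  rw [Finset.sum_comm]
  simp only [mul_comm]

variable (k)

noncomputable def Rl : (chevE6.Idx → k) →ₗ[k] Matrix D27.Idx D27.Idx k :=
  Fintype.linearCombination k fun c => SM D27 (colR (enc chevE6 c)) 1

noncomputable def Sl : (D27.Idx → k) →ₗ[k] Matrix D27.Idx D27.Idx k :=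
  Fintype.linearCombination k fun i => SM D27 (colT TS (enc D27 i)) 1

/-- compatible pairs of matrices -/
def Gt : Subgroup (GL chevE6.Idx k × GL D27.Idx k) where
  carrier := {x | (∀ X, Rl k (x.1.1 *ᵥ X) * x.2.1 = x.2.1 * Rl k X) ∧
    ∀ r, x.2.1ᵀ * Sl k (x.2.1 *ᵥ r) * x.2.1 = Sl k r}
  mul_mem' := fun {a b} ha hb => ⟨fun X => by
    simp only [Prod.fst_mul, Prod.snd_mul, Units.val_mul, ← mulVec_mulVec]
    rw [← mul_assoc, ha.1, mul_assoc, hb.1, mul_assoc], fun r => by
    simp only [Prod.snd_mul, Units.val_mul, ← mulVec_mulVec, transpose_mul]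
    rw [← hb.2 r, ← ha.2 (b.2.1 *ᵥ r)]; simp only [mul_assoc]⟩
  one_mem' := by simp
  inv_mem' := fun {a} ha => ⟨fun X => by
    have := congrArg (fun M => a.2⁻¹.1 * M * a.2⁻¹.1) (ha.1 (a.1⁻¹.1 *ᵥ X))
    simp only [mulVec_mulVec, Units.mul_inv, one_mulVec, mul_assoc, mul_one,
      Units.inv_mul_cancel_left] at this
    exact this.symm, fun r => by
    rw [← ha.2 (a⁻¹.2.1 *ᵥ r)]
    simp only [Prod.snd_inv, mulVec_mulVec, Units.mul_inv, one_mulVec, mul_assoc, mul_one]
    rw [← mul_assoc, ← transpose_mul, Units.mul_inv, transpose_one, one_mul]⟩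

variable {k}

lemma evC_colT (T r b a : ℕ) (t : k) : evC t (colT T r b) a = evC 1 (colT T r b) a * t := by
  simp only [colT, frc_eq, ite'_eq]
  split_ifs <;> simp [evC]

lemma SM_pl (T r : ℕ) (t : k) : SM D27 (pl (colT T r)) t = 1 + t • SM D27 (colT T r) 1 := by
  ext a b
  rw [SM, pl, evC_cons, evC_colT]
  simp [SM, Matrix.one_apply, (enc_inj D27).eq_iff, eq_comm, mul_comm]

lemma gen_mem {F : Type*} [Field F] (σ : F →+* k) (r : Fin chevE6.nroots) (h1 : cRel r = true)
    (h2 : cInv r = true) (t : F) : (goodE6.dat F).x r t ∈ ((Gt k).comap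
      ((GeneralLinearGroup.map σ).prodMap (GeneralLinearGroup.map σ))).map (MonoidHom.fst _ _) := by
  simp only [cInv, frc_eq, band_eq, Bool.and_eq_true, allLt_iff, eqI_iff] at h2
  obtain ⟨h2, h3, h4⟩ := h2
  simp only [cRel, Pk.wr_eq, allLt_iff] at h1
  have h5 : ∀ u : F, SM D27 (pl (colT TE r)) u * SM D27 (pl (colT TE r)) (-u) = 1 := fun u => by
    rw [SM_add_of_chkA D27 h3, add_neg_cancel, SM_pl, zero_smul, add_zero]
  let b : GL D27.Idx F := ⟨_, _, h5 t, by simpa using h5 (-t)⟩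
  have hb : (GeneralLinearGroup.map σ b).1 = SM D27 (pl (colT TE r)) (σ t) := SM_map σ _ _ _
  have ha : (GeneralLinearGroup.map σ ((goodE6.dat F).x r t)).1 =
      SM chevE6 (pl (pkE6.col 6 r)) (σ t) := by
    rw [goodE6.map_x]; exact goodE6.xMat_eq' k r _
  refine ⟨(_, b), ⟨fun X => ?_, fun X => ?_⟩, rfl⟩ <;>
    simp only [MonoidHom.coe_prodMap, Prod.map_fst, Prod.map_snd, ha, hb]
  · rw [← one_mul (Rl k _)]
    refine lin_of_basis _ _ _ _ _ (fun c => ?_) X
    have := sum_eq_of_chkS D27 chevE6 (σ t) 1 (h1 _ (enc_lt chevE6 c))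
    erw [ha]
    simp only [one_mul]
    simp [wm, lm, cst, uni, Let.full, -Fintype.sum_sum_type] at this
    exact this
  · rw [← one_mul (Sl k X)]
    refine lin_of_basis _ _ _ _ _ (fun c => ?_) X
    have h6 : (SM D27 (pl (colT TE r)) (σ t))ᵀ = SM D27 (pl (colT TE (pkE6.neg r))) (σ t) := by
      rw [SM_pl, SM_pl, transpose_add, transpose_one, transpose_smul]
      congr 2
      ext a b
      rw [transpose_apply, SM, SM, evC_one, evC_one (colT TE (pkE6.neg r) _),
        h4 _ (enc_lt D27 a) _ (enc_lt D27 b)]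
    have := sum_eq_of_chkS D27 D27 (σ t) 1 (h2 _ (enc_lt D27 c))
    simp only [h6, mul_assoc, one_mul]
    simp [wm, lm, cst, uni, Let.full, -Fintype.sum_sum_type] at this
    exact this

lemma exists_lift {F : Type*} [Field F] (σ : F →+* k) {g : GL chevE6.Idx F} (hg : g ∈ chevE6.group F) :
    ∃ b, (GeneralLinearGroup.map σ g, GeneralLinearGroup.map σ b) ∈ Gt k := by
  set M := ((Gt k).comap ((GeneralLinearGroup.map σ).prodMap (GeneralLinearGroup.map σ))).map
    (MonoidHom.fst _ _)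
  have h1 : ∀ p t, (goodE6.dat F).x ((goodE6.dat F).sm p) t ∈ M ∧
      (goodE6.dat F).x ((goodE6.dat F).neg ((goodE6.dat F).sm p)) t ∈ M := fun p t => by
    have := allLt_iff.mp gen27 p p.2
    simp only [frc_eq, band_eq, Bool.and_eq_true] at this
    rw [← goodE6.dat_sm F, ← goodE6.dat_neg F] at this
    exact ⟨gen_mem σ _ this.1.1 this.1.2 t, gen_mem σ _ this.2.1 this.2.2 t⟩
  obtain ⟨P0, h2, -⟩ := (goodE6.ax F).reach
  rw [goodE6.group_eq] at hg
  obtain ⟨⟨a, b⟩, h3, rfl⟩ := Dat.US_le (H := M) (fun r _ => h2 (fun r => ∀ t, (goodE6.dat F).x r t ∈ M)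
    (fun p _ t => (h1 p t).1) (fun p r hr t => by
      obtain ⟨ε, h4, h5⟩ := (goodE6.ax F).n_conj p r
      have h6 : (goodE6.dat F).n p ∈ M := mul_mem (mul_mem (h1 p _).1 (h1 p _).2) (h1 p _).1
      have h7 := (h5 (ε * t)).1
      rw [← mul_inv_eq_iff_eq_mul, ← mul_assoc ε, show ε * ε = 1 by rcases h4 with h | h <;> simp [h],
        one_mul] at h7
      exact h7 ▸ mul_mem (mul_mem h6 (hr _)) (inv_mem h6)) r) hg
  exact ⟨b, h3⟩

lemma Rl_inj : Function.Injective (Rl k) := (injective_iff_map_eq_zero _).mpr fun X hX => by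
  funext c
  have h1 := fun c' : chevE6.Idx =>
    allLt_iff.mp (allLt_iff.mp inj27 _ (enc_lt chevE6 c)) _ (enc_lt chevE6 c')
  simp only [band_eq, Bool.and_eq_true, allL_iff, eqI_iff, Nat.blt_eq, ite'_eq, Nat.beq_eq,
    (enc_inj chevE6).eq_iff] at h1
  have h2 : ∀ L : List (ℕ × ℕ × ℤ), (∀ x ∈ L, x.1 < 27 ∧ x.2.1 < 27) → ∑ c', X c' *
      (((L.map fun x => x.2.2 * evC 1 (colR (enc chevE6 c') x.2.1) x.1).sum : ℤ) : k) = 0 :=
    fun L hL => by
      induction L with
      | nil => simp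
      | cons x L ih =>
        obtain ⟨a, ha⟩ := exists_enc D27 (hL x List.mem_cons_self).1
        obtain ⟨b, hb⟩ := exists_enc D27 (hL x List.mem_cons_self).2
        have := congrFun (congrFun hX a) b
        simp only [Rl, Fintype.linearCombination_apply, Matrix.sum_apply, Matrix.smul_apply, SM, ha, hb,
          smul_eq_mul, evC_one (R := k), Matrix.zero_apply] at this
        simp only [List.map_cons, List.sum_cons, Int.cast_add, mul_add, Finset.sum_add_distrib,
          ih fun y hy => hL y (List.mem_cons_of_mem _ hy), Int.cast_mul, mul_left_comm (X _),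
          ← Finset.mul_sum, this, mul_zero, add_zero]
  have := h2 _ (h1 c).1
  simp only [fun c' => (h1 c').2] at this
  simpa [-Fintype.sum_sum_type] using this

lemma rk_Sl (r : D27.Idx → k) (hr : r ≠ 0) :
    finrank k (LinearMap.ker (Matrix.toBilin' (Sl k r))) ≤ 17 := by
  obtain ⟨i, hi⟩ := Function.ne_iff.mp hr
  have h1 := allLt_iff.mp rk27 _ (enc_lt D27 i)
  simp only [band_eq, Bool.and_eq_true, allLt_iff, anyLt_iff, bimp_iff, Nat.beq_eq, eqI_iff, bor_eq,
    Bool.or_eq_true, zI_iff, countLt_eq] at h1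
  obtain ⟨h1, h2⟩ := h1
  have h3 : Fintype.card {j : D27.Idx // ¬ inJ (enc D27 i) (enc D27 j) = true} ≤ 17 := by
    rw [← h1, Fintype.card_subtype]
    exact Finset.card_le_card_of_injOn (enc D27) (fun j hj => by simpa using ⟨enc_lt D27 j, by simpa using hj⟩)
      (enc_inj D27).injOn
  rw [← finrank_fintype_fun_eq_card k] at h3
  refine le_trans (LinearMap.finrank_le_finrank_of_injective (f := LinearMap.funLeft k k Subtype.val ∘ₗ
    Submodule.subtype _) ((injective_iff_map_eq_zero _).mpr fun x hx => Subtype.ext (funext fun j => ?_))) h3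
  have h4 : ∀ j, ¬ inJ (enc D27 i) (enc D27 j) = true → x.1 j = 0 := fun j hj => congrFun hx ⟨j, hj⟩
  by_contra h5
  obtain ⟨l, h6, h7, h8⟩ := h2 _ (enc_lt D27 j) (by_contra fun h => h5 (h4 j h))
  obtain ⟨l, rfl⟩ := exists_enc D27 h6
  have := LinearMap.congr_fun (LinearMap.mem_ker.mp x.2) (Pi.single l 1)
  replace h5 : x.1 j ≠ 0 := h5
  clear hx
  generalize x.1 = x at *
  rw [toBilin'_apply', mulVec_single_one, dotProduct, Finset.sum_eq_single j (fun j' _ hj => ?_)
    (by simp)] at this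
  all_goals simp only [Sl, Fintype.linearCombination_apply, col_apply, Matrix.sum_apply,
    Matrix.smul_apply, SM, smul_eq_mul, evC_one (R := k)] at *
  · rw [Finset.sum_eq_single i (fun m _ hm => ?_) (by simp)] at this
    · have h9 := congrArg (Int.cast : ℤ → k) h7
      rw [Int.cast_pow, (mul_eq_zero.mp ((mul_eq_zero.mp this).resolve_left h5)).resolve_left hi] at h9
      simp at h9
    · rw [(h8 _ (enc_lt D27 j) (by_contra fun h => h5 (h4 j h)) _ (enc_lt D27 m)).resolve_left
        fun h => hm (enc_inj D27 h.1)]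
      simp
  · by_cases h : inJ (enc D27 i) (enc D27 j') = true
    · simp [fun m => (h8 _ (enc_lt D27 j') h _ (enc_lt D27 m)).resolve_left
        fun h => hj (enc_inj D27 h.2)]
    · rw [h4 j' h, zero_mul]

theorem no12_E6 {F : Type*} [Field F] [Finite F] (p : ℕ) [Fact p.Prime] [CharP F p]
    (hp : ¬ p ∣ 30) {H : Type*} [Group H] (ι : H →* chevE6.group F) (hι : Function.Injective ι)
    (φ : H →* Perm (Fin 12)) (hφ : ∀ σ, sign σ = 1 → σ ∈ φ.range) : False := by
  letI := ZMod.algebra F p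
  let σ : F →ₐ[ZMod p] AlgebraicClosure (ZMod p) := IsAlgClosed.lift
  haveI := Finite.of_injective ι hι
  let G : Subgroup (H × GL D27.Idx F) := (alternatingGroup (Fin 12)).comap (φ.comp (MonoidHom.fst _ _)) ⊓
    (Gt _).comap (((GeneralLinearGroup.map σ.toRingHom).comp ((chevE6.group F).subtype.comp ι)).prodMap
      (GeneralLinearGroup.map σ.toRingHom))
  letI := (Fin.equivSubtype.symm.trans (Finite.equivFin G).symm).group
  let e : {i // i < Nat.card G} ≃* G := (Fin.equivSubtype.symm.trans (Finite.equivFin G).symm).mulEquiv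
  haveI : Finite {i // i < Nat.card G} := Finite.of_equiv _ e.symm.toEquiv
  let θ : G →* Matrix D27.Idx D27.Idx F := (Units.coeHom _).comp ((MonoidHom.snd _ _).comp G.subtype)
  have hθ : ∀ g v, matRep σ.toRingHom (θ.comp e.toMonoidHom) g v =
      (GeneralLinearGroup.map σ.toRingHom (e g).1.2).1 *ᵥ v := fun _ _ => rfl
  refine no12 (matRep σ.toRingHom (θ.comp e.toMonoidHom)) p
    (φ := (φ.comp ((MonoidHom.fst _ _).comp G.subtype)).comp e.toMonoidHom)
    (B := Matrix.toBilin'.toLinearMap ∘ₗ Sl _) ⟨fun g r u w => ?_, rk_Sl,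
      (finrank_fintype_fun_eq_card _).trans (by decide), ?_⟩
    (fun g => (e g).2.1) (fun τ hτ => ?_) (by simp) fun h => hp ?_
  · simp only [hθ, LinearMap.comp_apply, LinearEquiv.coe_coe, toBilin'_apply']
    rw [← (e g).2.2.2 r, mulVec_mulVec, dotProduct_mulVec, vecMul_mulVec, dotProduct_mulVec, mul_assoc]
    rfl
  · refine (injective_iff_map_eq_one _).mpr fun g hg => e.injective (Subtype.ext ?_)
    have h1 : (e g).1.2 = 1 := Units.ext ((matRep_eq_one _ _ g).mp hg)
    have h2 := (e g).2.2.1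
    simp only [MonoidHom.coe_prodMap, Prod.map_fst, Prod.map_snd, h1, map_one, Units.val_one,
      mul_one, one_mul] at h2 ⊢
    refine Prod.ext (hι (Subtype.ext (H7.Alt.glmap_inj σ.toRingHom (Units.ext ?_)))) h1
    simpa using Matrix.ext_of_mulVec_single fun i => (Rl_inj (h2 _)).trans (one_mulVec _).symm
  · obtain ⟨h, rfl⟩ := hφ τ hτ
    obtain ⟨b, hb⟩ := exists_lift σ.toRingHom (ι h).2
    exact ⟨e.symm ⟨(h, b), hτ, hb⟩, by simp⟩
  · exact (CharP.cast_eq_zero_iff (AlgebraicClosure (ZMod p)) p 30).mp (by exact_mod_cast h)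

end Cfsg.Agent.H6A
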