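import Cfsg.Agent.H6.WL1
import Cfsg.Agent.H6.V27b

/-!
Alternating sections of E6(q).
-/

set_option autoImplicit false
set_option maxRecDepth 100000

namespace Cfsg.Agent.H6A

open Subgroup Cfsg.Agent.H9.Chev Dat Cfsg.Agent.H7.Alt Cfsg.Lie Cfsg.Agent.H4 Cfsg.Agent.H1 Equiv

def SZ : List (Fin 6 → ℤ) := [![-2, -3, -4, -6, -5, -4], ![-2, -3, -4, -6, -5, -1], ![-2, -3, -4, -6, -2, -1],
  ![-2, -3, -4, -3, -2, -1], ![-2, -3, -1, -3, -2, -1], ![-2, 0, -4, -3, -2, -1],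
  ![-2, 0, -1, -3, -2, -1], ![-2, 0, -1, 0, -2, -1], ![-2, 0, -1, 0, 1, -1],
  ![-2, 0, -1, 0, 1, 2], ![1, -3, -1, -3, -2, -1], ![1, 0, -1, -3, -2, -1],
  ![1, 0, -1, 0, -2, -1], ![1, 0, -1, 0, 1, -1], ![1, 0, -1, 0, 1, 2],
  ![1, 0, 2, 0, -2, -1], ![1, 0, 2, 0, 1, -1], ![1, 0, 2, 0, 1, 2],
  ![1, 0, 2, 3, 1, -1], ![1, 0, 2, 3, 1, 2], ![1, 0, 2, 3, 4, 2],
  ![1, 3, 2, 3, 1, -1], ![1, 3, 2, 3, 1, 2], ![1, 3, 2, 3, 4, 2],
  ![1, 3, 2, 6, 4, 2], ![1, 3, 5, 6, 4, 2], ![4, 3, 5, 6, 4, 2]]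

def SN : List (ℕ × ℕ × ℕ × ℕ × ℕ × ℕ) := [(9, 8, 7, 5, 6, 7), (9, 8, 7, 5, 6, 10), (9, 8, 7, 5, 9, 10), (9, 8, 7, 8, 9, 10),
  (9, 8, 10, 8, 9, 10), (9, 0, 7, 8, 9, 10), (9, 0, 10, 8, 9, 10), (9, 0, 10, 0, 9, 10),
  (9, 0, 10, 0, 1, 10), (9, 0, 10, 0, 1, 2), (1, 8, 10, 8, 9, 10), (1, 0, 10, 8, 9, 10),
  (1, 0, 10, 0, 9, 10), (1, 0, 10, 0, 1, 10), (1, 0, 10, 0, 1, 2), (1, 0, 2, 0, 9, 10),
  (1, 0, 2, 0, 1, 10), (1, 0, 2, 0, 1, 2), (1, 0, 2, 3, 1, 10), (1, 0, 2, 3, 1, 2),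
  (1, 0, 2, 3, 4, 2), (1, 3, 2, 3, 1, 10), (1, 3, 2, 3, 1, 2), (1, 3, 2, 3, 4, 2),
  (1, 3, 2, 6, 4, 2), (1, 3, 5, 6, 4, 2), (4, 3, 5, 6, 4, 2)]

noncomputable def pN (k a b c d e f : ℕ) (L : List (ℕ × ℕ × ℕ × ℕ × ℕ × ℕ)) : ℕ :=
  List.rec 0 (fun s _ ih => Nat.add (Nat.pow (Nat.add (Nat.add (Nat.add (Nat.mul s.1 a) (Nat.mul s.2.1 b))
    (Nat.add (Nat.mul s.2.2.1 c) (Nat.mul s.2.2.2.1 d))) (Nat.add (Nat.mul s.2.2.2.2.1 e)
      (Nat.mul s.2.2.2.2.2 f))) k) ih) L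

noncomputable def nz (x : ℕ) : Bool := bnot (Nat.beq (Nat.mod x 11) 0)

noncomputable def ck (a b c d e : ℕ) : Bool :=
  frc (4 * a * a + 6 * b * b + 10 * c * c + 18 * d * d + 10 * e * e + 6 * a * b + 10 * a * c +
    12 * a * d + 8 * a * e + 12 * b * c + 18 * b * d + 12 * b * e + 24 * c * d + 16 * c * e +
    24 * d * e) fun x => frc (4 * a + 6 * b + 8 * c + 12 * d + 10 * e) fun y => allLt 11 fun f =>
      frc f fun f => bor (nz (Nat.add x (Nat.mul f (Nat.add y (Nat.mul 4 f)))))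
        (bor (nz (pN 5 a b c d e f SN)) (nz (pN 6 a b c d e f SN)))

theorem ck1 : allLt 11 (fun b => frc b fun b => allLt 11 fun c => frc c fun c => allLt 11 fun d =>
    frc d fun d => allLt 11 fun e => frc e fun e => band (ck 1 b c d e) (bor (Nat.blt 0 b)
      (band (ck 0 1 c d e) (bor (Nat.blt 0 c) (band (ck 0 0 1 d e) (bor (Nat.blt 0 d)
        (band (ck 0 0 0 1 e) (ck 0 0 0 0 1)))))))) = true := by
  decide +kernel

/-- power sums of the weights -/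
def Pw (k : ℕ) (a : Fin 6 → ZMod 11) : ZMod 11 := ∑ s ∈ SZ.toFinset, evZ a s ^ k

lemma Pw_eq (k : ℕ) (a : Fin 6 → ZMod 11) : Pw k a = (SZ.map fun s => evZ a s ^ k).sum :=
  List.sum_toFinset _ (by decide +kernel)

lemma Pw_pN (k : ℕ) (a : Fin 6 → ZMod 11) : Pw k a =
    (pN k (a 0).val (a 1).val (a 2).val (a 3).val (a 4).val (a 5).val SN : ℕ) := by
  have h1 : SN = SZ.map fun s => ((s 0 : ZMod 11).val, (s 1 : ZMod 11).val, (s 2 : ZMod 11).val,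
      (s 3 : ZMod 11).val, (s 4 : ZMod 11).val, (s 5 : ZMod 11).val) := by decide +kernel
  rw [Pw_eq, h1]
  induction SZ with
  | nil => rfl
  | cons s L ih =>
    rw [List.map_cons, List.sum_cons, ih]
    simp [pN, evZ_apply, Fin.sum_univ_six, add_assoc]

lemma z11 : (11 : ZMod 11) = 0 := by decide

lemma ck_spec (a : Fin 6 → ZMod 11) (h2 : Pw 2 a = 0) (h5 : Pw 5 a = 0) (h6 : Pw 6 a = 0) :
    ck (a 0).val (a 1).val (a 2).val (a 3).val (a 4).val ≠ true := fun h => by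
  have hz : ∀ x : ℕ, nz x = true → (x : ZMod 11) ≠ 0 := fun x hx e => by
    rw [nz, show Nat.mod x 11 = 0 from
      Nat.dvd_iff_mod_eq_zero.mp ((ZMod.natCast_eq_zero_iff x 11).mp e)] at hx
    exact absurd hx (by decide)
  simp only [ck, frc_eq, allLt_iff, bor_eq, Bool.or_eq_true] at h
  rcases h _ (ZMod.val_lt (a 5)) with h | h | h
  · refine hz _ h ?_
    rw [Pw_eq] at h2
    simp [SZ, evZ_apply, Fin.sum_univ_six] at h2 ⊢
    linear_combination 8 * h2 - 13 * (4 * a 0 * a 0 + 6 * a 1 * a 1 + 10 * a 2 * a 2 + 18 * a 3 * a 3 +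
      10 * a 4 * a 4 + 6 * a 0 * a 1 + 10 * a 0 * a 2 + 12 * a 0 * a 3 + 8 * a 0 * a 4 +
      12 * a 1 * a 2 + 18 * a 1 * a 3 + 12 * a 1 * a 4 + 24 * a 2 * a 3 + 16 * a 2 * a 4 +
      24 * a 3 * a 4 + a 5 * (4 * a 0 + 6 * a 1 + 8 * a 2 + 12 * a 3 + 10 * a 4 + 4 * a 5)) * z11
  · exact hz _ h ((Pw_pN 5 a).symm.trans h5)
  · exact hz _ h ((Pw_pN 6 a).symm.trans h6)

attribute [irreducible] ck

lemma ck2 : ∀ b < 11, ∀ c < 11, ∀ d < 11, ∀ e < 11, ck 1 b c d e = true ∧ (0 < b ∨ ck 0 1 c d e = true ∧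
      (0 < c ∨ ck 0 0 1 d e = true ∧ (0 < d ∨ ck 0 0 0 1 e = true ∧ ck 0 0 0 0 1 = true))) := by
  simpa only [frc_eq, allLt_iff, band_eq, bor_eq, Bool.or_eq_true, Bool.and_eq_true, Nat.blt_eq]
    using ck1

lemma Pw_smul (k : ℕ) (c : ZMod 11) (a : Fin 6 → ZMod 11) : Pw k (c • a) = c ^ k * Pw k a := by
  simp [Pw, evZ_smul, mul_pow, Finset.mul_sum]

variable (F : Type*) [Field F]

noncomputable def dE : Dat chevE6.Idx (Fin 72) 6 F := goodE6.dat F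

lemma axE : (dE F).Ax := goodE6.ax F

variable {F}

lemma Pw_WL (L : List (Fin 6)) {a b : Fin 6 → ZMod 11}
    (h : ∀ v, evZ a v = evZ b (WL (dE F) L v)) (k : ℕ) : Pw k a = Pw k b :=
  (Finset.sum_congr rfl fun s _ => by rw [h]).trans (WL_sum (axE F) SZ.toFinset
    (by decide +kernel : ∀ p, ∀ s ∈ SZ.toFinset, (dE ℚ).W p s ∈ SZ.toFinset) L fun s => evZ b s ^ k)

lemma Pw_last (a : Fin 6 → ZMod 11) (h2 : Pw 2 a = 0) (a0 : a 0 = 0) (a1 : a 1 = 0) (a2 : a 2 = 0)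
    (a3 : a 3 = 0) (a4 : a 4 = 0) : a = 0 := by
  haveI : Fact (Nat.Prime 11) := ⟨by norm_num⟩
  rw [Pw_eq] at h2
  simp [SZ, evZ_apply, Fin.sum_univ_six, a0, a1, a2, a3, a4] at h2
  have a5 : a 5 = 0 := pow_eq_zero_iff two_ne_zero |>.mp
    (by linear_combination 2 * h2 - 13 * a 5 ^ 2 * z11)
  funext i
  fin_cases i
  exacts [a0, a1, a2, a3, a4, a5]

attribute [irreducible] Pw

lemma eq_zero_of_Pw (a : Fin 6 → ZMod 11) (h2 : Pw 2 a = 0) (h5 : Pw 5 a = 0) (h6 : Pw 6 a = 0) :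
    a = 0 := by
  haveI : Fact (Nat.Prime 11) := ⟨by norm_num⟩
  have k1 : ∀ c : ZMod 11, ck (c * a 0).val (c * a 1).val (c * a 2).val (c * a 3).val (c * a 4).val
      ≠ true := fun c => ck_spec (c • a) (by rw [Pw_smul, h2, mul_zero])
    (by rw [Pw_smul, h5, mul_zero]) (by rw [Pw_smul, h6, mul_zero])
  have v := fun x : ZMod 11 => ZMod.val_lt x
  have v1 : (1 : ZMod 11).val = 1 := rfl
  have l0 : ¬ 0 < 0 := lt_irrefl 0
  have l1 : 0 < 11 := by norm_num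
  have a0 : a 0 = 0 := by_contra fun h => k1 (a 0)⁻¹ (by
    rw [inv_mul_cancel₀ h, v1]; exact (ck2 _ (v _) _ (v _) _ (v _) _ (v _)).1)
  have a1 : a 1 = 0 := by_contra fun h => k1 (a 1)⁻¹ (by
    rw [inv_mul_cancel₀ h, v1, a0, mul_zero, ZMod.val_zero]
    exact ((ck2 0 l1 _ (v _) _ (v _) _ (v _)).2.resolve_left l0).1)
  have a2 : a 2 = 0 := by_contra fun h => k1 (a 2)⁻¹ (by
    rw [inv_mul_cancel₀ h, v1, a0, a1, mul_zero, ZMod.val_zero]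
    exact (((ck2 0 l1 0 l1 _ (v _) _ (v _)).2.resolve_left l0).2.resolve_left l0).1)
  have k2 := fun x hx => (((ck2 0 l1 0 l1 0 l1 x hx).2.resolve_left l0).2.resolve_left l0).2.resolve_left l0
  have a3 : a 3 = 0 := by_contra fun h => k1 (a 3)⁻¹ (by
    rw [inv_mul_cancel₀ h, v1, a0, a1, a2, mul_zero, ZMod.val_zero]; exact (k2 _ (v _)).1)
  have a4 : a 4 = 0 := by_contra fun h => k1 (a 4)⁻¹ (by
    rw [inv_mul_cancel₀ h, v1, a0, a1, a2, a3, mul_zero, ZMod.val_zero]; exact (k2 0 l1).2)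
  exact Pw_last a h2 a0 a1 a2 a3 a4

lemma no13 [Finite F] {ζ : Fˣ} (hζ : IsPrimitiveRoot ζ 11) {H : Type*} [Group H]
    (ι : H →* GL chevE6.Idx F) (hι : Function.Injective ι) (hG : ∀ x, ι x ∈ GH (dE F))
    (φ : H →* Perm (Fin 13)) (hφ : ∀ σ, Perm.sign σ = 1 → σ ∈ φ.range) : False := by
  haveI : Fact (Nat.Prime 11) := ⟨by norm_num⟩
  haveI := Finite.of_injective _ hι
  obtain ⟨j, m, hm, hc⟩ := Nat.exists_eq_pow_mul_and_not_dvd
    (Nat.card_pos (α := GL chevE6.Idx F)).ne' 11 (by norm_num)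
  obtain ⟨S, hS⟩ := exists_isSylowIn (p := 11) ((dE F).T ⊓ GH (dE F))
  have hS' := syl_odd T_comm ((Nat.Prime.coprime_iff_not_dvd Fact.out).mpr hm) (fun g hg H => by
    obtain ⟨t, ht, L, rfl⟩ := reg_tor hζ (axE F)
      (by decide +kernel : ∀ r, ∃ j, ¬ ((11 : ℕ) : ℤ) ∣ (dE ℚ).rt r j) hg fun a =>
        H _ ⟨tor_mem hζ a, T_le_GH (tor_mem hζ a)⟩ (by
          rw [← map_pow]; convert map_one (tor hζ (dE F)); ext i; simp; exact Or.inl z11)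
    refine mul_pow_mem (axE F) ht (nw_norm (axE F) L) (nw_pow_mem (axE F) ?_)
    obtain ⟨L', h1, h2⟩ := exists_pow (d := dE F) L (Nat.card (GL chevE6.Idx F))
    have := end_pow (W := WL (dE F) L ^ m) (l := 11) 0 (by norm_num) j (by
      rw [← pow_mul, mul_comm, ← hc, ← h2]
      exact WL_eq (axE F) (one_mem _) (one_mem _) (L' := []) (by rw [h1, pow_card_eq_one']; rfl))
    simpa using this) hS
  let y : Perm (Fin 13) := H7.Alt.sw [(0, 10), (0, 9), (0, 8), (0, 7), (0, 6), (0, 5), (0, 4), (0, 3),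
    (0, 2), (0, 1)]
  let g : Perm (Fin 13) := H7.Alt.sw [(1, 6), (1, 3), (1, 7), (1, 9), (1, 10), (1, 5), (1, 8), (1, 4),
    (1, 2), (11, 12)]
  have he : g * y * g⁻¹ = y ^ 2 := by decide +kernel
  obtain ⟨P, -, hP, h1, h2⟩ := frat φ ⊤ (isPGroup_zpowers (x := y) (l := 11) ⟨1, by decide +kernel⟩)
    (by rw [← MonoidHom.range_eq_map, zpowers_le]; exact hφ _ (H7.Alt.sign_sw _ (by decide) (by decide)))
  obtain ⟨h, hh, e⟩ := h2 g (by
    rw [← MonoidHom.range_eq_map]; exact hφ _ (H7.Alt.sign_sw _ (by decide) (by decide))) (by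
    refine mem_normalizer_fintype ?_
    rintro _ ⟨j, rfl⟩
    show _ ∈ zpowers y
    rw [← conj_zpow, he]
    exact zpow_mem (pow_mem (mem_zpowers y) 2) j)
  obtain ⟨c, hcG, hle⟩ := hS'.exists_cj_le (hP.map ι) (by rintro _ ⟨z, -, rfl⟩; exact hG z)
  have hT : ∀ x ∈ P, c * ι x * c⁻¹ ∈ (dE F).T := fun x hx =>
    (hS.le (hle (conj_mem_cj (mem_map_of_mem ι hx)))).1
  have hc : ∀ x ∈ P, ∀ z ∈ P, x * z = z * x := fun x hx z hz => hι (by
    have := T_comm _ (hT x hx) _ (hT z hz)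
    simpa [mul_assoc] using congrArg (· * c) this)
  have hn : ∀ x ∈ P, h * x * h⁻¹ ∈ P := fun x => conj_mem_of_mem_normalizer hh.2
  obtain ⟨x, hx, x1, x2⟩ : ∃ x ∈ P, x ≠ 1 ∧ h * x * h⁻¹ = x ^ 2 := by
    by_contra h3
    push Not at h3
    obtain ⟨z, hz, e1⟩ : y ∈ P.map φ := h1 ▸ mem_zpowers y
    obtain ⟨⟨x, hx⟩, e2⟩ := Finite.surjective_of_injective (f := fun x : P =>
      (⟨h * x * h⁻¹ * (x.1 ^ 2)⁻¹, mul_mem (hn x x.2) (inv_mem (pow_mem x.2 2))⟩ : P)) (fun a b e => by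
        by_contra h4
        refine h3 (b.1⁻¹ * a) (mul_mem (inv_mem b.2) a.2)
          (fun e => h4 (Subtype.ext (inv_mul_eq_one.mp e).symm)) ?_
        have e3 : h * a * h⁻¹ * (a.1 ^ 2)⁻¹ = h * b * h⁻¹ * (b.1 ^ 2)⁻¹ := congrArg Subtype.val e
        calc h * (b.1⁻¹ * a) * h⁻¹ = (h * b * h⁻¹)⁻¹ * (h * a * h⁻¹ * (a.1 ^ 2)⁻¹) * a.1 ^ 2 := by group
          _ = (b.1 ^ 2)⁻¹ * a.1 ^ 2 := by rw [e3]; group
          _ = _ := by rw [Commute.mul_pow (hc _ (inv_mem b.2) _ a.2), inv_pow]) ⟨z, hz⟩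
    obtain ⟨i, hi⟩ : φ x ∈ zpowers y := h1 ▸ mem_map_of_mem φ hx
    have e3 := congrArg (fun x : P => φ x) e2
    simp only [map_mul, map_inv, map_pow, e, e1, ← hi] at e3
    rw [← conj_zpow, he, ← zpow_natCast, ← zpow_natCast, ← zpow_mul, ← zpow_mul, mul_comm i,
      mul_inv_cancel] at e3
    exact absurd e3 (by decide +kernel)
  obtain ⟨x, hx, x1, x2, x3⟩ : ∃ x ∈ P, x ≠ 1 ∧ h * x * h⁻¹ = x ^ 2 ∧ x ^ 11 = 1 := by
    obtain ⟨n, hn⟩ := exists_pow_of_isPGroup hP hx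
    obtain ⟨n, h3, h4⟩ := Nat.exists_not_and_succ_of_not_zero_of_exists (p := fun n => x ^ 11 ^ n = 1)
      (by simpa using x1) ⟨n, hn⟩
    exact ⟨_, pow_mem hx _, h3, by rw [← conj_pow, x2, ← pow_mul, ← pow_mul, mul_comm],
      by rw [← pow_mul, ← pow_succ, h4]⟩
  obtain ⟨a, ha⟩ := exists_tor hζ (axE F) (hT x hx) (by rw [conj_pow, ← map_pow, x3]; simp)
  obtain ⟨L, hL⟩ := fuse_tor hζ (axE F) (mul_mem (mul_mem hcG (hG h)) (inv_mem hcG))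
  have h3 := hL a (a ^ 2) (by
    rw [map_pow, ha, conj_pow, ← map_pow, ← x2, map_mul, map_mul, map_inv]; group)
  have h4 : ∀ k, Pw k a.toAdd = 2 ^ k * Pw k a.toAdd := fun k => by
    rw [← Pw_smul, Pw_WL L h3, toAdd_pow, two_smul, two_smul]
  have h5 : a = 1 := eq_zero_of_Pw a.toAdd (by linear_combination 7 * h4 2 + 2 * Pw 2 a.toAdd * z11)
    (by linear_combination 6 * h4 5 + 17 * Pw 5 a.toAdd * z11)
    (by linear_combination 4 * h4 6 + 23 * Pw 6 a.toAdd * z11)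
  rw [h5, map_one, eq_comm, mul_inv_eq_one, mul_eq_left] at ha
  exact x1 (hι (ha.trans (map_one ι).symm))

theorem main_E6 [Finite F] (p : ℕ) [Fact p.Prime] [CharP F p] {H : Type*} [Group H]
    (ι : H →* chevE6.group F) (hι : Function.Injective ι) {r : ℕ} (φ : H →* Equiv.Perm (Fin r))
    (hφ : ∀ σ, Equiv.Perm.sign σ = 1 → σ ∈ φ.range) :
    r ≤ 11 + (if p = 2 ∨ p = 3 ∨ p = 5 then 1 else 0) := by
  haveI := Finite.of_injective _ hι
  by_contra hr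
  split_ifs at hr with hp
  · obtain ⟨F', _, _, σ, ζ, hζ⟩ := exists_ext F 11 (by
      rw [Ne, CharP.cast_eq_zero_iff F p, Nat.prime_dvd_prime_iff_eq Fact.out (by norm_num)]
      omega)
    obtain ⟨H', φ', h'⟩ := restrict (show 13 ≤ r by omega) φ hφ
    exact no13 (hζ ▸ IsPrimitiveRoot.orderOf ζ) (((Matrix.GeneralLinearGroup.map σ).comp
      ((chevE6.group F).subtype.comp ι)).comp H'.subtype)
      (((glmap_inj σ).comp (Subtype.val_injective.comp hι)).comp Subtype.val_injective)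
      (fun x => map_mem_GH goodE6 σ (ι x).2) φ' h'
  · obtain ⟨H', φ', h'⟩ := restrict (show 12 ≤ r by omega) φ hφ
    refine no12_E6 p (fun h => hp ?_) (ι.comp H'.subtype) (hι.comp Subtype.val_injective) φ' h'
    have hq := (Fact.out : p.Prime)
    rw [show 30 = 2 * (3 * 5) by norm_num, hq.dvd_mul, hq.dvd_mul] at h
    exact h.imp (Nat.prime_dvd_prime_iff_eq hq (by norm_num)).mp
      (Or.imp (Nat.prime_dvd_prime_iff_eq hq (by norm_num)).mp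
        (Nat.prime_dvd_prime_iff_eq hq (by norm_num)).mp)

omit [Field F] in
lemma genSubgroup_le [Field F] {D : ChevalleyDatum} {P : Pk} (h : Good D P) (S : Set (List (ℕ × F))) :
    D.genSubgroup F S ≤ D.group F := by
  refine (closure_le _).mpr ?_
  rintro g ⟨w, -, hw⟩
  obtain ⟨g', h1, h2⟩ : ∃ g' ∈ D.group F, g'.1 = D.wordMat F w := by
    clear hw
    induction w with
    | nil => exact ⟨1, one_mem _, rfl⟩
    | cons x w ih =>
      obtain ⟨g', h1, h2⟩ := ih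
      by_cases hx : x.1 < D.nroots
      · exact ⟨(h.dat F).x ⟨x.1, hx⟩ x.2 * g', mul_mem (subset_closure ⟨_, _, rfl⟩) h1, by
          simp [ChevalleyDatum.wordMat, ChevalleyDatum.x, hx, h2, h.dat_x]⟩
      · exact ⟨g', h1, by simp [ChevalleyDatum.wordMat, ChevalleyDatum.x, hx, h2]⟩
  exact (Units.ext (h2.trans hw.symm) : g' = g) ▸ h1

end Cfsg.Agent.H6A
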