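import Cfsg.Agent.H6.E7c
import Cfsg.Agent.H6.E7k
import Cfsg.Agent.H6.PkE7

/-!
Alternating sections of E7(q).
-/

set_option autoImplicit false
set_option maxRecDepth 100000

namespace Cfsg.Agent.H6A

open Subgroup Cfsg.Agent.H9.Chev Dat Cfsg.Agent.H7.Alt Cfsg.Lie Cfsg.Agent.H4 Cfsg.Agent.H1 Equiv

def SH : List (Fin 7 → ℤ) := [![0, 1, 0, 0, -1, -2, -1], ![0, 1, 0, 0, -1, 0, -1],
  ![0, 1, 0, 0, -1, 0, 1], ![0, 1, 0, 0, 1, 0, -1], ![0, 1, 0, 0, 1, 0, 1], ![0, 1, 0, 0, 1, 2, 1],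
  ![0, 1, 0, 2, 1, 0, -1], ![0, 1, 0, 2, 1, 0, 1], ![0, 1, 0, 2, 1, 2, 1], ![0, 1, 0, 2, 3, 2, 1],
  ![0, 1, 2, 2, 1, 0, -1], ![0, 1, 2, 2, 1, 0, 1], ![0, 1, 2, 2, 1, 2, 1], ![0, 1, 2, 2, 3, 2, 1],
  ![0, 1, 2, 4, 3, 2, 1], ![0, 3, 2, 4, 3, 2, 1], ![2, 1, 2, 2, 1, 0, -1], ![2, 1, 2, 2, 1, 0, 1],
  ![2, 1, 2, 2, 1, 2, 1], ![2, 1, 2, 2, 3, 2, 1], ![2, 1, 2, 4, 3, 2, 1], ![2, 1, 4, 4, 3, 2, 1],
  ![2, 3, 2, 4, 3, 2, 1], ![2, 3, 4, 4, 3, 2, 1], ![2, 3, 4, 6, 3, 2, 1], ![2, 3, 4, 6, 5, 2, 1],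
  ![2, 3, 4, 6, 5, 4, 1], ![2, 3, 4, 6, 5, 4, 3]]

variable (F : Type*) [Field F]

noncomputable def dE7 : Dat chevE7.Idx (Fin 126) 7 F := goodE7.dat F

lemma axE7 : (dE7 F).Ax := goodE7.ax F

variable {F} {l : ℕ}

/-- sums over half of the weights -/
def hs {M : Type} [AddCommMonoid M] (f : ZMod l → M) (a : Fin 7 → ZMod l) : M :=
  ((SH.map (evZ a)).map f).sum

/-- equal weight multisets -/
def WI (a b : Fin 7 → ZMod l) : Prop := ∀ (M : Type) [AddCommMonoid M] (f : ZMod l → M),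
  hs (fun x => f (x ^ 2)) a + hs (fun x => f (x ^ 2)) a =
    hs (fun x => f (x ^ 2)) b + hs (fun x => f (x ^ 2)) b

lemma WI_of {a b : Fin 7 → ZMod l} {L : List (Fin 7)}
    (h : ∀ v, evZ a v = evZ b (WL (dE7 F) L v)) : WI a b := fun M _ f => by
  have h1 : ∀ a : Fin 7 → ZMod l, ∑ s ∈ (SH ++ SH.map Neg.neg).toFinset, f (evZ a s ^ 2) =
      hs (fun x => f (x ^ 2)) a + hs (fun x => f (x ^ 2)) a := fun a => by
    rw [List.sum_toFinset _ (by decide +kernel)]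
    simp [hs, Function.comp_def]
  rw [← h1, ← h1]
  exact (Finset.sum_congr rfl fun s _ => by rw [h]).trans (WL_sum (axE7 F) _
    (by decide +kernel : ∀ p, ∀ s ∈ (SH ++ SH.map Neg.neg).toFinset,
      (dE7 ℚ).W p s ∈ (SH ++ SH.map Neg.neg).toFinset) L fun s => f (evZ b s ^ 2))

lemma hs_smul {M : Type} [AddCommMonoid M] (f : ZMod l → M) (c : ZMod l) (a : Fin 7 → ZMod l) :
    hs f (c • a) = hs (fun x => f (c * x)) a := by
  simp [hs, Function.comp_def, evZ_smul]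

lemma hs_sq (a : Fin 7 → ZMod l) : hs (fun x => x ^ 2) a = 12 * (4 * a 0 * a 0 + 8 * a 0 * a 1 +
    12 * a 0 * a 2 + 16 * a 0 * a 3 + 12 * a 0 * a 4 + 8 * a 0 * a 5 + 7 * a 1 * a 1 + 16 * a 1 * a 2 +
    24 * a 1 * a 3 + 18 * a 1 * a 4 + 12 * a 1 * a 5 + 12 * a 2 * a 2 + 32 * a 2 * a 3 +
    24 * a 2 * a 4 + 16 * a 2 * a 5 + 24 * a 3 * a 3 + 36 * a 3 * a 4 + 24 * a 3 * a 5 +
    15 * a 4 * a 4 + 20 * a 4 * a 5 + 8 * a 5 * a 5 + a 6 * (4 * a 0 + 6 * a 1 + 8 * a 2 + 12 * a 3 +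
    10 * a 4 + 8 * a 5 + 3 * a 6)) := by
  simp [hs, SH, evZ_apply, Fin.sum_univ_seven]
  ring

/-- counting the weights by their squares -/
def cn (c : ZMod l) (a : Fin 7 → ZMod l) : ℕ := hs (fun x => if x ^ 2 = c then 1 else 0) a

variable [Fact l.Prime]

lemma gN_eq {L : List S7} (hL : L = SH.map fun s => ⟨(s 0 : ZMod l).val, (s 1 : ZMod l).val,
    (s 2 : ZMod l).val, (s 3 : ZMod l).val, (s 4 : ZMod l).val, (s 5 : ZMod l).val, (s 6 : ZMod l).val⟩)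
    (a : Fin 7 → ZMod l) : gN l (a 0).val (a 1).val (a 2).val (a 3).val (a 4).val (a 5).val (a 6).val L =
      hs (fun x => 32 ^ (x ^ 2).val) a := by
  rw [hL, hs]
  induction SH with
  | nil => rfl
  | cons s L ih =>
    rw [List.map_cons, List.map_cons, List.map_cons, List.sum_cons, ← ih]
    refine congrArg (fun x => 32 ^ x + _) ((ZMod.val_natCast l _).symm.trans (congrArg ZMod.val ?_))
    simp [evZ_apply, Fin.sum_univ_seven, add_assoc]

lemma cn_smul {c : ZMod l} (hc : c ≠ 0) (a : Fin 7 → ZMod l) : cn 0 (c • a) = cn 0 a := by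
  simp [cn, hs_smul, hc]

lemma WI.smul {a : Fin 7 → ZMod l} (h : WI a (a + a)) (c : ZMod l) : WI (c • a) (c • a + c • a) :=
  fun M _ f => by simpa only [← smul_add, hs_smul, mul_pow] using h M fun x => f (c ^ 2 * x)

lemma WI.cn {a b : Fin 7 → ZMod l} (h : WI a b) (c : ZMod l) : cn c a = cn c b := by
  have := h ℕ fun x => if x = c then 1 else 0
  unfold H6A.cn
  omega

lemma cn_two (c : ZMod l) (a : Fin 7 → ZMod l) :
    cn c (a + a) = ((SH.map (evZ a)).map fun x => if (x + x) ^ 2 = c then 1 else 0).sum := by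
  simp [cn, hs, Function.comp_def, evZ_add]

instance fact5 : Fact (Nat.Prime 5) := ⟨by norm_num⟩

instance fact7 : Fact (Nat.Prime 7) := ⟨by norm_num⟩

lemma key5 (a : Fin 7 → ZMod 5) (h : WI a (a + a)) : hs (fun x => 32 ^ (x ^ 2).val) a % 1048606 = 28 ∧
    (hs (fun x => 32 ^ (x ^ 2).val) a ∈ [10486088] → cn 0 a = 8) := by
  have h1 := h.cn 1
  have h2 : ∀ L : List (ZMod 5), let n := fun c => (L.map fun x => if x ^ 2 = c then 1 else 0).sum
      (L.map fun x => 32 ^ (x ^ 2).val).sum = n 0 + 32 * n 1 + 1048576 * n 4 ∧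
      L.length = n 0 + n 1 + n 4 ∧ (L.map fun x => if (x + x) ^ 2 = 1 then 1 else 0).sum = n 4 := by
    intro L
    induction L with
    | nil => simp
    | cons x L ih =>
      have : ∀ x : ZMod 5, let n := fun c => if x ^ 2 = c then 1 else 0
        32 ^ (x ^ 2).val = n 0 + 32 * n 1 + 1048576 * n 4 ∧ 1 = n 0 + n 1 + n 4 ∧
          (if (x + x) ^ 2 = 1 then 1 else 0) = n 4 := by decide
      have := this x
      simp only [List.map_cons, List.sum_cons, List.length_cons] at ih this ⊢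
      omega
  have h3 := h2 (SH.map (evZ a))
  rw [cn_two] at h1
  simp only [cn, hs, List.mem_singleton, List.length_map, show SH.length = 28 from rfl] at h1 h3 ⊢
  omega

lemma key7 (a : Fin 7 → ZMod 7) (h : WI a (a + a)) : hs (fun x => 32 ^ (x ^ 2).val) a % 1049629 = 28 ∧
    (hs (fun x => 32 ^ (x ^ 2).val) a ∈ [6297802, 8397060, 9446689] →
      cn 0 a = 1 ∨ cn 0 a = 4 ∨ cn 0 a = 10) := by
  have h1 := h.cn 1
  have h4 := h.cn 4
  have h2 : ∀ L : List (ZMod 7), let n := fun c => (L.map fun x => if x ^ 2 = c then 1 else 0).sum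
      (L.map fun x => 32 ^ (x ^ 2).val).sum = n 0 + 32 * n 1 + 1024 * n 2 + 1048576 * n 4 ∧
      L.length = n 0 + n 1 + n 2 + n 4 ∧ (L.map fun x => if (x + x) ^ 2 = 1 then 1 else 0).sum = n 2 ∧
      (L.map fun x => if (x + x) ^ 2 = 4 then 1 else 0).sum = n 1 := by
    intro L
    induction L with
    | nil => simp
    | cons x L ih =>
      have : ∀ x : ZMod 7, let n := fun c => if x ^ 2 = c then 1 else 0
        32 ^ (x ^ 2).val = n 0 + 32 * n 1 + 1024 * n 2 + 1048576 * n 4 ∧ 1 = n 0 + n 1 + n 2 + n 4 ∧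
          (if (x + x) ^ 2 = 1 then 1 else 0) = n 2 ∧ (if (x + x) ^ 2 = 4 then 1 else 0) = n 1 := by decide
      have := this x
      simp only [List.map_cons, List.sum_cons, List.length_cons] at ih this ⊢
      omega
  have h3 := h2 (SH.map (evZ a))
  rw [cn_two] at h1 h4
  simp only [cn, hs, List.mem_cons, List.not_mem_nil, or_false, List.length_map,
    show SH.length = 28 from rfl] at h1 h4 h3 ⊢
  omega

lemma cn_sum {k : ℕ} (a : (Fin (k + 1) → ZMod l) →+ (Fin 7 → ZMod l)) :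
    l ^ k ∣ ∑ v, cn 0 (a v) ∧ 28 * l ^ k ≤ ∑ v, cn 0 (a v) := by
  have hl := (Fact.out : l.Prime)
  simp only [cn, hs, ← show SH.length = 28 from rfl]
  induction SH with
  | nil => simp
  | cons s L ih =>
    let f : (Fin (k + 1) → ZMod l) →+ ZMod l := .mk' (fun v => evZ (a v) s) fun v w => by
      rw [map_add, evZ_add]
    have h1 : ∑ v, (if evZ (a v) s ^ 2 = 0 then 1 else 0) = Nat.card f.ker := by
      simp [Fintype.card_subtype, f, AddMonoidHom.mem_ker]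
    have h2 : l ^ k ∣ Nat.card f.ker := by
      have h2 := f.ker.card_mul_index
      obtain ⟨c, hc⟩ := f.range.card_addSubgroup_dvd_card
      rw [AddSubgroup.index_ker, Nat.card_fun, Nat.card_zmod, Nat.card_fin, pow_succ] at h2
      rw [Nat.card_zmod] at hc
      exact ⟨c, Nat.eq_of_mul_eq_mul_right Nat.card_pos (h2.trans ((congrArg (l ^ k * ·) hc).trans
        (by ring)))⟩
    have h3 := Nat.le_of_dvd Nat.card_pos h2
    simp only [List.map_cons, List.sum_cons, Finset.sum_add_distrib, h1, List.length_cons]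
    exact ⟨dvd_add h2 ih.1, by rw [add_mul]; omega⟩

lemma cn_zero : cn 0 (0 : Fin 7 → ZMod l) = 28 := by simp [cn, hs, evZ_apply, Function.comp_def, SH]

lemma cn5 : ∀ x y z : ZMod 5, cn 0 ![x, y, z, 0, 0, 0, 0] = 8 → x = 0 ∧ y = 0 ∧ z = 0 := by
  decide +kernel

lemma cn7 : ∀ x : ZMod 7, x ≠ 0 → cn 0 ![0, x, 0, 0, 0, 0, 0] = 0 := by decide +kernel

attribute [irreducible] hs cn
attribute [local irreducible] gN ckA

lemma ck_all {K : ℕ} {L : List S7} {ok : List ℕ} (h0 : ckA l K L ok 0 = true)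
    (h1 : ckA l K L ok 1 = true) (hL : L = SH.map fun s => ⟨(s 0 : ZMod l).val, (s 1 : ZMod l).val,
      (s 2 : ZMod l).val, (s 3 : ZMod l).val, (s 4 : ZMod l).val, (s 5 : ZMod l).val,
      (s 6 : ZMod l).val⟩) (h6 : (72 : ZMod l) ≠ 0) {R : ℕ → Prop}
    (hR : ∀ a : Fin 7 → ZMod l, WI a (a + a) → hs (fun x => 32 ^ (x ^ 2).val) a % K = 28 ∧
      (hs (fun x => 32 ^ (x ^ 2).val) a ∈ ok → R (cn 0 a)))
    {a : Fin 7 → ZMod l} (ha : a ≠ 0) (h : WI a (a + a)) : R (cn 0 a) := by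
  have key : ∀ a : Fin 7 → ZMod l, ckA l K L ok (a 0).val = true → a ≠ 0 → WI a (a + a) →
      R (cn 0 a) := fun a h0 ha h => by
    have v := fun i => ZMod.val_lt (a i)
    simp only [ckA, ck7, frc_eq, allLt_iff, bimp_iff, bor_eq, Bool.or_eq_true, Nat.beq_eq,
      memL_iff] at h0
    have h2 := h (ZMod l) fun x => x
    rw [hs_sq, hs_sq] at h2
    refine (h0 _ (v 1) _ (v 2) _ (v 3) _ (v 4) _ (v 5) _ (v 6) (Nat.dvd_iff_mod_eq_zero.mp
      ((ZMod.natCast_eq_zero_iff _ l).mp (mul_left_cancel₀ h6 ?_))) (by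
        rw [gN_eq hL]; exact (hR a h).1)).elim (by rw [gN_eq hL]; exact (hR a h).2) fun e => ?_
    · simp only [Pi.add_apply, Nat.add_eq, Nat.mul_eq, Nat.cast_add, Nat.cast_mul, Nat.cast_ofNat,
        ZMod.natCast_zmod_val] at h2 ⊢
      linear_combination -h2
    · refine absurd (funext fun i => (ZMod.val_eq_zero _).mp ?_) ha
      fin_cases i <;> simp only [Fin.reduceFinMk] <;> omega
  by_cases e : a 0 = 0
  · exact key a (by rwa [e, ZMod.val_zero]) ha h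
  exact cn_smul (inv_ne_zero e) a ▸ key ((a 0)⁻¹ • a)
    (by rwa [Pi.smul_apply, smul_eq_mul, inv_mul_cancel₀ e, ZMod.val_one])
    (smul_ne_zero (inv_ne_zero e) ha) (h.smul _)

lemma rat5 {a : Fin 7 → ZMod 5} (ha : a ≠ 0) (h : WI a (a + a)) : cn 0 a = 8 :=
  ck_all ckA50 ckA51 (by decide +kernel) (by decide) (R := (· = 8)) key5 ha h

lemma rat7 {a : Fin 7 → ZMod 7} (ha : a ≠ 0) (h : WI a (a + a)) :
    cn 0 a = 1 ∨ cn 0 a = 4 ∨ cn 0 a = 10 :=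
  ck_all ckA70 ckA71 (by decide +kernel) (by decide) (R := fun n => n = 1 ∨ n = 4 ∨ n = 10) key7 ha h

lemma fx5 {a : Fin 7 → ZMod l} (h : ∀ v, evZ a (WL (dE7 F) [3, 4, 5, 6] v) = evZ a v) :
    a = ![a 0, a 1, a 2, 0, 0, 0, 0] := by
  have h1 : ∀ i, WL (dE7 F) [3, 4, 5, 6] (Pi.single i 1) = ![![1, 0, 0, 0, 0, 0, 0],
      ![0, 1, 0, 1, 0, 0, 0], ![0, 0, 1, 1, 0, 0, 0], ![0, 0, 0, 0, 1, 0, 0], ![0, 0, 0, 0, 0, 1, 0],
      ![0, 0, 0, 0, 0, 0, 1], ![0, 0, 0, -1, -1, -1, -1]] i :=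
    (by decide +kernel : ∀ i, WL (dE7 ℚ) [3, 4, 5, 6] (Pi.single i 1) = _)
  have h2 := fun i => (h1 i ▸ h (Pi.single i 1)).trans (evZ_single a i)
  have e1 := h2 1
  have e3 := h2 3
  have e4 := h2 4
  have e5 := h2 5
  simp [evZ_apply, Fin.sum_univ_seven] at e1 e3 e4 e5
  ext i
  fin_cases i <;> simp [e1, e3, e4, e5]

lemma fx7 {a : Fin 7 → ZMod 7} (h : ∀ v, evZ a (WL (dE7 F) [0, 2, 3, 4, 5, 6] v) = evZ a v) :
    a = ![0, a 1, 0, 0, 0, 0, 0] := by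
  have h1 : ∀ i, WL (dE7 F) [0, 2, 3, 4, 5, 6] (Pi.single i 1) = ![![0, 0, 1, 0, 0, 0, 0],
      ![1, 1, 1, 1, 0, 0, 0], ![0, 0, 0, 1, 0, 0, 0], ![0, 0, 0, 0, 1, 0, 0], ![0, 0, 0, 0, 0, 1, 0],
      ![0, 0, 0, 0, 0, 0, 1], ![-1, 0, -1, -1, -1, -1, -1]] i :=
    (by decide +kernel : ∀ i, WL (dE7 ℚ) [0, 2, 3, 4, 5, 6] (Pi.single i 1) = _)
  have h2 := fun i => (h1 i ▸ h (Pi.single i 1)).trans (evZ_single a i)
  have e0 := h2 0
  have e1 := h2 1
  have e2 := h2 2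
  have e3 := h2 3
  have e4 := h2 4
  have e5 := h2 5
  simp [evZ_apply, Fin.sum_univ_seven] at e0 e1 e2 e3 e4 e5
  have e7 : (7 : ZMod 7) = 0 := by decide
  have e6 : a 0 = 0 := by linear_combination 5 * e1 - 5 * e2 - 10 * e0 - 2 * a 0 * e7
  ext i
  fin_cases i <;> simp [e0, e2, e3, e4, e5, e6]

variable [Finite F] {H : Type*} [Group H] (ι : H →* GL chevE7.Idx F) (hι : Function.Injective ι)
  (hG : ∀ x, ι x ∈ GH (dE7 F))
include hι hG

lemma no15 {ζ : Fˣ} (hζ : IsPrimitiveRoot ζ 5) (φ : H →* Perm (Fin 3 × ZMod 5))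
    (hφ : ∀ σ, Perm.sign σ = 1 → σ ∈ φ.range) : False := by
  have h3 : ∀ v : Fin 3 → ZMod 5, ∃ τ c, mP τ c v = v + v ∧ Perm.sign (bP τ c) = 1 := by
    decide +kernel
  obtain ⟨a, h1, h2⟩ := tor_sec hφ (axE7 F) hζ (exists_syl (axE7 F) hζ
    (by decide +kernel : ∀ r, ∃ j, ¬ ((5 : ℕ) : ℤ) ∣ (dE7 ℚ).rt r j) [3, 4, 5, 6]
    (end_ext (by decide +kernel : ∀ p, (WL (dE7 ℚ) [3, 4, 5, 6] ^ 5) (Pi.single p 1) = Pi.single p 1))
    (by norm_num) (by norm_num) (by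
      rw [Nat.card_eq_fintype_card]
      exact (by decide +kernel : ¬ 5 ^ 2 ∣ Fintype.card {r | (dE7 ℚ).ww [3, 4, 5, 6] r ≠ r}))
    (p := 3) (q := 4) (by decide) fun a h => ⟨congrFun (fx5 h) 3, congrFun (fx5 h) 4⟩)
    (fun a h L h' => by_contra fun e => by
      obtain ⟨e0, e1, e2⟩ := cn5 _ _ _ (fx5 h ▸ rat5 e (WI_of h'))
      exact e ((fx5 h).trans (by rw [e0, e1, e2]; decide)))
    ι hι hG (by decide) (by norm_num) (by decide +kernel) (-1) (by decide) (by decide +kernel)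
    (by decide +kernel) h3 (by simp)
  have h4 : ∀ v, cn 0 (a v) = if v = 0 then 28 else 8 := fun v => by
    split_ifs with e
    · rw [e, map_zero, cn_zero]
    obtain ⟨τ, c, e1, e2⟩ := h3 v
    obtain ⟨L, hL⟩ := h2 τ c e2
    exact rat5 ((map_ne_zero_iff a h1).mpr e) (WI_of (by simpa only [e1, map_add] using hL v))
  have h5 := (cn_sum a).1
  simp only [h4] at h5
  exact absurd h5 (by decide +kernel)

lemma no14 {ζ : Fˣ} (hζ : IsPrimitiveRoot ζ 7) (φ : H →* Perm (Fin 2 × ZMod 7))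
    (hφ : ∀ σ, Perm.sign σ = 1 → σ ∈ φ.range) : False := by
  have h3 : ∀ v : Fin 2 → ZMod 7, ∃ τ c, mP τ c v = v + v ∧ Perm.sign (bP τ c) = 1 := by
    decide +kernel
  obtain ⟨a, h1, h2⟩ := tor_sec hφ (axE7 F) hζ (exists_syl (axE7 F) hζ
    (by decide +kernel : ∀ r, ∃ j, ¬ ((7 : ℕ) : ℤ) ∣ (dE7 ℚ).rt r j) [0, 2, 3, 4, 5, 6]
    (end_ext (by decide +kernel :
      ∀ p, (WL (dE7 ℚ) [0, 2, 3, 4, 5, 6] ^ 7) (Pi.single p 1) = Pi.single p 1))
    (by norm_num) (by norm_num) (by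
      rw [Nat.card_eq_fintype_card]
      exact (by decide +kernel : ¬ 7 ^ 2 ∣ Fintype.card {r | (dE7 ℚ).ww [0, 2, 3, 4, 5, 6] r ≠ r}))
    (p := 3) (q := 4) (by decide) fun a h => ⟨congrFun (fx7 h) 3, congrFun (fx7 h) 4⟩)
    (fun a h L h' => by_contra fun e => by
      have := rat7 e (WI_of h')
      rw [fx7 h, cn7 _ fun e1 => e ((fx7 h).trans (by rw [e1]; decide))] at this
      omega)
    ι hι hG (by decide) (by norm_num) (by decide +kernel) (.mkOfMulEqOne 2 4 (by decide)) (by decide)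
    (by decide +kernel) (by decide +kernel) h3 (fun _ => rfl)
  have h4 : ∀ v ≠ 0, cn 0 (a v) = 1 ∨ cn 0 (a v) = 4 ∨ cn 0 (a v) = 10 := fun v e => by
    obtain ⟨τ, c, e1, e2⟩ := h3 v
    obtain ⟨L, hL⟩ := h2 τ c e2
    exact rat7 ((map_ne_zero_iff a h1).mpr e) (WI_of (by simpa only [e1, map_add] using hL v))
  have h5 : ∀ v, cn 0 (a v) = (if v = 0 then 28 else 0) + (if v ≠ 0 ∧ v 0 * v 1 = 0 then 1 else 0) *
      cn 0 (a ![1, 0]) + (if v 0 * v 1 = 0 then 0 else 1) * cn 0 (a ![1, 1]) := fun v => by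
    by_cases e : v = 0
    · simp [e, cn_zero]
    obtain ⟨τ, c, e1, e2⟩ := (by decide +kernel : ∀ v : Fin 2 → ZMod 7, v ≠ 0 → ∃ (τ : Perm (Fin 2)) (c : _),
      mP τ c (if v 0 * v 1 = 0 then ![1, 0] else ![1, 1]) = v ∧ Perm.sign (bP τ c) = 1) v e
    obtain ⟨L, hL⟩ := h2 τ c e2
    rw [← ((WI_of (hL _)).cn 0).trans (congrArg (fun v => cn 0 (a v)) e1)]
    by_cases e3 : v 0 * v 1 = 0
    · simp only [e, e3, if_true, if_false, ne_eq, not_false_eq_true, and_self]; omega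
    · simp only [e, e3, if_false, and_false]; omega
  have h6 := cn_sum a
  rw [Finset.sum_congr rfl fun v _ => h5 v, Finset.sum_add_distrib, Finset.sum_add_distrib,
    ← Finset.sum_mul, ← Finset.sum_mul,
    show (∑ v : Fin 2 → ZMod 7, if v = 0 then 28 else 0) = 28 by decide +kernel,
    show (∑ v : Fin 2 → ZMod 7, if v ≠ 0 ∧ v 0 * v 1 = 0 then 1 else 0) = 12 by decide +kernel,
    show (∑ v : Fin 2 → ZMod 7, if v 0 * v 1 = 0 then 0 else 1) = 36 by decide +kernel] at h6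
  have h7 := h4 ![1, 0] (by decide)
  have h8 := h4 ![1, 1] (by decide)
  omega

omit hι hG in
theorem main_E7 (p : ℕ) [Fact p.Prime] [CharP F p]
    (ι : H →* chevE7.group F) (hι : Function.Injective ι) {r : ℕ} (φ : H →* Equiv.Perm (Fin r))
    (hφ : ∀ σ, Equiv.Perm.sign σ = 1 → σ ∈ φ.range) : r ≤ 13 + (if p = 7 then 1 else 0) := by
  haveI := Finite.of_injective _ hι
  have key : ∀ (k l : ℕ) [Fact l.Prime], k * l ≤ r → p ≠ l → ∃ (F' : Type _) (_ : Field F') (_ : Finite F')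
      (ζ : F'ˣ) (H' : Subgroup H) (ι : H' →* GL chevE7.Idx F') (φ : H' →* Perm (Fin k × ZMod l)),
      IsPrimitiveRoot ζ l ∧ Function.Injective ι ∧ (∀ x, ι x ∈ GH (dE7 F')) ∧
        ∀ σ, Perm.sign σ = 1 → σ ∈ φ.range := fun k l _ h1 h2 => by
    obtain ⟨F', _, _, σ, ζ, hζ⟩ := exists_ext F l (by
      rwa [Ne, CharP.cast_eq_zero_iff F p, Nat.prime_dvd_prime_iff_eq Fact.out Fact.out])
    obtain ⟨H', φ', h'⟩ := restrict h1 φ hφ
    let ε : Fin (k * l) ≃ Fin k × ZMod l := Fintype.equivOfCardEq (by simp)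
    refine ⟨F', _, ‹_›, ζ, H', ((Matrix.GeneralLinearGroup.map σ).comp
      ((chevE7.group F).subtype.comp ι)).comp H'.subtype, ε.permCongrHom.toMonoidHom.comp φ',
      hζ ▸ IsPrimitiveRoot.orderOf ζ,
      ((glmap_inj σ).comp (Subtype.val_injective.comp hι)).comp Subtype.val_injective,
      fun x => map_mem_GH goodE7 σ (ι x).2, fun τ hτ => ?_⟩
    obtain ⟨x, hx⟩ := h' (ε.symm.permCongr τ) (by rwa [Perm.sign_permCongr])
    exact ⟨x, by ext1; simp [hx]⟩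
  by_contra hr
  split_ifs at hr with hp
  · obtain ⟨F', _, _, ζ, H', ι, φ, h1, h2, h3, h4⟩ := key 3 5 (by omega) (by omega)
    exact no15 ι h2 h3 h1 φ h4
  · obtain ⟨F', _, _, ζ, H', ι, φ, h1, h2, h3, h4⟩ := key 2 7 (by omega) hp
    exact no14 ι h2 h3 h1 φ h4

end Cfsg.Agent.H6A
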