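import Cfsg.Agent.H6.Eig

/-!
Counting classes of elements of prime order different from the characteristic.
-/

set_option autoImplicit false

namespace Cfsg.Agent.H6

open Polynomial Module Matrix

theorem card_sum_eq (T : Type*) [Fintype T] (n : ℕ) :
    Nat.card {a : T → ℕ // ∑ i, a i = n} = (Fintype.card T + n - 1).choose n := by
  classical
  rw [← Sym.card_sym_eq_choose, ← Nat.card_eq_fintype_card,
    Nat.card_congr (Sym.equivNatSumOfFintype T n)]

theorem finite_sum_eq (T : Type*) [Fintype T] (n : ℕ) : Finite {a : T → ℕ // ∑ i, a i = n} := by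
  classical
  exact Finite.of_equiv _ (Sym.equivNatSumOfFintype T n)

/-- slack variable -/
def sumLeEquiv (T : Type*) [Fintype T] (n : ℕ) :
    {a : T → ℕ // ∑ i, a i ≤ n} ≃ {a : Option T → ℕ // ∑ i, a i = n} where
  toFun a := ⟨fun o => o.elim (n - ∑ i, a.1 i) a.1, by
    rw [Fintype.sum_option]; exact Nat.sub_add_cancel a.2⟩
  invFun b := ⟨fun i => b.1 (some i), by
    have := b.2
    rw [Fintype.sum_option] at this
    exact Nat.le.intro ((add_comm _ _).trans this)⟩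
  left_inv a := rfl
  right_inv b := Subtype.ext (_root_.funext fun o => by
    cases o with
    | none =>
      have := b.2
      rw [Fintype.sum_option] at this
      exact Nat.sub_eq_of_eq_add this.symm
    | some i => rfl)

theorem card_sum_le (T : Type*) [Fintype T] (n : ℕ) :
    Nat.card {a : T → ℕ // ∑ i, a i ≤ n} = (n + Fintype.card T).choose (Fintype.card T) := by
  rw [Nat.card_congr (sumLeEquiv T n), card_sum_eq, Fintype.card_option, ← Nat.choose_symm_add]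
  congr 1
  omega

theorem card_and_ne {α : Type*} (P : α → Prop) [Finite {a // P a}] {a₀ : α} (h : P a₀) :
    Nat.card {a // P a ∧ a ≠ a₀} = Nat.card {a // P a} - 1 := by
  classical
  have := Fintype.ofFinite {a // P a}
  rw [← Nat.card_congr (Equiv.subtypeSubtypeEquivSubtypeInter P (· ≠ a₀)), Nat.card_eq_fintype_card,
    Nat.card_eq_fintype_card, Fintype.card_subtype_compl]
  congr 1
  exact Fintype.card_eq_one_iff.2 ⟨⟨⟨a₀, h⟩, rfl⟩, fun x => Subtype.ext (Subtype.ext x.2)⟩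

variable {r : ℕ}

theorem sum_zmod_eq [Fact r.Prime] (H : Subgroup (ZMod r)ˣ) [Fintype ((ZMod r)ˣ ⧸ H)]
    (m : ZMod r → ℕ) (a : (ZMod r)ˣ ⧸ H → ℕ) (h : ∀ u : (ZMod r)ˣ, m u = a u) :
    ∑ k, m k = m 0 + Nat.card H * ∑ c, a c := by
  classical
  rw [← Finset.add_sum_erase _ _ (Finset.mem_univ 0), Finset.sum_subtype (p := (· ≠ 0)) _ (by simp),
    ← unitsEquivNeZero.sum_comp, Finset.mul_sum,
    ← Finset.sum_fiberwise (g := (QuotientGroup.mk : _ → (ZMod r)ˣ ⧸ H))]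
  congr 1
  refine Finset.sum_congr rfl fun c _ => ?_
  rw [Finset.sum_congr rfl (g := fun _ => a c) fun u hu => by
    rw [← (Finset.mem_filter.1 hu).2]; exact h u, Finset.sum_const, smul_eq_mul,
    ← Fintype.card_subtype, ← Nat.card_eq_fintype_card]
  congr 1
  obtain ⟨u, rfl⟩ := QuotientGroup.mk_surjective c
  exact Nat.card_congr
    { toFun := fun v => ⟨u⁻¹ * v.1, QuotientGroup.eq.1 v.2.symm⟩
      invFun := fun v => ⟨u * v.1, QuotientGroup.mk_mul_of_mem _ v.2⟩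
      left_inv := fun v => by simp
      right_inv := fun v => by simp }

theorem card_invariant [Fact r.Prime] (H : Subgroup (ZMod r)ˣ) (n : ℕ) :
    Nat.card {m : ZMod r → ℕ // (∀ u ∈ H, ∀ k, m (u.1 * k) = m k) ∧ ∑ k, m k = n ∧ m 0 ≠ n} =
      (n / Nat.card H + H.index).choose H.index - 1 := by
  classical
  have := Fintype.ofFinite ((ZMod r)ˣ ⧸ H)
  have h0 : 0 < Nat.card H := Nat.card_pos
  have : Finite {a : (ZMod r)ˣ ⧸ H → ℕ // ∑ i, a i ≤ n / Nat.card H} :=
    have := finite_sum_eq (Option ((ZMod r)ˣ ⧸ H)) (n / Nat.card H)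
    Finite.of_equiv _ (sumLeEquiv _ _).symm
  rw [Subgroup.index, Nat.card_eq_fintype_card (α := _ ⧸ _), ← card_sum_le,
    ← card_and_ne _ (a₀ := 0) (by simp)]
  let f : ((ZMod r)ˣ ⧸ H → ℕ) → ZMod r → ℕ := fun a k =>
    if h : k = 0 then n - Nat.card H * ∑ c, a c else a (Units.mk0 k h)
  have h1 : ∀ a (u : (ZMod r)ˣ), f a u = a u := fun a u => by simp [f]
  have h2 : ∀ a, f a 0 = n - Nat.card H * ∑ c, a c := fun a => by simp [f]
  have hf : ∀ a : {a : (ZMod r)ˣ ⧸ H → ℕ // ∑ i, a i ≤ n / Nat.card H ∧ a ≠ 0},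
      (∀ u ∈ H, ∀ k, f a.1 (u.1 * k) = f a.1 k) ∧ ∑ k, f a.1 k = n ∧ f a.1 0 ≠ n := fun a => by
    refine ⟨fun u hu k => ?_, ?_, ?_⟩
    · by_cases hk : k = 0
      · rw [hk, mul_zero]
      · obtain ⟨k, rfl⟩ := Ne.isUnit hk
        rw [← Units.val_mul, h1, h1, mul_comm, QuotientGroup.mk_mul_of_mem _ hu]
    · rw [sum_zmod_eq H _ _ (h1 a.1), h2]
      exact Nat.sub_add_cancel (by rw [mul_comm, ← Nat.le_div_iff_mul_le h0]; exact a.2.1)
    · have h3 : 0 < ∑ c, a.1 c := Nat.pos_of_ne_zero fun h =>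
        a.2.2 (_root_.funext fun c => (Finset.sum_eq_zero_iff.1 h) c (Finset.mem_univ c))
      have h4 := (Nat.le_div_iff_mul_le h0).1 a.2.1
      have := Nat.mul_pos h3 h0
      rw [h2, mul_comm]
      omega
  refine (Nat.card_congr (Equiv.ofBijective (fun a => ⟨f a.1, hf a⟩)
    ⟨fun a b h => Subtype.ext (_root_.funext fun c => ?_), fun m => ?_⟩)).symm
  · obtain ⟨u, rfl⟩ := QuotientGroup.mk_surjective c
    rw [← h1 a.1, ← h1 b.1]
    exact congrFun (congrArg Subtype.val h) u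
  · obtain ⟨m, h3, h4, h5⟩ := m
    let a : (ZMod r)ˣ ⧸ H → ℕ := fun c => m c.out.1
    have h6 : ∀ u : (ZMod r)ˣ, m u = a u := fun u => by
      obtain ⟨v, hv⟩ := QuotientGroup.mk_out_eq_mul H u
      simp only [a]
      rw [hv, mul_comm, Units.val_mul, h3 _ v.2]
    have h7 := sum_zmod_eq H m a h6
    refine ⟨⟨a, ?_, fun h => ?_⟩, Subtype.ext (_root_.funext fun k => ?_)⟩
    · rw [Nat.le_div_iff_mul_le h0, mul_comm]; omega
    · rw [h] at h7
      simp at h7
      omega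
    · by_cases hk : k = 0
      · simp only [hk, h2]; omega
      · obtain ⟨k, rfl⟩ := Ne.isUnit hk
        exact (h1 a k).trans (h6 k).symm

theorem inv_zpowers {m : ZMod r → ℕ} {u : (ZMod r)ˣ} (h : ∀ k, m (u.1 * k) = m k) :
    ∀ v ∈ Subgroup.zpowers u, ∀ k, m (v.1 * k) = m k := by
  intro v hv
  rw [Subgroup.zpowers_eq_closure] at hv
  induction hv using Subgroup.closure_induction with
  | mem x hx => exact hx ▸ h
  | one => simp
  | mul x y _ _ hx hy => exact fun k => by rw [Units.val_mul, mul_assoc, hx, hy]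
  | inv x _ hx => exact fun k => by rw [← hx, Units.mul_inv_cancel_left]

theorem index_zpowers [Fact r.Prime] (u : (ZMod r)ˣ) {i t : ℕ} (hi : orderOf u = i)
    (ht : t * i = r - 1) : (Subgroup.zpowers u).index = t := by
  have := (Subgroup.zpowers u).index_mul_card
  rw [Nat.card_zpowers, hi, Nat.card_units, Nat.card_zmod, ← ht] at this
  exact Nat.eq_of_mul_eq_mul_right (hi ▸ orderOf_pos u) this

theorem orderOf_neg_one_zmod [hr : Fact r.Prime] (h2 : r ≠ 2) : orderOf (-1 : (ZMod r)ˣ) = 2 := by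
  have : Fact (2 < r) := ⟨lt_of_le_of_ne hr.out.two_le h2.symm⟩
  exact orderOf_eq_prime (by simp) fun h => ZMod.neg_one_ne_one (congrArg Units.val h)

theorem pow_half_eq_neg_one [Fact r.Prime] {u : (ZMod r)ˣ} {c : ℕ} (h : orderOf u = 2 * c) :
    u ^ c = -1 := by
  have h0 := orderOf_pos u
  have h1 : (u ^ c).1 ^ 2 = 1 := by
    rw [← Units.val_pow_eq_pow_val, ← pow_mul, mul_comm, ← h, pow_orderOf_eq_one, Units.val_one]
  exact Units.ext ((sq_eq_one_iff.1 h1).resolve_left fun h2 =>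
    pow_ne_one_of_lt_orderOf (x := u) (n := c) (by omega) (by omega) (Units.ext h2))

theorem orderOf_neg_zmod [Fact r.Prime] (h2 : r ≠ 2) (u : (ZMod r)ˣ) {i : ℕ} (hi : orderOf u = i) :
    orderOf (-u) = if Odd i then 2 * i else if i % 4 = 2 then i / 2 else i := by
  have h0 := orderOf_pos u
  rcases Nat.even_or_odd' i with ⟨c, hc | hc⟩
  · rw [if_neg (by rw [hc]; simp), ← neg_one_mul, ← pow_half_eq_neg_one (hi.trans hc), ← pow_succ,
      orderOf_pow' _ (by omega), hi]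
    have h3 : i.gcd (c + 1) ∣ 2 := by
      have := Nat.dvd_sub (Dvd.dvd.mul_left (Nat.gcd_dvd_right i (c + 1)) 2) (Nat.gcd_dvd_left i (c + 1))
      rwa [show 2 * (c + 1) - i = 2 by omega] at this
    split_ifs with h4
    · rw [Nat.dvd_antisymm h3 (Nat.dvd_gcd (by omega) (by omega))]
    · rw [((Nat.dvd_prime Nat.prime_two).1 h3).resolve_right fun h => by
        have := h ▸ Nat.gcd_dvd_right i (c + 1)
        omega, Nat.div_one]
  · rw [if_pos ⟨c, hc⟩, ← neg_one_mul, (Commute.all _ _).orderOf_mul_eq_mul_orderOf_of_coprime (by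
      rw [orderOf_neg_one_zmod h2, hi, hc]; simp), orderOf_neg_one_zmod h2, hi]

variable {F L : Type*} [Field F] [Field L] {ι : Type*} [Fintype ι] [DecidableEq ι]
  {e : F →+* L} {ζ : L}

theorem card_prime_classes [Fact r.Prime] [Finite F] [Finite L] (hζ : IsPrimitiveRoot ζ r)
    {G : Type*} [Group G] (ρ : G →* Matrix ι ι F) (inj : Function.Injective ρ)
    (H : Subgroup (ZMod r)ˣ)
    (hconj : ∀ a b, a ^ r = 1 → b ^ r = 1 → IsConj (ρ a) (ρ b) → IsConj a b)
    (hinv : ∀ g, ∀ u ∈ H, ∀ k, em e ζ r (ρ g) (u.1 * k) = em e ζ r (ρ g) k)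
    (hex : ∀ m : ZMod r → ℕ, (∀ u ∈ H, ∀ k, m (u.1 * k) = m k) → ∑ k, m k = Fintype.card ι →
      ∃ g, g ^ r = 1 ∧ em e ζ r (ρ g) = m) :
    Nat.card {C : ConjClasses G // ∃ g, ConjClasses.mk g = C ∧ orderOf g = r} =
      (Fintype.card ι / Nat.card H + H.index).choose H.index - 1 := by
  have h1 : ∀ g : G, g ≠ 1 ↔ em e ζ r (ρ g) 0 ≠ Fintype.card ι := fun g => by
    rw [Ne, Ne, em_zero_eq_card_iff, ← map_one ρ, inj.eq_iff]
  have h2 : ∀ g : G, g ^ r = 1 → ρ g ^ r = 1 := fun g hg => by rw [← map_pow, hg, map_one]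
  rw [← card_invariant]
  simp only [orderOf_eq_prime_iff]
  refine card_classes _ (fun g m => em e ζ r (ρ g) = m.1) (fun g hg => ?_) (fun m => ?_)
    fun g g' m m' hg hg' h h' => ⟨fun hc => ?_, fun hc => ?_⟩
  · exact ⟨⟨_, hinv g, em_sum hζ (h2 g hg.1), (h1 g).1 hg.2⟩, rfl⟩
  · obtain ⟨g, h3, h4⟩ := hex m.1 m.2.1 m.2.2.1
    exact ⟨g, ⟨h3, (h1 g).2 (h4 ▸ m.2.2.2)⟩, h4⟩
  · exact Subtype.ext (by rw [← h, ← h', IsConj.em_eq (ρ.map_isConj hc)])
  · subst hc
    exact hconj _ _ hg.1 hg'.1 (isConj_of_em hζ (h2 g hg.1) (h2 g' hg'.1) (h.trans h'.symm))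

theorem exists_unit_card {p q : ℕ} [Fact p.Prime] [CharP F p] [Fintype F] {j : ℕ} (hj : j ≠ 0)
    (hF : Fintype.card F = q ^ j) (hr : r.Prime) (hrp : r ≠ p) :
    (r : F) ≠ 0 ∧ ∃ u : (ZMod r)ˣ, u.1 = q := by
  have : Fact r.Prime := ⟨hr⟩
  refine ⟨cast_ne_zero_of_coprime ((Nat.coprime_primes hr Fact.out).2 hrp), Ne.isUnit fun h => ?_⟩
  obtain ⟨f, hp, hf⟩ := FiniteField.card F p
  rw [ZMod.natCast_eq_zero_iff] at h
  have := h.trans (dvd_pow_self q hj)
  rw [← hF, hf] at this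
  exact hrp ((Nat.prime_dvd_prime_iff_eq hr hp).1 (hr.dvd_of_dvd_pow this))

end Cfsg.Agent.H6
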