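import Mathlib

/-!
Powers in finite cyclic groups.
-/

set_option autoImplicit false

namespace Cfsg.Agent.H6

theorem exists_pow_eq_iff_cyc {C : Type*} [CommGroup C] [Finite C] [IsCyclic C] (n : ℕ) (x : C) :
    (∃ y, y ^ n = x) ↔ x ^ (Nat.card C / (Nat.card C).gcd n) = 1 := by
  have h1 : (powMonoidHom n : C →* C).range ≤
      (powMonoidHom (Nat.card C / (Nat.card C).gcd n) : C →* C).ker := by
    intro x hx
    have := pow_card_eq_one' (G := (powMonoidHom n : C →* C).range) (x := ⟨x, hx⟩)
    rw [IsCyclic.card_powMonoidHom_range] at this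
    exact congrArg Subtype.val this
  have h2 := Subgroup.eq_of_le_of_card_ge h1 (by
    rw [IsCyclic.card_powMonoidHom_range, IsCyclic.card_powMonoidHom_ker]
    exact Nat.gcd_le_right _ (Nat.div_pos (Nat.gcd_le_left _ Nat.card_pos)
      (Nat.gcd_pos_of_pos_left _ Nat.card_pos)))
  exact SetLike.ext_iff.1 h2 x

theorem exists_pow_eq_iff_field {F : Type*} [Field F] [Fintype F] (n : ℕ) {x : F} (hx : x ≠ 0) :
    (∃ y, y ≠ 0 ∧ y ^ n = x) ↔ x ^ ((Fintype.card F - 1) / (Fintype.card F - 1).gcd n) = 1 := by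
  classical
  have := exists_pow_eq_iff_cyc n (Units.mk0 x hx)
  rw [Nat.card_units, Nat.card_eq_fintype_card] at this
  constructor
  · rintro ⟨y, hy, e⟩
    exact congrArg Units.val (this.1 ⟨Units.mk0 y hy, Units.ext e⟩)
  · intro h
    obtain ⟨y, e⟩ := this.2 (Units.ext h)
    exact ⟨y, y.ne_zero, congrArg Units.val e⟩

theorem padicValNat_div_gcd {p : ℕ} [hp : Fact p.Prime] {N n : ℕ} (hN : N ≠ 0) (hn : n ≠ 0) :
    padicValNat p (N / N.gcd n) = padicValNat p N - min (padicValNat p N) (padicValNat p n) := by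
  simp only [← Nat.factorization_def _ hp.out]
  rw [Nat.factorization_div (Nat.gcd_dvd_left N n), Nat.factorization_gcd hN hn]
  simp

theorem neg_one_ne_one_of_odd {F : Type*} [Field F] [Fintype F] (h : Odd (Fintype.card F)) :
    (-1 : F) ≠ 1 := by
  have : ringChar F ≠ 2 := fun h2 => by
    have := FiniteField.even_card_iff_char_two.1 h2
    have := Nat.odd_iff.1 h
    omega
  exact Ring.neg_one_ne_one_of_char_ne_two this

theorem two_ne_zero_of_odd {F : Type*} [Field F] [Fintype F] (h : Odd (Fintype.card F)) :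
    (2 : F) ≠ 0 := fun h2 => neg_one_ne_one_of_odd h (by linear_combination -h2)

end Cfsg.Agent.H6
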