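import Cfsg.Agent.H7.AltSec

/-!
Lifting an irreducible elementary abelian section to a subgroup.
-/

set_option autoImplicit false

namespace Cfsg.Agent.H6A

open Subgroup Cfsg.Agent.H1 Cfsg.Agent.H7.Alt

lemma avg {C M Y : Type*} [CommGroup C] [CommGroup M] [Group Y] [Finite Y] {l k : ℕ} [Fact l.Prime]
    (ε : Multiplicative (Fin k → ZMod l) ≃* M) {n : ℕ} (hC : ∀ c : C, c ^ l ^ n = 1)
    (hY : ¬ l ∣ Nat.card Y) (ρ : Y →* MulAut C) (μ : Y →* MulAut M) (f : C →* M)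
    (hf : ∀ y c, f (ρ y c) = μ y (f c)) (h0 : ∃ c, f c ≠ 1)
    (hi : ∀ B : Subgroup M, B ≠ ⊥ → (∀ y, ∀ b ∈ B, μ y b ∈ B) → B = ⊤) :
    ∃ s : M →* C, Function.Injective s ∧ ∀ y v, s (μ y v) = ρ y (s v) := by
  classical
  have := Fintype.ofFinite Y
  obtain ⟨i, h1, h2⟩ := Nat.exists_not_and_succ_of_not_zero_of_exists
    (p := fun i => ∃ c, c ^ l ^ i = 1 ∧ f c ≠ 1) (by simp) ⟨n, h0.imp fun c h => ⟨hC c, h⟩⟩
  push Not at h1
  have h3 : ((powMonoidHom (l ^ (i + 1)) : C →* C).ker.map f) = ⊤ := hi _ (by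
    obtain ⟨c, h3, h4⟩ := h2
    exact fun e => h4 (mem_bot.mp (e ▸ mem_map_of_mem f h3))) (by
    rintro y _ ⟨c, hc, rfl⟩
    exact ⟨ρ y c, show ρ y c ^ _ = 1 by rw [← map_pow, show c ^ _ = 1 from hc, map_one], hf y c⟩)
  choose x hx hx' using fun j => (h3.ge (mem_top (ε (.ofAdd (Pi.single j 1)))) :)
  let σ : M → C := fun v => ∏ j, x j ^ ((ε.symm v).toAdd j).val
  have h4 : ∀ v, f (σ v) = v := fun v => ε.symm.injective (by
    simp only [σ, map_prod, map_pow, hx', MulEquiv.symm_apply_apply, ← ofAdd_nsmul, ← ofAdd_sum]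
    ext j
    simp [Finset.sum_apply, Pi.single_apply, -nsmul_eq_mul])
  let s0 : M →* C := MonoidHom.mk' (fun v => σ v ^ l ^ i) fun a b => by
    simp only [σ, ← Finset.prod_pow, ← Finset.prod_mul_distrib, map_mul, toAdd_mul, Pi.add_apply]
    refine Finset.prod_congr rfl fun j _ => ?_
    rw [← pow_mul, ← pow_mul, ← pow_mul, mul_comm, mul_comm _ (l ^ i), mul_comm _ (l ^ i), pow_mul,
      pow_mul, pow_mul, ← pow_add, ZMod.val_add, ← pow_eq_pow_mod]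
    rw [← pow_mul, ← pow_succ]; exact hx j
  refine ⟨∏ y, (ρ y).toMonoidHom.comp (s0.comp (μ y⁻¹).toMonoidHom), ?_, fun y v => ?_⟩
  · rw [injective_iff_map_eq_one]
    intro v hv
    have h5 := h1 (∏ y, ρ y (σ (μ y⁻¹ v))) (by simpa [s0, ← Finset.prod_pow] using hv)
    simp only [map_prod, hf, h4, map_inv, MulAut.apply_inv_self, Finset.prod_const] at h5
    refine eq_one_of_pow_of_coprime (p := l) (k := 1) (ε.symm.injective ?_) ?_
    · rw [map_pow, map_one]; ext j; simp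
    · refine Nat.Coprime.coprime_dvd_left (orderOf_dvd_of_pow_eq_one h5) ?_
      rw [Finset.card_univ, ← Nat.card_eq_fintype_card]
      exact ((Nat.Prime.coprime_iff_not_dvd Fact.out).mpr hY).symm
  · simp only [MonoidHom.finsetProd_apply, map_prod]
    exact Fintype.prod_equiv (Equiv.mulLeft y⁻¹) _ _ fun z => by simp

variable {H Q : Type*} [Group H] [Finite H] [Group Q] [Finite Q] (φ : H →* Q) {l k : ℕ} [Fact l.Prime]
  (e : Multiplicative (Fin k → ZMod l) →* Q) (he : Function.Injective e)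

/-- the maps induced by normalizing elements -/
def Fu (m : (Fin k → ZMod l) → Fin k → ZMod l) : Prop :=
  ∃ b ∈ φ.range, ∀ v, b * e (.ofAdd v) * b⁻¹ = e (.ofAdd (m v))

variable {P : Subgroup H} (hP : IsSylowIn l P ⊤) (hA : P.map φ = e.range)
  (hi : ∀ B : AddSubgroup (Fin k → ZMod l), B ≠ ⊥ → (∀ m, Fu φ e m → ∀ v ∈ B, m v ∈ B) → B = ⊤)
include hP hA

lemma exists_Y : ∃ Y ≤ normalizer (P : Set H), ¬ l ∣ Nat.card Y ∧ ∀ m, Fu φ e m → ∃ y ∈ Y,
    ∀ v, φ y * e (.ofAdd v) * (φ y)⁻¹ = e (.ofAdd (m v)) := by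
  have h0 := hP.of_le le_normalizer le_top
  have : (P.subgroupOf (normalizer (P : Set H))).Normal := normal_in_normalizer
  obtain ⟨Y, hY⟩ := exists_right_complement'_of_coprime (N := P.subgroupOf (normalizer (P : Set H)))
    h0.toSylow.card_coprime_index
  refine ⟨Y.map (Subgroup.subtype _), map_subtype_le _, by
    rw [card_subtype, ← hY.symm.index_eq_card]; exact h0.not_dvd, ?_⟩
  rintro m ⟨_, ⟨x, rfl⟩, hm⟩
  obtain ⟨n, ⟨a, ha⟩, hn⟩ := (hP.of_le (K := e.range.comap φ) (map_le_iff_le_comap.mp hA.le)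
    le_top).frattini (H := zpowers x) (x := x) (by
      rw [zpowers_le]
      refine mem_normalizer_of_conj_mem ?_
      rintro y ⟨a, ha⟩
      exact ⟨_, (hm a.toAdd).symm.trans (by simp [ha])⟩) (mem_zpowers x)
  obtain ⟨⟨⟨p, hp⟩, ⟨y, hy⟩⟩, e1⟩ := (hY.existsUnique ⟨n * x, hn⟩).exists
  obtain ⟨b, hb⟩ : φ p ∈ e.range := hA ▸ mem_map_of_mem φ hp
  refine ⟨y, mem_map_of_mem _ hy, fun v => ?_⟩
  have e2 : φ y = e (b⁻¹ * a) * φ x := by
    rw [map_mul, map_inv, hb, ha, mul_assoc, ← map_mul, ← show p.1 * y.1 = n * x from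
      congrArg Subtype.val e1]; simp
  rw [e2, mul_inv_rev, ← mul_assoc, mul_assoc _ (φ x), mul_assoc _ (φ x * _), hm, ← map_inv,
    ← map_mul, ← map_mul, mul_inv_cancel_comm]

include he hi

lemma lift_ab {R : Subgroup H} (h1 : R ≤ P) (h2 : ∀ x ∈ R, ∀ y ∈ R, x * y = y * x)
    (h3 : normalizer (P : Set H) ≤ normalizer (R : Set H)) (h4 : ¬ R ≤ φ.ker) :
    ∃ s : Multiplicative (Fin k → ZMod l) →* H, Function.Injective s ∧ s.range ≤ R ∧
      ∀ m, Fu φ e m → ∃ g, ∀ v, g * s (.ofAdd v) * g⁻¹ = s (.ofAdd (m v)) := by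
  obtain ⟨Y, hY, hY1, hY2⟩ := exists_Y φ e hP hA
  letI : CommGroup R := { (inferInstance : Group R) with
    mul_comm := fun a b => Subtype.ext (h2 _ a.2 _ b.2) }
  obtain ⟨n, hn⟩ := IsPGroup.iff_card.mp (hP.isPGroup.to_le h1)
  let ε := MonoidHom.ofInjective he
  have h5 : ∀ y ∈ Y, φ y ∈ normalizer (e.range : Set Q) := fun y hy =>
    hA ▸ le_normalizer_map φ (mem_map_of_mem φ (hY hy))
  let μ := (MulAut.congr ε.symm).toMonoidHom.comp (e.range.normalizerMonoidHom.comp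
    ((φ.comp Y.subtype).codRestrict _ fun y => h5 y y.2))
  have hμ : ∀ (y : Y) v, e (μ y v) = φ y * e v * (φ y)⁻¹ := fun y v =>
    congrArg Subtype.val (ε.apply_symm_apply _)
  let f : R →* _ := ε.symm.toMonoidHom.comp ((φ.comp R.subtype).codRestrict _ fun x =>
    hA ▸ mem_map_of_mem φ (h1 x.2))
  have hf : ∀ x, e (f x) = φ x := fun x => congrArg Subtype.val (ε.apply_symm_apply _)
  obtain ⟨s, hs, hs'⟩ := avg (MulEquiv.refl _) (n := n) (fun c => by rw [← hn, pow_card_eq_one']) hY1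
    (R.normalizerMonoidHom.comp (inclusion (hY.trans h3))) μ f
    (fun y c => he (by rw [hμ, hf, hf, ← map_inv, ← map_mul, ← map_mul]; rfl))
    (by_contra fun h => h4 fun x hx => by
      push Not at h
      rw [MonoidHom.mem_ker, ← hf ⟨x, hx⟩, h, map_one]) (fun B h6 h7 => by
      refine AddSubgroup.toSubgroup.symm.injective ?_
      refine (hi _ (fun h => h6 (AddSubgroup.toSubgroup.symm.injective (by simpa using h)))
        fun m hm v hv => ?_).trans (by simp)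
      obtain ⟨y, hy, h8⟩ := hY2 m hm
      have := h7 ⟨y, hy⟩ (.ofAdd v) hv
      rwa [he ((hμ ⟨y, hy⟩ _).trans (h8 v))] at this)
  refine ⟨R.subtype.comp s, Subtype.val_injective.comp hs, ?_, fun m hm => ?_⟩
  · rintro _ ⟨v, rfl⟩; exact (s v).2
  obtain ⟨y, hy, h8⟩ := hY2 m hm
  exact ⟨y, fun v => by
    rw [← he ((hμ ⟨y, hy⟩ _).trans (h8 v))]; exact (congrArg Subtype.val (hs' ⟨y, hy⟩ _)).symm⟩

theorem lift_tor {T : Subgroup H} (hT : ∀ x ∈ T, ∀ y ∈ T, x * y = y * x) (hr : T.relIndex P ∣ l)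
    (hN : ∀ z ∈ T, z ^ l = 1 → ∀ x ∈ P, x ∉ T → x * z = z * x → ∀ g, g * z * g⁻¹ = z ^ 2 → z = 1)
    (hk : 2 ≤ k) (hq : ∀ v, ∃ m, Fu φ e m ∧ m v = v + v)
    (hs : k = 2 → ∃ a b m, closure {e (.ofAdd a), e (.ofAdd b)} = e.range ∧ Fu φ e m ∧
      m a = a + a ∧ m b = b) :
    ∃ s : Multiplicative (Fin k → ZMod l) →* H, Function.Injective s ∧ s.range ≤ T ⊓ P ∧
      ∀ m, Fu φ e m → ∃ g, ∀ v, g * s (.ofAdd v) * g⁻¹ = s (.ofAdd (m v)) := by
  have hl := (Fact.out : l.Prime)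
  have c0 : Nat.card (Multiplicative (Fin k → ZMod l)) = l ^ k := by simp
  have c1 : φ.ker.relIndex P = l ^ k := by
    rw [relIndex_ker, hA, ← c0]; exact Nat.card_congr (MonoidHom.ofInjective he).symm.toEquiv
  have c2 : l < l ^ k := lt_self_pow₀ hl.one_lt (by omega)
  have c3 := Nat.le_of_dvd hl.pos hr
  have c4 : ∀ K L : Subgroup H, K.relIndex L ≠ 0 := fun K L => index_ne_zero_of_finite
  by_cases h0 : ∃ R ≤ P, (∀ x ∈ R, ∀ y ∈ R, x * y = y * x) ∧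
      normalizer (P : Set H) ≤ normalizer (R : Set H) ∧ ¬ R ≤ φ.ker
  · obtain ⟨R, h1, h2, h3, h4⟩ := h0
    obtain ⟨s, h5, h6, h7⟩ := lift_ab φ e he hP hA hi h1 h2 h3 h4
    refine ⟨s, h5, le_inf ?_ (h6.trans h1), h7⟩
    rintro _ ⟨w, rfl⟩
    by_contra h8
    have h9 : T ⊓ s.range ≠ ⊥ := fun h => by
      have := relIndex_le_of_le_right (H := T) (h6.trans h1) (c4 _ _)
      rw [← inf_relIndex_right, h, relIndex_bot_left,
        ← Nat.card_congr (MonoidHom.ofInjective h5).toEquiv] at this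
      omega
    obtain ⟨⟨_, hv, v, rfl⟩, h9⟩ := ne_bot_iff_exists_ne_one.mp h9
    obtain ⟨m, hm, hm'⟩ := hq v.toAdd
    obtain ⟨g, hg⟩ := h7 m hm
    refine h9 (Subtype.ext (hN _ hv ?_ _ (h1 (h6 ⟨w, rfl⟩)) h8 (by rw [← map_mul, ← map_mul, mul_comm])
      g ((hg v.toAdd).trans (by rw [hm', sq, ← map_mul]; rfl))))
    rw [← map_pow, ← map_one s]; congr; ext j; simp
  exfalso
  push Not at h0
  have h1 : ¬ T ⊓ P ≤ φ.ker := fun h => by
    have := relIndex_le_of_le_left h (c4 _ P)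
    rw [inf_relIndex_right] at this
    omega
  obtain ⟨h, hh, h2⟩ : ∃ h ∈ normalizer (P : Set H), ¬ cj h (T ⊓ P) ≤ T ⊓ P := by
    by_contra h2
    push Not at h2
    exact h1 (h0 _ inf_le_right (fun x hx y hy => hT x hx.1 y hy.1) fun h hh =>
      mem_normalizer_of_cj_le (h2 h hh))
  have h3 : cj h (T ⊓ P) ≤ P := (cj_mono h inf_le_right).trans (cj_eq_iff_mem_normalizer.mpr hh).le
  have h4 : (T ⊓ P) ⊔ cj h (T ⊓ P) = P := by
    have h4 := relIndex_mul_relIndex (T ⊓ P) _ _ le_sup_left (sup_le inf_le_right h3)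
    rw [inf_relIndex_right] at h4
    refine le_antisymm (sup_le inf_le_right h3) (relIndex_eq_one.mp ?_)
    rcases (Nat.dvd_prime hl).mp ((Dvd.intro _ h4).trans hr) with h5 | h5
    · exact absurd (le_sup_right.trans (relIndex_eq_one.mp h5)) h2
    · rw [h5] at h4
      exact Nat.dvd_one.mp ((Nat.mul_dvd_mul_iff_left hl.pos).mp (by rw [h4, mul_one]; exact hr))
  have h5 : (T ⊓ P) ⊓ cj h (T ⊓ P) ≤ centralizer P := by
    nth_rw 3 [← h4]
    rw [le_centralizer_iff, sup_le_iff]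
    refine ⟨fun x hx y hy => hT _ hy.1.1 _ hx.1, fun x hx y hy => ?_⟩
    have := hT _ (mem_cj.mp hy.2).1 _ (mem_cj.mp hx).1
    simpa [mul_assoc] using congrArg (fun z => h * z * h⁻¹) this
  have hZ := h0 (P ⊓ centralizer P) inf_le_left (fun x hx y hy => hy.2 x hx.1)
    ((le_inf le_rfl (normalizer_le_normalizer_centralizer P)).trans (normalizer_inf_le _ _))
  have h6 : (T ⊓ P) ⊓ cj h (T ⊓ P) ≤ φ.ker ⊓ P :=
    le_inf ((le_inf (inf_le_left.trans inf_le_right) h5).trans hZ) (inf_le_left.trans inf_le_right)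
  have h7 := relIndex_mul_relIndex _ _ _ h6 inf_le_right
  have h8 := relIndex_inf_le (H := T ⊓ P) (K := cj h (T ⊓ P)) (L := P)
  nth_rw 7 [← cj_eq_iff_mem_normalizer.mpr hh] at h8
  rw [relIndex_cj, ← h7, inf_relIndex_right, inf_relIndex_right, c1] at h8
  replace h8 := h8.trans ((Nat.mul_le_mul c3 c3).trans (sq l).ge)
  have h9 : k = 2 := le_antisymm ((Nat.pow_le_pow_iff_right hl.one_lt).mp
    ((Nat.le_mul_of_pos_left _ (Nat.pos_of_ne_zero (c4 _ _))).trans h8)) hk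
  have h10 : φ.ker ⊓ P ≤ (T ⊓ P) ⊓ cj h (T ⊓ P) := relIndex_eq_one.mp (le_antisymm
    (Nat.le_of_mul_le_mul_right (h8.trans (by rw [one_mul, h9])) (pow_pos hl.pos k))
    (Nat.pos_of_ne_zero (c4 _ _)))
  obtain ⟨a, b, m, e1, hm, e2, e3⟩ := hs h9
  obtain ⟨Y, hY, -, hY2⟩ := exists_Y φ e hP hA
  obtain ⟨g, hg, e4⟩ := hY2 m hm
  obtain ⟨x, hx, e5⟩ : e (.ofAdd a) ∈ P.map φ := hA ▸ ⟨_, rfl⟩
  obtain ⟨y, hy, e6⟩ : e (.ofAdd b) ∈ P.map φ := hA ▸ ⟨_, rfl⟩
  have hc : ∀ z ∈ P, φ z = 1 → ∀ u ∈ P, u * z = z * u := fun z hz h u hu => h5 (h10 ⟨h, hz⟩) u hu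
  have hz : x * y * x⁻¹ * y⁻¹ ∈ φ.ker ⊓ P := ⟨show φ _ = 1 by
    rw [map_mul, map_mul, map_mul, map_inv, map_inv, e5, e6]
    simp [← map_mul, ← map_inv], P.mul_mem (P.mul_mem (P.mul_mem hx hy) (P.inv_mem hx)) (P.inv_mem hy)⟩
  generalize hzd : x * y * x⁻¹ * y⁻¹ = z at hz
  have e7 : ∀ n : ℕ, x ^ n * y * (x ^ n)⁻¹ * y⁻¹ = z ^ n := fun n => by
    induction n with
    | zero => simp
    | succ n ih =>
      calc _ = x * (x ^ n * y * (x ^ n)⁻¹ * y⁻¹) * (y * x⁻¹ * y⁻¹) := by group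
        _ = _ := by
          rw [ih, hc _ (pow_mem hz.2 n) (by rw [map_pow, hz.1, one_pow]) x hx, pow_succ, ← hzd]; group
  obtain ⟨u, hu, hu'⟩ := SetLike.not_le_iff_exists.mp h2
  have hn : ∀ x ∈ P, g * x * g⁻¹ ∈ P := fun x => conj_mem_of_mem_normalizer (hY hg)
  have e8 := hN z (h10 hz).1.1 (by
    rw [← e7, ← hc _ (pow_mem hx l) (by rw [map_pow, e5, ← map_pow, ← map_one e]; congr; ext j; simp) y hy]
    group) u (h3 hu) (fun h => hu' ⟨h, h3 hu⟩) (hc z hz.2 hz.1 u (h3 hu)) g (by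
    have e8 := hc ((x ^ 2)⁻¹ * (g * x * g⁻¹)) (mul_mem (inv_mem (pow_mem hx 2)) (hn x hx)) (by
      simp only [map_mul φ, map_inv φ, map_pow φ, e5, e4, e2]; simp [sq]) _ (hn y hy)
    have e9 := hc (y⁻¹ * (g * y * g⁻¹)) (mul_mem (inv_mem hy) (hn y hy)) (by
      simp only [map_mul φ, map_inv φ, e6, e4, e3]; simp) _ (inv_mem (pow_mem hx 2))
    calc g * z * g⁻¹ = x ^ 2 * ((x ^ 2)⁻¹ * (g * x * g⁻¹) * (g * y * g⁻¹)) * (g * x * g⁻¹)⁻¹ *
          (g * y * g⁻¹)⁻¹ := by rw [← hzd]; group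
      _ = x ^ 2 * y * (y⁻¹ * (g * y * g⁻¹) * (x ^ 2)⁻¹) * (g * y * g⁻¹)⁻¹ := by rw [← e8]; group
      _ = _ := by rw [← e9, ← e7]; group)
  have e9 : ∀ w ∈ P, x * w = w * x → y * w = w * y → φ w = 1 := fun w hw h1 h2 =>
    hZ ⟨hw, fun u hu => by
      have : φ u ∈ (closure {x, y}).map φ := by
        rw [MonoidHom.map_closure, Set.image_pair, e5, e6, e1, ← hA]; exact mem_map_of_mem φ hu
      obtain ⟨v, hv, e⟩ := this
      have h3 : v * w = w * v := mem_centralizer_singleton_iff.mp ((closure_le (centralizer {w})).mpr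
        (by rintro _ (rfl | rfl) <;> exact mem_centralizer_singleton_iff.mpr ‹_›) hv)
      have h4 := hc (v⁻¹ * u) (mul_mem (inv_mem ((closure_le P).mpr (by
        rintro _ (rfl | rfl) <;> assumption) hv)) hu) (by simp [e]) w hw
      calc u * w = v * (v⁻¹ * u * w) := by group
        _ = _ := by rw [← h4, ← mul_assoc, h3]; group⟩
  have e10 : x * y = y * x := by rw [← mul_inv_eq_one, ← e8, ← hzd]; group
  refine h1 (inf_le_right.trans ((map_eq_bot_iff P).mp ?_))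
  rw [hA, ← e1, ← e5, ← e6, e9 x hx rfl e10.symm, e9 y hy e10 rfl]; simp

end Cfsg.Agent.H6A
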