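import Cfsg.Agent.H6.WL1

/-!
Sylow subgroups of a Chevalley group for a prime dividing the order of the Weyl group once.
-/

set_option autoImplicit false
set_option linter.unusedSectionVars false

namespace Cfsg.Agent.H6A

open Subgroup Cfsg.Agent.H9.Chev Dat Cfsg.Agent.H7.Alt Cfsg.Agent.H1

variable {n : ℕ} {I Φ : Type} [Fintype I] [DecidableEq I] {F : Type*} [Field F] {d : Dat I Φ n F}
  [Finite Φ] [Finite F] (h : d.Ax)

/-- the monomial subgroup -/
def NW : Subgroup (GL I F) where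
  carrier := {g | ∃ t ∈ d.T, ∃ L, g = t * d.nw L}
  one_mem' := ⟨1, one_mem _, [], by simp [nw]⟩
  mul_mem' := by
    rintro _ _ ⟨t, ht, L, rfl⟩ ⟨t', ht', L', rfl⟩
    exact ⟨_, mul_mem ht (h.nw_T L ht'), L ++ L', by rw [nw_append]; group⟩
  inv_mem' := by
    rintro _ ⟨t, ht, L, rfl⟩
    exact ⟨_, h.nw_T L.reverse (inv_mem (mul_mem ht (h.nw_rev L))), L.reverse, by group⟩

/-- the projection to the Weyl group -/
noncomputable def piW : NW h →* (AddMonoid.End (Fin n → ℤ))ˣ := MonoidHom.toHomUnits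
  { toFun g := WL d g.2.choose_spec.2.choose
    map_one' := WL_eq h (1 : NW h).2.choose_spec.1 (one_mem _) (L' := [])
      ((1 : NW h).2.choose_spec.2.choose_spec.symm.trans (by simp [nw]))
    map_mul' a b := (WL_eq h (a * b).2.choose_spec.1 (mul_mem a.2.choose_spec.1
      (h.nw_T a.2.choose_spec.2.choose b.2.choose_spec.1)) ((a * b).2.choose_spec.2.choose_spec.symm.trans
        (by rw [coe_mul, nw_append]
            nth_rw 1 [a.2.choose_spec.2.choose_spec, b.2.choose_spec.2.choose_spec]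
            group))).trans (WL_append _ _) }

lemma piW_spec (g : NW h) : ∃ t ∈ d.T, ∃ L, g.1 = t * d.nw L ∧ (piW h g).1 = WL d L :=
  ⟨_, g.2.choose_spec.1, _, g.2.choose_spec.2.choose_spec, rfl⟩

lemma piW_ker : (piW h).ker = d.T.subgroupOf (NW h) := by
  ext g
  obtain ⟨t, ht, L, h1, h2⟩ := piW_spec h g
  rw [MonoidHom.mem_ker, Units.ext_iff, h2, mem_subgroupOf]
  refine ⟨fun e => h1 ▸ mul_mem ht (by simpa using nw_pow_mem h (k := 1) (by simpa using e)),
    fun e => WL_eq h ht e (L' := []) (h1.symm.trans (by simp [nw]))⟩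

lemma NW_le : NW h ≤ GH d := by
  rintro _ ⟨t, ht, L, rfl⟩
  refine mul_mem (T_le_GH ht) (list_prod_mem fun x hx => mem_sup_left ?_)
  obtain ⟨p, -, rfl⟩ := List.mem_map.mp hx
  exact mul_mem (mul_mem (x_mem_US (Set.mem_univ _) _) (x_mem_US (Set.mem_univ _) _)) (x_mem_US (Set.mem_univ _) _)

lemma conj_comm {G : Type*} [Group G] {l : ℕ} [Fact l.Prime] {u w : G} (hu : u ^ l = 1)
    (hw : ∃ k, w ^ l ^ k = 1) (e : w * u * w⁻¹ ∈ zpowers u) : Commute u w := by
  obtain ⟨j, hj⟩ := (isOfFinOrder_iff_pow_eq_one.mpr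
    ⟨l, (Fact.out : l.Prime).pos, hu⟩).mem_powers_iff_mem_zpowers.mpr e
  obtain ⟨k, hk⟩ := hw
  have h1 : ∀ m, w ^ m * u * (w ^ m)⁻¹ = u ^ j ^ m := fun m => by
    induction m with
    | zero => simp
    | succ m ih =>
      rw [pow_succ', mul_inv_rev, mul_assoc w, ← mul_assoc, mul_assoc w, ih, ← conj_pow, ← hj,
        ← pow_mul, pow_succ']
  have h2 : u ^ j ^ l ^ k = u ^ j := pow_eq_pow_iff_modEq.mpr (((ZMod.natCast_eq_natCast_iff _ _ l).mp
    (by rw [Nat.cast_pow, ZMod.pow_card_pow])).of_dvd (orderOf_dvd_of_pow_eq_one hu))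
  rw [← h1, hk, show u ^ j = _ from hj, inv_one, one_mul, mul_one, eq_mul_inv_iff_mul_eq] at h2
  exact h2

variable {l : ℕ} [Fact l.Prime] {ζ : Fˣ} (hζ : IsPrimitiveRoot ζ l)
include hζ h

theorem exists_syl (hr : ∀ r, ∃ j, ¬ (l : ℤ) ∣ d.rt r j) (L0 : List (Fin n)) (h0 : WL d L0 ^ l = 1)
    (h1 : n < l ^ 1 * (l - 1)) (h2 : n + 2 < 2 * l) (h3 : ¬ l ^ 2 ∣ Nat.card {r | d.ww L0 r ≠ r})
    {p q : Fin n} (hpq : p ≠ q) (h4 : ∀ a : Fin n → ZMod l, (∀ v, evZ a (WL d L0 v) = evZ a v) →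
      a p = 0 ∧ a q = 0) :
    ∃ S, IsSylowIn l S (GH d) ∧ d.T.relIndex S ∣ l ∧ ∀ x ∈ S, x ∉ d.T → ∀ a,
      x * tor hζ d a = tor hζ d a * x → ∀ v, evZ a.toAdd (WL d L0 v) = evZ a.toAdd v := by
  have hl := (Fact.out : l.Prime)
  let n0 : NW h := ⟨d.nw L0, 1, one_mem _, L0, (one_mul _).symm⟩
  have e0 : (piW h n0).1 = WL d L0 := by
    obtain ⟨t, ht, L, h1, h2⟩ := piW_spec h n0
    exact h2.trans (WL_eq h ht (one_mem _) (h1.symm.trans (one_mul _).symm))
  generalize hu : piW h n0 = u at e0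
  have e1 : u ^ l = 1 := Units.ext (by simpa [e0])
  have e2 : Nat.card (zpowers u) = l := by
    rw [Nat.card_zpowers]
    refine orderOf_eq_prime e1 fun e => h3 ?_
    have : ∀ r, d.ww L0 r = r := fun r => h.rt_inj (by rw [rt_ww h, ← e0, e]; rfl)
    simp [this]
  have := Nat.finite_of_card_ne_zero (e2.trans_ne hl.ne_zero)
  obtain ⟨S, hS⟩ := exists_isSylowIn (p := l) ((zpowers u).comap (piW h))
  have e3 : S.map (piW h) = zpowers u := by
    have := hS.map (piW h)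
    rw [map_comap_eq_self (zpowers_le.mpr ⟨n0, hu⟩)] at this
    exact (this.eq_of_le (IsPGroup.of_card (n := 1) (by simpa using e2)) this.le le_rfl).symm
  have e4 : ∀ a, ∃ x ∈ S, x.1 = tor hζ d a := fun a => by
    have hk := ker_le_comap (piW h) (zpowers u)
    have := hS.inf_of_normal hk (by simp [normalizer_eq_top])
    rw [← inf_top_eq (piW h).ker] at this
    refine ⟨⟨_, _, tor_mem hζ a, [], (mul_one _).symm⟩, (mem_syl ?_ this ⟨?_, trivial⟩
      ⟨1, Subtype.ext ?_⟩).1, rfl⟩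
    · rw [piW_ker]; exact fun x hx y hy => Subtype.ext (T_comm _ hx _ hy)
    · rw [piW_ker]; exact tor_mem hζ a
    · show tor hζ d a ^ _ = 1
      rw [← map_pow, ← map_one (tor hζ d)]; congr; ext j; simp
  have e5 : ∀ x ∈ S.map (NW h).subtype, x ∉ d.T → ∀ a, x * tor hζ d a = tor hζ d a * x →
      ∀ v, evZ a.toAdd (WL d L0 v) = evZ a.toAdd v := by
    rintro _ ⟨x, hx, rfl⟩ hT a e
    obtain ⟨t, ht, L, h5, h6⟩ := piW_spec h x
    have h7 := tor_conj hζ h (L := L) (a := a) (b := a) (by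
      rw [coe_subtype, h5, ← mul_assoc, ← T_comm _ ht _ (tor_mem hζ a), mul_assoc, mul_assoc] at e
      rw [mul_left_cancel e, mul_inv_cancel_right])
    have h8 : piW h x ∈ zpowers u := e3 ▸ mem_map_of_mem _ hx
    obtain ⟨m, hm⟩ : u ∈ Submonoid.powers (piW h x) :=
      ((piW h).isOfFinOrder (isOfFinOrder_of_finite x)).mem_powers_iff_mem_zpowers.mpr ((eq_of_le_of_card_ge (zpowers_le.mpr h8) (by
        rw [e2, Nat.card_zpowers, orderOf_eq_prime (orderOf_dvd_iff_pow_eq_one.mp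
          (e2 ▸ orderOf_dvd_natCard _ h8)) fun e => hT (((piW_ker h).le e :))])).ge (mem_zpowers u))
    rw [← e0, ← hm]
    clear hm
    induction m with
    | zero => exact fun v => rfl
    | succ m ih =>
      intro v
      simp only [pow_succ', Units.val_mul, h6] at ih ⊢
      exact (h7 _).symm.trans (ih v)
  refine ⟨S.map (NW h).subtype, ?_, by
    rw [← relIndex_comap, show d.T.comap _ = _ from (piW_ker h).symm, relIndex_ker, e3, e2], e5⟩
  refine isSylowIn_of_maximal (hS.isPGroup.map _) ((map_subtype_le _).trans (NW_le h))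
    fun Q hQ hSQ hQG => ?_
  by_contra hne
  obtain ⟨g, hg, hg'⟩ := SetLike.exists_of_lt
    (lt_inf_normalizer_of_isPGroup hQ (lt_of_le_of_ne hSQ (Ne.symm hne)))
  have e6 : g ∈ NW h := reg_tor hζ h hr (hQG hg.1) fun a => by
    have h5 := fun a => conj_mem_of_mem_normalizer hg.2 (x := tor hζ d a) (e4 a)
    choose y hy hy' using h5
    let b : ZMod l × ZMod l → Multiplicative (Fin n → ZMod l) := fun i =>
      .ofAdd (Pi.single p i.1 + Pi.single q i.2)
    obtain ⟨i, j, e, hij⟩ := Function.not_injective_iff.mp (mt (Nat.card_le_card_of_injective fun i =>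
      (⟨piW h (y (b i)), e3 ▸ mem_map_of_mem _ (hy _)⟩ : zpowers u)) (by
        rw [e2]; simpa using hl.one_lt))
    have h6 : g * tor hζ d (b i / b j) * g⁻¹ ∈ d.T := by
      have : y (b i) / y (b j) ∈ (piW h).ker := by
        rw [MonoidHom.mem_ker, map_div, div_eq_one]; exact congrArg Subtype.val e
      rw [piW_ker, mem_subgroupOf, coe_div] at this
      convert this using 1
      rw [show (y _).1 = _ from hy' _, show (y _).1 = _ from hy' _, map_div, div_eq_mul_inv,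
        div_eq_mul_inv]; group
    by_contra h7
    have := h4 _ (e5 _ (conj_mem_of_mem_normalizer' hg.2 (e4 a)) h7 (b i / b j) (by
      simpa [mul_assoc] using congrArg (fun z => g⁻¹ * z * g) (T_comm _ (tor_mem hζ a) _ h6)))
    simp [b, hpq, hpq.symm, sub_eq_zero] at this
    exact hij (Prod.ext this.1 this.2)
  have e7 : ∀ x : NW h, x.1 ∈ Q ⊓ normalizer (S.map (NW h).subtype : Set (GL I F)) →
      x ∈ normalizer (S : Set (NW h)) ∧ ∃ k, x ^ l ^ k = 1 := fun x hx =>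
    ⟨mem_normalizer_of_conj_mem fun y hy => by
      obtain ⟨z, hz, e⟩ := conj_mem_of_mem_normalizer hx.2 (mem_map_of_mem _ hy)
      exact (Subtype.ext e : z = x * y * x⁻¹) ▸ hz,
    (exists_pow_of_isPGroup hQ hx.1).imp fun k e => Subtype.ext e⟩
  let Y := ((Q ⊓ normalizer (S.map (NW h).subtype : Set (GL I F))).subgroupOf (NW h)).map (piW h)
  have e8 : ∀ y ∈ Y, Commute u y ∧ y.1 ^ l = 1 ∧ ∃ L, y.1 = WL d L := by
    rintro _ ⟨x, hx, rfl⟩
    obtain ⟨h5, k, h6⟩ := e7 x hx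
    have h7 : piW h x ^ l ^ k = 1 := by rw [← map_pow, h6, map_one]
    obtain ⟨t, -, L, -, h8⟩ := piW_spec h x
    exact ⟨conj_comm e1 ⟨k, h7⟩ (conj_mem_of_mem_normalizer (e3 ▸ le_normalizer_map _
      (mem_map_of_mem _ h5)) (mem_zpowers u)), by
        simpa using end_pow 1 h1 k (W := (piW h x).1) (by simpa using congrArg Units.val h7), L, h8⟩
  have e9 : ∀ r, d.ww L0 r ≠ r ↔ u.1 (d.rt r) ≠ d.rt r := fun r => by
    rw [e0, ← rt_ww h, h.rt_inj.ne_iff]
  let Ω : SubMulAction Y (Fin n → ℤ) := ⟨d.rt '' {r | d.ww L0 r ≠ r}, by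
    rintro ⟨y, hy⟩ _ ⟨r, hr, rfl⟩
    obtain ⟨h5, -, L, h6⟩ := e8 y hy
    have h7 : d.rt (d.ww L r) = y • d.rt r := by rw [rt_ww h, ← h6]; rfl
    refine ⟨d.ww L r, (e9 _).mpr fun e => (e9 r).mp hr (smul_left_cancel y ?_), h7⟩
    rw [h7] at e
    exact (mul_smul y u _).symm.trans (h5.eq ▸ (mul_smul u y _).trans e)⟩
  have e10 : Nat.card Y ∣ Nat.card {r | d.ww L0 r ≠ r} := by
    rw [← Nat.card_image_of_injective h.rt_inj]
    refine Dvd.intro_left _ ((Nat.card_prod _ _).symm.trans (Nat.card_congr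
      (MulAction.selfEquivOrbitsQuotientProd (G := Y) (X := Ω) fun ⟨_, r, hr, rfl⟩ =>
        (eq_bot_iff_forall _).mpr fun ⟨y, hy⟩ e => Subtype.ext (Units.ext ?_)).symm))
    obtain ⟨h5, h6, -⟩ := e8 y hy
    exact end_eq_one h6 (e0 ▸ h0) (congrArg Units.val h5.eq) (congrArg Subtype.val e)
      ((e9 r).mp hr) h2
  have : Finite Y := (Set.toFinite _).image _
  obtain ⟨m, hm⟩ := IsPGroup.iff_card.mp (((isPGroup_subgroupOf (hQ.to_inf_left
    (K := normalizer (S.map (NW h).subtype : Set (GL I F)))) (NW h)).map (piW h)) : IsPGroup l Y)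
  have e11 : zpowers u = Y := eq_of_le_of_card_ge (e3 ▸ map_mono fun x hx =>
    ⟨hSQ (mem_map_of_mem _ hx), le_normalizer (mem_map_of_mem _ hx)⟩) (by
      rw [e2, hm]
      refine (pow_le_pow_right₀ hl.one_le (Nat.le_of_lt_succ (lt_of_not_ge fun e => h3 ?_))).trans
        (pow_one l).le
      exact (pow_dvd_pow l e).trans (hm ▸ e10))
  obtain ⟨h5, h6⟩ := e7 ⟨g, e6⟩ hg
  exact hg' (mem_map_of_mem _ (zpowers_le.mp (hS.le_of_le_normalizer (H7.Alt.isPGroup_zpowers h6)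
    (zpowers_le.mpr (e11.ge (mem_map_of_mem _ hg))) (zpowers_le.mpr h5))))

end Cfsg.Agent.H6A
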