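import Cfsg.Agent.H6.E7a
import Cfsg.Agent.H6.E7b

/-!
Toral lifting of the Sylow subgroup of an alternating section.
-/

set_option autoImplicit false
set_option linter.unusedSectionVars false

namespace Cfsg.Agent.H6A

open Subgroup Cfsg.Agent.H9.Chev Dat Cfsg.Agent.H7.Alt Cfsg.Agent.H1 Equiv

variable {l k : ℕ} [Fact l.Prime]

/-- translations of the blocks -/
def eP : Multiplicative (Fin k → ZMod l) →* Perm (Fin k × ZMod l) :=
  MonoidHom.mk' (fun v => prodCongrRight fun i => Equiv.addRight (v.toAdd i)) fun a b => by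
    ext x <;> simp [add_comm, add_left_comm]

/-- monomial permutations -/
def bP (τ : Perm (Fin k)) (c : Fin k → (ZMod l)ˣ) : Perm (Fin k × ZMod l) :=
  prodShear τ fun i => (c i).mulLeft

/-- monomial maps -/
def mP (τ : Perm (Fin k)) (c : Fin k → (ZMod l)ˣ) (v : Fin k → ZMod l) (j : Fin k) : ZMod l :=
  c (τ⁻¹ j) * v (τ⁻¹ j)

lemma mP_one (c : Fin k → (ZMod l)ˣ) (v : Fin k → ZMod l) (j : Fin k) : mP 1 c v j = c j * v j := rfl

lemma eP_inj : Function.Injective (eP (k := k) (l := l)) := fun a b e => by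
  ext i
  simpa [eP] using congrArg (fun σ : Perm _ => (σ (i, 0)).2) e

variable {H : Type*} [Group H] {φ : H →* Perm (Fin k × ZMod l)}
  (hφ : ∀ σ, Perm.sign σ = 1 → σ ∈ φ.range)

include hφ in
lemma fu_mP {τ : Perm (Fin k)} {c : Fin k → (ZMod l)ˣ} (h : Perm.sign (bP τ c) = 1) :
    Fu φ eP (mP τ c) := ⟨_, hφ _ h, fun v => mul_inv_eq_iff_eq_mul.mpr (by
  ext x <;> simp [eP, bP, mP, mul_add])⟩

variable {n : ℕ} {I Φ : Type} [Fintype I] [DecidableEq I] {F : Type*} [Field F] {d : Dat I Φ n F}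
  [Finite Φ] [Finite F] (h : d.Ax) {ζ : Fˣ} (hζ : IsPrimitiveRoot ζ l)
include hφ h hζ

theorem tor_sec {L0 : List (Fin n)} (hS : ∃ S, IsSylowIn l S (GH d) ∧ d.T.relIndex S ∣ l ∧
      ∀ x ∈ S, x ∉ d.T → ∀ a, x * tor hζ d a = tor hζ d a * x →
        ∀ v, evZ a.toAdd (WL d L0 v) = evZ a.toAdd v)
    (hN : ∀ a : Fin n → ZMod l, (∀ v, evZ a (WL d L0 v) = evZ a v) → ∀ L,
      (∀ v, evZ a v = evZ (a + a) (WL d L v)) → a = 0)
    (ι : H →* GL I F) (hι : Function.Injective ι) (hG : ∀ x, ι x ∈ GH d) (hl : Odd l)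
    (hk : 2 ≤ k) (hd : ¬ l ^ (k + 1) ∣ (k * l).factorial) (c0 : (ZMod l)ˣ) (h0 : c0 ≠ 1)
    (h1 : ∀ i, Perm.sign (bP (1 : Perm (Fin k)) (Pi.mulSingle i c0)) = 1)
    (h2 : ∀ i j : Fin k, ∃ τ c, mP τ c (Pi.single i 1) = Pi.single j (1 : ZMod l) ∧ Perm.sign (bP τ c) = 1)
    (h3 : ∀ v : Fin k → ZMod l, ∃ τ c, mP τ c v = v + v ∧ Perm.sign (bP τ c) = 1)
    (h4 : k = 2 → c0.1 = 2) :
    ∃ a : (Fin k → ZMod l) →+ (Fin n → ZMod l), Function.Injective a ∧ ∀ τ c,
      Perm.sign (bP τ c) = 1 → ∃ L, ∀ v w, evZ (a v) w = evZ (a (mP τ c v)) (WL d L w) := by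
  have := Finite.of_injective _ hι
  have hp := (Fact.out : l.Prime)
  obtain ⟨S, hS, hS1, hS2⟩ := hS
  have c1 : Nat.card (eP (k := k) (l := l)).range = l ^ k := by
    rw [← Nat.card_congr (MonoidHom.ofInjective eP_inj).toEquiv]; simp
  have c2 : IsSylowIn l (eP (k := k) (l := l)).range ⊤ := ⟨le_top, .of_card c1, fun e => hd (by
    have := (eP (k := k) (l := l)).range.card_mul_index
    rw [c1, Nat.card_perm, Nat.card_prod, Nat.card_zmod, Nat.card_fin] at this
    rw [← this, pow_succ]; exact Nat.mul_dvd_mul_left _ (by simpa using e))⟩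
  obtain ⟨P, hP⟩ := exists_isSylowIn (p := l) (eP.range.comap φ)
  have hA : P.map φ = eP.range := by
    have := hP.map φ
    rw [map_comap_eq_self (by
      rintro _ ⟨v, rfl⟩
      refine hφ _ ((Int.units_eq_one_or _).resolve_right fun e => ?_)
      have : Perm.sign (eP v) ^ l = 1 := by
        rw [← map_pow, ← map_pow, show v ^ l = 1 by ext j; simp]; simp
      rw [e, hl.neg_one_pow] at this
      exact absurd this (by decide))] at this
    exact (this.eq_of_le c2.isPGroup this.le le_rfl).symm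
  have hP' : IsSylowIn l P ⊤ := isSylowIn_of_maximal hP.isPGroup le_top fun Q hQ h5 _ =>
    hP.eq_of_le hQ h5 (map_le_iff_le_comap.mp
      (c2.eq_of_le (hQ.map φ) (hA ▸ map_mono h5) le_top).le)
  obtain ⟨c, hc, hle⟩ := hS.exists_cj_le (hP.isPGroup.map ι) (by rintro _ ⟨z, -, rfl⟩; exact hG z)
  let ι' := (MulAut.conj c).toMonoidHom.comp ι
  have hι' : Function.Injective ι' := (MulAut.conj c).injective.comp hι
  have hG' : ∀ x, ι' x ∈ GH d := fun x => mul_mem (mul_mem hc (hG x)) (inv_mem hc)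
  have hle' : P.map ι' ≤ S := by rwa [← map_map]
  obtain ⟨s, hs, hs1, hs2⟩ := lift_tor φ eP eP_inj hP' hA (fun B h5 h6 => by
      obtain ⟨⟨v, hv⟩, h5⟩ := AddSubgroup.ne_bot_iff_exists_ne_zero.mp h5
      obtain ⟨i, hi⟩ := Function.ne_iff.mp (fun e => h5 (Subtype.ext e) : v ≠ 0)
      have h7 : ∀ x : ZMod l, ∀ u ∈ B, x • u ∈ B := fun x u hu => by
        rw [← ZMod.natCast_zmod_val x, Nat.cast_smul_eq_nsmul]; exact nsmul_mem hu _
      have h8 : Pi.single i 1 ∈ B := by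
        convert h7 ((c0 - 1) * v i)⁻¹ _ (sub_mem (h6 _ (fu_mP hφ (h1 i)) v hv) hv)
        ext j
        by_cases e : j = i
        · subst e
          simp only [mP_one, Pi.single_eq_same, Pi.smul_apply, Pi.sub_apply,
            Pi.mulSingle_eq_same, smul_eq_mul, ← sub_one_mul]
          exact (inv_mul_cancel₀ (mul_ne_zero (sub_ne_zero.mpr fun e => h0 (Units.ext e)) hi)).symm
        · simp [mP_one, e]
      refine eq_top_iff.mpr fun w _ => ?_
      rw [pi_eq_sum_univ' w]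
      refine sum_mem fun j _ => h7 _ _ ?_
      obtain ⟨τ, c, e, h9⟩ := h2 i j
      exact e ▸ h6 _ (fu_mP hφ h9) _ h8)
    (T := d.T.comap ι') (fun x hx y hy => hι' (by rw [map_mul, map_mul, T_comm _ hx _ hy])) (by
      obtain ⟨m, hm⟩ := IsPGroup.iff_card.mp hP.isPGroup
      obtain ⟨j, -, e⟩ := (Nat.dvd_prime_pow hp).mp (hm ▸ relIndex_dvd_card (d.T.comap ι') P)
      have := (relIndex_le_of_le_right hle' index_ne_zero_of_finite).trans (Nat.le_of_dvd hp.pos hS1)
      rw [← relIndex_comap, e] at this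
      rw [e]
      exact (pow_dvd_pow l ((Nat.pow_le_pow_iff_right hp.one_lt).mp (this.trans (pow_one l).ge))).trans
        (pow_one l).dvd)
    (fun z hz h5 x hx h6 h7 g h8 => by
      obtain ⟨a, ha⟩ := exists_tor hζ h hz (by rw [← map_pow, h5, map_one])
      obtain ⟨L, hL⟩ := fuse_tor hζ h (hG' g)
      have : a = 1 := hN _ (hS2 _ (hle' (mem_map_of_mem _ hx)) h6 a (by
        rw [ha, ← map_mul, ← map_mul, h7])) L (hL a (a * a) (by
          rw [map_mul, ha, ← map_inv, ← map_mul, ← map_mul, ← map_mul, h8, sq]))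
      exact hι' (by rw [← ha, this, map_one, map_one])) hk
    (fun v => (h3 v).elim fun τ h => h.elim fun c h => ⟨_, fu_mP hφ h.2, h.1⟩) (by
      rintro rfl
      refine ⟨Pi.single 0 1, Pi.single 1 1, _, le_antisymm ((closure_le _).mpr (by
        rintro _ (rfl | rfl) <;> exact ⟨_, rfl⟩)) ?_, fu_mP hφ (h1 0), ?_, ?_⟩
      · rintro _ ⟨v, rfl⟩
        rw [show v = .ofAdd (Pi.single 0 1) ^ (v.toAdd 0).val * .ofAdd (Pi.single 1 1) ^ (v.toAdd 1).val by
          ext j; fin_cases j <;> simp [-nsmul_eq_mul], map_mul, map_pow, map_pow]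
        exact mul_mem (pow_mem (subset_closure (by simp)) _) (pow_mem (subset_closure (by simp)) _)
      · ext j; fin_cases j <;> simp [mP_one, h4, one_add_one_eq_two]
      · ext j; fin_cases j <;> simp [mP_one])
  choose a ha using fun v => exists_tor hζ h (hs1 ⟨.ofAdd v, rfl⟩).1 (by
    rw [← map_pow, ← map_pow, show Multiplicative.ofAdd v ^ l = 1 by ext j; simp]; simp)
  refine ⟨AddMonoidHom.mk' (fun v => (a v).toAdd) fun v w => tor_inj hζ h (show _ = tor hζ d (a v * a w) by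
    rw [map_mul, ha, ha, ← map_mul, ← map_mul]; exact ha _), fun v w e => hs (hι' ?_), fun τ c h5 => ?_⟩
  · exact (ha v).symm.trans ((congrArg (tor hζ d) e).trans (ha w))
  obtain ⟨g, hg⟩ := hs2 _ (fu_mP hφ h5)
  obtain ⟨L, hL⟩ := fuse_tor hζ h (hG' g)
  exact ⟨L, fun v => hL _ _ (by rw [ha, ha, ← hg, map_mul, map_mul, map_inv])⟩

end Cfsg.Agent.H6A
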