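import Cfsg.Agent.H6.SLc
import Cfsg.Agent.H6.Lang
import Cfsg.Agent.H6.JE

/-!
Matrices of prime order different from the characteristic, through the multiplicities of their
eigenvalues.
-/

set_option autoImplicit false

namespace Cfsg.Agent.H6

open Polynomial Module Matrix

section kd

variable {F V : Type*} [Field F] [AddCommGroup V] [Module F V] [FiniteDimensional F V]

theorem kd_mul_coprime (φ : V →ₗ[F] V) {f g : F[X]} (h : IsCoprime f g) :
    kd φ (f * g) = kd φ f + kd φ g := by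
  rw [kd, kd, kd, ← sup_ker_aeval_eq_ker_aeval_mul_of_coprime φ h,
    ← Submodule.finrank_sup_add_finrank_inf_eq, (disjoint_ker_aeval_of_isCoprime φ h).eq_bot,
    finrank_bot, add_zero]

theorem kd_finset_prod (φ : V →ₗ[F] V) {T : Type*} (s : Finset T) (f : T → F[X])
    (h : Pairwise fun i j => IsCoprime (f i) (f j)) : kd φ (∏ i ∈ s, f i) = ∑ i ∈ s, kd φ (f i) := by
  classical
  induction s using Finset.induction_on with
  | empty => simp [kd_one]
  | insert a s ha ih =>
    rw [Finset.prod_insert ha, Finset.sum_insert ha, kd_mul_coprime, ih]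
    exact IsCoprime.prod_right fun i hi => h fun e => ha (e ▸ hi)

end kd

/-- an extension containing the `r`-th roots of unity, with its Frobenius automorphism -/
structure Spl {F L : Type*} [Field F] [Fintype F] [Field L] (r : ℕ) (e : F →+* L) (φ : L ≃+* L)
    (ζ : L) : Prop where
  prim : IsPrimitiveRoot ζ r
  frob : ∀ x, φ x = x ^ Fintype.card F
  fix : ∀ x, φ x = x ↔ ∃ y, e y = x

theorem exists_spl (F : Type*) [Field F] [Fintype F] {r : ℕ} (hr : r.Prime) (h0 : (r : F) ≠ 0) :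
    ∃ (L : Type) (_ : Field L) (_ : Finite L) (e : F →+* L) (φ : L ≃+* L) (ζ : L), Spl r e φ ζ := by
  obtain ⟨p, _, ⟨f, hp, hf⟩⟩ := FiniteField.card' F
  have : Fact p.Prime := ⟨hp⟩
  have : Fact r.Prime := ⟨hr⟩
  have : NeZero (r - 1) := ⟨by have := hr.two_le; omega⟩
  let L := FiniteField.Extension F p (r - 1)
  have h1 : r ∣ Nat.card Lˣ := by
    rw [Nat.card_units, FiniteField.natCard_extension, Nat.card_eq_fintype_card,
      ← Nat.totient_prime hr]
    refine (Nat.modEq_iff_dvd' (Nat.one_le_pow _ _ Fintype.card_pos)).1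
      (Nat.ModEq.pow_totient ?_).symm
    rw [hf]
    refine Nat.Coprime.pow_left _ ((Nat.coprime_primes hp hr).2 ?_)
    rintro rfl
    exact h0 (CharP.cast_eq_zero F p)
  obtain ⟨ζ, hζ⟩ := exists_prime_orderOf_dvd_card' r h1
  refine ⟨L, inferInstance, inferInstance, algebraMap F L,
    (FiniteField.Extension.frob F p (r - 1)).toRingEquiv, ζ,
    by simpa only [orderOf_units, hζ] using IsPrimitiveRoot.orderOf ζ.1, fun x => by
      rw [← Nat.card_eq_fintype_card]; exact FiniteField.Extension.frob_apply F p (r - 1), fun x => ⟨fun h => ?_, ?_⟩⟩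
  · refine (IsGalois.mem_range_algebraMap_iff_fixed x).2 fun g => ?_
    obtain ⟨i, -, rfl⟩ := FiniteField.Extension.exists_frob_pow_eq F p (r - 1) g
    rw [AlgEquiv.coe_pow]
    exact Function.iterate_fixed h i
  · rintro ⟨y, rfl⟩
    exact AlgEquiv.commutes _ y

variable {F L : Type*} [Field F] [Field L] {ι κ : Type*} [Fintype ι] [DecidableEq ι] [Fintype κ]
  [DecidableEq κ] {r : ℕ} {e : F →+* L} {φ : L ≃+* L} {ζ : L}

/-- the multiplicity of `ζ ^ k` as an eigenvalue -/
noncomputable def em (e : F →+* L) (ζ : L) (r : ℕ) (A : Matrix ι ι F) (k : ZMod r) : ℕ :=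
  mkd (A.map e) (X - C (ζ ^ k.val))

theorem em_eq (A : Matrix ι ι F) (k : ZMod r) :
    em e ζ r A k = Fintype.card ι - (A.map e - ζ ^ k.val • 1).rank := by
  have := mkd_add_rank (A.map e) (X - C (ζ ^ k.val))
  rw [aeval_X_sub_C'] at this
  rw [em]
  omega

theorem IsConj.em_eq {A B : Matrix ι ι F} (h : IsConj A B) : em e ζ r A = em e ζ r B :=
  funext fun _ => IsConj.mkd_eq ((RingHom.mapMatrix e : Matrix ι ι F →+* _).toMonoidHom.map_isConj h) _

theorem em_eq_card_iff (A : Matrix ι ι F) (k : ZMod r) :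
    em e ζ r A k = Fintype.card ι ↔ A.map e = ζ ^ k.val • 1 := by
  rw [em, mkd_eq_card_iff, aeval_X_sub_C', sub_eq_zero]

theorem em_zero_eq_card_iff (A : Matrix ι ι F) : em e ζ r A 0 = Fintype.card ι ↔ A = 1 := by
  rw [em_eq_card_iff, ZMod.val_zero, pow_zero, one_smul, ← Matrix.map_one e (map_zero e) (map_one e)]
  exact (Matrix.map_injective e.injective).eq_iff

theorem em_transpose (A : Matrix ι ι F) : em e ζ r Aᵀ = em e ζ r A := funext fun k => by
  rw [em_eq, em_eq, ← rank_transpose (A.map e - _), transpose_sub, transpose_smul, transpose_one,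
    transpose_map]

theorem em_reindex (σ : ι ≃ κ) (A : Matrix ι ι F) : em e ζ r (reindex σ σ A) = em e ζ r A :=
  funext fun _ => mkd_reindex σ (A.map e) _

theorem map_smul_one (ψ : L →+* L) (M : Matrix ι ι L) (c : L) :
    (M - c • 1).map ψ = M.map ψ - ψ c • 1 := by
  ext i j
  by_cases h : i = j <;> simp [h, one_apply]

section prim

variable [NeZero r] (hζ : IsPrimitiveRoot ζ r)

include hζ

theorem zp_eq_iff (a b : ℕ) : ζ ^ a = ζ ^ b ↔ (a : ZMod r) = b := by
  rw [(hζ.isOfFinOrder (NeZero.ne r)).pow_eq_pow_iff_modEq, ← hζ.eq_orderOf,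
    ZMod.natCast_eq_natCast_iff]

theorem zp_mul (a : ℕ) (k : ZMod r) : ζ ^ ((a : ZMod r) * k).val = (ζ ^ k.val) ^ a := by
  rw [← pow_mul, zp_eq_iff hζ]; simp [mul_comm]

theorem zp_add (a k : ZMod r) : ζ ^ (a + k).val = ζ ^ a.val * ζ ^ k.val := by
  rw [← pow_add, zp_eq_iff hζ]; simp

theorem zp_inj {a k : ZMod r} (h : ζ ^ a.val = ζ ^ k.val) : a = k := by
  simpa using (zp_eq_iff hζ _ _).1 h

theorem zp_ne_zero (k : ZMod r) : ζ ^ k.val ≠ 0 := pow_ne_zero _ (hζ.ne_zero (NeZero.ne r))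

theorem zp_neg (k : ZMod r) : ζ ^ (-k).val = (ζ ^ k.val)⁻¹ :=
  eq_inv_of_mul_eq_one_left (by rw [← zp_add hζ]; simp)

theorem X_pow_sub_one_eq : (X ^ r - 1 : L[X]) = ∏ k : ZMod r, (X - C (ζ ^ k.val)) := by
  have := _root_.X_pow_sub_C_eq_prod hζ (NeZero.pos r) (one_pow r)
  rw [C_1] at this
  rw [this]
  obtain ⟨r, rfl⟩ := Nat.exists_eq_succ_of_ne_zero (NeZero.ne r)
  rw [Finset.prod_range]
  exact Finset.prod_congr rfl fun _ _ => by rw [mul_one]; rfl

theorem em_sum {A : Matrix ι ι F} (hA : A ^ r = 1) : ∑ k, em e ζ r A k = Fintype.card ι := by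
  have h1 := (mkd_eq_card_iff (A.map e) (X ^ r - 1)).2 (aeval_X_pow_sub_one.2 (by
    rw [← RingHom.mapMatrix_apply, ← map_pow, hA, map_one]))
  rw [← h1, X_pow_sub_one_eq hζ]
  exact (kd_finset_prod _ _ _ fun i j hij => isCoprime_X_sub_C_of_isUnit_sub
    (sub_ne_zero.2 fun h => hij (zp_inj hζ h)).isUnit).symm

theorem isConj_of_em [Finite F] [Finite L] {A B : Matrix ι ι F} (hA : A ^ r = 1) (hB : B ^ r = 1)
    (h : em e ζ r A = em e ζ r B) : IsConj A B := by
  have h1 : ∀ A : Matrix ι ι F, A ^ r = 1 → aeval (A.map e) (X ^ r - 1 : L[X]) = 0 := fun A hA =>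
    aeval_X_pow_sub_one.2 (by rw [← RingHom.mapMatrix_apply, ← map_pow, hA, map_one])
  refine isConj_of_map e (isConj_of_squarefree (h1 A hA) (h1 B hB)
    (squarefree_X_pow_sub_one (hζ.neZero').ne) fun p hp hm hd => ?_)
  rw [X_pow_sub_one_eq hζ] at hd
  obtain ⟨k, -, hk⟩ := (hp.prime.dvd_finsetProd_iff _).1 hd
  obtain rfl := eq_of_monic_of_associated hm (monic_X_sub_C _)
    (hp.associated_of_dvd (irreducible_X_sub_C _) hk)
  exact congrFun h k

theorem em_map (ψ : L →+* L) (τ : F →+* F) (h : ∀ x, e (τ x) = ψ (e x)) {a : ℕ} (ha : ψ ζ = ζ ^ a)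
    (A : Matrix ι ι F) (k : ZMod r) : em e ζ r (A.map τ) ((a : ZMod r) * k) = em e ζ r A k := by
  rw [em_eq, em_eq, ← rank_map ψ (A.map e - _), map_smul_one, zp_mul hζ, map_pow, ha, ← pow_mul,
    ← pow_mul, mul_comm a]
  congr 3
  ext i j
  exact h _

theorem em_inv {A : Matrix ι ι F} (hA : A.det ≠ 0) (k : ZMod r) :
    em e ζ r A⁻¹ k = em e ζ r A (-k) := by
  have h1 : (A.map e).det ≠ 0 := (RingHom.map_det e A).symm.trans_ne ((_root_.map_ne_zero e).2 hA)
  rw [em_eq, em_eq, zp_neg hζ, ← rank_mul_eq_right_of_det_ne_zero _ (A⁻¹.map e - _) h1, mul_sub,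
    ← Matrix.map_mul, mul_nonsing_inv _ hA.isUnit, Matrix.map_one e (map_zero e) (map_one e),
    ← rank_smul_of_mem_nonZeroDivisors (A.map e - _)
      (mem_nonZeroDivisors_of_ne_zero (neg_ne_zero.2 (zp_ne_zero hζ k)))]
  congr 2
  rw [smul_sub, smul_smul, neg_mul, mul_inv_cancel₀ (zp_ne_zero hζ k)]
  simp [sub_eq_add_neg, add_comm]

theorem em_smul {c : F} {j : ZMod r} (hc : e c = ζ ^ j.val) (A : Matrix ι ι F) (k : ZMod r) :
    em e ζ r (c • A) (j + k) = em e ζ r A k := by
  rw [em_eq, em_eq, zp_add hζ, ← rank_smul_of_mem_nonZeroDivisors (A.map e - _)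
      (mem_nonZeroDivisors_of_ne_zero (zp_ne_zero hζ j)), smul_sub, smul_smul, ← hc]
  congr 3
  ext i j
  simp

theorem exists_zp {x : L} (hx : x ^ r = 1) : ∃ k : ZMod r, x = ζ ^ k.val := by
  obtain ⟨i, hi, rfl⟩ := hζ.eq_pow_of_pow_eq_one hx
  exact ⟨i, by rw [ZMod.val_cast_of_lt hi]⟩

end prim

variable [Fintype F] [NeZero r] (S : Spl r e φ ζ)

include S

theorem Spl.em_frob (A : Matrix ι ι F) (k : ZMod r) :
    em e ζ r A ((Fintype.card F : ZMod r) * k) = em e ζ r A k :=
  em_map S.prim φ (RingHom.id F) (fun x => ((S.fix _).2 ⟨x, rfl⟩).symm) (S.frob ζ) A k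

theorem Spl.exists_em [Finite L] (m : ZMod r → ℕ)
    (hm : ∀ k, m ((Fintype.card F : ZMod r) * k) = m k) (hs : ∑ k, m k = Fintype.card ι) :
    ∃ A : Matrix ι ι F, A ^ r = 1 ∧ em e ζ r A = m := by
  have := ringAut_finite (F := L)
  have h0 := orderOf_pos φ
  have h1 : (Fintype.card F : ZMod r) ^ orderOf φ = 1 := by
    have h2 : ∀ j, (φ ^ j) ζ = ζ ^ Fintype.card F ^ j := fun j => by
      induction j with
      | zero => simp
      | succ j ih => rw [pow_succ', RingAut.mul_apply, ih, S.frob, ← pow_mul, pow_succ]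
    have h3 := h2 (orderOf φ)
    rw [pow_orderOf_eq_one, RingAut.one_apply] at h3
    have := (zp_eq_iff S.prim 1 _).1 ((pow_one ζ).trans h3)
    simpa using this.symm
  obtain ⟨u, hu⟩ := IsUnit.of_pow_eq_one h1 h0.ne'
  let I := (k : ZMod r) × Fin (m k)
  let π : Equiv.Perm I := Equiv.sigmaCongr u.mulLeft fun k => finCongr (by
    rw [Units.mulLeft_apply, hu, hm])
  have h2 : ∀ j (x : I), ((π ^ j) x).1 = u.1 ^ j * x.1 ∧ (((π ^ j) x).2 : ℕ) = x.2 := fun j x => by
    induction j with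
    | zero => exact ⟨by simp, rfl⟩
    | succ j ih =>
      rw [pow_succ', Equiv.Perm.mul_apply, pow_succ', mul_assoc, ← ih.1, ← ih.2]
      exact ⟨rfl, rfl⟩
  have h3 : π ^ orderOf φ = 1 := Equiv.ext fun x => by
    have h4 := h2 (orderOf φ) x
    rw [hu, h1, one_mul] at h4
    exact Sigma.ext h4.1 ((Fin.heq_ext_iff (congrArg m h4.1)).2 h4.2)
  let P : GL I L := permMatrixHom.toHomUnits π
  have hP : glField I L φ P = P := Units.ext (by
    ext i j
    change φ ((π⁻¹).toPEquiv.toMatrix i j) = (π⁻¹).toPEquiv.toMatrix i j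
    rw [PEquiv.toMatrix_apply]
    split_ifs <;> simp)
  have h4 : ∀ j, tnrm (glField I L φ) j P = P ^ j := fun j => by
    induction j with
    | zero => simp [tnrm_zero]
    | succ j ih => rw [tnrm_succ, ih, map_pow, hP, pow_succ']
  obtain ⟨h, hh⟩ := exists_gl_h90 rfl h0 (g := P) (by rw [h4, ← map_pow, h3, map_one])
  let D : GL I L := GeneralLinearGroup.mkOfDetNeZero (diagonal fun x => ζ ^ x.1.val) (by
    rw [det_diagonal]
    exact Finset.prod_ne_zero_iff.2 fun x _ => zp_ne_zero S.prim _)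
  have hD : P * glField I L φ D = D * P := Units.ext (by
    change (π⁻¹).toPEquiv.toMatrix * (diagonal fun x : I => ζ ^ x.1.val).map φ =
      (diagonal fun x : I => ζ ^ x.1.val) * (π⁻¹).toPEquiv.toMatrix
    rw [diagonal_map (map_zero φ)]
    ext i j
    rw [mul_diagonal, diagonal_mul, PEquiv.toMatrix_apply]
    split_ifs with h
    · obtain rfl : i = π j := by
        rw [← Equiv.Perm.inv_eq_iff_eq]
        simpa using h
      rw [one_mul, mul_one, S.frob, ← zp_mul S.prim, ← hu]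
      rfl
    · simp)
  obtain ⟨A, hA⟩ := exists_map_of_fixed S.fix (g := h⁻¹ * D * h) (by
    have : glField I L φ h = P⁻¹ * h := eq_inv_mul_of_mul_eq hh
    rw [map_mul, map_mul, map_inv, this, eq_inv_mul_of_mul_eq hD]
    group)
  let σ : I ≃ ι := Fintype.equivOfCardEq (by simp [I, hs])
  have h5 : IsConj D.1 (A.1.map e) := isConj_units_iff.1 (hA ▸ isConj_iff.2 ⟨h⁻¹, by simp⟩ :
    IsConj D (GeneralLinearGroup.map e A))
  refine ⟨reindex σ σ A.1, ?_, ?_⟩
  · rw [show reindex σ σ A.1 = reindexAlgEquiv F F σ A.1 from rfl, ← map_pow,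
      EmbeddingLike.map_eq_one_iff]
    refine Matrix.map_injective e.injective ?_
    have h6 : aeval D.1 (X ^ r - 1 : L[X]) = 0 := aeval_X_pow_sub_one.2 (by
      change (diagonal _) ^ r = 1
      rw [diagonal_pow, ← diagonal_one]
      congr 1
      ext x
      rw [Pi.pow_apply, ← pow_mul, mul_comm, pow_mul, S.prim.pow_eq_one, one_pow])
    have := aeval_X_pow_sub_one.1 (IsConj.aeval_eq_zero h5 h6)
    simp only
    rw [← RingHom.mapMatrix_apply, map_pow, Matrix.map_one e (map_zero e) (map_one e)]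
    exact this
  · classical
    rw [em_reindex]
    ext k
    have h6 := IsConj.rank_sub_pow h5 (ζ ^ k.val) 1
    rw [pow_one, pow_one] at h6
    rw [em_eq, ← h6]
    change _ - Matrix.rank (diagonal _ - _) = _
    rw [smul_one_eq_diagonal, diagonal_sub, rank_diagonal, Fintype.card_subtype_compl,
      Nat.sub_sub_self (Fintype.card_subtype_le _), Fintype.card_subtype, Finset.card_filter,
      Fintype.sum_sigma, Finset.sum_eq_single k (fun l _ hl => Finset.sum_eq_zero fun _ _ =>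
        if_neg fun h => hl (zp_inj S.prim (sub_eq_zero.1 h))) (by simp)]
    simp

end Cfsg.Agent.H6
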