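import Cfsg.Agent.H6.Ord

/-!
Counting products of a central subgroup with a subgroup.
-/

set_option autoImplicit false

namespace Cfsg.Agent.H6

theorem card_central_mul {Z Z₀ G₀ G : Type*} [Group Z] [Group Z₀] [Group G₀] [Group G]
    {s : Z →* G} {j : G₀ →* G} {t : Z₀ →* G} (hs : Function.Injective s)
    (hj : Function.Injective j) (ht : Function.Injective t) (hc : ∀ z, s z ∈ Subgroup.center G)
    (h : ∀ z y, s z = j y ↔ ∃ x, t x = s z ∧ t x = j y) (h1 : ∀ x, ∃ z y, t x = s z ∧ t x = j y)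
    (P : G → Prop) (hP : ∀ g, P g ↔ ∃ z y, g = s z * j y) :
    Nat.card {g // P g} * Nat.card Z₀ = Nat.card Z * Nat.card G₀ := by
  have : s.range.Normal := ⟨by
    rintro _ ⟨z, rfl⟩ g
    exact ⟨z, by rw [Subgroup.mem_center_iff.1 (hc z) g, mul_inv_cancel_right]⟩⟩
  have h2 : s.range ⊓ j.range = t.range := by
    ext g
    constructor
    · rintro ⟨⟨z, rfl⟩, y, hy⟩
      obtain ⟨x, hx, -⟩ := (h z y).1 hy.symm
      exact ⟨x, hx⟩
    · rintro ⟨x, rfl⟩
      obtain ⟨z, y, h3, h4⟩ := h1 x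
      exact ⟨⟨z, h3.symm⟩, y, h4.symm⟩
  have h3 : Nat.card {g // P g} = Nat.card ↥(s.range ⊔ j.range) :=
    Nat.card_congr (Equiv.subtypeEquivRight fun g => by
      rw [hP, ← SetLike.mem_coe, Subgroup.normal_mul]
      exact ⟨fun ⟨z, y, h⟩ => ⟨_, ⟨z, rfl⟩, _, ⟨y, rfl⟩, h.symm⟩,
        fun ⟨_, ⟨z, rfl⟩, _, ⟨y, rfl⟩, h⟩ => ⟨z, y, h.symm⟩⟩)
  rw [h3, Nat.card_congr (MonoidHom.ofInjective hs).toEquiv,
    Nat.card_congr (MonoidHom.ofInjective hj).toEquiv,
    Nat.card_congr (MonoidHom.ofInjective ht).toEquiv, ← h2,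
    ← (s.range.subgroupOf (s.range ⊔ j.range)).index_mul_card,
    ← ((s.range ⊓ j.range).subgroupOf j.range).index_mul_card,
    Nat.card_congr (Subgroup.subgroupOfEquivOfLe le_sup_left).toEquiv,
    Nat.card_congr (Subgroup.subgroupOfEquivOfLe inf_le_right).toEquiv, ← Subgroup.relIndex,
    ← Subgroup.relIndex, Subgroup.relIndex_sup_left, Subgroup.inf_relIndex_right]
  ring

end Cfsg.Agent.H6
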