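import Cfsg.Agent.H6.Sim2

/-!
Involutory graph automorphisms: an abstract treatment.
-/

set_option autoImplicit false

namespace Cfsg.Agent.H6

open Matrix Module

attribute [-instance] CStarMatrix.instHMulOfFintypeOfMulOfAddCommMonoid

variable {A N : Type*} [Group A] [Group N] {F F₀ : Type*} [Field F] [Field F₀] {κ κ' : Type}
  [Fintype κ] [DecidableEq κ] [Fintype κ'] [DecidableEq κ']

local notation "sc" => GeneralLinearGroup.scalar κ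
local notation "mp" => GeneralLinearGroup.map

structure GrD (D : N →* A) (ν : N →* GL κ F) (e : F₀ →+* F) (Gr : A → Prop)
    (Rel : A → GL κ F → Matrix κ κ F₀ → Prop) (Cp : Fˣ → F₀ → Prop) : Prop where
  ker : ∀ y, D y = 1 ↔ ν y ∈ Subgroup.center _
  ex : ∀ γ, Gr γ → ∃ h B, Rel γ h B
  ex' : ∀ B : Matrix κ κ F₀, B.det ≠ 0 → (Bᵀ = B ∨ Bᵀ = -B) → ∃ γ h, Gr γ ∧ Rel γ h B
  prop : ∀ {γ h B}, Rel γ h B → B.det ≠ 0 ∧ (Bᵀ = B ∨ Bᵀ = -B)
  conj : ∀ {γ h B γ' h' B'}, Rel γ h B → Rel γ' h' B' → ∀ y, D y * γ' * (D y)⁻¹ = γ ↔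
    ∃ v P, ν y = sc v * (h * mp e P * h'⁻¹) ∧ Sim B B' P
  lift : ∀ {γ h B γ' h' B'}, Rel γ h B → Rel γ' h' B' → ∀ P, Sim B B' P →
    ∃ v y, ν y = sc v * (h * mp e P * h'⁻¹)
  cp : ∀ {γ h B}, Rel γ h B → ∀ (P : GL κ F₀) c v, P.1ᵀ * B * P.1 = c • B →
    ((∃ y, ν y = sc v * (h * mp e P * h⁻¹)) ↔ Cp v c)

theorem sim_reindex (σ : κ ≃ κ') (B : Matrix κ' κ' F) (P : GL κ' F) :
    Sim (B.submatrix σ σ) (B.submatrix σ σ) (Units.mapEquiv (reindexRingEquiv F σ.symm).toMulEquiv P)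
      ↔ Sim B B P := exists_congr fun c => by
  change (P.1.submatrix σ σ)ᵀ * _ * P.1.submatrix σ σ = (c.1 • B).submatrix σ σ ↔ _
  rw [transpose_submatrix, submatrix_mul_equiv, submatrix_mul_equiv]
  exact ⟨fun h => (reindex σ.symm σ.symm).injective h, congrArg (submatrix · σ σ)⟩

theorem pq_congr {X : Type*} [Group X] {H H' : Subgroup (GL κ F)} (h : H' = H)
    (e : Nonempty (X ≃* projQuot H)) : Nonempty (X ≃* projQuot H') := h ▸ e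

theorem mem_center_equiv {X Y : Type*} [Group X] [Group Y] (e : X ≃* Y) (x : X) :
    e x ∈ Subgroup.center Y ↔ x ∈ Subgroup.center X := by
  simp only [Subgroup.mem_center_iff, e.surjective.forall, ← map_mul, e.injective.eq_iff]

theorem skew_submatrix {B : Matrix κ' κ' F} (h : Bᵀ = B ∨ Bᵀ = -B) (σ : κ → κ') :
    (B.submatrix σ σ)ᵀ = B.submatrix σ σ ∨ (B.submatrix σ σ)ᵀ = -B.submatrix σ σ :=
  h.imp (fun h => by rw [transpose_submatrix, h]) fun h => by rw [transpose_submatrix, h]; rfl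

namespace GrD

variable {D : N →* A} {ν : N →* GL κ F} {e : F₀ →+* F} {Gr : A → Prop}
  {Rel : A → GL κ F → Matrix κ κ F₀ → Prop} {Cp : Fˣ → F₀ → Prop} (G : GrD D ν e Gr Rel Cp)
  {γ γ' : A} {h h' : GL κ F} {B B' : Matrix κ κ F₀} {m : ℕ}

include G

theorem conj_iff (R : Rel γ h B) (R' : Rel γ' h' B') :
    IsConjUnder D.range γ' γ ↔ ∃ P, Sim B B' P := by
  constructor
  · rintro ⟨_, ⟨y, rfl⟩, hy⟩
    obtain ⟨v, P, -, hP⟩ := (G.conj R R' y).1 hy.symm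
    exact ⟨P, hP⟩
  · rintro ⟨P, hP⟩
    obtain ⟨v, y, hy⟩ := G.lift R R' P hP
    exact ⟨_, ⟨y, rfl⟩, ((G.conj R R' y).2 ⟨v, P, hy, hP⟩).symm⟩

theorem cent [Nonempty κ] (σ : κ ≃ κ') {B : Matrix κ' κ' F₀} (R : Rel γ h (B.submatrix σ σ)) :
    Nonempty (↥(D.range ⊓ Subgroup.centralizer {γ}) ≃* projQuot (simG B)) := by
  let r := Units.mapEquiv (reindexRingEquiv F₀ σ.symm).toMulEquiv
  have hc := fun v => Subgroup.mem_center_iff.1 (scalar_mem_center (ι := κ) (F := F) v)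
  refine equiv_of_rel _ _ (fun a y => ∃ n v, a = D n ∧ ν n = sc v * (h * mp e (r y.1) * h⁻¹))
    ?_ (fun y => ?_) ?_ ?_ ?_
  · rintro _ ⟨⟨y, rfl⟩, hy⟩
    obtain ⟨v, P, h1, h2⟩ := (G.conj R R y).1
      (mul_inv_eq_iff_eq_mul.2 (Subgroup.mem_centralizer_singleton_iff.1 hy))
    obtain ⟨P, rfl⟩ := r.surjective P
    exact ⟨⟨P, (sim_reindex σ B P).1 h2⟩, y, v, rfl, h1⟩
  · obtain ⟨v, n, hn⟩ := G.lift R R _ ((sim_reindex σ B y.1).2 y.2)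
    exact ⟨_, ⟨⟨n, rfl⟩, Subgroup.mem_centralizer_singleton_iff.2 (mul_inv_eq_iff_eq_mul.1
      ((G.conj R R n).2 ⟨v, _, hn, (sim_reindex σ B y.1).2 y.2⟩))⟩, n, v, rfl, hn⟩
  · rintro _ y _ y' ⟨n, v, rfl, h1⟩ ⟨n', v', rfl, h2⟩
    refine ⟨n * n', v * v', (map_mul ..).symm, ?_⟩
    rw [map_mul, h1, h2, Subgroup.coe_mul, map_mul, map_mul, map_mul, mul_assoc (sc v),
      ← mul_assoc _ (sc v'), hc]
    group
  · rintro _ _ y ⟨n, v, rfl, h1⟩ ⟨n', v', rfl, h2⟩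
    rw [← mul_inv_eq_one, ← map_inv, ← map_mul, G.ker, map_mul, map_inv, h1, h2,
      _root_.mul_inv_rev, ← mul_assoc, mul_inv_cancel_right]
    exact mul_mem (scalar_mem_center v) (inv_mem (scalar_mem_center v'))
  · rintro _ y ⟨n, v, rfl, h1⟩
    have : Nonempty κ' := σ.nonempty_congr.1 ‹_›
    rw [G.ker, h1, Subgroup.mul_mem_cancel_left _ (scalar_mem_center v),
      Subgroup.Normal.mem_comm_iff inferInstance, inv_mul_cancel_left, map_mem_center_iff,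
      Subgroup.mem_subgroupOf, mem_scalars_iff_center, mem_center_equiv]

theorem exists_rep [Nonempty κ] {B : Matrix κ' κ' F₀} (σ : κ ≃ κ') (h1 : B.det ≠ 0)
    (h2 : Bᵀ = B ∨ Bᵀ = -B) : ∃ γ h, Gr γ ∧ Rel γ h (B.submatrix σ σ) ∧
      Nonempty (↥(D.range ⊓ Subgroup.centralizer {γ}) ≃* projQuot (simG B)) := by
  obtain ⟨γ, h, h3, h4⟩ := G.ex' (B.submatrix σ σ) (by simpa using h1) (skew_submatrix h2 σ)
  exact ⟨γ, h, h3, h4, G.cent σ h4⟩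

theorem cent' [Nonempty κ] (R : Rel γ h B) {B' : Matrix κ' κ' F₀} (σ : κ ≃ κ') (h1 : B'.det ≠ 0)
    (h2 : B'ᵀ = B' ∨ B'ᵀ = -B') (h3 : ∃ P, Sim B (B'.submatrix σ σ) P) :
    Nonempty (↥(D.range ⊓ Subgroup.centralizer {γ}) ≃* projQuot (simG B')) := by
  obtain ⟨γ', h', -, R', ⟨φ⟩⟩ := G.exists_rep σ h1 h2
  obtain ⟨ψ⟩ := centralizer_equiv_of_isConjUnder ((G.conj_iff R R').2 h3)
  exact ⟨ψ.symm.trans φ⟩

variable [Fintype F₀]

theorem odd_case (hm : Fintype.card κ = 2 * m + 1) (h1 : Gr γ) (h2 : Gr γ') :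
    Nonempty (↥(D.range ⊓ Subgroup.centralizer {γ}) ≃* PGO F₀ (quadFormOdd m F₀)) ∧
      IsConjUnder D.range γ γ' := by
  obtain ⟨h, B, R⟩ := G.ex γ h1
  obtain ⟨h', B', R'⟩ := G.ex γ' h2
  have ho : Odd (Fintype.card κ) := ⟨m, hm⟩
  have : Nonempty κ := Fintype.card_pos_iff.1 (by omega)
  have σ : κ ≃ Unit ⊕ Fin m ⊕ Fin m := Fintype.equivOfCardEq (by simp; omega)
  have key : ∀ B' : Matrix _ _ F₀, B'.det ≠ 0 → B'ᵀ = B' → _ := fun B' h1 h2 =>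
    G.cent' R σ h1 (Or.inl h2) (sim_odd ho (G.prop R).2 (skew_submatrix (Or.inl h2) σ) (G.prop R).1
      (by simpa using h1))
  refine ⟨?_, (G.conj_iff R' R).2 (sim_odd ho (G.prop R').2 (G.prop R).2 (G.prop R').1
    (G.prop R).1)⟩
  by_cases two : (2 : F₀) = 0
  · have : CharP F₀ 2 := (CharP.charP_iff_prime_eq_zero Nat.prime_two).2 two
    obtain ⟨φ⟩ := key (fromBlocks 1 0 0 (J (Fin m) F₀))
      (by simpa [det_fromBlocks_zero₂₁] using det_J_ne_zero)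
      (by simp [fromBlocks_transpose, -J_transpose, isAlt_J.symm])
    exact pgo_odd_two.map φ.trans
  · exact pq_congr (quadSim_eq two (H7.QO F₀ m)) (key _ (det_pG.2 (H7.nd_QO two)) pG_symm)

theorem three (two : (2 : F₀) ≠ 0) (hm : Fintype.card κ = 2 * m) (h0 : 1 ≤ m) :
    ∃ (γ₁ γ₂ γ₃ : A) (a b : F₀), (∀ z₁ z₂ : F₀, z₁ ^ 2 + a * z₁ * z₂ + b * z₂ ^ 2 = 0 →
      z₁ = 0 ∧ z₂ = 0) ∧ Gr γ₁ ∧ Gr γ₂ ∧ Gr γ₃ ∧ ¬ IsConjUnder D.range γ₁ γ₂ ∧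
      ¬ IsConjUnder D.range γ₁ γ₃ ∧ ¬ IsConjUnder D.range γ₂ γ₃ ∧ (∀ γ, Gr γ →
      IsConjUnder D.range γ₁ γ ∨ IsConjUnder D.range γ₂ γ ∨ IsConjUnder D.range γ₃ γ) ∧
      Nonempty (↥(D.range ⊓ Subgroup.centralizer {γ₁}) ≃* PGSp m F₀) ∧
      Nonempty (↥(D.range ⊓ Subgroup.centralizer {γ₂}) ≃* PGO F₀ (quadFormPlus m F₀)) ∧
      Nonempty (↥(D.range ⊓ Subgroup.centralizer {γ₃}) ≃*
        PGO F₀ (quadFormMinus (m - 1) F₀ a b)) := by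
  have : Nonempty κ := Fintype.card_pos_iff.1 (by omega)
  have he : Even (Fintype.card κ) := by simp [hm]
  obtain ⟨δ, hδ⟩ := FiniteField.exists_nonsquare (F := F₀) fun h => two (by
    simpa [h] using ringChar.Nat.cast_ringChar (R := F₀))
  have hab : ∀ z₁ z₂ : F₀, z₁ ^ 2 + 0 * z₁ * z₂ + -δ * z₂ ^ 2 = 0 → z₁ = 0 ∧ z₂ = 0 :=
    fun z₁ z₂ h => by
    by_cases h1 : z₂ = 0
    · simpa [h1] using h
    · exact absurd ⟨z₁ / z₂, by field_simp; linear_combination -h⟩ hδ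
  have σ : κ ≃ Fin m ⊕ Fin m := Fintype.equivOfCardEq (by simp; omega)
  have σ' : κ ≃ (Fin (m - 1) ⊕ Fin (m - 1)) ⊕ Fin 2 := Fintype.equivOfCardEq (by simp; omega)
  have n2 := H7.nd_QP (F := F₀) m
  have n3 := H7.nd_QM (m := m - 1) (H7.disc_ne_zero_of_aniso hab)
  obtain ⟨γ₁, h₁, g1, R1, c1⟩ := G.exists_rep σ det_J_ne_zero (Or.inr (J_transpose _ _))
  obtain ⟨γ₂, h₂, g2, R2, c2⟩ := G.exists_rep σ (det_pG.2 n2) (Or.inl pG_symm)
  obtain ⟨γ₃, h₃, g3, R3, c3⟩ := G.exists_rep σ' (det_pG.2 n3) (Or.inl pG_symm)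
  have s2 := (transpose_submatrix _ σ σ).trans (congrArg (submatrix · σ σ) (pG_symm (Q := H7.QP F₀ m)))
  have s3 := (transpose_submatrix _ σ' σ').trans
    (congrArg (submatrix · σ' σ') (pG_symm (Q := H7.QM F₀ (m - 1) 0 (-δ))))
  have a1 := isAlt_submatrix (isAlt_J (F := F₀)) σ
  have hsq : ¬ (IsSquare ((pG (H7.QM F₀ (m - 1) 0 (-δ))).submatrix σ' σ').det ↔
      IsSquare ((pG (H7.QP F₀ m)).submatrix σ σ).det) := by
    rw [det_submatrix_equiv_self, det_submatrix_equiv_self, isSquare_pG n2, isSquare_pG n3,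
      H7.disc_QP, H7.disc_QM_aniso two _ hab, Nat.sub_add_cancel h0]
    rcases Int.eq_one_or_neg_one_of_mul_eq_one (H7.chi_neg_one_pow_mul_self (F := F₀) m) with
      h | h <;> simp [h]
  refine ⟨γ₁, γ₂, γ₃, 0, -δ, hab, g1, g2, g3, fun h => ?_, fun h => ?_, fun h => ?_, fun γ hγ => ?_,
    pq_congr gsp_eq c1, pq_congr (quadSim_eq two (H7.QP F₀ m)) c2,
    pq_congr (quadSim_eq two (H7.QM F₀ (m - 1) 0 (-δ))) c3⟩
  · obtain ⟨P, hP⟩ := (G.conj_iff R2 R1).1 h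
    exact not_alt_of_symm two s2 (G.prop R2).1 (hP.symm.alt a1)
  · obtain ⟨P, hP⟩ := (G.conj_iff R3 R1).1 h
    exact not_alt_of_symm two s3 (G.prop R3).1 (hP.symm.alt a1)
  · exact hsq ((sim_symm_iff two s3 s2 (G.prop R3).1 (G.prop R2).1 he).1 ((G.conj_iff R3 R2).1 h))
  obtain ⟨h, B, R⟩ := G.ex γ hγ
  rw [G.conj_iff R R1, G.conj_iff R R2, G.conj_iff R R3]
  rcases (G.prop R).2 with h1 | h1
  · rw [sim_symm_iff two h1 s2 (G.prop R).1 (G.prop R2).1 he,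
      sim_symm_iff two h1 s3 (G.prop R).1 (G.prop R3).1 he]
    tauto
  · exact Or.inl (sim_alt (isAlt_of_skew two h1) a1 (G.prop R).1 (G.prop R1).1)

theorem id_type (two : (2 : F₀) ≠ 0) (hm : Fintype.card κ = 2 * m) (h0 : 1 ≤ m) (R : Rel γ h 1) :
    (H7.chi (-1 : F₀) ^ m = 1 →
      Nonempty (↥(D.range ⊓ Subgroup.centralizer {γ}) ≃* PGO F₀ (quadFormPlus m F₀))) ∧
    (¬ H7.chi (-1 : F₀) ^ m = 1 → ∃ a b : F₀, (∀ z₁ z₂ : F₀, z₁ ^ 2 + a * z₁ * z₂ + b * z₂ ^ 2 = 0 →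
      z₁ = 0 ∧ z₂ = 0) ∧ Nonempty (↥(D.range ⊓ Subgroup.centralizer {γ}) ≃*
        PGO F₀ (quadFormMinus (m - 1) F₀ a b))) := by
  have : Nonempty κ := Fintype.card_pos_iff.1 (by omega)
  have key : ∀ {κ' : Type} [Fintype κ'] [DecidableEq κ'] (Q : QuadraticForm F₀ (κ' → F₀)),
      Fintype.card κ' = 2 * m → H7.ND Q → H7.disc Q = 1 →
      Nonempty (↥(D.range ⊓ Subgroup.centralizer {γ}) ≃* PGO F₀ Q) := fun Q h1 h2 h3 =>
    pq_congr (quadSim_eq two Q) (G.cent' R (Fintype.equivOfCardEq (hm.trans h1.symm)) (det_pG.2 h2)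
      (Or.inl pG_symm) ((sim_symm_iff two (by simp) (by rw [transpose_submatrix, pG_symm]) (by simp)
        (by simpa using det_pG.2 h2) (by simp [hm])).2 (by simp [isSquare_pG h2, h3])))
  refine ⟨fun h => key (H7.QP F₀ m) (by simp [two_mul]) (H7.nd_QP m) (by rw [H7.disc_QP, h]),
    fun h => ?_⟩
  obtain ⟨-, -, -, a, b, hab, -⟩ := G.three two hm h0
  refine ⟨a, b, hab, key (H7.QM F₀ (m - 1) a b) (by simp; omega)
    (H7.nd_QM (H7.disc_ne_zero_of_aniso hab)) ?_⟩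
  rw [H7.disc_QM_aniso two _ hab, Nat.sub_add_cancel h0, (Int.eq_one_or_neg_one_of_mul_eq_one
    (H7.chi_neg_one_pow_mul_self (F := F₀) m)).resolve_left h, neg_neg]

theorem two_classes [CharP F₀ 2] (hm : Fintype.card κ = 2 * m) (h0 : 1 ≤ m) :
    ∃ (γ₁ γ₃ : A) (t : symplecticGroup (Fin m) F₀), IsTransvection t.1 ∧ Gr γ₁ ∧ Gr γ₃ ∧
      ¬ IsConjUnder D.range γ₁ γ₃ ∧
      (∀ γ, Gr γ → IsConjUnder D.range γ₁ γ ∨ IsConjUnder D.range γ₃ γ) ∧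
      Nonempty (↥(D.range ⊓ Subgroup.centralizer {γ₁}) ≃* symplecticGroup (Fin m) F₀) ∧
      Nonempty (↥(D.range ⊓ Subgroup.centralizer {γ₃}) ≃* Subgroup.centralizer {t}) := by
  have : Nonempty κ := Fintype.card_pos_iff.1 (by omega)
  have σ : κ ≃ Fin m ⊕ Fin m := Fintype.equivOfCardEq (by simp; omega)
  obtain ⟨B, t, h1, h2, h3, h4, h5⟩ := pgo_tv_two (F := F₀) (m := m) (by omega)
  obtain ⟨γ₁, h₁, g1, R1, ⟨c1⟩⟩ := G.exists_rep σ det_J_ne_zero (Or.inr (J_transpose _ _))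
  obtain ⟨γ₃, h₃, g3, R3, ⟨c3⟩⟩ := G.exists_rep σ h2 (Or.inl h1)
  have a1 := isAlt_submatrix (isAlt_J (F := F₀)) σ
  have a3 : ¬ IsAlt (B.submatrix σ σ) := fun h => h3 (by simpa using isAlt_submatrix h σ.symm)
  refine ⟨γ₁, γ₃, t, h4, g1, g3, fun h => ?_, fun γ hγ => ?_, (pgsp_two (by omega)).map c1.trans,
    h5.map c3.trans⟩
  · obtain ⟨P, hP⟩ := (G.conj_iff R3 R1).1 h
    exact a3 (hP.symm.alt a1)
  obtain ⟨h, B', R⟩ := G.ex γ hγ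
  rw [G.conj_iff R R1, G.conj_iff R R3]
  by_cases h6 : IsAlt B'
  · exact Or.inl (sim_alt h6 a1 (G.prop R).1 (G.prop R1).1)
  · exact Or.inr (sim_two ((G.prop R).2.elim id fun h => h.trans (ext fun _ _ => CharTwo.neg_eq _))
      (by rw [transpose_submatrix, h1]) (G.prop R).1 (G.prop R3).1 h6 a3)

variable {C : Type*} [CommGroup C] [Finite C] [IsCyclic C] {δ : N →* C} {j : C →* Fˣ}
  (inj : Function.Injective j) (hδ : Function.Surjective δ)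
  (hj : ∀ y, j (δ y) = GeneralLinearGroup.det (ν y))
  (ha : ∀ x, ∃ (v : Fˣ) (c : F₀), Cp v c ∧ (j x).1 = v ^ 2 * e c)
  (hb : ∀ (v : Fˣ) c, c ≠ 0 → Cp v c → ∃ x, (j x).1 = v ^ 2 * e c) (hc : ∀ x, Cp (j x) 1)
  (hd : ∀ (v : Fˣ) l, l ≠ 0 → Cp v (l ^ 2) → ∃ x, (j x).1 = v * e l)

include inj hj in
omit [Fintype F₀] [Finite C] [IsCyclic C] in
theorem mem_map (R : Rel γ h B) (x : C) : x ∈ ((Subgroup.centralizer {γ}).comap D).map δ ↔
    ∃ (P : GL κ F₀) (c : F₀ˣ) (v : Fˣ), P.1ᵀ * B * P.1 = c.1 • B ∧ Cp v c ∧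
      (j x).1 = v ^ Fintype.card κ * e P.1.det := by
  have h1 : ∀ y (v : Fˣ) P, ν y = sc v * (h * mp e P * h⁻¹) →
      (j (δ y)).1 = v ^ Fintype.card κ * e P.1.det := fun y v P h => by
    rw [hj, h, map_mul, map_mul, map_mul, map_inv, mul_inv_cancel_comm, Units.val_mul, det_gl_map]
    simp
  constructor
  · rintro ⟨y, hy, rfl⟩
    obtain ⟨v, P, h2, c, h3⟩ := (G.conj R R y).1
      (mul_inv_eq_iff_eq_mul.2 (Subgroup.mem_centralizer_singleton_iff.1 hy))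
    exact ⟨P, c, v, h3, (G.cp R P c v h3).1 ⟨y, h2⟩, h1 y v P h2⟩
  · rintro ⟨P, c, v, h2, h3, h4⟩
    obtain ⟨y, hy⟩ := (G.cp R P c v h2).2 h3
    exact ⟨y, Subgroup.mem_centralizer_singleton_iff.2 (mul_inv_eq_iff_eq_mul.1
      ((G.conj R R y).2 ⟨v, P, hy, c, h2⟩)), inj (Units.ext ((h1 y v P hy).trans h4.symm))⟩

include inj hδ hj ha hb hc hd in
theorem split {n : ℕ} (hn : Fintype.card κ = n) (h0 : n ≠ 0) {O : Prop} (hO : O ↔ (2 : F₀) ≠ 0)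
    (hC : O → Even (Nat.card C)) (hγ : Gr γ) :
    ((Even n ∧ O ∧ Nonempty (↥(D.range ⊓ Subgroup.centralizer {γ}) ≃* PGSp (n / 2) F₀)) →
      splitClassCount D.range (δ.ker.map D) γ = Nat.gcd (n / 2) (Nat.card C)) ∧
    ((Even n ∧ O ∧ ¬ Nonempty (↥(D.range ⊓ Subgroup.centralizer {γ}) ≃* PGSp (n / 2) F₀)) →
      splitClassCount D.range (δ.ker.map D) γ = Nat.gcd n (Nat.card C) / 2) ∧
    (¬ (Even n ∧ O) → splitClassCount D.range (δ.ker.map D) γ = Nat.gcd n (Nat.card C)) := by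
  obtain ⟨h, B, R⟩ := G.ex γ hγ
  obtain ⟨h1, h2⟩ := G.prop R
  have : Nonempty κ := Fintype.card_pos_iff.1 (by omega)
  have key := G.mem_map inj hj R
  rw [splitClassCount_eq_relIndex, MonoidHom.range_eq_top.2 hδ, Subgroup.relIndex_top_right, hO]
  rw [hn] at key
  have hne : ∀ {x} {v : Fˣ} {c}, (j x).1 = v ^ 2 * e c → c ≠ 0 := fun {x v c} h h0 => by simp [h0] at h
  refine ⟨fun ⟨⟨m, hm⟩, two, ⟨φ⟩⟩ => ?_, fun ⟨⟨m, hm⟩, two, h3⟩ => ?_, fun h3 => ?_⟩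
  · obtain rfl : n = 2 * m := by omega
    rw [Nat.mul_div_cancel_left _ two_pos] at φ ⊢
    obtain ⟨ψ⟩ := G.cent (Equiv.refl κ) R
    have h4 := isAlt_of_skew two (h2.resolve_left fun h2 => not_sqI two h2 h1 hn (by omega)
      ((sqI_pgsp two).equiv (φ.symm.trans ψ)))
    rw [Nat.gcd_comm, ← IsCyclic.index_powMonoidHom_range]
    refine congrArg _ (Subgroup.ext fun x => (key x).trans ⟨?_, ?_⟩)
    · rintro ⟨P, c, v, h5, h6, h7⟩
      obtain ⟨y, hy⟩ := hb v c c.ne_zero h6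
      exact ⟨y, inj (Units.ext (by simp [hy, h7, det_sim_alt h4 h1 hn h5, mul_pow, pow_mul]))⟩
    · rintro ⟨y, rfl⟩
      obtain ⟨v, c, h5, h6⟩ := ha y
      obtain ⟨P, h7, h8⟩ := exists_sim_alt h4 h1 hn (hne h6)
      exact ⟨P, Units.mk0 c (hne h6), v, h7, h5, by simp [h6, h8, mul_pow, pow_mul]⟩
  · obtain rfl : n = 2 * m := by omega
    rw [Nat.mul_div_cancel_left _ two_pos] at h3
    have σ : κ ≃ Fin m ⊕ Fin m := Fintype.equivOfCardEq (by simp; omega)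
    have h4 := h2.resolve_right fun h2 => h3 (pq_congr gsp_eq
      (G.cent' R σ det_J_ne_zero (Or.inr (J_transpose _ _)) (sim_alt (isAlt_of_skew two h2)
        (isAlt_submatrix isAlt_J σ) h1 (by simpa using det_J_ne_zero))))
    rw [← index_sq_comap (hC (hO.2 two))]
    refine congrArg _ (Subgroup.ext fun x => (key x).trans ⟨?_, ?_⟩)
    · rintro ⟨P, c, v, h5, h6, h7⟩
      obtain ⟨y, hy⟩ := hb v c c.ne_zero h6
      refine ⟨y, inj (Units.ext ?_)⟩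
      simp only [powMonoidHom_apply, map_pow, Units.val_pow_eq_pow_val, hy, h7, mul_pow]
      rw [← map_pow e _ 2, det_sq_of_gram h1 h5, hn, map_pow]
      ring
    · rintro ⟨y, hy⟩
      obtain ⟨v, c, h5, h6⟩ := ha y
      have h7 : (j x).1 ^ 2 = ((j y).1 ^ m) ^ 2 := by
        simpa [← pow_mul, mul_comm] using congrArg (fun x => (j x).1) hy.symm
      obtain ⟨d, h8, h9⟩ : ∃ d, d ^ 2 = c ^ (2 * m) ∧ (j x).1 = v ^ (2 * m) * e d := by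
        rcases sq_eq_sq_iff_eq_or_eq_neg.1 h7 with h | h
        · exact ⟨c ^ m, by ring, by simp [h, h6, mul_pow, pow_mul]⟩
        · exact ⟨-c ^ m, by ring, by simp [h, h6, mul_pow, pow_mul]⟩
      obtain ⟨P, h10, rfl⟩ := exists_sim_symm two h4 h1 hn (hne h6) h8 (by omega)
      exact ⟨P, Units.mk0 c (hne h6), v, h10, h5, h9⟩
  · rw [Nat.gcd_comm, ← IsCyclic.index_powMonoidHom_range]
    refine congrArg _ (Subgroup.ext fun x => (key x).trans ⟨?_, ?_⟩)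
    · rintro ⟨P, c, v, h5, h6, h7⟩
      obtain ⟨l, h8, h9⟩ := det_sim_sq h1 (by
        rw [hn, ← Nat.not_even_iff_odd]; tauto) h5
      obtain ⟨y, hy⟩ := hd v l (by rintro rfl; simp at h8) (h8 ▸ h6)
      exact ⟨y, inj (Units.ext (by simp [hy, h7, h9, hn, mul_pow]))⟩
    · rintro ⟨y, rfl⟩
      exact ⟨1, 1, j y, by simp, hc y, by simp⟩

end GrD

end Cfsg.Agent.H6
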