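import Cfsg.Agent.H6.Gr

/-!
Involutory graph automorphisms of linear groups.
-/

set_option autoImplicit false

namespace Cfsg.Agent.H6

open Matrix Module

variable {F : Type*} [Field F] {n : ℕ}

local notation "κ" => Fin n
local notation "sc" => GeneralLinearGroup.scalar (Fin n)

theorem Sim.smul {ι : Type*} [Fintype ι] [DecidableEq ι] {B B' : Matrix ι ι F} {P : GL ι F}
    (h : Sim B B' P) (v : Fˣ) : Sim B B' (GeneralLinearGroup.scalar ι v * P) := by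
  obtain ⟨c, hc⟩ := h
  exact ⟨v * v * c, by
    rw [coe_scalar_mul, transpose_smul, smul_mul_assoc, smul_mul_assoc, mul_smul_comm, hc]
    simp [smul_smul, mul_assoc]⟩

variable (F n) in
def relL (γ : MulAut (ProjectiveSpecialLinearGroup κ F)) (h : GL κ F) (B : Matrix κ κ F) : Prop :=
  h = 1 ∧ ∃ g : GL κ F, B = g⁻¹.1 ∧ γ = slD κ F g * slI κ F ∧ (Bᵀ = B ∨ Bᵀ = -B)

theorem grL (hn : 3 ≤ n) : GrD (slD κ F) (MonoidHom.id _) (RingHom.id F)
    (fun γ => IsGraphAutClassPSL γ ∧ orderOf γ = 2) (relL F n) fun _ _ => True := by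
  have h2 : 2 ≤ Fintype.card κ := by simp; omega
  have : Nonempty κ := ⟨⟨0, by omega⟩⟩
  have hid : ∀ y : GL κ F, GeneralLinearGroup.map (RingHom.id F) y = y := fun y => by ext; rfl
  have hsq : ∀ g, slD κ F g * slI κ F * (slD κ F g * slI κ F) = slD κ F (g * glIT κ F g) :=
    fun g => by rw [map_mul, ← slI_conj, slI_inv]; group
  refine ⟨slD_eq_one_iff h2, ?_, fun B h3 h4 => ?_, ?_, ?_, fun ⟨h, _⟩ ⟨h', _⟩ P _ =>
    ⟨1, P, by simp [h, h', hid]⟩, fun _ _ _ _ _ => ⟨fun _ => trivial, fun _ => ⟨_, rfl⟩⟩⟩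
  · rintro _ ⟨⟨-, _, _, h3, h4, rfl⟩, hx⟩
    obtain ⟨g, rfl⟩ := (isInnerDiagonalAutPSL_iff _).1 h3
    obtain rfl := (isInverseTransposeAutPSL_iff _).1 h4
    refine ⟨1, _, rfl, g, rfl, rfl, ?_⟩
    have h1 : slD κ F (g * glIT κ F g) = 1 := by rw [← hsq, ← sq, ← hx, pow_orderOf_eq_one]
    obtain ⟨c, hc⟩ := (mem_center_gl_iff _).1 ((slD_eq_one_iff h2 _).1 h1)
    have h3 : (g⁻¹).1ᵀ = c • (g⁻¹).1 := by
      rw [← mul_one (g⁻¹).1, ← mul_smul_comm, ← hc, Units.val_mul, Units.inv_mul_cancel_left,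
        coe_glIT, mul_one]
    have h4 : (1 : F) • (g⁻¹).1 = (c * c) • (g⁻¹).1 := by
      rw [mul_smul, ← h3, ← transpose_smul, ← h3, transpose_transpose, one_smul]
    rcases mul_self_eq_one_iff.1 (smul_cancel (GeneralLinearGroup.det_ne_zero _) h4).symm with
      rfl | rfl
    · exact Or.inl (by rw [h3, one_smul])
    · exact Or.inr (by rw [h3, neg_smul, one_smul])
  · obtain ⟨g, rfl⟩ := (isUnit_iff_isUnit_det B).2 h3.isUnit
    refine ⟨_, 1, ⟨⟨hn, _, _, (isInnerDiagonalAutPSL_iff _).2 ⟨g⁻¹, rfl⟩,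
      (isInverseTransposeAutPSL_iff _).2 rfl, rfl⟩, orderOf_eq_prime ?_ fun h => ?_⟩, rfl, g⁻¹,
      rfl, rfl, h4⟩
    · rw [sq, hsq, slD_eq_one_iff h2, mem_center_gl_iff, Units.val_mul, coe_glIT, inv_inv]
      rcases h4 with h | h
      · exact ⟨1, by rw [h, Units.inv_mul, one_smul]⟩
      · exact ⟨-1, by rw [h, mul_neg, Units.inv_mul, neg_smul, one_smul]⟩
    · exact slΦI_notMem (by simpa using hn) 1 ⟨g, by
        rw [map_one, one_mul, ← inv_inv g, map_inv, eq_inv_of_mul_eq_one_right h]⟩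
  · rintro _ _ _ ⟨-, g, rfl, -, h⟩
    exact ⟨GeneralLinearGroup.det_ne_zero _, h⟩
  · rintro _ _ _ _ _ _ ⟨rfl, g, rfl, rfl, -⟩ ⟨rfl, g', rfl, rfl, -⟩ y
    have h1 : slD κ F y * (slD κ F g' * slI κ F) * (slD κ F y)⁻¹ =
        slD κ F (y * g' * glT y) * slI κ F := by
      rw [map_mul, map_mul, ← inv_inv y, ← glIT_apply, ← slI_conj, inv_inv, map_inv]
      group
    have h3 : ∀ c : Fˣ, g⁻¹ * (y * g' * glT y) = sc c ↔ y.1ᵀ * g⁻¹.1 * y.1 = c.1 • g'⁻¹.1 :=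
      fun c => by
      have hc := Subgroup.mem_center_iff.1 (scalar_mem_center (ι := κ) c)
      rw [← coe_scalar_mul, ← coe_glT, ← Units.val_mul, ← Units.val_mul, Units.val_inj,
        eq_mul_inv_iff_mul_eq]
      constructor <;> intro h
      · calc _ = glT y * (g⁻¹ * (y * g' * glT y)) * (glT y)⁻¹ := by group
          _ = _ := by rw [h, hc, mul_inv_cancel_right]
      · calc _ = (glT y)⁻¹ * (glT y * g⁻¹ * y * g') * glT y := by group
          _ = _ := by rw [h, mul_assoc, ← hc, inv_mul_cancel_left]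
    rw [h1, mul_left_inj, eq_comm, ← inv_mul_eq_one, ← map_inv, ← map_mul, slD_eq_one_iff h2,
      mem_center_gl_iff']
    simp only [h3, hid, one_mul, inv_one, mul_one, MonoidHom.id_apply]
    exact ⟨fun h => ⟨1, y, by simp, h⟩, fun ⟨v, P, h4, h5⟩ => h4 ▸ h5.smul v⟩

end Cfsg.Agent.H6
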