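import Cfsg.Agent.H6.HeD

set_option autoImplicit false
set_option maxRecDepth 100000

namespace Cfsg.Agent.H6.He

open Cfsg.Agent.H5 Cfsg.Agent.H8.TC Cfsg.Agent.H6.TT

theorem d3f_228 : blk d3f (nat_lit 29155) (nat_lit 228) (nat_lit 16) = 0 := by decide +kernel
theorem d3f_244 : blk d3f (nat_lit 29155) (nat_lit 244) (nat_lit 16) = 0 := by decide +kernel
theorem d3f_260 : blk d3f (nat_lit 29155) (nat_lit 260) (nat_lit 16) = 0 := by decide +kernel
theorem d3f_276 : blk d3f (nat_lit 29155) (nat_lit 276) (nat_lit 16) = 0 := by decide +kernel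
theorem d3f_292 : blk d3f (nat_lit 29155) (nat_lit 292) (nat_lit 16) = 0 := by decide +kernel
theorem d3f_308 : blk d3f (nat_lit 29155) (nat_lit 308) (nat_lit 16) = 0 := by decide +kernel
theorem d3f_324 : blk d3f (nat_lit 29155) (nat_lit 324) (nat_lit 16) = 0 := by decide +kernel
theorem d3f_340 : blk d3f (nat_lit 29155) (nat_lit 340) (nat_lit 2) = 0 := by decide +kernel

end Cfsg.Agent.H6.He
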