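import Mathlib.Data.List.Basic

/-! Relators of the four Held amalgams (words are base 16 numbers, first letter = lowest digit). -/

set_option autoImplicit false

namespace Cfsg.Agent.H6.He

def RL_LL : List ℕ := [0x11, 0x22, 0x33, 0x44, 0x55, 0x66, 0x77, 0x88,
  0x5151, 0x6161, 0x7171, 0x8181, 0x3232, 0x5252, 0x6262, 0x7272,
  0x8282, 0x7373, 0x8383, 0x7474, 0x8484, 0x8585, 0x212121, 0x434343,
  0x645463, 0x646464, 0x656565, 0x878787, 0x4143131, 0x6365353, 0x7576765, 0x31313131,
  0x42424242, 0x63634543, 0x75757575, 0x78676875, 0x86868686, 0x313213121, 0x424143241, 0x423432432,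
  0x424342432, 0x868568565, 0x867686765, 0x8768678565, 0x56863638653, 0x535135135131, 0x757357357353, 0x35315313531531]

def RL_LT : List ℕ := [0x11, 0x22, 0x33, 0x44, 0x55, 0x66, 0x77, 0x88,
  0x5151, 0x6161, 0x7171, 0x8181, 0x3232, 0x5252, 0x6262, 0x7272,
  0x8282, 0x7373, 0x8383, 0x8585, 0x212121, 0x747141, 0x848141, 0x741741,
  0x841841, 0x434343, 0x784874, 0x656565, 0x878787, 0x4143131, 0x7347431, 0x3747431,
  0x8348431, 0x6365353, 0x7576765, 0x31241421, 0x31313131, 0x47474141, 0x48484141, 0x53435343,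
  0x54345343, 0x64564643, 0x53535353, 0x68636863, 0x75657565, 0x75757575, 0x78676875, 0x86868686,
  0x313213121, 0x534636543, 0x868568565, 0x868656865, 0x875787575, 0x4842813121, 0x6146546341, 0x4242424242,
  0x7454724542, 0x8768678565, 0x535135135131, 0x757357357353, 0x584854574754, 0x7424832424121, 0x7242483242421]

def RL_TL : List ℕ := [0x11, 0x22, 0x33, 0x44, 0x55, 0x66, 0x77, 0x88,
  0x5151, 0x7171, 0x8181, 0x3232, 0x5252, 0x7272, 0x8282, 0x7373,
  0x8383, 0x7474, 0x8484, 0x8585, 0x212121, 0x612621, 0x767161, 0x761761,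
  0x767262, 0x762762, 0x434343, 0x656565, 0x878787, 0x4143131, 0x6265752, 0x5354543,
  0x7576765, 0x31241421, 0x31313131, 0x43413431, 0x42424242, 0x45424542, 0x67676262, 0x54345343,
  0x64564643, 0x53535353, 0x56535653, 0x75657565, 0x75757575, 0x78676875, 0x313213121, 0x423432432,
  0x653564543, 0x867686765, 0x8636816361, 0x8686868686, 0x535135135131, 0x637637632632, 0x757357357353, 0x8687568685261,
  0x68687568687521]

def RL_TT : List ℕ := [0x11, 0x22, 0x33, 0x44, 0x55, 0x66, 0x77, 0x88,
  0x5151, 0x7171, 0x8181, 0x3232, 0x5252, 0x7272, 0x8282, 0x7373,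
  0x8383, 0x8585, 0x212121, 0x612621, 0x747141, 0x848141, 0x741741, 0x841841,
  0x767161, 0x761761, 0x767262, 0x762762, 0x434343, 0x645463, 0x784874, 0x656565,
  0x878787, 0x4143131, 0x7347431, 0x8348431, 0x3848431, 0x7561651, 0x6165751, 0x7562652,
  0x7576765, 0x31241421, 0x31313131, 0x47474141, 0x67676161, 0x67676262, 0x53435343, 0x54345343,
  0x63634543, 0x53535353, 0x56535653, 0x63636363, 0x65454563, 0x64646464, 0x75657565, 0x75757575,
  0x78676875, 0x313213121, 0x867686765, 0x6475746131, 0x6464764641, 0x4646764641, 0x8636816361, 0x6464746461,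
  0x4242424242, 0x7454724542, 0x6256757652, 0x5454534543, 0x5646534643, 0x8757856765, 0x8686868686, 0x535135135131,
  0x637637632632, 0x757357357353, 0x8687568685261, 0x68687568687521]

end Cfsg.Agent.H6.He
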