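import Cfsg.Agent.H6.HeK0
import Cfsg.Agent.H6.HeK1
import Cfsg.Agent.H6.HeK2
import Cfsg.Agent.H6.HeK3

set_option autoImplicit false
set_option maxRecDepth 100000

namespace Cfsg.Agent.H6.He

open Cfsg.Agent.H5 Cfsg.Agent.H8.TC Cfsg.Agent.H6.TT

theorem d3_all : ∀ i < 29155, d3f i = 0 :=
  blk_end (blk_step (blk_step (blk_step (blk_step (blk_step (blk_step (blk_step (blk_step (blk_step (blk_step (blk_step (blk_step (blk_step (blk_step (blk_step (blk_step (blk_step (blk_step (blk_step (blk_step (blk_step (blk_step (blk_step (blk_step (blk_step (blk_step (blk_step (blk_step (blk_step (blk_step (blk_step (blk_step (blk_init _ _)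
    d3f_0)
    d3f_16)
    d3f_32)
    d3f_48)
    d3f_64)
    d3f_80)
    d3f_96)
    d3f_112)
    d3f_114)
    d3f_130)
    d3f_146)
    d3f_162)
    d3f_178)
    d3f_194)
    d3f_210)
    d3f_226)
    d3f_228)
    d3f_244)
    d3f_260)
    d3f_276)
    d3f_292)
    d3f_308)
    d3f_324)
    d3f_340)
    d3f_342)
    d3f_358)
    d3f_374)
    d3f_390)
    d3f_406)
    d3f_422)
    d3f_438)
    d3f_454) (by decide)

universe u

theorem ub_TT : UB.{u} RL_TT 4030387200 := fun _ _ _ h0 h =>
  ub_chain h0 h (P := 0x486275310) (R1 := d1R) (R2 := d2R) (R3 := d3R) (by decide +kernel) (by decide +kernel)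
    (by decide +kernel) (by decide +kernel) d1W_ok d2W_ok d3W_ok (by decide) (by decide) (by decide)
    d1_all d2_all d3_all

end Cfsg.Agent.H6.He
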