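import Cfsg.Agent.H6.SS

/-!
Involutions of symplectic groups in characteristic two.
-/

set_option autoImplicit false

namespace Cfsg.Agent.H6

open Matrix Module

attribute [-instance] CStarMatrix.instHMulOfFintypeOfMulOfAddCommMonoid

theorem card_fib {G X : Type*} [Group G] {S K : Subgroup G} (hK : K ≤ S) (Q : G → X → Prop)
    (h1 : ∀ g, g ∈ S ↔ ∃ x, Q g x) (h2 : ∀ g x g' x', Q g x → Q g' x' → (x = x' ↔ g⁻¹ * g' ∈ K)) :
    Nat.card S = Nat.card {x // ∃ g, Q g x} * Nat.card K := by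
  choose f hf using fun x : {x // ∃ g, Q g x} => x.2
  have h3 : ∀ x (k : K), Q (f x * k) x.1 := fun x k => by
    obtain ⟨y, hy⟩ := (h1 _).1 (S.mul_mem ((h1 _).2 ⟨_, hf x⟩) (hK k.2))
    rwa [(h2 _ _ _ _ (hf x) hy).2 (by simp)]
  rw [← Nat.card_prod]
  refine (Nat.card_congr (Equiv.ofBijective (fun p => ⟨f p.1 * p.2, (h1 _).2 ⟨_, h3 _ _⟩⟩)
    ⟨?_, fun ⟨g, hg⟩ => ?_⟩)).symm
  · rintro ⟨x, k⟩ ⟨x', k'⟩ h
    have h : f x * k = f x' * k' := congrArg Subtype.val h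
    obtain rfl := Subtype.ext ((h2 _ _ _ _ (h3 x k) (h3 x' k')).2 (by simp [h]))
    rw [Subtype.ext (mul_left_cancel h)]
  · obtain ⟨x, hx⟩ := (h1 g).1 hg
    exact ⟨(⟨x, g, hx⟩, ⟨_, (h2 _ _ _ _ (hf ⟨x, g, hx⟩) hx).1 rfl⟩), Subtype.ext (by simp)⟩

variable {F : Type*} [Field F] {ι κ : Type*} [Fintype ι] [DecidableEq ι] [Fintype κ]
  [DecidableEq κ]

omit [DecidableEq ι] in
theorem exists_mul_of_range {κ' : Type*} [Fintype κ'] [DecidableEq κ'] {P : Matrix ι κ F}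
    {R : Matrix ι κ' F} (h : ∀ x, ∃ y, P *ᵥ y = R *ᵥ x) : ∃ M : Matrix κ κ' F, R = P * M := by
  choose y hy using h
  refine ⟨of fun i j => y (Pi.single j 1) i, ?_⟩
  ext i j
  have := congrFun (hy (Pi.single j 1)) i
  rw [mulVec_single_one] at this
  exact this.symm

theorem mul_cancel_of_inj {κ' : Type*} [Fintype κ'] [DecidableEq κ'] {P : Matrix ι κ F}
    (h : Function.Injective P.mulVec) {M M' : Matrix κ κ' F} (e : P * M = P * M') : M = M' :=
  ext_mv fun v => h (by rw [mulVec_mulVec, e, mulVec_mulVec])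

theorem gram_cancel {P : Matrix ι κ F} (h : Function.Injective P.mulVec) {M M' : Matrix κ κ F}
    (e : P * M * Pᵀ = P * M' * Pᵀ) : M = M' := by
  have := congrArg transpose (mul_cancel_of_inj h (by simpa only [Matrix.mul_assoc] using e))
  rw [transpose_mul, transpose_mul, transpose_transpose] at this
  exact transpose_injective (mul_cancel_of_inj h this)

theorem exists_gram_mulVec {P : Matrix ι κ F} (h : Function.Injective P.mulVec) {S : Matrix κ κ F}
    (hS : S.det ≠ 0) (x : κ → F) : ∃ v, (P * S * Pᵀ) *ᵥ v = P *ᵥ x := by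
  obtain ⟨L, hL⟩ := exists_left_inv h
  refine ⟨Lᵀ *ᵥ (S⁻¹ *ᵥ x), ?_⟩
  rw [mulVec_mulVec, mulVec_mulVec, Matrix.mul_assoc _ Pᵀ, ← transpose_mul, hL, transpose_one,
    Matrix.mul_one, Matrix.mul_nonsing_inv_cancel_right _ _ hS.isUnit]

theorem IsAlt.exists_fact {T : Matrix ι ι F} (h : IsAlt T) : ∃ (k : ℕ)
    (P : Matrix ι (Fin k ⊕ Fin k) F), Function.Injective P.mulVec ∧ T = P * J (Fin k) F * Pᵀ := by
  obtain ⟨P, h1, h2⟩ := exists_cols (LinearMap.range T.mulVecLin)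
  obtain ⟨M, hM⟩ := exists_mul_of_range (P := P) (R := T) fun x => (h2 _).1 ⟨x, rfl⟩
  obtain ⟨L, hL⟩ := exists_left_inv h1
  have h3 : P * L * T = T := by
    rw [congrArg (P * L * ·) hM, Matrix.mul_assoc, ← Matrix.mul_assoc L, hL, Matrix.one_mul, ← hM]
  have h4 : T = P * (L * T * Lᵀ) * Pᵀ := by
    have := congrArg transpose h3
    rw [transpose_mul, (isAlt_iff.1 h).1, Matrix.neg_mul, neg_inj, transpose_mul] at this
    simp only [← Matrix.mul_assoc, h3] at this ⊢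
    exact this.symm
  have h5 : (L * T * Lᵀ).det ≠ 0 := ((isUnit_iff_isUnit_det _).1 (mulVec_surjective_iff_isUnit.1
    fun x => by
      obtain ⟨v, hv⟩ := (h2 _).2 ⟨x, rfl⟩
      exact ⟨Pᵀ *ᵥ v, h1 (by rw [← hv, mulVec_mulVec, mulVec_mulVec, ← h4, mulVecLin_apply])⟩)).ne_zero
  have h6 : IsAlt (L * T * Lᵀ) := h.congr Lᵀ
  obtain ⟨k, hk⟩ := even_card_of_isAlt h6 h5
  have e : Fin k ⊕ Fin k ≃ Fin (finrank F (LinearMap.range T.mulVecLin)) :=
    Fintype.equivOfCardEq (by simpa using hk.symm)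
  have h7 : ((L * T * Lᵀ).submatrix e e).det ≠ 0 := by simpa using h5
  obtain ⟨R, hR⟩ := alt_cong isAlt_J (B := (L * T * Lᵀ).submatrix e e) (isAlt_iff.2
    ⟨by rw [transpose_submatrix, (isAlt_iff.1 h6).1]; rfl, fun i => (isAlt_iff.1 h6).2 _⟩)
    det_J_ne_zero h7
  refine ⟨k, P.submatrix id e * Rᵀ, fun x y hxy => mulVec_injective_iff_isUnit.2
    ((isUnit_iff_isUnit_det Rᵀ).2 ?_) (e.symm.surjective.injective_comp_right (h1 ?_)), ?_⟩
  · rw [det_transpose]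
    exact (det_ne_zero_of_isom (κ := Unit) (σ := RingHom.id F) h7 hR).isUnit
  · simpa [← mulVec_mulVec, submatrix_mulVec_equiv] using hxy
  · rw [transpose_mul, transpose_transpose, Matrix.mul_assoc _ Rᵀ, Matrix.mul_assoc,
      ← Matrix.mul_assoc _ R, hR, ← Matrix.mul_assoc, transpose_submatrix, submatrix_mul_equiv,
      submatrix_mul_equiv]
    exact h4

variable {H : Type*} [Group H] {ρ : H →* Matrix ι ι F} {A : Matrix ι ι F}

theorem Splike.gram (U : Splike ρ A) (g : H) : (ρ g)ᵀ * A * ρ g = A := gram_of_isom (U.isom g)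

theorem Splike.witt_mat (U : Splike ρ A) {P P' : Matrix ι κ F} (h : Function.Injective P.mulVec)
    (h' : Function.Injective P'.mulVec) (e : Pᵀ * A * P = P'ᵀ * A * P') : ∃ g, ρ g * P = P' := by
  obtain ⟨g, hg⟩ := U.witt (mulVec_injective_iff.1 h) (mulVec_injective_iff.1 h') fun i j =>
    (gram_apply (RingHom.id F) A P P i j).symm.trans ((congrFun (congrFun e i) j).trans
      (gram_apply (RingHom.id F) A P' P' i j))
  exact ⟨g, ext fun i j => congrFun (hg j) i⟩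

/-- normal form of `t - 1` for an involution `t` -/
structure I2 (A N : Matrix ι ι F) {k : ℕ} (P : Matrix ι (Fin k ⊕ Fin k) F) (z : ι → F) : Prop where
  inj : Function.Injective P.mulVec
  eq : N = (P * J (Fin k) F * Pᵀ + vecMulVec z z) * A
  rng : LinearMap.range N.mulVecLin = LinearMap.range P.mulVecLin ⊔ F ∙ z
  iso : LinearMap.range N.mulVecLin ≤ perp A (LinearMap.range N.mulVecLin)

omit [DecidableEq ι] in
theorem bf_mul_self (h : Aᵀ = A) (T : Matrix ι ι F) (v : ι → F) :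
    bf A ((T * A) *ᵥ v) v = bf T (A *ᵥ v) (A *ᵥ v) := by
  rw [bf_eq, bf_eq, dotProduct_comm, mulVec_mulVec]

omit [DecidableEq ι] in
theorem bf_vecMulVec (z v : ι → F) : bf (vecMulVec z z) v v = (z ⬝ᵥ v) ^ 2 := by
  rw [bf_eq, vecMulVec_mulVec, sq]
  simp [dotProduct_comm]

omit [DecidableEq ι] in
theorem bf_add_mat (B v w : _) : bf (A + B) v w = bf A v w + bf B v w := by
  simp [bf_eq, add_mulVec]

variable [CharP F 2]

theorem IsAlt.symm (h : IsAlt A) : Aᵀ = A := by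
  rw [(isAlt_iff.1 h).1]
  ext
  exact CharTwo.neg_eq _

theorem Splike.exists_i2 [Finite F] (U : Splike ρ A) {t : H} (ht : t ^ 2 = 1) :
    ∃ (k : ℕ) (P : Matrix ι (Fin k ⊕ Fin k) F) (z : ι → F), I2 A (ρ t - 1) P z := by
  have h1 : ρ t * ρ t = 1 := by rw [← map_mul, ← sq, ht, map_one]
  have h2 : (ρ t - 1)ᵀ * A = A * (ρ t - 1) := by
    rw [transpose_sub, transpose_one, sub_mul, mul_sub, one_mul, mul_one]
    nth_rw 3 [← U.gram t]
    rw [mul_assoc, mul_assoc, h1, mul_one]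
  have h3 : ((ρ t - 1) * A⁻¹)ᵀ = (ρ t - 1) * A⁻¹ := by
    rw [transpose_mul, transpose_nonsing_inv, U.alt.symm,
      ← mul_nonsing_inv_cancel_right A (A⁻¹ * _) U.det.isUnit, mul_assoc A⁻¹, h2,
      nonsing_inv_mul_cancel_left _ _ U.det.isUnit]
  choose z hz using fun i => H7.isSquare_of_two CharTwo.two_eq_zero (((ρ t - 1) * A⁻¹) i i)
  have h4 : IsAlt ((ρ t - 1) * A⁻¹ - vecMulVec z z) := isAlt_iff.2 ⟨by
    rw [transpose_sub, h3, transpose_vecMulVec]
    ext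
    exact (CharTwo.neg_eq _).symm, fun i => by simp [hz, vecMulVec_apply]⟩
  obtain ⟨k, P, h5, h6⟩ := h4.exists_fact
  have h7 : ρ t - 1 = (P * J (Fin k) F * Pᵀ + vecMulVec z z) * A := by
    rw [← h6, sub_add_cancel, nonsing_inv_mul_cancel_right _ _ U.det.isUnit]
  have h8 : z ∈ LinearMap.range (ρ t - 1).mulVecLin := by
    by_contra hh
    obtain ⟨a, h8, h9⟩ := exists_bf_of_notMem U.det hh
    have := h9 _ ⟨a, rfl⟩
    rw [mulVecLin_apply, h7, bf_mul_self U.alt.symm, bf_add_mat, ← h6, h4, bf_vecMulVec, ← bf_eq,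
      h8] at this
    simp at this
  refine ⟨k, P, z, h5, h7, le_antisymm ?_ (sup_le ?_ ((Submodule.span_singleton_le_iff_mem _ _).2 h8)),
    ?_⟩
  · rintro _ ⟨v, rfl⟩
    rw [mulVecLin_apply, h7, ← mulVec_mulVec, add_mulVec, vecMulVec_mulVec, Matrix.mul_assoc,
      ← mulVec_mulVec]
    exact Submodule.add_mem_sup ⟨_, rfl⟩ (Submodule.smul_mem _ (z ⬝ᵥ (A *ᵥ v))
      (Submodule.mem_span_singleton_self z) |> fun h => by simpa using h)
  · rintro _ ⟨x, rfl⟩
    obtain ⟨v, hv⟩ := exists_gram_mulVec h5 det_J_ne_zero x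
    rw [mulVecLin_apply, ← hv, ← h6, sub_mulVec, ← mulVec_mulVec, vecMulVec_mulVec]
    exact sub_mem ⟨_, rfl⟩ (Submodule.smul_mem _ (z ⬝ᵥ v) h8 |> fun h => by simpa using h)
  · rintro _ ⟨v, rfl⟩
    rw [mem_perp]
    rintro _ ⟨w, rfl⟩
    have : (ρ t - 1) * (ρ t - 1) = 0 := by
      rw [sub_mul, mul_sub, h1, mul_one, one_mul, sub_eq_zero]
      ext
      simp only [Matrix.sub_apply, CharTwo.sub_eq_add, add_comm]
    rw [mulVecLin_apply, mulVecLin_apply, bf_mulVec, h2, mul_assoc, this, mul_zero, bf_eq]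
    simp

namespace I2

variable {N N' : Matrix ι ι F} {k : ℕ} {P P' : Matrix ι (Fin k ⊕ Fin k) F} {z z' : ι → F}
  (U : Splike ρ A) (I : I2 A N P z)

include I

omit [CharP F 2] in
theorem mem (x : Fin k ⊕ Fin k → F) : P *ᵥ x ∈ LinearMap.range N.mulVecLin :=
  I.rng ▸ Submodule.mem_sup_left ⟨x, rfl⟩

omit [CharP F 2] in
theorem mem' : z ∈ LinearMap.range N.mulVecLin :=
  I.rng ▸ Submodule.mem_sup_right (Submodule.mem_span_singleton_self z)

omit [CharP F 2] in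
theorem gram : Pᵀ * A * P = 0 := sf_ext (σ := RingHom.id F) fun u v => by
  rw [← bf_mulVec, mem_perp.1 (I.iso (I.mem v)) _ (I.mem u), bf_eq]
  simp

omit [CharP F 2] in
theorem rank_of_mem (h : z ∈ LinearMap.range P.mulVecLin) : N.rank = 2 * k := by
  rw [Matrix.rank, I.rng, sup_eq_left.2 ((Submodule.span_singleton_le_iff_mem _ _).2 h),
    LinearMap.finrank_range_of_inj I.inj]
  simp [two_mul]

omit [CharP F 2] in
theorem rank_of_notMem (h : z ∉ LinearMap.range P.mulVecLin) : N.rank = 2 * k + 1 := by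
  rw [Matrix.rank, I.rng, finrank_sup_span h, LinearMap.finrank_range_of_inj I.inj]
  simp [two_mul]

omit [CharP F 2] in
theorem mem_fix {g : H} : g ∈ fixW ρ (LinearMap.range N.mulVecLin) ↔ ρ g * P = P ∧ ρ g *ᵥ z = z := by
  rw [I.rng, fixW_sup, Subgroup.mem_inf, mem_fixW, mem_fixW]
  refine and_congr ⟨fun h => ext_mv fun v => ?_, ?_⟩ (by simp)
  · exact (mulVec_mulVec ..).symm.trans (h _ ⟨v, rfl⟩)
  · rintro h _ ⟨v, rfl⟩
    rw [mulVecLin_apply, mulVec_mulVec, h]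

include U

omit [CharP F 2] in
theorem rank_le : 2 * N.rank ≤ Fintype.card ι := by
  have := Submodule.finrank_mono I.iso
  rw [finrank_perp U.det] at this
  have := N.rank_le_card_width
  unfold Matrix.rank at *
  omega

theorem bf_self (v : ι → F) : bf A (N *ᵥ v) v = bf A z v ^ 2 := by
  have := isAlt_J.congr (F := F) Pᵀ
  rw [transpose_transpose] at this
  rw [I.eq, bf_mul_self U.alt.symm, bf_add_mat, this, bf_vecMulVec, zero_add, bf_eq]

theorem alt_iff : (∀ v, bf A (N *ᵥ v) v = 0) ↔ z = 0 := by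
  simp only [I.bf_self U, pow_eq_zero_iff two_ne_zero]
  exact ⟨sf_nondeg_left (σ := RingEquiv.refl F) U.det, fun h v => by rw [h, sf_zero_left]⟩

omit [CharP F 2] in
theorem conj (I' : I2 A N' P' z') {g : H} {M : symplecticGroup (Fin k) F} (h1 : ρ g * P = P' * M.1)
    (h2 : ρ g *ᵥ z = z') : ρ g * N = N' * ρ g := by
  have h3 : P' * J (Fin k) F * P'ᵀ = ρ g * (P * J (Fin k) F * Pᵀ) * (ρ g)ᵀ := by
    rw [← Matrix.mul_assoc, ← Matrix.mul_assoc, Matrix.mul_assoc _ Pᵀ, ← transpose_mul, h1,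
      transpose_mul]
    nth_rw 1 [← SymplecticGroup.mem_iff.1 M.2]
    simp only [Matrix.mul_assoc]
  rw [I.eq, I'.eq, h3, ← h2, ← vecMul_transpose, ← vecMulVec_mul, vecMul_transpose, ← mul_vecMulVec,
    ← add_mul, ← mul_add, mul_assoc _ A, mul_assoc _ (ρ g)ᵀ, ← mul_assoc (ρ g)ᵀ, U.gram, mul_assoc]

theorem comm_iff {g : H} : ρ g * N = N * ρ g ↔
    ∃ M : symplecticGroup (Fin k) F, ρ g * P = P * M.1 ∧ ρ g *ᵥ z = z := by
  refine ⟨fun h => ?_, fun ⟨M, h1, h2⟩ => I.conj U I h1 h2⟩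
  have h1 : ρ g *ᵥ z = z := sub_eq_zero.1 (sf_nondeg_left (σ := RingEquiv.refl F) U.det fun v => by
    obtain ⟨v, rfl⟩ : ∃ w, v = ρ g *ᵥ w := ⟨ρ g⁻¹ *ᵥ v, by simp [← map_mul]⟩
    have := I.bf_self U (ρ g *ᵥ v)
    rw [mulVec_mulVec, ← h, ← mulVec_mulVec, U.isom, I.bf_self U, ← sub_eq_zero, CharTwo.sub_eq_add,
      ← CharTwo.add_sq, pow_eq_zero_iff two_ne_zero] at this
    rw [bf_refl, sf_sub_left, U.isom, CharTwo.sub_eq_add, this])
  have h2 : ρ g * P * J (Fin k) F * (ρ g * P)ᵀ = P * J (Fin k) F * Pᵀ := by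
    have h2 := congrArg (· * (ρ g⁻¹ * A⁻¹)) h
    have h3 : A * (ρ g⁻¹ * A⁻¹) = (ρ g)ᵀ := by
      nth_rw 1 [← U.gram g]
      rw [mul_assoc, ← mul_assoc (ρ g), ← map_mul, mul_inv_cancel, map_one, one_mul,
        mul_nonsing_inv_cancel_right _ _ U.det.isUnit]
    simp only [I.eq, mul_assoc, h3] at h2
    rw [← mul_assoc (ρ g) (ρ g⁻¹), ← map_mul, mul_inv_cancel, map_one, one_mul,
      mul_nonsing_inv _ U.det.isUnit, mul_one, add_mul, mul_add, vecMulVec_mul, mul_vecMulVec,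
      vecMul_transpose, h1, add_left_inj] at h2
    rw [← h2, transpose_mul]
    simp only [Matrix.mul_assoc]
  obtain ⟨M, hM⟩ := exists_mul_of_range (P := P) (R := ρ g * P) fun x => by
    obtain ⟨v, hv⟩ := exists_gram_mulVec (P := ρ g * P) (fun x y h => I.inj
      (Splike.mulVec_inj g (by simpa using h))) det_J_ne_zero x
    exact ⟨_, by rw [← hv, h2, Matrix.mul_assoc, ← mulVec_mulVec]⟩
  refine ⟨⟨M, SymplecticGroup.mem_iff.2 (gram_cancel I.inj ?_)⟩, hM, h1⟩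
  rw [← h2, hM, transpose_mul]
  simp only [Matrix.mul_assoc]

omit [CharP F 2] in
theorem exists_of_mem (I' : I2 A N' P' z') (M : symplecticGroup (Fin k) F) :
    ∃ g, ρ g * P = P' * M.1 :=
  U.witt_mat I.inj (fun x y h => Splike.mulVec_inj (ρ := jRho (spJ F k)) M
    (I'.inj (by simpa using h))) (by
      rw [I.gram, transpose_mul, Matrix.mul_assoc, Matrix.mul_assoc, ← Matrix.mul_assoc A,
        ← Matrix.mul_assoc P'ᵀ, ← Matrix.mul_assoc P'ᵀ, I'.gram]
      simp)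

omit [CharP F 2] in
theorem exists_of_notMem (I' : I2 A N' P' z') (h : z ∉ LinearMap.range P.mulVecLin)
    (h' : z' ∉ LinearMap.range P'.mulVecLin) (M : symplecticGroup (Fin k) F) :
    ∃ g, ρ g * P = P' * M.1 ∧ ρ g *ᵥ z = z' := by
  obtain ⟨g, hg⟩ := I.exists_of_mem U I' M
  have h1 : ∀ x, ∃ y, P' *ᵥ x = ρ g *ᵥ (P *ᵥ y) := fun x => ⟨(M⁻¹).1 *ᵥ x, by
    rw [mulVec_mulVec, mulVec_mulVec, hg, Matrix.mul_assoc, ← Submonoid.coe_mul, mul_inv_cancel,
      Submonoid.coe_one, Matrix.mul_one]⟩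
  obtain ⟨g', h2, h3⟩ := U.witt_step (W := LinearMap.range P'.mulVecLin) (x := ρ g *ᵥ z)
    (fun ⟨x, hx⟩ => by
      obtain ⟨y, hy⟩ := h1 x
      exact h ⟨y, Splike.mulVec_inj g (hy.symm.trans hx)⟩) h' (by
    rintro _ ⟨x, rfl⟩
    obtain ⟨y, hy⟩ := h1 x
    rw [mulVecLin_apply, mem_perp.1 (I'.iso I'.mem') _ (I'.mem x), hy, U.isom,
      mem_perp.1 (I.iso I.mem') _ (I.mem y)])
  refine ⟨g' * g, ext_mv fun v => ?_, by rw [map_mul, ← mulVec_mulVec, h3]⟩
  rw [map_mul, Matrix.mul_assoc, hg, ← mulVec_mulVec, ← mulVec_mulVec]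
  exact h2 _ ⟨_, rfl⟩

end I2

variable [Finite F] (U : Splike ρ A) {t t' : H}

include U

theorem I2.card_cent {k : ℕ} {P : Matrix ι (Fin k ⊕ Fin k) F} {z : ι → F} (I : I2 A (ρ t - 1) P z)
    {m s : ℕ} (hm : 2 * m = Fintype.card ι) (hs : (ρ t - 1).rank = s) :
    Nat.card (Subgroup.centralizer {t}) =
      Nat.card {M : symplecticGroup (Fin k) F // ∃ g, ρ g * P = P * M.1 ∧ ρ g *ᵥ z = z} *
        (Nat.card F ^ (2 * s * (m - s) + (s + 1).choose 2) * spO (Nat.card F) (m - s)) := by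
  have h1 := fun g => (show g ∈ Subgroup.centralizer {t} ↔ ρ g * (ρ t - 1) = (ρ t - 1) * ρ g by
    rw [comm_sub_one, ← map_mul, ← map_mul, U.inj.eq_iff,
      Subgroup.mem_centralizer_singleton_iff]).trans (I.comm_iff U)
  have := I.rank_le U
  rw [← U.card_fixW (m - s) _ I.iso hs (by omega)]
  refine card_fib (fun g hg => (h1 g).2 ⟨1, by simpa using I.mem_fix.1 hg⟩) _ h1
    fun g M g' M' ⟨h2, h3⟩ ⟨h4, h5⟩ => ?_
  have h6 : ∀ {κ : Type _} (X : Matrix ι κ F), ρ g * (ρ g⁻¹ * X) = X := fun X => by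
    rw [← Matrix.mul_assoc, ← map_mul, mul_inv_cancel, map_one, Matrix.one_mul]
  rw [I.mem_fix, map_mul, Matrix.mul_assoc, h4]
  refine ⟨fun h => ⟨by rw [← h, ← h2, ← Matrix.mul_assoc, ← map_mul]; simp, by
    rw [← mulVec_mulVec, h5]; nth_rw 1 [← h3]; rw [mulVec_mulVec, ← map_mul]; simp⟩, fun h =>
    Subtype.ext (mul_cancel_of_inj I.inj ?_)⟩
  rw [← h2, ← h6 (P * M'.1), h.1]

theorem Splike.inv_conj (ht : t ^ 2 = 1) (ht' : t' ^ 2 = 1) (h1 : (ρ t - 1).rank = (ρ t' - 1).rank)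
    (h2 : (∀ v, bf A ((ρ t - 1) *ᵥ v) v = 0) ↔ ∀ v, bf A ((ρ t' - 1) *ᵥ v) v = 0) : IsConj t t' := by
  obtain ⟨k, P, z, I⟩ := U.exists_i2 ht
  obtain ⟨k', P', z', I'⟩ := U.exists_i2 ht'
  have key : ∀ g, ρ g * (ρ t - 1) = (ρ t' - 1) * ρ g → IsConj t t' := fun g hg =>
    isConj_iff.2 ⟨g, mul_inv_eq_iff_eq_mul.2 (U.inj (by simpa [mul_sub, sub_mul] using hg))⟩
  rw [I.alt_iff U, I'.alt_iff U] at h2
  by_cases h : z ∈ LinearMap.range P.mulVecLin <;> by_cases h' : z' ∈ LinearMap.range P'.mulVecLin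
  · rw [I.rank_of_mem h, I'.rank_of_mem h'] at h1
    obtain rfl : k = k' := by omega
    obtain ⟨y, rfl⟩ := h
    obtain ⟨y', rfl⟩ := h'
    obtain ⟨M, hM⟩ : ∃ M : symplecticGroup (Fin k) F, M.1 *ᵥ y = y' := by
      by_cases h0 : y = 0
      · exact ⟨1, I'.inj (by simpa [h0] using (h2.1 (by simp [h0])).symm)⟩
      obtain ⟨M, -, hM⟩ := spLike.witt_step (W := ⊥) h0 (y := y') (fun h => h0 (I.inj (by
        simpa using h2.2 (by rw [show y' = 0 from h, map_zero])))) (by simp [sf_zero_left])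
      exact ⟨M, hM⟩
    obtain ⟨g, hg⟩ := I.exists_of_mem U I' M
    exact key g (I.conj U I' hg (by simp only [mulVecLin_apply, mulVec_mulVec, hg, ← hM]))
  · rw [I.rank_of_mem h, I'.rank_of_notMem h'] at h1
    omega
  · rw [I.rank_of_notMem h, I'.rank_of_mem h'] at h1
    omega
  · rw [I.rank_of_notMem h, I'.rank_of_notMem h'] at h1
    obtain rfl : k = k' := by omega
    obtain ⟨g, h3, h4⟩ := I.exists_of_notMem U I' h h' 1
    exact key g (I.conj U I' h3 h4)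

omit U [CharP F 2] in
theorem card_sp (k : ℕ) : Nat.card (symplecticGroup (Fin k) F) = spO (Nat.card F) k :=
  spLike.card_eq (by simp [two_mul])

variable (ht : t ^ 2 = 1) {m s : ℕ} (hm : 2 * m = Fintype.card ι) (hs : (ρ t - 1).rank = s)

include ht hm hs

theorem Splike.inv_le : s ≤ m := by
  obtain ⟨k, P, z, I⟩ := U.exists_i2 ht
  have := I.rank_le U
  omega

omit hm in
theorem Splike.inv_even (h : ∀ v, bf A ((ρ t - 1) *ᵥ v) v = 0) : Even s := by
  obtain ⟨k, P, z, I⟩ := U.exists_i2 ht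
  rw [← hs, I.rank_of_mem ((I.alt_iff U).1 h ▸ zero_mem _)]
  simp

theorem Splike.card_cent_a (h : ∀ v, bf A ((ρ t - 1) *ᵥ v) v = 0) :
    Nat.card (Subgroup.centralizer {t}) = spO (Nat.card F) (s / 2) *
      (Nat.card F ^ (2 * s * (m - s) + (s + 1).choose 2) * spO (Nat.card F) (m - s)) := by
  obtain ⟨k, P, z, I⟩ := U.exists_i2 ht
  obtain rfl := (I.alt_iff U).1 h
  rw [I.card_cent U hm hs, ← hs, I.rank_of_mem (zero_mem _), Nat.mul_div_cancel_left _ two_pos,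
    ← card_sp k]
  exact congrArg (· * _) (Nat.card_congr (Equiv.subtypeUnivEquiv fun M =>
    (I.exists_of_mem U I M).imp fun _ h => ⟨h, mulVec_zero _⟩))

theorem Splike.card_cent_b (h : Odd s) :
    Nat.card (Subgroup.centralizer {t}) = spO (Nat.card F) ((s - 1) / 2) *
      (Nat.card F ^ (2 * s * (m - s) + (s + 1).choose 2) * spO (Nat.card F) (m - s)) := by
  obtain ⟨k, P, z, I⟩ := U.exists_i2 ht
  have h1 : z ∉ LinearMap.range P.mulVecLin := fun h1 => by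
    rw [← hs, I.rank_of_mem h1, Nat.odd_iff] at h
    omega
  rw [I.card_cent U hm hs, ← hs, I.rank_of_notMem h1, Nat.add_sub_cancel,
    Nat.mul_div_cancel_left _ two_pos, ← card_sp k]
  exact congrArg (· * _) (Nat.card_congr (Equiv.subtypeUnivEquiv (I.exists_of_notMem U I h1 h1)))

theorem Splike.card_cent_c (h : Even s) (h' : ¬ ∀ v, bf A ((ρ t - 1) *ᵥ v) v = 0) : 2 ≤ s ∧
    Nat.card (Subgroup.centralizer {t}) = Nat.card F ^ (s - 1) * spO (Nat.card F) ((s - 2) / 2) *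
      (Nat.card F ^ (2 * s * (m - s) + (s + 1).choose 2) * spO (Nat.card F) (m - s)) := by
  obtain ⟨k, P, z, I⟩ := U.exists_i2 ht
  have h1 : z ∈ LinearMap.range P.mulVecLin := by
    by_contra h1
    rw [← hs, I.rank_of_notMem h1] at h
    simp at h
  rw [I.card_cent U hm hs, ← hs, I.rank_of_mem h1]
  obtain ⟨y, rfl⟩ := h1
  have h2 : y ≠ 0 := fun h2 => h' ((I.alt_iff U).2 (by simp [h2]))
  obtain ⟨j, rfl⟩ := Nat.exists_eq_succ_of_ne_zero (show k ≠ 0 by
    rintro rfl; exact h2 (Subsingleton.elim _ _))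
  have := spLike.card_fixW j (F ∙ y) ((Submodule.span_singleton_le_iff_mem _ _).2 (mem_perp.2
    fun w hw => by
      obtain ⟨c, rfl⟩ := Submodule.mem_span_singleton.1 hw
      rw [sf_smul_left, isAlt_J, mul_zero])) (finrank_span_singleton h2) (by simp; omega)
  rw [fixW_span] at this
  refine ⟨by omega, congrArg (· * _) ((Nat.card_congr (Equiv.subtypeEquivRight fun M => ?_)).trans
    (this.trans ?_))⟩
  · rw [mem_fixW]
    simp only [Set.mem_singleton_iff, forall_eq, mulVecLin_apply]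
    exact ⟨fun ⟨g, h3, h4⟩ => I.inj (by rwa [mulVec_mulVec, h3, ← mulVec_mulVec] at h4), fun h3 =>
      (I.exists_of_mem U I M).imp fun g hg => ⟨hg, by
        rw [mulVec_mulVec, hg, ← mulVec_mulVec]; exact congrArg _ h3⟩⟩
  · congr 2 <;> (simp; omega)

omit ht hm hs [Finite F] in
theorem Splike.exists_inv {P : Matrix ι κ F} (h : Function.Injective P.mulVec)
    (h0 : Pᵀ * A * P = 0) {S : Matrix κ κ F} (h1 : Sᵀ = S) (h2 : S.det ≠ 0) :
    ∃ t, t ^ 2 = 1 ∧ (ρ t - 1).rank = Fintype.card κ ∧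
      ((∀ v, bf A ((ρ t - 1) *ᵥ v) v = 0) ↔ IsAlt S) := by
  have h3 : ∀ X : Matrix ι ι F, X + X = 0 := fun X => ext fun _ _ => CharTwo.add_self_eq_zero _
  have h4 : ∀ X : Matrix κ ι F, Pᵀ * (A * (P * X)) = 0 := fun X => by
    simp only [← Matrix.mul_assoc, h0, Matrix.zero_mul]
  obtain ⟨t, ht⟩ := U.surj (1 + P * S * Pᵀ * A) fun u v => by
    simp only [bf_mulVec, transpose_add, transpose_one, transpose_mul, transpose_transpose, h1,
      U.alt.symm, add_mul, mul_add, Matrix.mul_assoc, h4, one_mul, mul_one, Matrix.mul_zero,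
      add_zero, add_assoc, h3]
  obtain ⟨L, hL⟩ := exists_left_inv h
  refine ⟨t, U.inj ?_, ?_, ?_⟩
  · simp only [sq, map_mul, ht, map_one, add_mul, mul_add, Matrix.mul_assoc, h4, one_mul, mul_one,
      Matrix.mul_zero, add_zero, add_assoc, h3]
  · rw [ht, add_sub_cancel_left, rank_mul_eq_left_of_isUnit_det _ _ U.det.isUnit, Matrix.rank,
      ← finrank_fintype_fun_eq_card F, ← LinearMap.finrank_range_of_inj (f := P.mulVecLin) h]
    refine congrArg (fun W : Submodule F (ι → F) => finrank F W) (le_antisymm ?_ ?_) <;>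
      rintro _ ⟨v, rfl⟩
    · exact ⟨_, by rw [mulVecLin_apply, mulVecLin_apply, Matrix.mul_assoc, ← mulVec_mulVec]⟩
    · exact exists_gram_mulVec h h2 v
  · simp only [ht, add_sub_cancel_left, bf_mul_self U.alt.symm]
    refine ⟨fun h v => ?_, fun h v => (h.congr Pᵀ) _⟩
    have := h (A⁻¹ *ᵥ (Lᵀ *ᵥ v))
    rwa [mulVec_mulVec, mul_nonsing_inv _ U.det.isUnit, one_mulVec, bf_mulVec, transpose_transpose,
      Matrix.mul_assoc, Matrix.mul_assoc, ← transpose_mul, hL, ← Matrix.mul_assoc,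
      ← Matrix.mul_assoc, hL, transpose_one, Matrix.one_mul, Matrix.mul_one] at this

end Cfsg.Agent.H6
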