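import Cfsg.Agent.H6.J3R
import Cfsg.Agent.BS.Red1

/-! The centraliser of `x` when `x` is not conjugate to `t`. -/

set_option autoImplicit false

namespace Cfsg.Agent.H6.J3

open Subgroup Cfsg.Agent.H5 Cfsg.Agent.FT

variable {G : Type*} [Group G] {ι : Q0 →* G} {g h p u w z : G} {α β : Fin 16 → Fin 16} {i j : Fin 16}

theorem Act.pw (h1 : Act ι g α) (n : ℕ) : Act ι (g ^ n) α^[n] := by
  induction n with
  | zero => exact fun v => by rw [pow_zero]; exact Cj.refl _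
  | succ n ih => rw [pow_succ, Function.iterate_succ']; exact ih.comp h1

/-- the normaliser of `V` in `C(x)` -/
def MM (ι : Q0 →* G) : Subgroup G where
  carrier := {g | ∃ c : Fin 3, Act ι g aP^[c]}
  one_mem' := ⟨0, fun _ => Cj.refl _⟩
  mul_mem' := fun ⟨a, ha⟩ ⟨b, hb⟩ => ⟨a + b, (ha.comp hb).eq (by clear * -; revert a b; decide +kernel)⟩
  inv_mem' := fun ⟨a, ha⟩ => ⟨-a, fun v => (ha _).symm.eq
    (congrArg vv ((by decide +kernel : ∀ a : Fin 3, ∀ v, aP^[a] (aP^[(-a : Fin 3)] v) = v) a v)) rfl⟩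

abbrev DD (ι : Q0 →* G) : Subgroup G := centralizer {ι xx}
abbrev VV (ι : Q0 →* G) : Subgroup G := centralizer {ι tt} ⊓ DD ι
abbrev NN (ι : Q0 →* G) : Subgroup G := ⁅DD ι, DD ι⁆
def JJ (ι : Q0 →* G) : Set G := {u | ∃ y ∈ DD ι, y * ι tt * y⁻¹ = u}

theorem cj_iff_mem {a : Q0} : Cj ι g a a ↔ g ∈ centralizer {ι a} := by
  rw [mem_centralizer_singleton_iff, Cj, mul_assoc, inv_mul_eq_iff_eq_mul, eq_comm]
theorem MM_le : MM ι ≤ DD ι := fun _ ⟨c, h⟩ => cj_iff_mem.1 ((h 4).eq vv_val.2.2.2.1 (by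
  rw [(by decide +kernel : ∀ c : Fin 3, aP^[c] 4 = 4), vv_val.2.2.2.1]))
theorem vv_MM (j : Fin 16) : ι (vv j) ∈ MM ι := ⟨0, act_v j⟩
theorem Base.mem_VV (B : Base ι) : g ∈ VV ι ↔ ∃ j, ι (vv j) = g :=
  ⟨fun h => B.in_v (cj_iff_mem.2 h.1) (cj_iff_mem.2 h.2), by
    rintro ⟨j, rfl⟩
    exact ⟨cj_iff_mem.1 (cj_t _), MM_le (vv_MM j)⟩⟩
theorem vv_sq (j : Fin 16) : ι (vv j) * ι (vv j) = 1 := by
  rw [← map_mul, (by decide +kernel : ∀ j, vv j * vv j = 1), map_one]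
theorem Base.vv_ne (B : Base ι) (hj : j ≠ 0) : ι (vv j) ≠ 1 := fun e =>
  hj (vv_inj _ _ (B.inj (by rw [e, vv_val.1, map_one])))

structure J2 (ι : Q0 →* G) (p : G) : Prop extends JP ι p where
  nx : ∀ g, ¬ Cj ι g xx tt

theorem q_vx : ∀ j : Fin 16, j.1 < 4 ∨ (jQ (vv j))⁻¹ * vv j * jQ (vv j) = xx := by decide +kernel
theorem p_tr : ∀ j : Fin 16, j.1 < 4 → j ≠ 0 → (∃ c : Fin 3, aP^[c] j = 1) ∧ ∃ c : Fin 3, aP^[c] 1 = j := by
  decide +kernel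
theorem J2.pM (J : J2 ι p) : p ∈ MM ι := ⟨1, J.act⟩
theorem J2.lt (J : J2 ι p) (h : Cj ι g (vv j) tt) : j.1 < 4 ∧ j ≠ 0 :=
  ⟨(q_vx j).resolve_right fun e => J.nx _ ((Cj.of e).symm.comp h),
    fun e => J.ne_one h.symm q_tt.2.1 (by rw [e, vv_val.1])⟩
theorem J2.tr (J : J2 ι p) (h1 : j.1 < 4) (h2 : j ≠ 0) : ∃ k ∈ MM ι, Cj ι k (vv j) tt := by
  obtain ⟨c, hc⟩ := (p_tr j h1 h2).1
  exact ⟨_, pow_mem J.pM c, (J.act.pw c j).eq rfl (by rw [hc, vv_val.2.1])⟩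
theorem J2.mem_MM (J : J2 ι p) (hg : g ∈ DD ι) (h1 : j.1 < 4) (h2 : j ≠ 0) (h : Cj ι g (vv j) (vv i)) :
    g ∈ MM ι := by
  obtain ⟨a, ha, e⟩ := J.tr h1 h2
  have e1 := h.symm.comp e
  obtain ⟨b, hb, e'⟩ := J.tr (J.lt e1).1 (J.lt e1).2
  obtain ⟨l, hl⟩ := J.mem_VV.1 ⟨cj_iff_mem.1 ((e.symm.comp h).comp e'),
    mul_mem (mul_mem ((DD ι).inv_mem (MM_le ha)) hg) (MM_le hb)⟩
  have := vv_MM (ι := ι) l
  rwa [hl, mul_mem_cancel_right hb, mul_mem_cancel_left (inv_mem ha)] at this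
theorem q_cx16 : cntQ false (fun m => m * xx = xx * m) = 16 := by decide +kernel
theorem Base.card_VV (B : Base ι) : Nat.card (VV ι) = 16 := by
  have : VV ι = (centralizer {xx}).map ι := by
    ext z
    rw [B.mem_VV, mem_map]
    refine ⟨fun ⟨j, e⟩ => ⟨_, mem_centralizer_singleton_iff.2 ?_, e⟩, fun ⟨m, a, e⟩ => ?_⟩
    · rw [← vv_val.2.2.2.1]; exact q_vv _ _
    · obtain ⟨j, rfl⟩ := q_cx m (mem_centralizer_singleton_iff.1 a)
      exact ⟨j, e⟩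
  rw [this, card_map_of_injective B.inj, ← q_cx16, ← card_eq_cnt]
  exact Nat.card_congr (Equiv.subtypeEquivRight fun _ => mem_centralizer_singleton_iff)
theorem Base.ncard_u (B : Base ι) : {u | ∃ j : Fin 16, (j.1 < 4 ∧ j ≠ 0) ∧ ι (vv j) = u}.ncard = 3 := by
  have := Set.ncard_image_of_injective (f := fun j => ι (vv j))
    ((Finset.univ.filter fun j : Fin 16 => j.1 < 4 ∧ j ≠ 0 : Finset (Fin 16)) : Set (Fin 16))
    fun a b e => vv_inj _ _ (B.inj e)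
  rw [Set.ncard_coe_finset] at this
  refine Eq.trans ?_ this
  congr 1; ext; simp

variable [Finite G]

theorem J2.relIndex (J : J2 ι p) : (centralizer {ι tt}).relIndex (MM ι) = 3 := by
  rw [← BS.ncard_conj, ← J.ncard_u]
  congr 1
  ext u
  constructor
  · rintro ⟨y, hy, rfl⟩
    obtain ⟨c, hc⟩ := inv_mem hy
    have := (hc 1).eq vv_val.2.1 rfl
    exact ⟨_, J.lt this.symm, by rw [← this, inv_inv]⟩
  · rintro ⟨j, hj, rfl⟩
    obtain ⟨k, hk, e⟩ := J.tr hj.1 hj.2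
    exact ⟨k, hk, by rw [← e]; group⟩
omit [Finite G] in
theorem J2.inf (J : J2 ι p) : centralizer {ι tt} ⊓ MM ι = VV ι :=
  le_antisymm (inf_le_inf_left _ MM_le) (le_inf inf_le_left fun g hg => by
    obtain ⟨j, rfl⟩ := J.mem_VV.1 hg
    exact vv_MM j)
theorem J2.card_MM (J : J2 ι p) : Nat.card (MM ι) = 48 := by
  rw [← card_inf_mul_relIndex (centralizer {ι tt}), J.inf, J.relIndex, J.card_VV]
omit [Finite G] in
theorem J2.norm_le (J : J2 ι p) : DD ι ⊓ normalizer (VV ι : Set G) ≤ MM ι := fun g hg => by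
  obtain ⟨i, hi⟩ := J.mem_VV.1 (((Subgroup.inv_mem _ hg.2) (ι (vv 1))).1 (J.mem_VV.2 ⟨1, rfl⟩))
  exact J.mem_MM hg.1 (j := 1) (by decide) (by decide) (by rw [inv_inv] at hi; exact hi.symm)
theorem J2.syl (J : J2 ι p) : Syl 2 (VV ι) (DD ι) :=
  Syl.of_normalizer_le ⟨J.inf ▸ inf_le_right, IsPGroup.of_card (n := 4) J.card_VV, by
    rw [← J.inf, inf_relIndex_right, J.relIndex]; decide⟩ MM_le J.norm_le
theorem J2.lt_of_NN (J : J2 ι p) (h : ι (vv j) ∈ NN ι) : j.1 < 4 := by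
  have := J.syl.commutator_inf_le (K := centralizer {ι ww}) (fun x hx g hg h => by
    obtain ⟨y, hy, e⟩ := J.syl.fusion_elt_of_comm ⟨⟨fun a b => by
      obtain ⟨i, hi⟩ := J.mem_VV.1 a.2
      obtain ⟨j, hj⟩ := J.mem_VV.1 b.2
      exact Subtype.ext (by rw [coe_mul, coe_mul, ← hi, ← hj, ← map_mul, q_vv, map_mul])⟩⟩ x hx g hg h
    obtain ⟨j, rfl⟩ := J.mem_VV.1 hx
    obtain ⟨c, hc⟩ := inv_mem (J.norm_le hy)
    have := hc j
    rw [Cj, inv_inv] at this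
    rw [← e, this, ← map_inv, ← map_mul, ← cj_iff_mem]
    exact cj_comm (by clear * -; revert c j; decide +kernel)) ⟨h, J.mem_VV.2 ⟨j, rfl⟩⟩
  have e := J.cj_iff.1 (cj_iff_mem.2 this)
  clear * - e; revert j; decide +kernel
theorem J2.conj_v (J : J2 ι p) (hz : z ∈ DD ι) (z2 : z * z = 1) :
    ∃ k ∈ DD ι, ∃ j, ι (vv j) = k * z * k⁻¹ := by
  obtain ⟨k, hk, e⟩ := J.syl.exists_cj_le (Q := zpowers z) (by
    by_cases z1 : z = 1
    · rw [z1, zpowers_one_eq_bot]; exact IsPGroup.of_bot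
    · exact IsPGroup.of_card (n := 1) (by rw [Nat.card_zpowers, BS.ord2 z2 z1]; rfl)) (zpowers_le.2 hz)
  exact ⟨k, hk, J.mem_VV.1 (e (H1.conj_mem_cj (mem_zpowers z)))⟩
omit [Finite G] in
theorem NN_conj (hg : g ∈ DD ι) (hz : z ∈ NN ι) : g * z * g⁻¹ ∈ NN ι :=
  (right_le_normalizer_commutator _ _ hg z).1 hz
omit [Finite G] in
theorem JJ_conj (hg : g ∈ DD ι) (hz : z ∈ JJ ι) : g * z * g⁻¹ ∈ JJ ι := by
  obtain ⟨y, hy, rfl⟩ := hz
  exact ⟨g * y, mul_mem hg hy, by group⟩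
omit [Finite G] in
theorem J2.vv_JJ (J : J2 ι p) (h1 : j.1 < 4) (h2 : j ≠ 0) : ι (vv j) ∈ JJ ι := by
  obtain ⟨k, hk, e⟩ := J.tr h1 h2
  exact ⟨k, MM_le hk, by rw [← e]; group⟩
theorem J2.JJ_of (J : J2 ι p) (hz : z ∈ DD ι) (z2 : z * z = 1)
    (h : ∀ k ∈ DD ι, ∀ j, ι (vv j) = k * z * k⁻¹ → j.1 < 4 ∧ j ≠ 0) : z ∈ JJ ι := by
  obtain ⟨k, hk, j, e⟩ := J.conj_v hz z2
  have := JJ_conj (inv_mem hk) (J.vv_JJ (h k hk j e).1 (h k hk j e).2)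
  simpa [e, mul_assoc] using this
omit [Finite G] in
theorem NN_le : NN ι ≤ DD ι := commutator_le_left' le_normalizer
theorem J2.JJ_of_NN (J : J2 ι p) (hz : z ∈ NN ι) (z2 : z * z = 1) (z1 : z ≠ 1) : z ∈ JJ ι :=
  J.JJ_of (NN_le hz) z2 fun k hk j e => ⟨J.lt_of_NN (e ▸ NN_conj hk hz), fun e' => z1 (by
    rw [e', vv_val.1, map_one] at e; simpa using e.symm)⟩
omit [Finite G] in
theorem J2.JJ_le (J : J2 ι p) (hu : u ∈ JJ ι) : u ∈ NN ι ∧ u * u = 1 ∧ u ≠ 1 := by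
  obtain ⟨y, hy, rfl⟩ := hu
  refine ⟨NN_conj hy ?_, ?_, fun e => J.vv_ne (j := 1) (by decide) (by simpa [vv_val] using e)⟩
  · have := commutator_mem_commutator (inv_mem (MM_le J.pM)) (MM_le (vv_MM (ι := ι) 3))
    rwa [commutatorElement_def, inv_inv, J.act 3, ← map_inv, ← map_mul,
      show vv (aP 3) * (vv 3)⁻¹ = tt by decide +kernel] at this
  · rw [← vv_val.2.1, conj_mul, vv_sq]; simp
omit [Finite G] in
theorem J2.cj (J : J2 ι p) (hu : u ∈ JJ ι) : ∃ y ∈ DD ι, y * ι tt * y⁻¹ = u ∧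
    ∀ z ∈ DD ι, z * u = u * z → ∃ j, z = y * ι (vv j) * y⁻¹ := by
  obtain ⟨y, hy, rfl⟩ := hu
  refine ⟨y, hy, rfl, fun z hz e => ?_⟩
  obtain ⟨j, hj⟩ := (J.mem_VV (g := y⁻¹ * z * y)).1 ⟨mem_centralizer_singleton_iff.2 (by
    calc _ = y⁻¹ * (z * (y * ι tt * y⁻¹)) * y := by group
      _ = _ := by rw [e]; group), mul_mem (mul_mem ((DD ι).inv_mem hy) hz) hy⟩
  exact ⟨j, by rw [hj]; group⟩
omit [Finite G] in
theorem J2.sq (J : J2 ι p) (hu : u ∈ JJ ι) (hz : z ∈ DD ι) (e : z * u = u * z) : z * z = 1 := by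
  obtain ⟨y, -, -, h⟩ := J.cj hu
  obtain ⟨j, rfl⟩ := h z hz e
  rw [conj_mul, vv_sq]; simp

end Cfsg.Agent.H6.J3
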