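import Cfsg.Agent.H6.J2A

/-! The order of `C(x)` when `x` is not conjugate to `t`. -/

set_option autoImplicit false

namespace Cfsg.Agent.H6.J3

open Subgroup Cfsg.Agent.H5 Cfsg.Agent.FT

variable {G : Type*} [Group G] {ι : Q0 →* G} {g h p u w z m : G} {i j : Fin 16}

theorem J2.in_VV (J : J2 ι p) (h : Act ι g aP^[(0 : Fin 3)]) : ∃ j, ι (vv j) = g := J.act_id h

theorem J2.JM (J : J2 ι p) : JJ ι ∩ MM ι = {u | ∃ j : Fin 16, (j.1 < 4 ∧ j ≠ 0) ∧ ι (vv j) = u} := by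
  ext u
  refine ⟨fun ⟨hu, c, hc⟩ => ?_, fun ⟨j, hj, e⟩ => e ▸ ⟨J.vv_JJ hj.1 hj.2, vv_MM j⟩⟩
  have c0 : c = 0 := by
    have := J.act_uq ((J.JJ_le hu).2.1 ▸ hc.comp hc) (β := id) (fun _ => Cj.refl _) 1
    clear * - this; revert c; decide +kernel
  obtain ⟨j, rfl⟩ := J.in_VV (c0 ▸ hc)
  obtain ⟨y, -, e⟩ := hu
  exact ⟨j, J.lt (g := y) (by unfold Cj; rw [← e]; group), rfl⟩

variable [Finite G]

theorem J2.ncard_JJ (J : J2 ι p) : (JJ ι).ncard * 16 = Nat.card (DD ι) := by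
  rw [JJ, BS.ncard_conj, ← card_inf_mul_relIndex (centralizer {ι tt}), J.card_VV, mul_comm]

/-- an element of `V ∩ N` conjugated into `V` by `u ∉ M` is trivial -/
theorem J2.triv (J : J2 ι p) (hu : u ∈ JJ ι) (hM : u ∉ MM ι) (hz : z ∈ NN ι)
    (h1 : Act ι z aP^[(0 : Fin 3)]) (h2 : Act ι (u * z * u) aP^[(0 : Fin 3)]) : z = 1 := by
  obtain ⟨j, rfl⟩ := J.in_VV h1
  obtain ⟨i, hi⟩ := J.in_VV h2
  by_contra e
  refine hM (J.mem_MM (i := i) (NN_le (J.JJ_le hu).1) (J.lt_of_NN hz)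
    (fun e' => e (by rw [e', vv_val.1, map_one])) ?_)
  rw [Cj, inv_eq_of_mul_eq_one_right (J.JJ_le hu).2.1, hi]

theorem J2.inv (J : J2 ι p) (hu : u ∈ JJ ι) (h : u * m ∈ JJ ι) : m ∈ NN ι ∧ u * m * u = m⁻¹ :=
  ⟨(mul_mem_cancel_left (J.JJ_le hu).1).1 (J.JJ_le h).1,
    eq_inv_of_mul_eq_one_left (by rw [mul_assoc]; exact (J.JJ_le h).2.1)⟩

theorem J2.two (J : J2 ι p) (hu : u ∈ JJ ι) (hM : u ∉ MM ι) {m m' : G} (h1 : m ∈ MM ι) (h2 : m' ∈ MM ι)
    (h3 : u * m ∈ JJ ι) (h4 : u * m' ∈ JJ ι) (m1 : m ≠ 1) : m' = 1 ∨ m' = m ∨ m' = m⁻¹ := by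
  obtain ⟨a1, a2⟩ := J.inv hu h3
  obtain ⟨b1, b2⟩ := J.inv hu h4
  have u2 := (J.JJ_le hu).2.1
  have inv : ∀ {g} {c : Fin 3}, Act ι g aP^[c] → Act ι g⁻¹ aP^[(-c : Fin 3)] := fun {g c} ha v =>
    (ha _).symm.eq (congrArg vv
      ((by decide +kernel : ∀ a : Fin 3, ∀ v, aP^[a] (aP^[(-a : Fin 3)] v) = v) c v)) rfl
  obtain ⟨c, hc⟩ := h1
  obtain ⟨d, hd⟩ := h2
  have k : ∀ x y : G, u * (x * y) * u = u * x * u * (u * y * u) := fun x y => by
    calc _ = u * x * (u * u) * y * u := by rw [u2]; group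
      _ = _ := by group
  have c0 : c ≠ 0 := by
    rintro rfl
    exact m1 (J.triv hu hM a1 hc (a2 ▸ inv hc))
  rcases (by clear * - c0; revert c d; decide : d = 0 ∨ d = c ∨ d = -c) with rfl | rfl | rfl
  · exact Or.inl (J.triv hu hM b1 hd (b2 ▸ inv hd))
  · refine Or.inr (Or.inl (eq_of_mul_inv_eq_one (J.triv hu hM (mul_mem b1 (inv_mem a1))
      ((hd.comp (inv hc)).eq (by clear * -; revert d; decide +kernel)) ?_)))
    rw [k, b2, show u * m⁻¹ * u = m by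
      rw [← a2, ← mul_assoc, ← mul_assoc, u2, one_mul, mul_assoc, u2, mul_one]]
    exact ((inv hd).comp hc).eq (by clear * -; revert d; decide +kernel)
  · refine Or.inr (Or.inr (eq_inv_of_mul_eq_one_left (J.triv hu hM (mul_mem b1 a1)
      ((hd.comp hc).eq (by clear * -; revert c; decide +kernel)) ?_)))
    rw [k, b2, a2]
    exact ((inv hd).comp (inv hc)).eq (by clear * -; revert c; decide +kernel)

theorem J2.ncard_A (J : J2 ι p) : (JJ ι \ MM ι).ncard + 3 = (JJ ι).ncard := by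
  rw [← J.ncard_u, ← J.JM, add_comm, Set.ncard_inter_add_ncard_sdiff_eq_ncard]

theorem J2.exists_m (J : J2 ι p) (hu : u ∈ JJ ι) (hM : u ∉ MM ι) :
    ∃ m ∈ MM ι, u * m ∈ JJ ι ∧ m ≠ 1 := by
  classical
  by_contra hc
  push Not at hc
  let S := (JJ ι \ MM ι).toFinite.toFinset
  let T := ((DD ι : Set G) \ MM ι).toFinite.toFinset
  have cM : (MM ι : Set G).ncard = 48 := J.card_MM
  have h1 := Finset.sum_card_bipartiteAbove_eq_sum_card_bipartiteBelow (s := S) (t := T)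
    fun a b => a⁻¹ * b ∈ MM ι
  have h2 : ∀ a ∈ S, (T.bipartiteAbove (fun a b => a⁻¹ * b ∈ MM ι) a).card = 48 := fun a ha => by
    simp only [S, Set.Finite.mem_toFinset, Set.mem_sdiff, SetLike.mem_coe] at ha
    rw [← cM, ← Set.ncard_image_of_injective _ (mul_right_injective a), ← Set.ncard_coe_finset]
    congr 1
    ext b
    simp only [T, Finset.mem_coe, Finset.mem_bipartiteAbove, Set.Finite.mem_toFinset, Set.mem_sdiff, SetLike.mem_coe,
      Set.mem_ofPred_eq, Set.mem_image]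
    constructor
    · exact fun h => ⟨_, h.2, by simp⟩
    · rintro ⟨m, hm, rfl⟩
      exact ⟨⟨mul_mem (NN_le (J.JJ_le ha.1).1) (MM_le hm), fun h => ha.2 ((mul_mem_cancel_right hm).1 h)⟩,
        by simpa using hm⟩
  have h3 : ∀ b, ∀ a ∈ S.bipartiteBelow (fun a b => a⁻¹ * b ∈ MM ι) b,
      ∀ a' ∈ S.bipartiteBelow (fun a b => a⁻¹ * b ∈ MM ι) b,
      (a ∈ JJ ι ∧ a ∉ MM ι) ∧ a⁻¹ * a' ∈ MM ι ∧ a * (a⁻¹ * a') ∈ JJ ι := fun b a ha a' ha' => by
    simp only [S, Finset.mem_bipartiteBelow, Set.Finite.mem_toFinset, Set.mem_sdiff,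
      SetLike.mem_coe] at ha ha'
    exact ⟨ha.1, by simpa [mul_assoc] using mul_mem ha.2 (inv_mem ha'.2), by simpa using ha'.1.1⟩
  have h4 : ∀ b ∈ T, (S.bipartiteBelow (fun a b => a⁻¹ * b ∈ MM ι) b).card ≤ 3 := fun b _ => by
    by_contra h
    obtain ⟨a, ha, a', ha', ne⟩ := Finset.one_lt_card.1
      (show 1 < (S.bipartiteBelow (fun a b => a⁻¹ * b ∈ MM ι) b).card by omega)
    refine h (le_trans (Finset.card_le_card (t := {a, a', a * (a⁻¹ * a')⁻¹}) fun c hc => ?_)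
      Finset.card_le_three)
    obtain ⟨x1, x2, x3⟩ := h3 b a ha a' ha'
    obtain ⟨-, y2, y3⟩ := h3 b a ha c hc
    rcases J.two x1.1 x1.2 x2 y2 x3 y3 (fun e => ne (inv_mul_eq_one.1 e)) with e | e | e
    · simp [← inv_mul_eq_one.1 e]
    · simp [mul_left_cancel e]
    · simp [← e]
  have uT : u ∈ T := (Set.Finite.mem_toFinset _).2 ⟨NN_le (J.JJ_le hu).1, hM⟩
  have h5 := Finset.sum_lt_sum h4 ⟨u, uT, lt_of_le_of_lt (Finset.card_le_one.2 fun a ha a' ha' => by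
    have uS : u ∈ S.bipartiteBelow (fun a b => a⁻¹ * b ∈ MM ι) u := by
      exact (Finset.mem_bipartiteBelow _).2 ⟨(Set.Finite.mem_toFinset _).2 ⟨hu, hM⟩, by simp⟩
    rw [← inv_mul_eq_one.1 (hc _ (h3 u u uS a ha).2.1 (h3 u u uS a ha).2.2),
      ← inv_mul_eq_one.1 (hc _ (h3 u u uS a' ha').2.1 (h3 u u uS a' ha').2.2)]) (by omega)⟩
  rw [← h1, Finset.sum_congr rfl h2, Finset.sum_const, Finset.sum_const, smul_eq_mul, smul_eq_mul,
    ← Set.ncard_eq_toFinset_card, ← Set.ncard_eq_toFinset_card] at h5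
  have h6 := Set.ncard_sdiff_add_ncard_of_subset (show (MM ι : Set G) ⊆ DD ι from MM_le)
  have h7 : (DD ι : Set G).ncard = Nat.card (DD ι) := rfl
  have := J.ncard_A
  have := J.ncard_JJ
  omega

theorem p_cj : ∀ j : Fin 16, j.1 < 4 → ∀ c : Fin 3, c ≠ 0 → ∃ i : Fin 16, i.1 < 4 ∧
    vv (aP^[c] i) * vv i = vv j := by decide +kernel

theorem J2.exists_k (J : J2 ι p) (hu : u ∈ JJ ι) (hM : u ∉ MM ι) : ∃ i : Fin 16, i.1 < 4 ∧
    ι (vv i) * u * ι (vv i) * p ∈ JJ ι := by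
  obtain ⟨m, ⟨c, hc⟩, h1, h2⟩ := J.exists_m hu hM
  obtain ⟨a1, a2⟩ := J.inv hu h1
  have u2 := (J.JJ_le hu).2.1
  have u1 := inv_eq_of_mul_eq_one_right u2
  have m3 : Act ι (m ^ 3) aP^[(0 : Fin 3)] := (hc.pw 3).eq (by clear * -; revert c; decide +kernel)
  have inv : ∀ {g}, Act ι g aP^[(0 : Fin 3)] → Act ι g⁻¹ aP^[(0 : Fin 3)] := fun h v => (h v).symm
  have c0 : c ≠ 0 := by
    rintro rfl
    exact h2 (J.triv hu hM a1 hc (a2 ▸ inv hc))
  have h3 := J.triv hu hM (pow_mem a1 3) m3 (by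
    nth_rewrite 2 [← u1]; rw [← conj_pow, u1, a2, inv_pow]; exact inv m3)
  have hp := J.act.pw c
  obtain ⟨j, hj⟩ := J.act_id (g := (p ^ c.1)⁻¹ * m) fun v => ((hp _).symm.comp (hc _)).eq
    (congrArg vv ((by decide +kernel : ∀ a : Fin 3, ∀ v, aP^[a] (aP^[(-a : Fin 3)] v) = v) c v))
    (congrArg vv ((by decide +kernel : ∀ a : Fin 3, ∀ v, aP^[a] (aP^[(-a : Fin 3)] v) = v) c v))
  have p3 : (p ^ c.1) ^ 3 = 1 := by rw [← pow_mul, mul_comm, pow_mul, J.p3, one_pow]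
  have j4 : j.1 < 4 := by
    have e1 := (hp j).comp (hp _)
    have e2 := hp j
    unfold Cj at e1 e2
    have : vv (aP^[c] (aP^[c] j)) * vv (aP^[c] j) * vv j = 1 := J.inj (by
      rw [map_mul, map_mul, ← e1, ← e2, map_one, ← h3, ← one_mul (_ * _ * _), ← p3,
        ← mul_inv_cancel_left (p ^ c.1) m, ← hj]
      simp only [pow_succ, pow_zero, mul_assoc, one_mul, mul_inv_rev, mul_inv_cancel_left])
    clear * - this c0; revert c j; decide +kernel
  obtain ⟨i, i4, hi⟩ := p_cj j j4 c c0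
  refine ⟨i, i4, ?_⟩
  have k2 := vv_sq (ι := ι) i
  have k1 := inv_eq_of_mul_eq_one_right k2
  have h4 : ι (vv i) * u * ι (vv i) * p ^ c.1 ∈ JJ ι := by
    have := JJ_conj (MM_le (vv_MM i)) h1
    rw [← mul_inv_cancel_left (p ^ c.1) m, ← hj, ← hi, map_mul, ← hp i] at this
    convert this using 1
    group
  have h5 := JJ_conj (MM_le (vv_MM i)) hu
  rw [k1] at h5
  generalize ι (vv i) * u * ι (vv i) = w at h4 h5
  rcases (by clear * - c0; revert c; decide : c = 1 ∨ c = 2) with rfl | rfl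
  · simpa using h4
  obtain ⟨b1, b2⟩ := J.inv h5 h4
  have w2 := (J.JJ_le h5).2.1
  have e : p = (p ^ (2 : Fin 3).1) ^ 2 := by
    rw [← pow_mul, show (2 : Fin 3).1 * 2 = 3 + 1 by rfl, pow_succ, J.p3, one_mul]
  refine J.JJ_of_NN (mul_mem (J.JJ_le h5).1 (e ▸ pow_mem b1 2)) ?_ fun e' => ?_
  · rw [← mul_assoc, e]
    nth_rewrite 2 [← inv_eq_of_mul_eq_one_right w2]
    rw [← conj_pow, inv_eq_of_mul_eq_one_right w2, b2, inv_pow, inv_mul_cancel]
  · rw [eq_inv_of_mul_eq_one_left e', ← mul_inv_rev, inv_eq_one] at w2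
    exact absurd (J.act_uq (w2 ▸ J.act.comp J.act) (β := id) (fun _ => Cj.refl _) 1) (by decide)

omit [Finite G] in
theorem J2.not_comm (J : J2 ι p) (hu : u ∈ JJ ι) : p * u ≠ u * p := fun e =>
  absurd (J.act_uq (J.sq hu (MM_le J.pM) e ▸ J.act.comp J.act) (β := id) (fun _ => Cj.refl _) 1)
    (by decide)

theorem J2.ncard_I (J : J2 ι p) (hu : u ∈ JJ ι) (h : u * p ∈ JJ ι) :
    {w | w ∈ JJ ι ∧ w * p ∈ JJ ι}.ncard = Nat.card (centralizer {p} ⊓ NN ι : Subgroup G) ∧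
      Odd (Nat.card (centralizer {p} ⊓ NN ι : Subgroup G)) := by
  have k : ∀ z ∈ centralizer {p} ⊓ NN ι, z * z = 1 → z = 1 := fun z hz z2 => by
    by_contra z1
    exact J.not_comm (J.JJ_of_NN hz.2 z2 z1) (mem_centralizer_singleton_iff.1 hz.1).symm
  refine ⟨le_antisymm ?_ ?_, ?_⟩
  · rw [← Set.ncard_image_of_injective _ (mul_right_injective u)]
    refine Set.ncard_le_ncard (t := ((centralizer {p} ⊓ NN ι : Subgroup G) : Set G)) ?_
    rintro _ ⟨w, ⟨h1, h2⟩, rfl⟩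
    refine ⟨mem_centralizer_singleton_iff.2 ?_, mul_mem (J.JJ_le hu).1 (J.JJ_le h1).1⟩
    have a := (J.inv hu h).2
    have b := (J.inv h1 h2).2
    have w2 := (J.JJ_le h1).2.1
    have a' : u * p⁻¹ = p * u := by
      rw [← a, ← mul_assoc, ← mul_assoc, (J.JJ_le hu).2.1, one_mul]
    calc u * w * p = u * (w * p * w) * w := by rw [mul_assoc u, mul_assoc u, mul_assoc _ w w, w2, mul_one]
      _ = _ := by rw [b, a', mul_assoc]
  · have h1 := card_inf_mul_relIndex (centralizer {u}) (centralizer {p} ⊓ NN ι)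
    rw [show centralizer {u} ⊓ (centralizer {p} ⊓ NN ι) = ⊥ from eq_bot_iff.2 fun z hz =>
      k z hz.2 (J.sq hu (NN_le hz.2.2) (mem_centralizer_singleton_iff.1 hz.1)), card_bot, one_mul,
      ← BS.ncard_conj] at h1
    rw [← h1]
    refine Set.ncard_le_ncard ?_
    rintro _ ⟨y, hy, rfl⟩
    refine ⟨JJ_conj (NN_le hy.2) hu, ?_⟩
    have := JJ_conj (NN_le hy.2) h
    rwa [mul_assoc, mul_assoc, (Commute.inv_left (mem_centralizer_singleton_iff.1 hy.1)).symm.eq,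
      ← mul_assoc, ← mul_assoc] at this
  · rw [← Nat.not_even_iff_odd, H3.even_card_subgroup_iff]
    rintro ⟨z, hz, z2⟩
    exact BS.ne1 z2 (k z hz (BS.sq1 z2))

theorem J2.card_DD (J : J2 ι p) : Nat.card (DD ι) = 48 ∨ Nat.card (DD ι) = 240 := by
  have h1 := J.ncard_A
  have h2 := J.ncard_JJ
  rcases (JJ ι \ MM ι).eq_empty_or_nonempty with e | ⟨u, hu, hM⟩
  · rw [e, Set.ncard_empty] at h1; omega
  have cj : ∀ i, ∀ w ∈ JJ ι, ι (vv i) * w * ι (vv i) ∈ JJ ι := fun i w hw => by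
    have := JJ_conj (MM_le (vv_MM i)) hw
    rwa [inv_eq_of_mul_eq_one_right (vv_sq i)] at this
  have cc : ∀ i w, ι (vv i) * (ι (vv i) * w * ι (vv i)) * ι (vv i) = w := fun i w => by
    rw [← mul_assoc, ← mul_assoc, vv_sq, one_mul, mul_assoc, vv_sq, mul_one]
  have nM : ∀ w ∈ JJ ι, w * p ∈ JJ ι → w ∉ MM ι := fun w h1 h2 h3 => by
    obtain ⟨j, -, rfl⟩ := J.JM.le ⟨h1, h3⟩
    obtain ⟨i, -, e⟩ := J.JM.le ⟨h2, mul_mem h3 J.pM⟩
    exact absurd (J.act_uq (e ▸ (act_v j).comp J.act) (act_v i) 1) (by decide)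
  obtain ⟨i, -, hi⟩ := J.exists_k hu hM
  obtain ⟨h3, h4⟩ := J.ncard_I (cj i u hu) hi
  have h5 : Nat.card ({j : Fin 16 // j.1 < 4} × {w | w ∈ JJ ι ∧ w * p ∈ JJ ι}) =
      Nat.card (JJ ι \ MM ι : Set G) := by
    refine Nat.card_eq_of_bijective (fun a => ⟨ι (vv a.1) * a.2 * ι (vv a.1), cj _ _ a.2.2.1,
      fun h => nM _ a.2.2.1 a.2.2.2 (by
        rwa [SetLike.mem_coe, mul_mem_cancel_right (vv_MM _), mul_mem_cancel_left (vv_MM _)] at h)⟩)
      ⟨?_, fun ⟨w, hw, hw2⟩ => ?_⟩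
    · rintro ⟨⟨a, a4⟩, w, hw, hw2⟩ ⟨⟨b, b4⟩, w', hw', hw2'⟩ e
      have e1 : ι (vv a) * w * ι (vv a) = ι (vv b) * w' * ι (vv b) := congrArg Subtype.val e
      have e2 : w * (ι (vv a) * (ι (vv b) * p * ι (vv b)) * ι (vv a)) ∈ JJ ι := by
        have := cj a _ (cj b _ hw2')
        rw [← cc a w, e1]
        convert this using 1
        simp only [mul_assoc, ← mul_assoc (ι (vv a)) (ι (vv a)), ← mul_assoc (ι (vv b)) (ι (vv b)),
          vv_sq, one_mul]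
      have ac := (((act_v a).comp (((act_v b).comp J.act).comp (act_v b))).comp (act_v a))
      have p1 : p ≠ 1 := fun e => J.not_comm hw (by simp [e])
      have ab : a = b := by
        rcases J.two hw (nM w hw hw2) J.pM ⟨1, ac⟩ hw2 e2 p1 with e | e | e
        · exact absurd (J.act_uq (e ▸ ac) (β := id) (fun _ => Cj.refl _) 1) (by decide)
        · have := J.act (a ^^^ b)
          have e3 : ι (vv (a ^^^ b)) * p * ι (vv (a ^^^ b)) = p := by
            nth_rewrite 2 [(by decide +kernel : ∀ a b : Fin 16, a ^^^ b = b ^^^ a) a b]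
            rw [vv_xor, vv_xor, map_mul, map_mul]
            nth_rewrite 2 [← e]; group
          have e4 : vv (aP (a ^^^ b)) * vv (a ^^^ b) = 1 := J.inj (by
            rw [map_mul, ← this, map_one, mul_assoc, mul_assoc, ← mul_assoc _ p, e3, inv_mul_cancel])
          clear * - e4 a4 b4; revert a b; decide +kernel
        · have := (e ▸ ac).comp J.act
          rw [inv_mul_cancel] at this
          exact absurd (J.act_uq this (β := id) (fun _ => Cj.refl _) 1) (by decide)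
      subst ab
      obtain rfl : w = w' := by simpa using e1
      rfl
    · obtain ⟨i, i4, hi⟩ := J.exists_k hw hw2
      exact ⟨⟨⟨i, i4⟩, _, cj i w hw, hi⟩, Subtype.ext (cc i w)⟩
  rw [Nat.card_prod, Nat.card_coe_set_eq, Nat.card_coe_set_eq, h3, Nat.card_eq_fintype_card,
    show Fintype.card {j : Fin 16 // j.1 < 4} = 4 by decide] at h5
  have h6 := card_dvd_of_le (show centralizer {p} ⊓ NN ι ≤ DD ι from inf_le_right.trans NN_le)
  generalize Nat.card (centralizer {p} ⊓ NN ι : Subgroup G) = c at h4 h5 h6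
  have h7 : c ∣ 48 := by
    rw [show Nat.card (DD ι) = 64 * c + 48 by omega] at h6
    exact (Nat.dvd_add_right (dvd_mul_left c 64)).1 h6
  have h8 : 48 ∣ Nat.card (DD ι) := J.card_MM ▸ card_dvd_of_le MM_le
  have := Nat.le_of_dvd (by omega) h7
  rw [Nat.odd_iff] at h4
  interval_cases c <;> omega

end Cfsg.Agent.H6.J3
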