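import Cfsg.Agent.H6.J3S
import Cfsg.Agent.H6.J3K
import Cfsg.Agent.BS.RedZ

/-! The subgroup `N(V)` and the coset table. -/

set_option autoImplicit false

namespace Cfsg.Agent.H6.J3

open Subgroup Cfsg.Agent.H5 Cfsg.Agent.H8.TC Cfsg.Agent.H6.TT

variable {G : Type*} [Group G] {ι : Q0 →* G} {g h p r : G} {α β : Fin 16 → Fin 16}

noncomputable def jl (ι : Q0 →* G) (p r : G) : ℕ → G
  | 1 => ι xx | 2 => ι ww | 3 => r | 4 => p | 5 => p⁻¹ | 6 => ι ss | _ => 1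

theorem Act.pow (h1 : Act ι g α) (n : ℕ) : Act ι (g ^ n) α^[n] := by
  induction n with
  | zero => exact fun v => by rw [pow_zero]; exact Cj.refl _
  | succ n ih => rw [pow_succ, Function.iterate_succ']; exact ih.comp h1
theorem Act.inv (h1 : Act ι g α) (e : ∀ v, α (β v) = v) : Act ι g⁻¹ β := fun v =>
  (h1 _).symm.eq (by rw [e]) rfl

/-- linear maps commuting with `aA` -/
def l4 (a c : Fin 16) : Fin 16 → Fin 16 := lin a (aA (aA a)) c (aA c)
theorem l4_four : ∀ a c, (∀ v, (l4 a c)^[4] v = v) → (l4 a c)^[2] 1 = 1 ∧ (l4 a c)^[2] 4 = 4 := by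
  decide +kernel
theorem v_trans : ∀ j : Fin 16, j ≠ 0 → (∃ c : Fin 3, aP^[c] j = 1) ∨
    ∃ a b c : Fin 3, aR (aY^[c] (aW^[b] (aY^[a] j))) = 1 := by decide +kernel
theorem q_h0 : ∀ m : Q0, m * ee = ee * m → ∃ k i : Fin 3, ∃ b : Fin 2,
    m * (ws i ^ b.1 * yy ^ k.1)⁻¹ * xx = xx * (m * (ws i ^ b.1 * yy ^ k.1)⁻¹) := by decide +kernel
theorem q_ce : cntQ false (fun m => m * ee = ee * m) = 192 := by decide +kernel
theorem q_b : ∀ m : Q0, m * ee = ee * m ∨ ss * m * ee = ee * (ss * m) ∨ ∃ i : Fin 16,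
    (fQ false)⁻¹ * vv i * m * ee = ee * ((fQ false)⁻¹ * vv i * m) ∨
    ss * ((fQ false)⁻¹ * vv i * m) * ee = ee * (ss * ((fQ false)⁻¹ * vv i * m)) := by decide +kernel

theorem mem_vv {R : Subgroup Q0} (h1 : tt ∈ R) (h2 : ee ∈ R) (h3 : xx ∈ R) (h4 : yy ∈ R) (j : Fin 16) :
    vv j ∈ R := by
  have z : vv 0 ∈ R := vv_val.1 ▸ one_mem _
  have : vv 8 ∈ R := vv_val.2.2.2.2 ▸ mul_mem (mul_mem (inv_mem h4) h3) h4
  rw [← vv_val.2.1] at h1
  rw [← vv_val.2.2.1] at h2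
  rw [← vv_val.2.2.2.1] at h3
  rw [← lin_id j]
  simp only [lin, vv_xor]
  refine mul_mem (mul_mem (mul_mem ?_ ?_) ?_) ?_ <;> split_ifs <;> assumption

theorem mem_h0 {R : Subgroup Q0} (h3 : xx ∈ R) (h4 : yy ∈ R) (h5 : ww ∈ R) {m : Q0}
    (hm : m * ee = ee * m) : m ∈ R := by
  have h1 : tt ∈ R := (by decide +kernel : (ww * xx) ^ 2 = tt) ▸ pow_mem (mul_mem h5 h3) 2
  have h2 : ee ∈ R := (by decide +kernel : (yy⁻¹ * ww * yy * xx) ^ 2 = ee) ▸
    pow_mem (mul_mem (mul_mem (mul_mem (inv_mem h4) h5) h4) h3) 2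
  obtain ⟨k, i, b, h⟩ := q_h0 m hm
  obtain ⟨j, hj⟩ := q_cx _ h
  rw [mul_inv_eq_iff_eq_mul.1 hj]
  exact mul_mem (mem_vv h1 h2 h3 h4 j) (mul_mem (pow_mem (mul_mem (mul_mem (inv_mem (pow_mem h4 _)) h5)
    (pow_mem h4 _)) _) (pow_mem h4 _))

theorem mem_all {R : Subgroup Q0} (h3 : xx ∈ R) (h4 : yy ∈ R) (h5 : ww ∈ R) (h6 : ss ∈ R) {m : Q0}
    (hm : m ∈ R) (h7 : m * ee ≠ ee * m) (h8 : ss * m * ee ≠ ee * (ss * m)) (z : Q0) : z ∈ R := by
  have v : ∀ i, vv i ∈ R := mem_vv (mem_h0 h3 h4 h5 (by decide +kernel))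
    (mem_h0 h3 h4 h5 rfl) h3 h4
  have hf : fQ false ∈ R := by
    obtain ⟨i, a | a⟩ := ((q_b m).resolve_left h7).resolve_left h8
    · have := mem_h0 h3 h4 h5 a
      rwa [mul_mem_cancel_right hm, mul_mem_cancel_right (v i), inv_mem_iff] at this
    · have := mem_h0 h3 h4 h5 a
      rwa [mul_mem_cancel_left h6, mul_mem_cancel_right hm, mul_mem_cancel_right (v i),
        inv_mem_iff] at this
  refine gen_Q (· ∈ R) (one_mem _) (fun m hm c c1 c2 => mul_mem hm ?_) z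
  rcases le_cases6 c1 c2 with rfl | rfl | rfl | rfl | rfl | rfl
  · exact (by decide +kernel : fQ false * vv 2 * (fQ false)⁻¹ = gQ false 1) ▸
      mul_mem (mul_mem hf (v 2)) (inv_mem hf)
  exacts [show tt ∈ R from vv_val.2.1 ▸ v 1, hf, inv_mem hf, h3, inv_mem h3]

variable [Finite G]

/-- elements acting `F₄`-linearly on `V` -/
def NL (ι : Q0 →* G) : Subgroup G where
  carrier := {g | ∃ α, Act ι g α ∧ ∀ v, α (aA v) = aA (α v)}
  one_mem' := ⟨id, fun _ => Cj.refl _, fun _ => rfl⟩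
  mul_mem' := fun ⟨α, a, b⟩ ⟨β, c, d⟩ => ⟨_, a.comp c, fun v => by simp [b, d]⟩
  inv_mem' := fun {g} ⟨α, a, b⟩ => ⟨α^[orderOf g - 1], by
    rw [inv_eq_of_mul_eq_one_left (show g ^ (orderOf g - 1) * g = 1 by
      rw [← pow_succ, Nat.sub_add_cancel (orderOf_pos g), pow_orderOf_eq_one])]
    exact a.pow _, (Function.Commute.iterate_left b _)⟩

omit [Finite G] in
theorem JR.mem (J : JR ι p r) : ι xx ∈ gen (jl ι p r) 5 ∧ ι yy ∈ gen (jl ι p r) 5 ∧
    ι ww ∈ gen (jl ι p r) 5 ∧ r ∈ gen (jl ι p r) 5 ∧ p ∈ gen (jl ι p r) 5 := by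
  have hr : r ∈ gen (jl ι p r) 5 := lt_mem_gen (c := 3) (by omega) (by omega)
  have hp : p ∈ gen (jl ι p r) 5 := lt_mem_gen (c := 4) (by omega) (by omega)
  exact ⟨lt_mem_gen (c := 1) (by omega) (by omega), J.rp ▸ mul_mem (mul_mem hr hp) hr,
    lt_mem_gen (c := 2) (by omega) (by omega), hr, hp⟩

theorem JR.le_NL (J : JR ι p r) : gen (jl ι p r) 5 ≤ NL ι := by
  refine (closure_le _).2 ?_
  rintro _ ⟨c, c1, c2, rfl⟩
  have hp : p ∈ NL ι := ⟨_, J.act, by decide +kernel⟩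
  interval_cases c
  exacts [⟨id, show Act ι (ι xx) id from vv_val.2.2.2.1 ▸ act_v 4, fun _ => rfl⟩, ⟨_, act_w, by decide +kernel⟩,
    ⟨_, J.actr, by decide +kernel⟩, hp, inv_mem hp]

omit [Finite G] in
theorem JR.trans (J : JR ι p r) {j : Fin 16} (hj : j ≠ 0) :
    ∃ k ∈ gen (jl ι p r) 5, Cj ι k (vv j) tt := by
  obtain ⟨-, hy, hw, hr, hp⟩ := J.mem
  rcases v_trans j hj with ⟨c, e⟩ | ⟨a, b, c, e⟩
  · exact ⟨_, pow_mem hp _, (J.act.pow c j).eq rfl (by rw [e, vv_val.2.1])⟩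
  · exact ⟨_, mul_mem (mul_mem (mul_mem (pow_mem hy _) (pow_mem hw _)) (pow_mem hy _)) hr,
      (((((act_y.pow a).comp (act_w.pow b)).comp (act_y.pow c)).comp J.actr) j).eq rfl
        (by simp only [Function.comp_apply, e, vv_val.2.1])⟩

omit [Finite G] in
theorem JR.h0 (J : JR ι p r) {m : Q0} (hm : m * ee = ee * m) : ι m ∈ gen (jl ι p r) 5 :=
  mem_h0 (R := (gen (jl ι p r) 5).comap ι) J.mem.1 J.mem.2.1 J.mem.2.2.1 hm

omit [Finite G] in
theorem Base.ce_of_act (B : Base ι) {m : Q0} (h1 : Act ι (ι m) α) : m * ee = ee * m := by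
  have b := B.cj_iff.1 (h1 4)
  rw [vv_val.2.2.2.1] at b
  exact q_nv m (by rw [b, ← vv_val.2.2.2.1]; exact q_vv _ _)

theorem JR.mem_of_act (J : JR ι p r) (h1 : ∀ v, ∃ j, Cj ι g (vv v) (vv j)) : g ∈ gen (jl ι p r) 5 := by
  choose α h1 using h1
  obtain ⟨k, hk, e⟩ := J.trans (j := α 1) fun e => absurd (J.act_inj h1 (b := 0) (by
    rw [e]; exact vv_inj _ _ (J.uq (vv_val.1 ▸ Cj.one) (h1 0)))) (by decide)
  obtain ⟨β, b, -⟩ := J.le_NL hk
  obtain ⟨m, hm⟩ := J.of_fix (((h1 1).comp e).eq vv_val.2.1 rfl)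
  have := J.h0 (J.ce_of_act (hm ▸ Act.comp h1 b))
  rwa [hm, mul_mem_cancel_right hk] at this

theorem JR.card_K (J : JR ι p r) : Nat.card (gen (jl ι p r) 5) = 2880 := by
  have h1 := BS.ncard_conj (gen (jl ι p r) 5) (ι tt)
  have h2 := FT.card_inf_mul_relIndex (centralizer {ι tt}) (gen (jl ι p r) 5)
  have h3 : {u : G | ∃ y ∈ gen (jl ι p r) 5, y * ι tt * y⁻¹ = u} =
      (fun j => ι (vv j)) '' ((Finset.univ.filter (· ≠ 0) : Finset (Fin 16)) : Set (Fin 16)) := by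
    ext u
    simp only [Set.mem_ofPred_eq, Finset.coe_filter, Finset.mem_univ, true_and, Set.mem_image]
    constructor
    · rintro ⟨y, hy, rfl⟩
      obtain ⟨α, a, -⟩ := J.le_NL (inv_mem hy)
      have := (a 1).eq vv_val.2.1 rfl
      refine ⟨α 1, fun e => J.ne_one this q_tt.2.1 (by rw [e, vv_val.1]), ?_⟩
      rw [← this, inv_inv]
    · rintro ⟨j, hj, rfl⟩
      obtain ⟨k, hk, e⟩ := J.trans hj
      exact ⟨k, hk, by rw [← e]; group⟩
  have h4 : centralizer {ι tt} ⊓ gen (jl ι p r) 5 = (centralizer {ee}).map ι := by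
    ext z
    simp only [mem_inf, mem_map, mem_centralizer_singleton_iff]
    constructor
    · rintro ⟨a, b⟩
      obtain ⟨m, rfl⟩ := J.cent z a
      obtain ⟨α, c, -⟩ := J.le_NL b
      exact ⟨m, J.ce_of_act c, rfl⟩
    · rintro ⟨m, a, rfl⟩
      exact ⟨by rw [← map_mul, ← map_mul, tt, q_t], J.h0 a⟩
  rw [h3, Set.ncard_image_of_injective _ (fun a b e => vv_inj _ _ (J.inj e)),
    Set.ncard_coe_finset] at h1
  rw [h4, card_map_of_injective J.inj, ← h1] at h2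
  have h5 : Nat.card (centralizer ({ee} : Set Q0)) = 192 := by
    rw [← q_ce, ← card_eq_cnt]
    exact Nat.card_congr (Equiv.subtypeEquivRight fun _ => mem_centralizer_singleton_iff)
  rw [← h2, h5]; rfl

theorem JR.norm (J : JR ι p r) (hg : ∀ k ∈ gen (jl ι p r) 5, g * k * g⁻¹ ∈ gen (jl ι p r) 5) :
    g ∈ gen (jl ι p r) 5 := by
  have hn := mem_normalizer_fintype hg
  have hg' : ∀ k ∈ gen (jl ι p r) 5, g⁻¹ * k * g ∈ gen (jl ι p r) 5 := fun k hk =>
    (hn _).2 (by simpa [mul_assoc] using hk)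
  have vK : ∀ j, ι (vv j) ∈ gen (jl ι p r) 5 := fun j =>
    J.h0 (by rw [← vv_val.2.2.1]; exact q_vv _ _)
  obtain ⟨l, l0, j, hl⟩ : ∃ l, l ≠ 0 ∧ ∃ j, Cj ι g (vv l) (vv j) := by
    by_contra hc
    push Not at hc
    obtain ⟨α, a, -⟩ := J.le_NL (hg _ (vK 1))
    have key : ∀ i, α i = i := fun i => by
      obtain ⟨β, b, -⟩ := J.le_NL (inv_mem (hg' _ (vK i)))
      by_contra hi
      refine hc (α i ^^^ i) (fun e => hi ((by decide +kernel : ∀ a b : Fin 16, a ^^^ b = 0 → a = b)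
        _ _ e)) (1 ^^^ β 1) ?_
      have iv : ∀ u, ι (vv u) = (ι (vv u))⁻¹ := fun u => by
        rw [← map_inv, (by decide +kernel : ∀ u, (vv u)⁻¹ = vv u)]
      unfold Cj
      rw [vv_xor, vv_xor, map_mul, map_mul, ← a i, ← b 1]
      nth_rewrite 2 [iv i]
      nth_rewrite 3 [iv 1]
      group
    obtain ⟨l, hl⟩ := J.act_id (a.eq key)
    refine hc l (fun e => ?_) 1 (by unfold Cj; rw [hl]; group)
    rw [e, vv_val.1, map_one, vv_val.2.1] at hl
    exact q_tt.2.1 (J.inj (by rw [map_one]; simpa [tt] using hl.symm))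
  refine J.mem_of_act fun v => ?_
  by_cases hv : v = 0
  · exact ⟨0, by rw [hv, vv_val.1]; exact Cj.one⟩
  obtain ⟨k, hk, e⟩ := J.trans hv
  obtain ⟨k', hk', e'⟩ := J.trans l0
  obtain ⟨α, a, -⟩ := J.le_NL (hg' _ (mul_mem hk' (inv_mem hk)))
  refine ⟨α j, ?_⟩
  have := (e.comp e'.symm).comp (hl.comp (a j))
  rwa [show k * k'⁻¹ * (g * (g⁻¹ * (k' * k⁻¹) * g)) = g by group] at this

omit [Finite G] in
theorem JR.tab (J : JR ι p r) (h9 : (r * ι ss) ^ 9 = 1) :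
    Tab (jl ι p r) (gen (jl ι p r) 5) jiv jT 6 52326 := by
  have r1 : r⁻¹ = r := inv_eq_of_mul_eq_one_right J.r2
  refine tab_of (ns := 5) ⟨rfl, fun c a b => ?_, fun c a b => ?_, rel_of_rot rfl ?_ jW_ok,
    fun c a b => lt_mem_gen a b⟩ jf_all
  · rcases le_cases6 a b with rfl | rfl | rfl | rfl | rfl | rfl <;> decide
  · have k : ∀ m : Q0, m = m⁻¹ → ι m = (ι m)⁻¹ := fun m e => by rw [← map_inv, ← e]
    rcases le_cases6 a b with rfl | rfl | rfl | rfl | rfl | rfl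
    exacts [k xx (by decide +kernel), k ww (by decide +kernel), r1.symm, rfl, (inv_inv _).symm,
      k ss (by decide +kernel)]
  rw [jRL_eq]
  refine rel_of_list rfl (by decide) ?_
  have e1 : ∀ z, r * (p * (r * z)) = ι yy * z := fun z => by rw [← J.rp]; group
  have e2 : ∀ z, r * (p⁻¹ * (r * z)) = ι yy⁻¹ * z := fun z => by
    rw [map_inv, ← J.rp, mul_inv_rev, mul_inv_rev, r1]; group
  have e3 : ∀ z, ι yy⁻¹ * (ι ww * (p * (ι yy * z))) = p * (ι ww * z) := fun z => by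
    have := J.cw.eq
    rw [map_inv, ← mul_assoc p, ← mul_assoc (ι ww), this, J.cy.eq]; group
  have q : ∀ a : Q0, a = 1 → ι a = 1 := fun a e => by rw [e, map_one]
  simp only [jrels, List.forall_mem_cons, List.map_cons, List.map_nil, List.prod_cons, List.prod_nil,
    jl, e1, e2, e3, mul_one, List.not_mem_nil, false_imp_iff, implies_true, and_true, true_and]
  have e4 : r * (p⁻¹ * r) = ι yy⁻¹ := by simpa using e2 1
  have rt : ∀ z, r * (ι tt * (r * z)) = ι xx * z := fun z => by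
    rw [← (J.actr 1).eq vv_val.2.1 vv_val.2.2.2.1, r1]; group
  have rx : r * (ι xx * r) = ι tt := by
    rw [← (J.actr 4).eq vv_val.2.2.2.1 vv_val.2.1, r1]; group
  have mm : ∀ a b z, ι a * (ι b * z) = ι (a * b) * z := fun a b z => by rw [map_mul, mul_assoc]
  have w1 := J.pw.comp ((J.py.mul J.pw).mul J.py.inv)
  refine ⟨?_, ?_, ?_, ?_, ?_, ?_, ?_, ?_, ?_, ?_, ?_, ?_, ?_, ?_, ?_, ?_⟩
  · rw [← J.p3]; simp only [pow_succ, pow_zero, one_mul, mul_assoc]
  · rw [← mul_assoc (ι yy), ← J.cy.eq, mul_assoc p, inv_mul_cancel_left, ← mul_assoc r, J.ry]; simp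
  · rw [← mul_assoc, ← mul_assoc, J.px, ← map_mul]; exact q _ (by decide +kernel)
  · calc _ = p⁻¹ * ι ww * p * ((p * p)⁻¹ * ι ww * (p * p)) * (p ^ 3)⁻¹ * ι ww := by
          simp only [pow_succ, pow_zero, one_mul, mul_assoc, mul_inv_rev, mul_inv_cancel_left]
      _ = 1 := by
        rw [J.pw, w1, J.p3, inv_one, mul_one, ← map_mul, ← map_mul]; exact q _ (by decide +kernel)
  · simp only [← map_mul]; exact q _ (by decide +kernel)
  · simp only [← map_mul]; exact q _ (by decide +kernel)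
  · rw [← J.rw3]; simp only [pow_succ, pow_zero, one_mul, mul_assoc]
  · rw [inv_mul_cancel_left, ← map_mul]; exact q _ (by decide +kernel)
  · rw [mm, mm, mm, show ww * xx * ww * xx = tt by decide +kernel, rt, ← map_mul]
    exact q _ (by decide +kernel)
  · simp only [← map_mul]; exact q _ (by decide +kernel)
  · simp only [e4, ← map_mul]; exact q _ (by decide +kernel)
  · simp only [e4, ← map_mul]; exact q _ (by decide +kernel)
  · rw [← J.sp]; simp only [mul_assoc]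
  · rw [← h9]; simp only [pow_succ, pow_zero, one_mul, mul_assoc]
  · rw [rx, show ∀ z, r * (ι xx * (r * z)) = r * (ι xx * r) * z by simp [mul_assoc], rx]
    simp only [← map_mul]; exact q _ (by decide +kernel)
  · simp only [← map_mul]; exact q _ (by decide +kernel)

theorem j_q : tr jT 6 (pk [2, 1]) 33760 33760 = 0 ∧ nx jT 33760 6 = 34919 := by decide +kernel

theorem JR.main (J : JR ι p r) (h9 : (r * ι ss) ^ 9 = 1) :
    Nat.card (gen (jl ι p r) 6) = 50232960 ∧ ∀ m, ι m ∈ gen (jl ι p r) 6 := by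
  have H := J.tab h9
  have hs : ∀ c, 1 ≤ c → c ≤ 5 → jl ι p r c ∈ gen (jl ι p r) 5 := fun c a b => lt_mem_gen a b
  have hK : gen (jl ι p r) 5 ≤ gen (jl ι p r) 6 :=
    closure_mono fun _ ⟨c, a, b, e⟩ => ⟨c, a, by omega, e⟩
  have nxt : ∀ i < 52326, TT.rep (jl ι p r) jT i * ι ss ∈ gen (jl ι p r) 5 ↔
      TT.rep (jl ι p r) jT (nx jT i 6) ∈ gen (jl ι p r) 5 := fun i hi => by
    have := H.holds i hi 6 (by omega) le_rfl
    refine ⟨fun h => ?_, fun h => ?_⟩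
    · exact inv_mem_iff.1 ((mul_mem_cancel_left h).1 this)
    · exact (mul_mem_cancel_right (inv_mem h)).1 this
  have s0 : TT.rep (jl ι p r) jT 1 ∉ gen (jl ι p r) 5 := fun h => by
    rw [← j_fin, ← nxt 0 (by omega), TT.rep_zero, one_mul] at h
    obtain ⟨α, a, -⟩ := J.le_NL h
    exact absurd (J.ce_of_act a) (by decide +kernel)
  have hR := H.roots hs (by omega) (by omega) s0 jR jR_ok
  obtain ⟨h1, h2⟩ := H.fib_sub hs (by omega) (RT := jRT) (fun a ha => by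
    rw [← jR_fst] at ha
    obtain ⟨b, hb, rfl⟩ := List.mem_map.1 ha
    exact hR b hb) jg_all
  have h3 : ∀ a ∈ jBT, TT.rep (jl ι p r) jT a ∈ gen (jl ι p r) 5 := fun a ha =>
    J.norm (H.norm_of_fix (ns := 5) (by omega) (j_fix a ha).1
      (fun c a1 a2 => (j_fix a ha).2 ⟨c, by omega⟩ a1) fun c a1 a2 => by interval_cases c <;> decide)
  have h4 : fib (jl ι p r) (gen (jl ι p r) 5) jT 52326 1 = {0, 52324, 52325} := by
    ext i
    rw [mem_fib, one_mul, inv_mem_iff]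
    have e : i ∈ ({0, 52324, 52325} : Finset ℕ) ↔ i ∈ jBT := by simp [jBT]
    rw [e]
    exact ⟨fun h => (h2 i h.1 h.2).elim (fun e => e ▸ List.mem_cons_self) id,
      fun h => ⟨(j_fix i h).1, h3 i h⟩⟩
  have h5 := H.card hK h1
  rw [h4, J.card_K, show ({0, 52324, 52325} : Finset ℕ).card = 3 by rfl] at h5
  refine ⟨by omega, ?_⟩
  have h6 := (H.tr le_rfl (by omega) j_q.1).1
  rw [val_pk rfl _ (by decide)] at h6
  simp only [List.map_cons, List.map_nil, List.prod_cons, List.prod_nil, mul_one, jl, ← map_mul] at h6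
  have n1 : TT.rep (jl ι p r) jT 33760 ∉ gen (jl ι p r) 5 := fun h => absurd (h2 _ (by omega) h) (by decide)
  have n2 : TT.rep (jl ι p r) jT 33760 * ι ss ∉ gen (jl ι p r) 5 := fun h => by
    rw [nxt _ (by omega), j_q.2] at h
    exact absurd (h2 _ (by omega) h) (by decide)
  have n3 := h1 33760 (by omega)
  generalize TT.rep (jl ι p r) jT 33760 = g at h6 n1 n2 n3
  obtain ⟨α, a, b⟩ := J.le_NL h6
  have a2 : Act ι (g * ι (ww * xx) * g⁻¹) (l4 (α 1) (α 4)) :=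
    act_lin (a 1) (by rw [← b, ← b]; exact a 2) (a 4) (by rw [← b]; exact a 8)
  obtain ⟨c1, c4⟩ := l4_four _ _ (J.act_uq (a2.pow 4) (by
    rw [conj_pow, ← map_pow, show (ww * xx) ^ 4 = 1 by decide +kernel]
    exact fun v => by simpa using Cj.refl _))
  have a3 := a2.pow 2
  rw [conj_pow, ← map_pow, show (ww * xx) ^ 2 = tt by decide +kernel] at a3
  obtain ⟨j, hj⟩ := J.in_v ((a3 1).eq vv_val.2.1 (by rw [c1, vv_val.2.1]))
    ((a3 4).eq vv_val.2.2.2.1 (by rw [c4, vv_val.2.2.2.1]))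
  obtain ⟨k, hk, e⟩ := J.trans (j := j) fun e => by
    rw [e, vv_val.1, map_one] at hj
    exact q_tt.2.1 (J.inj (by rw [map_one]; simpa [tt] using hj.symm))
  obtain ⟨m, hm⟩ := J.of_fix (g := k⁻¹ * g) (by
    change _ * ι tt * _ = ι tt; nth_rewrite 1 [← e]; rw [hj]; group)
  have hs6 : ι ss ∈ gen (jl ι p r) 6 := lt_mem_gen (c := 6) (by omega) (by omega)
  refine mem_all (R := (gen (jl ι p r) 6).comap ι) (hK J.mem.1) (hK J.mem.2.1) (hK J.mem.2.2.1) hs6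
    (m := m⁻¹) (inv_mem (show ι m ∈ _ from hm ▸ mul_mem (inv_mem (hK hk)) n3)) (fun c => n1 ?_)
    fun c => n2 ?_
  · have := J.h0 c
    rwa [map_inv, inv_mem_iff, hm, mul_mem_cancel_left (inv_mem hk)] at this
  · have := inv_mem (J.h0 c)
    rwa [← map_inv, mul_inv_rev, inv_inv, show ss⁻¹ = ss by decide +kernel, map_mul, hm, mul_assoc,
      mul_mem_cancel_left (inv_mem hk)] at this

theorem JR.card (J : JR ι p r) [IsSimpleGroup G] (h : One ι) : Nat.card G = 50232960 := by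
  obtain ⟨h1, h2⟩ := J.main (J.rs9 h)
  have hr : r ∈ gen (jl ι p r) 6 := lt_mem_gen (c := 3) (by omega) (by omega)
  have hp : p ∈ gen (jl ι p r) 6 := lt_mem_gen (c := 4) (by omega) (by omega)
  generalize gen (jl ι p r) 6 = H at h1 h2 hr hp
  by_cases hH : H = ⊤
  · rwa [hH, card_top] at h1
  exfalso
  have c1 : ∀ u : G, u * u = 1 → u ≠ 1 → u * ι tt = ι tt * u → ∃ k ∈ H, k⁻¹ * u * k = ι tt := by
    intro u u2 u1 hu
    obtain ⟨m, rfl⟩ := J.cent u hu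
    rcases q_inv m (J.inj (by rw [map_mul, u2, map_one])) with a | a | a | ⟨-, a⟩
    · exact absurd (by rw [a, map_one]) u1
    · exact ⟨1, one_mem _, by simp [a, tt]⟩
    · exact ⟨_, mul_mem (h2 _) hp, (Cj.of a).comp J.cyc.2⟩
    · exact ⟨_, mul_mem (h2 _) hr, (Cj.of a).comp ((J.actr 4).eq vv_val.2.2.2.1 vv_val.2.1)⟩
  have t2 : ι tt * ι tt = 1 := by rw [← map_mul, ← map_one ι]; exact ιeq q_tt.1
  have t1 : ι tt ≠ 1 := fun e => q_tt.2.1 (J.inj (by rw [map_one]; exact e))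
  have c2 : ∀ u ∈ H, u * u = 1 → u ≠ 1 → ∃ k ∈ H, k⁻¹ * u * k = ι tt := by
    intro u hu u2 u1
    by_cases hc : IsConj (⟨u, hu⟩ : H) ⟨_, h2 tt⟩
    · obtain ⟨k, hk⟩ := isConj_iff.1 hc
      exact ⟨k⁻¹, inv_mem k.2, by simpa using congrArg Subtype.val hk⟩
    obtain ⟨z, z2, a, b⟩ := H3.exists_commuting_involution (Subtype.ext u2) (Subtype.ext t2) hc
    obtain ⟨k, hk, e⟩ := c1 z (by rw [← coe_mul, ← pow_two, ← z2, pow_orderOf_eq_one, coe_one])
      (fun e => by rw [show z = 1 from Subtype.ext e] at z2; simp at z2) (congrArg Subtype.val b)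
    have a' : (z : G) * u = u * z := congrArg Subtype.val a
    obtain ⟨k', hk', e'⟩ := c1 (k⁻¹ * u * k) (by
      calc _ = k⁻¹ * (u * u) * k := by group
        _ = 1 := by rw [u2]; group) (fun e => u1 (by
      calc u = k * (k⁻¹ * u * k) * k⁻¹ := by group
        _ = 1 := by rw [e]; group)) (by
      rw [← e]
      calc _ = k⁻¹ * (u * z) * k := by group
        _ = _ := by rw [← a']; group)
    exact ⟨k * k', mul_mem hk hk', by rw [← e']; group⟩
  have o2 : ∀ {u : G}, orderOf u = 2 → u * u = 1 ∧ u ≠ 1 := fun {u} h =>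
    ⟨by rw [← pow_two, ← h, pow_orderOf_eq_one], fun e => by simp [e] at h⟩
  have ot : orderOf (ι tt) = 2 := orderOf_eq_prime (by rw [pow_two, t2]) t1
  have se : IsStronglyEmbedded H := (H3.isStronglyEmbedded_iff H).2 ⟨hH, ⟨_, h2 tt, ot⟩,
    fun g u hu u2 hg => by
      obtain ⟨k, hk, e⟩ := c2 u hu (o2 u2).1 (o2 u2).2
      have u3 : orderOf (g * u * g⁻¹) = 2 := BS.ord2_conj u2 g
      obtain ⟨k', hk', e'⟩ := c2 _ hg (o2 u3).1 (o2 u3).2
      obtain ⟨m, hm⟩ := J.of_fix (g := k'⁻¹ * g * k) (by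
        change _ * ι tt * _ = ι tt; nth_rewrite 1 [← e']; rw [← e]; group)
      have := h2 m
      rwa [hm, mul_mem_cancel_right hk, mul_mem_cancel_left (inv_mem hk')] at this⟩
  haveI := BS.oneFix_of_se se
  have hb := BS.base_of_se ⟨ι ww, ι xx, fun e => absurd (J.inj (by rwa [map_mul, map_mul]) :
    ww * xx = xx * ww) (by decide +kernel)⟩ se
  obtain ⟨Q, hQ, h3, h4⟩ := BS.base_two BS.regThm BS.twoThm _ G (G ⧸ H) rfl hb ((1 : G) : G ⧸ H)
  rw [BS.St, MulAction.stabilizer_quotient] at hQ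
  obtain ⟨b, b1⟩ := hb.two ((1 : G) : G ⧸ H)
  have f1 : ι tt • ((1 : G) : G ⧸ H) = ((1 : G) : G ⧸ H) := by
    rw [← MulAction.mem_stabilizer_iff, MulAction.stabilizer_quotient]; exact h2 _
  obtain ⟨x, hx, e⟩ := h4 b (ι tt • b) b1 fun e => b1 (by rw [← f1, ← e, BS.smul_smul2 ot])
  obtain ⟨z, hz, z2⟩ := H3.exists_involution_of_ne_bot h3 (by
    rintro rfl
    rw [mem_bot.1 hx, one_smul] at e
    exact b1 (BS.OneFix.uniq _ ot _ _ e.symm f1))
  have cj : ∀ k ∈ H, ∀ u, k⁻¹ * u * k ∈ Q ↔ u ∈ Q := fun k hk u => by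
    simpa using ((hQ.2 (inv_mem hk)) u).symm
  have all : ∀ u ∈ H, u * u = 1 → u ≠ 1 → u ∈ Q := fun u hu u2 u1 => by
    obtain ⟨k, hk, e⟩ := c2 u hu u2 u1
    obtain ⟨k', hk', e'⟩ := c2 z (hQ.1 hz) (o2 z2).1 (o2 z2).2
    rwa [← cj k hk, e, ← e', cj k' hk']
  have w2 : ι ww * ι ww = 1 := by rw [← map_mul, ← map_one ι]; exact ιeq (by decide +kernel)
  have := H3.eq_one_of_odd_of_pgroup h3 (mul_mem (all r hr J.r2 fun e => absurd
    (J.act_uq (e ▸ J.actr) (β := id) (fun _ => Cj.refl _) 1) (by decide)) (all _ (h2 ww) w2 fun e =>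
      absurd (J.inj (e.trans (map_one ι).symm)) (by decide +kernel)))
    ((by decide : Odd 3).of_dvd_nat (orderOf_dvd_of_pow_eq_one J.rw3))
  exact absurd (J.act_uq (this ▸ J.actr.comp act_w) (β := id) (fun _ => Cj.refl _) 1) (by decide)

theorem Base.card_one [IsSimpleGroup G] (B : Base ι) (h : One ι) : Nat.card G = 50232960 := by
  have k : ∀ m : Q0, m * m = 1 → m ≠ 1 → ∃ g, Cj ι g m tt := fun m a b =>
    h _ (by rw [← map_mul, a, map_one]) fun e => b (B.inj (by rw [e, map_one]))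
  obtain ⟨g, hg⟩ := k ee (by decide +kernel) (by decide +kernel)
  obtain ⟨p, J⟩ := B.exists_p hg
  obtain ⟨g, hg⟩ := k xx (by decide +kernel) (by decide +kernel)
  obtain ⟨r, J⟩ := J.exists_r hg
  exact J.card h

end Cfsg.Agent.H6.J3
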