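import Cfsg.Agent.H6.J2B
import Cfsg.Agent.H6.J3T
import Cfsg.Agent.S0213

/-! The Thompson order formula in the two-class case. -/

set_option autoImplicit false

namespace Cfsg.Agent.H6.J3

open Subgroup Cfsg.Agent.H5 Cfsg.Agent.FT

variable {G : Type*} [Group G] {ι : Q0 →* G} {g h p u v w z m : G} {i j : Fin 16}

noncomputable def cE (i : Fin 11) : Q0 :=
  if i.1 = 10 then tt else (if i.1 < 5 then 1 else tt) * eiQ false ⟨i.1 % 5, Nat.mod_lt _ (by decide)⟩
def xc (m : Q0) : Prop := (jQ m)⁻¹ * m * jQ m = xx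
noncomputable instance (m : Q0) : Decidable (xc m) := by unfold xc; infer_instance

theorem q_cE : ∀ m : Q0, m * m = 1 → m ≠ 1 → xc m ∨ ∃ i, m = cE i := by decide +kernel
theorem cE_inj : ∀ i j, cE i = cE j → i = j := by decide +kernel
theorem cE_cj : ∀ i, cE i = tt ∨ (jQ (cE i))⁻¹ * cE i * jQ (cE i) = ee := by decide +kernel
theorem q_cE2 : ∀ m : Q0, xc m → ∀ i, (cE i * m) ^ 4 = tt ∨ ((cE i * m) ^ 2 = 1 ∧ cE i * m ≠ tt) := by
  decide +kernel
theorem q_960 : ∑ i : Fin 11, cntQ false (fun m => xc m ∧ (cE i * m) ^ 4 = tt) = 960 := by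
  decide +kernel
theorem q_24 : cntQ false (fun m => m * e0Q false = e0Q false * m ∧ m * ee = ee * m) = 24 := by
  decide +kernel

theorem inv_of_conj {a : Q0} (h : IsConj (ι a) u) (a2 : a * a = 1) : u * u = 1 := by
  obtain ⟨g, rfl⟩ := isConj_iff.1 h
  rw [conj_mul, ← map_mul, a2]; simp
theorem comm_of_zp (u2 : u * u = 1) (v2 : v * v = 1) (z2 : z * z = 1) (h : z ∈ zpowers (u * v)) :
    u * z = z * u ∧ v * z = z * v := by
  obtain ⟨k, rfl⟩ := h
  have u1 := inv_eq_of_mul_eq_one_right u2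
  have v1 := inv_eq_of_mul_eq_one_right v2
  have z1 := inv_eq_of_mul_eq_one_right z2
  have e1 : u * (u * v) * u⁻¹ = (u * v)⁻¹ := by rw [← mul_assoc, u2, one_mul, mul_inv_rev, v1]
  have e2 : v * (u * v) * v⁻¹ = (u * v)⁻¹ := by 
    rw [← mul_assoc, mul_inv_cancel_right, mul_inv_rev, u1, v1]
  exact ⟨mul_inv_eq_iff_eq_mul.1 (by rw [← conj_zpow, e1, inv_zpow, z1]),
    mul_inv_eq_iff_eq_mul.1 (by rw [← conj_zpow, e2, inv_zpow, z1])⟩
theorem cj_isConj {a b : Q0} (h : Cj ι g a b) : IsConj (ι b) (ι a) :=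
  isConj_iff.2 ⟨g, by rw [← h]; group⟩
theorem ex_of_isConj {a b : Q0} (h : IsConj (ι b) (ι a)) : ∃ g, Cj ι g a b := by
  obtain ⟨g, hg⟩ := isConj_iff.1 h
  exact ⟨g, by unfold Cj; rw [← hg]; group⟩

theorem J2.n1 (J : J2 ι p) : Nat.card {q : G × G // IsConj (ι tt) q.1 ∧ IsConj (ι xx) q.2 ∧
    ι tt ∈ zpowers (q.1 * q.2)} = 960 := by
  have c1 : ∀ i, IsConj (ι tt) (ι (cE i)) := fun i =>
    (cE_cj i).elim (fun e => by rw [e]) fun e => cj_isConj ((Cj.of e).comp J.cyc.2)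
  have h1 : Nat.card (Σ i : Fin 11, {m : Q0 // xc m ∧ (cE i * m) ^ 4 = tt}) = 960 := by
    rw [Nat.card_sigma, ← q_960]
    exact Finset.sum_congr rfl fun i _ => card_eq_cnt _
  rw [← h1]
  refine (Nat.card_eq_of_bijective (fun a => ⟨(ι (cE a.1), ι a.2.1), c1 _, cj_isConj (Cj.of a.2.2.1),
    ⟨(4 : ℕ), by simp only [zpow_natCast, ← map_mul, ← map_pow, a.2.2.2]⟩⟩) ⟨?_, ?_⟩).symm
  · rintro ⟨i, a, ha⟩ ⟨j, b, hb⟩ e
    obtain ⟨e1, e2⟩ := Prod.ext_iff.1 (congrArg Subtype.val e)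
    obtain rfl := cE_inj _ _ (J.inj e1)
    obtain rfl := J.inj e2
    rfl
  · rintro ⟨⟨u, v⟩, h1, h2, h3⟩
    have u2 := inv_of_conj h1 q_tt.1
    have v2 := inv_of_conj h2 (by decide +kernel)
    obtain ⟨c1', c2⟩ := comm_of_zp u2 v2 (inv_of_conj (IsConj.refl _) q_tt.1) h3
    obtain ⟨a, rfl⟩ := J.cent u c1'
    obtain ⟨b, rfl⟩ := J.cent v c2
    obtain ⟨g, hg⟩ := ex_of_isConj h1
    obtain ⟨k, hk⟩ := ex_of_isConj h2
    obtain ⟨i, rfl⟩ := (q_cE a (J.inj (by rw [map_mul, u2, map_one]))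
      (J.ne_one hg.symm q_tt.2.1)).resolve_left fun e => J.nx _ ((Cj.of e).symm.comp hg)
    have hb := (q_cE b (J.inj (by rw [map_mul, v2, map_one]))
      (J.ne_one hk.symm (by decide +kernel))).resolve_right fun ⟨j, e⟩ => by
        obtain ⟨l, hl⟩ := ex_of_isConj (c1 j)
        exact J.nx _ (hk.symm.comp (e ▸ hl))
    refine ⟨⟨i, b, hb, (q_cE2 b hb i).resolve_right fun ⟨e1, e2⟩ => ?_⟩, rfl⟩
    obtain ⟨n, hn⟩ := h3
    simp only [← map_mul, ← map_zpow] at hn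
    have e3 := J.inj hn
    rw [zpow_eq_zpow_emod' n e1] at e3
    rcases Int.emod_two_eq_zero_or_one n with e | e <;> rw [Nat.cast_ofNat, e] at e3
    · exact q_tt.2.1 (by simpa [tt] using e3.symm)
    · exact e2 (by simpa using e3)

variable [Finite G]

theorem J2.fib (J : J2 ι p) (hu : u ∈ JJ ι) :
    Nat.card {w // w ∈ JJ ι ∧ (u = w ∨ u * w ≠ w * u)} + 2 = (JJ ι).ncard := by
  obtain ⟨y, hy, rfl, h⟩ := J.cj hu
  have h1 : JJ ι \ {w | w ∈ JJ ι ∧ (y * ι tt * y⁻¹ = w ∨ y * ι tt * y⁻¹ * w ≠ w * (y * ι tt * y⁻¹))} =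
      {y * ι (vv 2) * y⁻¹, y * ι (vv 3) * y⁻¹} := by
    ext w
    simp only [Set.mem_sdiff, Set.mem_ofPred_eq, not_and, not_or, ne_eq, not_not, Set.mem_insert_iff,
      Set.mem_singleton_iff]
    constructor
    · rintro ⟨a, b⟩
      obtain ⟨j, rfl⟩ := h w (NN_le (J.JJ_le a).1) (b a).2.symm
      obtain ⟨k, hk, e⟩ := a
      have := J.lt (j := j) (g := y⁻¹ * k) (by
        unfold Cj
        calc _ = k⁻¹ * (y * ι (vv j) * y⁻¹) * k := by group
          _ = _ := by rw [← e]; group)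
      rcases (by clear * - this; revert j; decide : j = 1 ∨ j = 2 ∨ j = 3) with rfl | rfl | rfl
      · exact absurd (by rw [vv_val.2.1]) (b ⟨k, hk, e⟩).1
      · exact Or.inl rfl
      · exact Or.inr rfl
    · have k : ∀ j : Fin 16, j.1 < 4 → j ≠ 0 → j ≠ 1 → w = y * ι (vv j) * y⁻¹ → w ∈ JJ ι ∧ (w ∈ JJ ι →
          ¬ y * ι tt * y⁻¹ = w ∧ y * ι tt * y⁻¹ * w = w * (y * ι tt * y⁻¹)) := by
        rintro j a b c rfl
        refine ⟨JJ_conj hy (J.vv_JJ a b), fun _ => ⟨fun e => c (vv_inj _ _ (J.inj ?_)), ?_⟩⟩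
        · rw [vv_val.2.1]; simpa using e.symm
        · rw [conj_mul, conj_mul, ← map_mul, ← map_mul, tt, q_t]
      rintro (e | e)
      exacts [k 2 (by decide) (by decide) (by decide) e, k 3 (by decide) (by decide) (by decide) e]
  rw [← Set.ncard_sdiff_add_ncard_of_subset (fun w hw => hw.1 : {w | w ∈ JJ ι ∧ (y * ι tt * y⁻¹ = w ∨
    y * ι tt * y⁻¹ * w ≠ w * (y * ι tt * y⁻¹))} ⊆ JJ ι), h1, Set.ncard_pair fun e => absurd
      (vv_inj 2 3 (J.inj (by simpa using e))) (by decide), add_comm]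
  rfl

theorem J2.n2 (J : J2 ι p) : Nat.card {q : G × G // IsConj (ι tt) q.1 ∧ IsConj (ι xx) q.2 ∧
    ι xx ∈ zpowers (q.1 * q.2)} = (JJ ι).ncard * ((JJ ι).ncard - 2) := by
  haveI := Fintype.ofFinite (JJ ι)
  have h1 : Nat.card (Σ u : JJ ι, {w // w ∈ JJ ι ∧ (u.1 = w ∨ u * w ≠ w * u)}) =
      (JJ ι).ncard * ((JJ ι).ncard - 2) := by
    rw [Nat.card_sigma, Finset.sum_congr rfl fun u _ => Nat.eq_sub_of_add_eq (J.fib u.2),
      Finset.sum_const, Finset.card_univ, smul_eq_mul, ← Nat.card_eq_fintype_card]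
    rfl
  have x2 : ι xx * ι xx = 1 := inv_of_conj (IsConj.refl _) (by decide +kernel)
  have cx : ∀ z ∈ DD ι, Commute z (ι xx) := fun z hz => mem_centralizer_singleton_iff.1 hz
  have xN : ι xx ∉ NN ι := fun h => absurd (J.lt_of_NN (j := 4) (vv_val.2.2.2.1 ▸ h)) (by decide)
  have key : ∀ u ∈ JJ ι, ∀ w ∈ JJ ι, (u = w ∨ u * w ≠ w * u) → IsConj (ι tt) u ∧
      IsConj (ι xx) (ι xx * w) ∧ ι xx ∈ zpowers (u * (ι xx * w)) := by
    refine fun u hu w hw h => ⟨?_, ?_, ?_⟩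
    · obtain ⟨y, -, e⟩ := hu
      exact isConj_iff.2 ⟨y, e⟩
    · obtain ⟨y, hy, e⟩ := hw
      refine (cj_isConj (Cj.of (show xc (xx * tt) by decide +kernel))).trans (isConj_iff.2 ⟨y, ?_⟩)
      rw [map_mul, ← mul_assoc, (cx y hy).eq, ← e]; group
    obtain ⟨uN, u2, -⟩ := J.JJ_le hu
    obtain ⟨wN, w2, -⟩ := J.JJ_le hw
    obtain ⟨k, hk⟩ : Odd (orderOf (u * w)) := by
      rw [← Nat.not_even_iff_odd]
      rintro ⟨k, hk⟩
      have k0 : 0 < k := by have := orderOf_pos (u * w); omega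
      have z2 : (u * w) ^ k * (u * w) ^ k = 1 := by rw [← pow_add, ← hk, pow_orderOf_eq_one]
      have z1 := pow_ne_one_of_lt_orderOf (x := u * w) k0.ne' (by omega)
      obtain ⟨c1, c2⟩ := comm_of_zp u2 w2 z2 (pow_mem (mem_zpowers _) k)
      obtain ⟨y, -, -, hy⟩ := J.cj (J.JJ_of_NN (pow_mem (mul_mem uN wN) k) z2 z1)
      obtain ⟨i, hi⟩ := hy u (NN_le uN) c1
      obtain ⟨j, hj⟩ := hy w (NN_le wN) c2
      rcases h with e | e
      · exact z1 (by rw [← e, u2, one_pow])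
      · exact e (by rw [hi, hj, conj_mul, conj_mul, ← map_mul, ← map_mul, q_vv])
    refine ⟨(2 * k + 1 : ℕ), ?_⟩
    simp only [zpow_natCast]
    rw [← mul_assoc, (cx u (NN_le uN)).eq, mul_assoc, (cx _ (NN_le (mul_mem uN wN))).symm.mul_pow,
      ← hk, pow_orderOf_eq_one, mul_one, hk, pow_succ, pow_mul, pow_two, x2, one_pow, one_mul]
  rw [← h1]
  refine (Nat.card_eq_of_bijective (fun a => ⟨(a.1.1, ι xx * a.2.1), key _ a.1.2 _ a.2.2.1 a.2.2.2⟩)
    ⟨?_, ?_⟩).symm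
  · rintro ⟨⟨u, hu⟩, w, hw⟩ ⟨⟨u', hu'⟩, w', hw'⟩ e
    obtain ⟨e1, e2⟩ := Prod.ext_iff.1 (congrArg Subtype.val e)
    obtain rfl : u = u' := e1
    obtain rfl : w = w' := mul_left_cancel e2
    rfl
  · rintro ⟨⟨u, v⟩, h1, h2, h3⟩
    have u2 : u * u = 1 := inv_of_conj h1 q_tt.1
    have v2 : v * v = 1 := inv_of_conj h2 (by decide +kernel)
    obtain ⟨c1, c2⟩ := comm_of_zp u2 v2 x2 h3
    have hv : v ∈ DD ι := mem_centralizer_singleton_iff.2 c2
    have hu : u ∈ JJ ι := J.JJ_of (mem_centralizer_singleton_iff.2 c1) u2 fun k _ j e => by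
      obtain ⟨g, hg⟩ := ex_of_isConj (a := vv j) (h1.trans (isConj_iff.2 ⟨k, e.symm⟩))
      exact J.lt hg
    obtain ⟨uN, -, u1⟩ := J.JJ_le hu
    obtain ⟨n, hn⟩ := (mem_powers_iff_mem_zpowers.2 h3 : ι xx ∈ Submonoid.powers (u * v))
    simp only at hn
    have k1 : ∀ n : ℕ, (u * v) ^ n * (v ^ n)⁻¹ ∈ NN ι := fun n => by
      induction n with
      | zero => simp
      | succ n ih =>
        have := mul_mem uN (NN_conj hv ih)
        convert this using 1
        simp only [pow_succ', mul_inv_rev, mul_assoc, ((Commute.refl v).pow_left n).inv_inv.eq]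
    have k2 := k1 n
    obtain ⟨l, rfl⟩ : Odd n := by
      rw [← Nat.not_even_iff_odd]
      rintro ⟨l, rfl⟩
      rw [hn, ← two_mul, pow_mul, pow_two, v2, one_pow, inv_one, mul_one] at k2
      exact xN k2
    rw [hn, pow_succ, pow_mul, pow_two, v2, one_pow, one_mul, inv_eq_of_mul_eq_one_right v2] at k2
    have k3 : u * v = v * u → u = ι xx * v := fun e => by
      have : u * v * (u * v) = 1 := by
        nth_rewrite 2 [e]
        rw [mul_assoc, ← mul_assoc v, v2, one_mul, u2]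
      rw [pow_succ, pow_mul, pow_two, this, one_pow, one_mul] at hn
      rw [← hn, mul_assoc, v2, mul_one]
    have k4 : ι xx * v * (ι xx * v) = 1 := by
      rw [mul_assoc, ← mul_assoc v, c2, mul_assoc, v2, mul_one, x2]
    refine ⟨⟨⟨u, hu⟩, ι xx * v, J.JJ_of_NN k2 k4 fun e => u1 ?_, ?_⟩, Subtype.ext (Prod.ext rfl ?_)⟩
    · rw [k3 (by rw [← eq_inv_of_mul_eq_one_left e |>.trans (inv_eq_of_mul_eq_one_right v2), c1]), e]
    · rw [or_iff_not_imp_right, not_not]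
      refine fun e => k3 (mul_left_cancel (a := ι xx) ?_)
      rw [← mul_assoc, ← c1, mul_assoc, e, mul_assoc]
    · change ι xx * (ι xx * v) = v
      rw [← mul_assoc, x2, one_mul]

theorem J2.card (J : J2 ι p) (hall : ∀ u : G, orderOf u = 2 → ∃ m, IsConj (ι m) u) :
    Nat.card G = 604800 := by
  have o : ∀ m : Q0, m * m = 1 → m ≠ 1 → orderOf (ι m) = 2 := fun m a b =>
    BS.ord2 (by rw [← map_mul, a, map_one]) fun e => b (J.inj (by rw [e, map_one]))
  have h := S0213.result (ι tt) (ι xx) (o _ q_tt.1 q_tt.2.1) (o _ (by decide +kernel) (by decide +kernel))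
    (fun e => (ex_of_isConj e).elim J.nx) fun u hu => by
      obtain ⟨m, hm⟩ := hall u hu
      obtain ⟨g, rfl⟩ := isConj_iff.1 hm
      have m2 : orderOf (ι m) = 2 := by simpa [mul_assoc] using BS.ord2_conj hu g⁻¹
      rcases q_inv m (J.inj (by rw [map_mul, BS.sq1 m2, map_one])) with a | a | a | ⟨-, a⟩
      · exact absurd (by rw [a, map_one]) (BS.ne1 m2)
      · exact Or.inl (a ▸ hm)
      · exact Or.inl ((cj_isConj ((Cj.of a).comp J.cyc.2)).trans hm)
      · exact Or.inr ((cj_isConj (Cj.of a)).trans hm)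
  have ct : Nat.card (centralizer ({ι tt} : Set G)) = 1920 := by
    have : centralizer ({ι tt} : Set G) = ι.range := by
      ext z
      rw [mem_centralizer_singleton_iff]
      exact ⟨J.cent z, by rintro ⟨m, rfl⟩; rw [← map_mul, ← map_mul, tt, q_t]⟩
    rw [this, ← Nat.card_congr (MonoidHom.ofInjective J.inj).toEquiv, card_Q]
  rw [J.n1, J.n2, ct] at h
  have h2 := J.ncard_JJ
  rcases J.card_DD with e | e
  · exfalso
    rw [e] at h2 h
    rw [show (JJ ι).ncard = 3 by omega] at h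
    have ce := (H3.card_centralizer_eq_of_isConj (cj_isConj J.cyc.2)).symm.trans ct
    have c0 := (H3.card_centralizer_eq_of_isConj (cj_isConj ((Cj.of (k := fQ false)
      (a := e0Q false) (by decide +kernel)).comp J.cyc.2))).symm.trans ct
    have h3 := card_inf_mul_relIndex (centralizer {ι (e0Q false)}) (centralizer {ι ee})
    have h4 := (centralizer {ι (e0Q false)}).card_mul_index
    have h5 := relIndex_le_of_le_right (H := centralizer {ι (e0Q false)}) (K := centralizer {ι ee})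
      le_top (by rw [relIndex_top_right]; exact index_ne_zero_of_finite)
    have h6 : centralizer {ι (e0Q false)} ⊓ centralizer {ι ee} =
        (centralizer {e0Q false} ⊓ centralizer {ee}).map ι := by
      ext z
      simp only [mem_inf, mem_map, ← cj_iff_mem]
      refine ⟨fun ⟨a, b⟩ => ?_, ?_⟩
      · obtain ⟨m, rfl⟩ := J.of_fix (((a.mul b).pow 2).eq (by decide +kernel) (by decide +kernel))
        have k : ∀ c, Cj ι (ι m) c c → m ∈ centralizer {c} := fun c h => by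
          have := J.cj_iff.1 h
          rw [mul_assoc, inv_mul_eq_iff_eq_mul] at this
          exact mem_centralizer_singleton_iff.2 this.symm
        exact ⟨m, ⟨k _ a, k _ b⟩, rfl⟩
      · rintro ⟨m, ⟨a, b⟩, rfl⟩
        exact ⟨cj_comm (mem_centralizer_singleton_iff.1 a), cj_comm (mem_centralizer_singleton_iff.1 b)⟩
    have h7 : Nat.card (centralizer {e0Q false} ⊓ centralizer {ee} : Subgroup Q0) = 24 := by
      rw [← q_24, ← card_eq_cnt]
      exact Nat.card_congr (Equiv.subtypeEquivRight fun _ => by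
        simp only [mem_inf, mem_centralizer_singleton_iff])
    rw [h6, card_map_of_injective J.inj, h7, ce] at h3
    rw [relIndex_top_right] at h5
    rw [c0, h] at h4
    omega
  · rw [e] at h2 h
    rw [show (JJ ι).ncard = 15 by omega] at h
    exact h

theorem Base.main [IsSimpleGroup G] (B : Base ι) (hall : ∀ u : G, orderOf u = 2 → ∃ m, IsConj (ι m) u)
    (h : (∃ g, Cj ι g ee tt) ∨ ∃ g, Cj ι g xx tt) : Nat.card G = 604800 ∨ Nat.card G = 50232960 := by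
  obtain ⟨g, hg⟩ : ∃ g, Cj ι g ee tt := by
    refine h.elim id fun ⟨g, hg⟩ => ?_
    obtain ⟨g, g1, g2⟩ := B.swap_x hg
    obtain ⟨b, d, ha⟩ := B.act_ex g1 g2
    have k : ∀ j : Fin 16, ¬ j.1 < 4 → ∃ k, Cj ι k (vv j) tt := fun j hj =>
      ⟨_, (Cj.of ((q_vx j).resolve_left hj)).comp g1⟩
    rcases (by clear * -; revert b d; decide +kernel :
      ¬ (lin 4 b 1 d 2).1 < 4 ∨ ¬ (lin 4 b 1 d 3).1 < 4) with e | e <;> obtain ⟨l, hl⟩ := k _ e
    · exact ⟨_, ((ha 2).comp hl).eq vv_val.2.2.1 rfl⟩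
    · exact ⟨_, (Cj.of (k := ss) (by decide +kernel)).comp ((ha 3).comp hl)⟩
  obtain ⟨p, J⟩ := B.exists_p hg
  by_cases hx : ∃ g, Cj ι g xx tt
  · obtain ⟨k, hk⟩ := hx
    refine Or.inr (B.card_one fun u u2 u1 => ?_)
    obtain ⟨m, hm⟩ := hall u (BS.ord2 u2 u1)
    obtain ⟨l, rfl⟩ := isConj_iff.1 hm
    obtain ⟨c, hc⟩ : ∃ c, Cj ι c m tt := by
      rcases q_inv m (B.inj (by rw [map_mul, map_one]; simpa using u2)) with a | a | a | ⟨-, a⟩
      · exact absurd (by simp [a]) u1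
      · exact ⟨1, a ▸ Cj.refl _⟩
      · exact ⟨_, (Cj.of a).comp hg⟩
      · exact ⟨_, (Cj.of a).comp hk⟩
    exact ⟨l * c, by rw [← hc]; group⟩
  · exact Or.inl (J2.card ⟨J, fun g h => hx ⟨g, h⟩⟩ hall)

end Cfsg.Agent.H6.J3
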