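import Cfsg.Agent.H6.J3M
import Cfsg.Agent.H6.J3E
import Cfsg.Prelude.Def_Transfer

/-! Extensions of an extraspecial group of order `32` by `A₅`. -/

set_option autoImplicit false

namespace Cfsg.Agent.H6.J3

open Cfsg.Agent.H5 Cfsg.Agent.H8.TC Cfsg.Agent.H6.TT Subgroup

/-- the model of the extraspecial group -/
def EE : Type := Fin 32

def EE.mk (n : ℕ) : EE := (⟨Nat.mod n (nat_lit 32), Nat.mod_lt _ (by decide)⟩ : Fin 32)
def EE.val (q : EE) : ℕ := Fin.val (n := 32) q
theorem EE.val_lt (q : EE) : q.val < 32 := Fin.isLt (n := 32) q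
theorem EE.ext' {a b : EE} (h : a.val = b.val) : a = b := Fin.ext (n := 32) h
instance instDecEqEE : DecidableEq EE := fun a b =>
  decidable_of_iff (a.val = b.val) ⟨EE.ext', fun h => h ▸ rfl⟩
instance instFintypeEE : Fintype EE := inferInstanceAs (Fintype (Fin 32))
theorem card_EE : Nat.card EE = 32 := Nat.card_fin 32
instance instDecAllEE (P : EE → Prop) [h : DecidablePred P] : Decidable (∀ m, P m) :=
  @Nat.decidableForallFin 32 P h
noncomputable instance instMulEE : Mul EE :=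
  ⟨fun a b => (⟨force a.val fun a => force b.val fun b => em a b, em_lt a.val b.val⟩ : Fin 32)⟩
instance instOneEE : One EE := ⟨EE.mk (nat_lit 0)⟩
instance instInvEE : Inv EE := ⟨fun a => EE.mk (fld eI (nat_lit 8) (nat_lit 255) a.val)⟩
theorem EE.one_mul' : ∀ a : EE, 1 * a = a := by decide +kernel
theorem EE.inv_mul' : ∀ a : EE, a⁻¹ * a = 1 := by decide +kernel
noncomputable instance instGroupEE : Group EE :=
  Group.ofLeftAxioms (fun a b c => EE.ext'
    (xor_eq_zero' (lp3_zero em_as0 _ a.val_lt _ b.val_lt _ c.val_lt))) EE.one_mul' EE.inv_mul'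

def ltr5 {Γ : Type*} [Group Γ] (a b c d t : Γ) : ℕ → Γ
  | 1 => a | 2 => b | 3 => c | 4 => d | 5 => t | _ => 1

def tE : EE := EE.mk (nat_lit 16)
def eE (i : Fin 5) : EE := EE.mk (fld (nat_lit 0xF8421) (nat_lit 4) (nat_lit 15) i.1)
def idxE (m : EE) : ℕ := fld xTE (nat_lit 8) (nat_lit 255) m.val
noncomputable def gE : ℕ → EE := ltr5 (eE 0) (eE 1) (eE 2) (eE 3) tE

theorem idxE_lt : ∀ m : EE, idxE m < 32 := by decide +kernel
theorem idxE_T : ∀ m : EE, ∀ c : Fin 5, nx qeT (idxE m) (c.1 + 1) = idxE (m * gE (c.1 + 1)) := by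
  decide +kernel
theorem idxE_par : ∀ m : EE, m = 1 ∨ (1 ≤ lr (ent (qeT (idxE m)) 0) ∧ lr (ent (qeT (idxE m)) 0) ≤ 5 ∧
    idxE (m * (gE (lr (ent (qeT (idxE m)) 0)))⁻¹) < idxE m) := by
  decide +kernel
theorem gen_EE (P : EE → Prop) (h1 : P 1)
    (h2 : ∀ m, P m → ∀ c, 1 ≤ c → c ≤ 5 → P (m * gE c)) : ∀ m, P m :=
  gen_of_idx gE idxE _ idxE idxE_par P h1 h2

theorem ee_ker : ∀ m : EE, m = 1 ∨ m = tE ∨ ∃ i : Fin 5, m * eE i * m⁻¹ * (eE i)⁻¹ = tE := by
  decide +kernel
theorem ee_inv : ∀ m : EE, m * m = 1 → m = 1 ∨ m = tE ∨ ∃ i : Fin 5, m = eE i ∨ m = tE * eE i := by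
  decide +kernel
theorem ee_ne : ∀ i j : Fin 5, (eE i = eE j → i = j) ∧ eE i ≠ tE * eE j ∧ eE i ≠ 1 ∧ eE i ≠ tE := by
  decide +kernel
theorem ee_cj : ∀ m : EE, ∀ i : Fin 5, m * eE i * m⁻¹ = eE i ∨ m * eE i * m⁻¹ = tE * eE i := by
  decide +kernel
theorem ee_sg : ∀ a b c d : Bool, ∃ m : EE, m * eE 1 * m⁻¹ = cond a tE 1 * eE 1 ∧
    m * eE 0 * m⁻¹ = cond b tE 1 * eE 0 ∧ m * eE 3 * m⁻¹ = cond c tE 1 * eE 3 ∧
    m * eE 2 * m⁻¹ = cond d tE 1 * eE 2 := by
  decide +kernel
theorem ee_four : eE 4 = eE 0 * eE 1 * eE 2 * eE 3 ∧ eE 4 = eE 1 * eE 0 * eE 3 * eE 2 := by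
  decide +kernel

variable {Γ : Type*} [Group Γ]

theorem hom_EE {a b c d t : Γ} (ha : a * a = 1) (hb : b * b = 1) (hc : c * c = 1) (hd : d * d = 1)
    (ht : t * t = 1) (hz : ∀ g, g * t = t * g) (ab : a * b = t * (b * a)) (ac : a * c = t * (c * a))
    (ad : a * d = t * (d * a)) (bc : b * c = t * (c * b)) (bd : b * d = t * (d * b))
    (cd : c * d = t * (d * c)) :
    ∃ ι : EE →* Γ, ι (eE 0) = a ∧ ι (eE 1) = b ∧ ι (eE 2) = c ∧ ι (eE 3) = d ∧ ι tE = t := by
  have cs : ∀ c, 1 ≤ c → c ≤ 5 → c = 1 ∨ c = 2 ∨ c = 3 ∨ c = 4 ∨ c = 5 := by omega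
  have k1 : ∀ g : Γ, g * g = 1 → t * (g * (t * g)) = 1 := fun g hg => by
    rw [← mul_assoc g, hz g, mul_assoc t, hg, mul_one, ht]
  have k2 : ∀ g h : Γ, g * g = 1 → h * h = 1 → g * h = t * (h * g) →
      g * (h * (g * (h * t))) = 1 := fun g h h1 h2 h3 => by
    calc _ = g * h * (g * h) * t := by group
      _ = t * (h * (g * g) * h) * t := by nth_rewrite 1 [h3]; group
      _ = 1 := by rw [h1, mul_one, h2, mul_one, ht]
  have H : Tab (ltr5 a b c d t) ⊥ qeiv qeT 5 32 := by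
    refine tab_of (ns := 0) ⟨rfl, fun c a b => ?_, fun c a b => ?_, rel_of_rot rfl ?_ qeW_ok,
      fun c a b => by omega⟩ qef_all
    · rcases cs c a b with rfl | rfl | rfl | rfl | rfl <;> decide
    · rcases cs c a b with rfl | rfl | rfl | rfl | rfl
      exacts [(inv_eq_of_mul_eq_one_right ha).symm, (inv_eq_of_mul_eq_one_right hb).symm,
        (inv_eq_of_mul_eq_one_right hc).symm, (inv_eq_of_mul_eq_one_right hd).symm,
        (inv_eq_of_mul_eq_one_right ht).symm]
    · rw [qeRL_eq]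
      refine rel_of_list rfl (by decide) ?_
      simp [qerels, ltr5, k1 a ha, k1 b hb, k1 c hc, k1 d hd, k2 a b ha hb ab, k2 a c ha hc ac,
        k2 a d ha hd ad, k2 b c hb hc bc, k2 b d hb hd bd, k2 c d hc hd cd]
  obtain ⟨ι, hι⟩ := H.hom gE idxE idxE_lt (by decide +kernel) (fun m c h1 h2 => by
    have := idxE_T m ⟨c - 1, by omega⟩
    rwa [show c - 1 + 1 = c by omega] at this) gen_EE
  exact ⟨ι, hι 1 (by omega) (by omega), hι 2 (by omega) (by omega), hι 3 (by omega) (by omega),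
    hι 4 (by omega) (by omega), hι 5 (by omega) (by omega)⟩

theorem card_modEq_cent [Finite Γ] {p : ℕ} [Fact p.Prime] {f : Γ} (hf : f ^ p = 1) {W : Subgroup Γ}
    (hW : ∀ w ∈ W, f * w * f⁻¹ ∈ W) :
    Nat.card W ≡ Nat.card (W ⊓ centralizer {f} : Subgroup Γ) [MOD p] := by
  classical
  haveI := Fintype.ofFinite W
  let F : Function.End W := fun w => ⟨f * w * f⁻¹, hW w w.2⟩
  have h1 : ∀ n (w : W), ((F ^ n) w : Γ) = f ^ n * w * (f ^ n)⁻¹ := fun n => by
    induction n with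
    | zero => exact fun _ => by simp; rfl
    | succ n ih =>
      intro w
      rw [pow_succ]
      refine (ih (F w)).trans ?_
      simp only [F, pow_succ]; group
  have h2 := Equiv.Perm.card_fixedPoints_modEq (f := F) (p := p) (n := 1)
    (funext fun w => Subtype.ext (by rw [h1, pow_one, hf]; simp; rfl))
  rw [← Nat.card_eq_fintype_card, ← Nat.card_eq_fintype_card] at h2
  refine h2.trans (congrArg (· % p) (Nat.card_congr
    ⟨fun w => ⟨w.1, w.1.2, mem_centralizer_singleton_iff.2 ?_⟩,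
      fun w => ⟨⟨w.1, w.2.1⟩, Subtype.ext ?_⟩, fun _ => rfl, fun _ => rfl⟩))
  · have : f * w.1 * f⁻¹ = w.1 := congrArg Subtype.val w.2
    rw [mul_inv_eq_iff_eq_mul] at this
    exact this.symm
  · have := mem_centralizer_singleton_iff.1 w.2.2
    change f * w.1 * f⁻¹ = w.1
    rw [← this]; simp

/-- the extraspecial subgroup -/
structure Ex (E : Subgroup Γ) (t : Γ) : Prop where
  tt : t * t = 1
  t1 : t ≠ 1
  cen : ∀ g, g * t = t * g
  mem : t ∈ E
  card : Nat.card E = 32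
  comm : ∀ a ∈ E, ∀ b ∈ E, a * b = b * a ∨ a * b = t * (b * a)
  zc : ∀ a ∈ E, (∀ b ∈ E, a * b = b * a) → a = 1 ∨ a = t

theorem a5_comm : ∀ a : Equiv.Perm (Fin 5), Equiv.Perm.sign a = 1 → a ^ 4 = 1 →
    ∀ b : Equiv.Perm (Fin 5), Equiv.Perm.sign b = 1 → b ^ 4 = 1 → (a * b) ^ 4 = 1 →
      a * b = b * a := by decide +kernel

theorem card_a5 : Nat.card (alternatingGroup (Fin 5)) = 60 := by
  rw [nat_card_alternatingGroup]; simp [Nat.factorial]

theorem a5_not_comm : ∃ a b : alternatingGroup (Fin 5), a * b ≠ b * a :=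
  ⟨⟨Equiv.swap 0 1 * Equiv.swap 0 2, Equiv.Perm.mem_alternatingGroup.2 (by decide)⟩,
    ⟨Equiv.swap 0 1 * Equiv.swap 0 3, Equiv.Perm.mem_alternatingGroup.2 (by decide)⟩,
    fun h => absurd (congrArg Subtype.val h) (by decide)⟩

variable [Finite Γ] {E : Subgroup Γ} {t : Γ}

theorem ex_of [E.Normal] (ht : orderOf t = 2) (hz : ∀ g, g * t = t * g) (hE : Nat.card E = 32)
    (hX : IsExtraspecial 2 E) (φ : Γ ⧸ E ≃* alternatingGroup (Fin 5)) : Ex E t := by
  have tt : t * t = 1 := by rw [← pow_two, ← ht, pow_orderOf_eq_one]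
  have t1 : t ≠ 1 := by rintro rfl; simp at ht
  have tm : t ∈ E := by
    have h1 : φ t ∈ center (alternatingGroup (Fin 5)) := by
      rw [mem_center_iff]
      intro g
      obtain ⟨g, rfl⟩ := φ.surjective g
      obtain ⟨g, rfl⟩ := QuotientGroup.mk_surjective g
      rw [← map_mul, ← map_mul, ← QuotientGroup.mk_mul, hz, QuotientGroup.mk_mul]
    rcases (inferInstance : (center (alternatingGroup (Fin 5))).Normal).eq_bot_or_eq_top with h | h
    · rw [h, mem_bot, map_eq_one_iff _ φ.injective, QuotientGroup.eq_one_iff] at h1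
      exact h1
    · obtain ⟨a, b, hab⟩ := a5_not_comm
      exact absurd (mem_center_iff.1 (h ▸ mem_top b) a) hab
  have zc : ∀ a : E, a ∈ center E → (a : Γ) = 1 ∨ (a : Γ) = t := by
    intro a ha
    have hT : (⟨t, tm⟩ : E) ∈ center E := mem_center_iff.2 fun g => Subtype.ext (hz g)
    obtain ⟨z, -, hz⟩ := (Nat.card_eq_two_iff' (1 : center E)).1 hX.2
    by_cases h : (a : Γ) = 1
    · exact Or.inl h
    · have h1 := hz ⟨a, ha⟩ fun e => h (congrArg (fun z : center E => (z.1 : Γ)) e)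
      have h2 := hz ⟨_, hT⟩ fun e => t1 (congrArg (fun z : center E => (z.1 : Γ)) e)
      exact Or.inr (congrArg (fun z : center E => (z.1 : Γ)) (h1.trans h2.symm))
  refine ⟨tt, t1, hz, tm, hE, fun a ha b hb => ?_, fun a ha h => zc ⟨a, ha⟩
    (mem_center_iff.2 fun g => Subtype.ext (h g g.2).symm)⟩
  have h1 : (⟨a, ha⟩ * ⟨b, hb⟩ * ⟨a, ha⟩⁻¹ * ⟨b, hb⟩⁻¹ : E) ∈ center E := by
    rw [← hX.1.2.2]
    exact commutator_mem_commutator (mem_top _) (mem_top _)
  rcases zc _ h1 with h | h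
  · left
    have h' : a * b * a⁻¹ * b⁻¹ = 1 := h
    calc a * b = a * b * a⁻¹ * b⁻¹ * (b * a) := by group
      _ = _ := by rw [h', one_mul]
  · right
    have h' : a * b * a⁻¹ * b⁻¹ = t := h
    rw [← h']; group

omit [Finite Γ] in
theorem Ex.sq (h : Ex E t) {a : Γ} (ha : a ∈ E) : a * a = 1 ∨ a * a = t := by
  refine h.zc _ (mul_mem ha ha) fun b hb => ?_
  rcases h.comm a ha b hb with e | e
  · rw [mul_assoc, e, ← mul_assoc, e, mul_assoc]
  · calc a * a * b = a * (a * b) := by group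
      _ = a * t * (b * a) := by rw [e]; group
      _ = t * (a * b) * a := by rw [h.cen]; group
      _ = t * t * (b * (a * a)) := by rw [e]; group
      _ = _ := by rw [h.tt, one_mul]

omit [Finite Γ] in
theorem Ex.four (h : Ex E t) {a : Γ} (ha : a ∈ E) : a ^ 4 = 1 := by
  have : a ^ 4 = a * a * (a * a) := by simp only [pow_succ, pow_zero]; group
  rcases h.sq ha with e | e <;> rw [this, e]
  exacts [one_mul _, h.tt]

/-- an element acting on `W ≤ E` through signs centralises at least half of `W` -/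
theorem Ex.card_le (h : Ex E t) {W : Subgroup Γ} {u : Γ}
    (hu : ∀ b ∈ W, u * b = b * u ∨ u * b = t * (b * u)) :
    Nat.card W ≤ 2 * Nat.card (W ⊓ centralizer {u} : Subgroup Γ) := by
  classical
  by_cases hc : ∀ b ∈ W, u * b = b * u
  · rw [inf_eq_left.2 fun b hb => mem_centralizer_singleton_iff.2 (hc b hb).symm]; omega
  push Not at hc
  obtain ⟨c, hc, hc2⟩ := hc
  have hc3 := (hu c hc).resolve_left hc2
  have key : ∀ b ∈ W, u * b ≠ b * u → c * b * u = u * (c * b) := fun b hb h2 => by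
    have := (hu b hb).resolve_left h2
    calc c * b * u = t * t * (c * (b * u)) := by rw [h.tt]; group
      _ = t * (c * (t * (b * u))) := by rw [← mul_assoc c t, h.cen c]; group
      _ = t * (c * u) * b := by rw [← this]; group
      _ = _ := by rw [← hc3]; group
  let F : W → Bool × (W ⊓ centralizer {u} : Subgroup Γ) := fun b =>
    if e : u * b = b * u then (true, ⟨b, b.2, mem_centralizer_singleton_iff.2 e.symm⟩)
    else (false, ⟨c * b, mul_mem hc b.2, mem_centralizer_singleton_iff.2 (key b b.2 e)⟩)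
  have hF : Function.Injective F := by
    intro a b e
    simp only [F] at e
    split_ifs at e
    · exact Subtype.ext (congrArg (fun z => z.2.1) e)
    · simp at e
    · simp at e
    · exact Subtype.ext (mul_left_cancel (a := c) (congrArg (fun z => z.2.1) e))
  simpa using Nat.card_le_card_of_injective F hF

theorem Ex.card_small (h : Ex E t) {W : Subgroup Γ} (hW : ∀ a ∈ W, a = 1 ∨ a = t) :
    Nat.card W ≤ 2 := by
  have h1 : W ≤ zpowers t := fun a ha => by
    rcases hW a ha with rfl | rfl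
    exacts [one_mem _, mem_zpowers _]
  have h2 : orderOf t = 2 := orderOf_eq_prime (by rw [pow_two, h.tt]) h.t1
  simpa [Nat.card_zpowers, h2] using card_le_of_le h1

/-- centralisers in `E` are not abelian -/
theorem Ex.exists_noncomm (h : Ex E t) {u : Γ}
    (hu : ∀ b ∈ E, u * b = b * u ∨ u * b = t * (b * u)) :
    ∃ a ∈ E, ∃ b ∈ E, a * u = u * a ∧ b * u = u * b ∧ a * b = t * (b * a) := by
  by_contra hn
  push Not at hn
  have h1 := h.card_le hu
  rw [h.card] at h1
  set W := E ⊓ centralizer {u}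
  have hab : ∀ a ∈ W, ∀ b ∈ W, a * b = b * a := fun a ha b hb =>
    (h.comm a ha.1 b hb.1).resolve_right (hn a ha.1 b hb.1 (mem_centralizer_singleton_iff.1 ha.2)
      (mem_centralizer_singleton_iff.1 hb.2))
  by_cases hW : E ≤ W
  · have := h.card_small (W := E) fun a ha => h.zc a ha fun b hb => hab a (hW ha) b (hW hb)
    rw [h.card] at this; omega
  obtain ⟨k, hk, hk2⟩ := SetLike.not_le_iff_exists.1 hW
  have h2 := h.card_le (W := W) (u := k) fun b hb => h.comm k hk b hb.1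
  have h3 := h.card_small (W := W ⊓ centralizer {k}) fun a ha => h.zc a ha.1.1 fun b hb => by
    have hak : a * k = k * a := mem_centralizer_singleton_iff.1 ha.2
    by_cases hbW : b ∈ W
    · exact hab a ha.1 b hbW
    · have e1 : u * b = t * (b * u) := (hu b hb).resolve_left fun e =>
        hbW ⟨hb, mem_centralizer_singleton_iff.2 e.symm⟩
      have e2 : u * k = t * (k * u) := (hu k hk).resolve_left fun e =>
        hk2 ⟨hk, mem_centralizer_singleton_iff.2 e.symm⟩
      have e3 : k * b ∈ W := ⟨mul_mem hk hb, mem_centralizer_singleton_iff.2 (by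
        calc k * b * u = t * t * (k * (b * u)) := by rw [h.tt]; group
          _ = t * (k * (t * (b * u))) := by rw [← mul_assoc k t, h.cen k]; group
          _ = t * (k * u) * b := by rw [← e1]; group
          _ = _ := by rw [← e2]; group)⟩
      have e4 := hab a ha.1 _ e3
      rw [← mul_assoc, hak, mul_assoc, mul_assoc, mul_right_inj] at e4
      exact e4
  omega

theorem Ex.exists_inv (h : Ex E t) : ∃ e ∈ E, e * e = 1 ∧ e ≠ 1 ∧ e ≠ t := by
  by_contra hn
  push Not at hn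
  have hs : ∀ a ∈ E, a ≠ 1 → a ≠ t → a * a = t := fun a ha h1 h2 =>
    (h.sq ha).resolve_left fun e => h2 (hn a ha e h1)
  obtain ⟨k, hk, hk2⟩ : ∃ k ∈ E, ¬ (k = 1 ∨ k = t) := by
    by_contra hc
    push Not at hc
    have := h.card_small (W := E) hc
    rw [h.card] at this; omega
  push Not at hk2
  have h1 := h.card_le (W := E) (u := k) fun b hb => h.comm k hk b hb
  rw [h.card] at h1
  have h2 : ¬ (E ⊓ centralizer {k} ≤ zpowers k) := fun hle => by
    have h3 := card_le_of_le hle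
    rw [Nat.card_zpowers] at h3
    have h4 := Nat.le_of_dvd (by norm_num) (orderOf_dvd_of_pow_eq_one (h.four hk))
    omega
  obtain ⟨l, hl, hl2⟩ := SetLike.not_le_iff_exists.1 h2
  have kk := hs k hk hk2.1 hk2.2
  have tk : t ∈ zpowers k := kk ▸ mul_mem (mem_zpowers k) (mem_zpowers k)
  have ll := hs l hl.1 (fun e => hl2 (e ▸ one_mem _)) (fun e => hl2 (e ▸ tk))
  have lk : l * k = k * l := mem_centralizer_singleton_iff.1 hl.2
  have h5 : k * l * (k * l) = 1 := by
    calc _ = k * (l * k) * l := by group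
      _ = k * k * (l * l) := by rw [lk]; group
      _ = 1 := by rw [kk, ll, h.tt]
  have h6 : ∀ z ∈ zpowers k, k * l ≠ z := fun z hz e => hl2 (by
    have := mul_mem (inv_mem (mem_zpowers k)) hz
    rwa [← e, inv_mul_cancel_left] at this)
  exact h6 t tk (hn _ (mul_mem hk hl.1) h5 (h6 1 (one_mem _)))

theorem Ex.card_all [E.Normal] (h : Ex E t) (φ : Γ ⧸ E ≃* alternatingGroup (Fin 5)) :
    Nat.card Γ = 1920 := by
  rw [card_eq_card_quotient_mul_card_subgroup E, Nat.card_congr φ.toEquiv, card_a5, h.card]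

/-- the case in which all elements of order five centralise `E` -/
theorem Ex.split [E.Normal] (h : Ex E t) (φ : Γ ⧸ E ≃* alternatingGroup (Fin 5))
    (h5 : ∀ f : Γ, f ^ 5 = 1 → ∀ k ∈ E, f * k = k * f) (g : Γ) :
    ∃ k ∈ E, ∀ l ∈ E, k⁻¹ * g * l = l * (k⁻¹ * g) := by
  let ψ : Γ →* alternatingGroup (Fin 5) := φ.toMonoidHom.comp (QuotientGroup.mk' E)
  have hψ : Function.Surjective ψ := φ.surjective.comp (QuotientGroup.mk'_surjective E)
  have hk : ∀ g, ψ g = 1 ↔ g ∈ E := fun g => by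
    simp [ψ, QuotientGroup.eq_one_iff]
  have hn : ((centralizer (E : Set Γ)).map ψ).Normal := Normal.map inferInstance ψ hψ
  haveI : Fact (Nat.Prime 5) := ⟨by norm_num⟩
  obtain ⟨f, hf⟩ := exists_prime_orderOf_dvd_card' (G := Γ) 5 (by rw [h.card_all φ]; norm_num)
  have hf5 : f ^ 5 = 1 := hf ▸ pow_orderOf_eq_one f
  rcases hn.eq_bot_or_eq_top with e | e
  · have h1 : ψ f ∈ (centralizer (E : Set Γ)).map ψ :=
      mem_map_of_mem ψ fun k hk => (h5 f hf5 k hk).symm
    rw [e, mem_bot, hk] at h1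
    have := orderOf_dvd_of_pow_eq_one (h.four h1)
    rw [hf] at this; norm_num at this
  · obtain ⟨l, hl, e2⟩ : ψ g ∈ (centralizer (E : Set Γ)).map ψ := e ▸ mem_top _
    refine ⟨g * l⁻¹, (hk _).1 (by rw [map_mul, map_inv, e2, mul_inv_cancel]), fun m hm => ?_⟩
    have := hl m hm
    simp [this]

theorem Ex.split_comm [E.Normal] (h : Ex E t) (φ : Γ ⧸ E ≃* alternatingGroup (Fin 5))
    (h5 : ∀ f : Γ, f ^ 5 = 1 → ∀ k ∈ E, f * k = k * f) {a b : Γ} (ha : a ^ 4 = 1) (hb : b ^ 4 = 1)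
    (hab : (a * b) ^ 4 = 1) : a * b = b * a ∨ a * b = t * (b * a) := by
  let ψ : Γ →* alternatingGroup (Fin 5) := φ.toMonoidHom.comp (QuotientGroup.mk' E)
  have hk : ∀ g, ψ g = 1 ↔ g ∈ E := fun g => by
    simp [ψ, QuotientGroup.eq_one_iff]
  have p4 : ∀ g : Γ, g ^ 4 = 1 → (ψ g : Equiv.Perm (Fin 5)) ^ 4 = 1 := fun g hg => by
    rw [← coe_pow, ← map_pow, hg, map_one]; rfl
  have h1 := a5_comm _ (ψ a).2 (p4 a ha) _ (ψ b).2 (p4 b hb) (by simpa using p4 _ hab)
  have h2 : a * b * (b * a)⁻¹ ∈ E := (hk _).1 (by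
    rw [map_mul, map_inv, map_mul, map_mul, mul_inv_eq_one]; exact Subtype.ext h1)
  have key : ∀ g : Γ, ∀ l ∈ E, g * l = l * g ∨ g * l = t * (l * g) := fun g l hl => by
    obtain ⟨k, hk, e⟩ := h.split φ h5 g
    have e1 : g * l = k * l * (k⁻¹ * g) := by rw [mul_assoc, ← e l hl]; group
    rcases h.comm k hk l hl with e2 | e2
    · left; rw [e1, e2]; group
    · right; rw [e1, e2]; group
  have key2 : ∀ l ∈ E, ∀ c d : Γ, c * d * l = l * (c * d) ↔ d * c * l = l * (d * c) := by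
    have k3 : ∀ l ∈ E, ∀ c d : Γ, c * d * l = l * (c * d) → d * c * l = l * (d * c) := by
      intro l hl c d e
      have tn : ∀ z : Γ, t * z ≠ z := fun z e => h.t1 (by simpa using e)
      rcases key c l hl with e1 | e1 <;> rcases key d l hl with e2 | e2
      · rw [mul_assoc, e1, ← mul_assoc, e2, mul_assoc]
      · exfalso
        rw [mul_assoc, e2, ← mul_assoc c, h.cen c, mul_assoc t, ← mul_assoc c, e1, mul_assoc] at e
        exact tn _ e
      · exfalso
        rw [mul_assoc, e2, ← mul_assoc c, e1, mul_assoc, mul_assoc] at e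
        exact tn _ e
      · rw [mul_assoc, e1, ← mul_assoc d, h.cen d, mul_assoc t, ← mul_assoc d, e2, ← mul_assoc,
          ← mul_assoc, ← mul_assoc, h.tt, one_mul, mul_assoc]
    exact fun l hl c d => ⟨k3 l hl c d, k3 l hl d c⟩
  rcases h.zc _ h2 (fun l hl => by
    have tn : ∀ z : Γ, t * z ≠ z := fun z e => h.t1 (by simpa using e)
    rcases key (a * b) l hl with e1 | e1 <;> rcases key (b * a) l hl with e2 | e2
    · calc _ = a * b * (b * a)⁻¹ * (l * (b * a)) * (b * a)⁻¹ := by group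
        _ = a * b * l * (b * a)⁻¹ := by rw [← e2]; group
        _ = _ := by rw [e1]; group
    · exact absurd (e2.symm.trans ((key2 l hl a b).1 e1)) (tn _)
    · exact absurd (e1.symm.trans ((key2 l hl a b).2 e2)) (tn _)
    · calc _ = a * b * (b * a)⁻¹ * (t * t) * (l * (b * a)) * (b * a)⁻¹ := by rw [h.tt]; group
        _ = a * b * (b * a)⁻¹ * t * (t * (l * (b * a))) * (b * a)⁻¹ := by group
        _ = a * b * ((b * a)⁻¹ * t) * (b * a) * l * (b * a)⁻¹ := by rw [← e2]; group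
        _ = a * b * t * l * (b * a)⁻¹ := by rw [h.cen]; group
        _ = t * (a * b * l) * (b * a)⁻¹ := by rw [h.cen (a * b)]; group
        _ = t * t * (l * (a * b * (b * a)⁻¹)) := by rw [e1]; group
        _ = _ := by rw [h.tt, one_mul]) with e | e
  · left; exact mul_inv_eq_one.1 e
  · right; rw [← e]; group

theorem Ex.split_sign [E.Normal] (h : Ex E t) (φ : Γ ⧸ E ≃* alternatingGroup (Fin 5))
    (h5 : ∀ f : Γ, f ^ 5 = 1 → ∀ k ∈ E, f * k = k * f) (g : Γ) :
    ∀ l ∈ E, g * l = l * g ∨ g * l = t * (l * g) := fun l hl => by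
  obtain ⟨k, hk, e⟩ := h.split φ h5 g
  have e1 : g * l = k * l * (k⁻¹ * g) := by rw [mul_assoc, ← e l hl]; group
  rcases h.comm k hk l hl with e2 | e2
  · left; rw [e1, e2]; group
  · right; rw [e1, e2]; group

end Cfsg.Agent.H6.J3
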