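import Cfsg.Agent.H6.J3A

/-! Generators and relations for the faithful extensions of `2^{1+4}` by `A₅`. -/

set_option autoImplicit false

namespace Cfsg.Agent.H6.J3

open Subgroup

variable {Γ : Type*} [Group Γ] [Finite Γ] {E : Subgroup Γ} {t f : Γ}

theorem Ex.fix [E.Normal] (h : Ex E t) (hf : f ^ 5 = 1) (hn : ¬ ∀ k ∈ E, f * k = k * f)
    {W : Subgroup Γ} (hWE : W ≤ E) (hW : ∀ w ∈ W, f * w * f⁻¹ ∈ W) (ht : t ∈ W) :
    W = E ∨ ∀ k ∈ W, k = 1 ∨ k = t := by
  classical
  haveI : Fact (Nat.Prime 5) := ⟨by norm_num⟩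
  have o2 : orderOf t = 2 := orderOf_eq_prime (by rw [pow_two, h.tt]) h.t1
  have two : ∀ U : Subgroup Γ, t ∈ U → Nat.card U ≤ 2 → ∀ k ∈ U, k = 1 ∨ k = t := by
    intro U hU hc k hk
    have h1 : zpowers t = U := eq_of_le_of_card_ge (zpowers_le.2 hU) (by rwa [Nat.card_zpowers, o2])
    rw [← h1, mem_zpowers_iff_mem_range_orderOf, o2] at hk
    obtain ⟨i, hi, rfl⟩ := Finset.mem_image.1 hk
    have := Finset.mem_range.1 hi
    interval_cases i <;> simp
  have dv : ∀ U : Subgroup Γ, U ≤ E → Nat.card U % 5 = 2 → U = E ∨ Nat.card U ≤ 2 := by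
    intro U hU hm
    have h1 := card_dvd_of_le hU
    rw [h.card, show 32 = 2 ^ 5 by norm_num, Nat.dvd_prime_pow Nat.prime_two] at h1
    obtain ⟨i, hi, e⟩ := h1
    interval_cases i <;> first
      | omega
      | exact Or.inl (eq_of_le_of_card_ge hU (by rw [h.card]; omega))
  have h1 := card_modEq_cent hf (W := E) fun w hw => Normal.conj_mem inferInstance w hw f
  rw [h.card] at h1
  have tc : t ∈ centralizer {f} := mem_centralizer_singleton_iff.2 (h.cen f).symm
  have h2 : Nat.card (E ⊓ centralizer {f} : Subgroup Γ) ≤ 2 := by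
    refine (dv _ inf_le_left h1.symm).resolve_left fun e => hn fun k hk => ?_
    rw [← e] at hk
    exact (mem_centralizer_singleton_iff.1 hk.2).symm
  have h3 := card_modEq_cent hf hW
  have h4 : Nat.card (W ⊓ centralizer {f} : Subgroup Γ) = 2 := by
    refine le_antisymm ((card_le_of_le (inf_le_inf_right _ hWE)).trans h2) ?_
    have := card_le_of_le (zpowers_le.2 (show t ∈ W ⊓ centralizer {f} from ⟨ht, tc⟩))
    rwa [Nat.card_zpowers, o2] at this
  rw [h4] at h3
  exact (dv W hWE h3).imp id (two W ht)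

omit [Finite Γ] in
theorem sq_mul_of {a b z : Γ} (hz : ∀ g, g * z = z * g) (h : a * b = z * (b * a)) (hzz : z * z = 1) :
    a * b * (a * b) = z * (a * a * (b * b)) := by
  have h' : b * a = z * (a * b) := by rw [h, ← mul_assoc, hzz, one_mul]
  calc _ = a * (b * a) * b := by group
    _ = a * z * (a * b) * b := by rw [h']; group
    _ = _ := by rw [hz a]; group

omit [Finite Γ] in
theorem comm_mul_of {a b c z w : Γ} (hz : ∀ g, g * w = w * g) (h : a * b = z * (b * a))
    (h' : a * c = w * (c * a)) : a * (b * c) = z * w * (b * c * a) := by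
  calc _ = z * b * (a * c) := by rw [← mul_assoc, h]; group
    _ = z * (b * w) * (c * a) := by rw [h']; group
    _ = _ := by rw [hz b]; group

/-- conjugates by powers of `f` -/
def cf (f e : Γ) (i : ℕ) : Γ := f ^ i * e * (f ^ i)⁻¹

omit [Finite Γ] in
theorem cf_succ (e : Γ) (i : ℕ) : f * cf f e i * f⁻¹ = cf f e (i + 1) := by
  simp only [cf, pow_succ']; group

omit [Finite Γ] in
theorem cf_shift {e z : Γ} (hz : ∀ g, g * z = z * g) {i j : ℕ}
    (h : cf f e i * cf f e j = z * (cf f e j * cf f e i)) :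
    cf f e (i + 1) * cf f e (j + 1) = z * (cf f e (j + 1) * cf f e (i + 1)) := by
  rw [← cf_succ, ← cf_succ]
  calc _ = f * (cf f e i * cf f e j) * f⁻¹ := by group
    _ = f * z * (cf f e j * cf f e i) * f⁻¹ := by rw [h]; group
    _ = _ := by rw [hz f]; group

omit [Finite Γ] in
theorem flip_comm {a b z : Γ} (hzz : z * z = 1) (h : a * b = z * (b * a)) : b * a = z * (a * b) := by
  rw [h, ← mul_assoc, hzz, one_mul]

theorem Ex.clifford [E.Normal] (h : Ex E t) (hf : f ^ 5 = 1) (hn : ¬ ∀ k ∈ E, f * k = k * f) :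
    ∃ e ∈ E, e * e = 1 ∧ cf f e 0 * cf f e 1 = t * (cf f e 1 * cf f e 0) ∧
      cf f e 0 * cf f e 2 = t * (cf f e 2 * cf f e 0) ∧
      cf f e 0 * (cf f e 1 * (cf f e 2 * (cf f e 3 * cf f e 4))) = 1 := by
  have cE : ∀ e ∈ E, ∀ i, cf f e i ∈ E := fun e he i => Normal.conj_mem inferInstance e he _
  have c5 : ∀ e, cf f e 5 = cf f e 0 := fun e => by simp [cf, hf]
  have c6 : ∀ e, cf f e 6 = cf f e 1 := fun e => by rw [← cf_succ e 5, c5, cf_succ]
  have fixE : ∀ k ∈ E, f * k * f⁻¹ = k ∨ f * k * f⁻¹ = t * k → k = 1 ∨ k = t := by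
    intro k hk hc
    have hc' : f * k * f⁻¹ = k := by
      refine hc.elim id fun e => ?_
      have e2 : f ^ 2 * k * (f ^ 2)⁻¹ = k := by
        calc _ = f * (f * k * f⁻¹) * f⁻¹ := by rw [pow_two]; group
          _ = f * t * k * f⁻¹ := by rw [e]; group
          _ = t * (f * k * f⁻¹) := by rw [h.cen f]; group
          _ = k := by rw [e, ← mul_assoc, h.tt, one_mul]
      have e3 : Commute (f ^ 2) k := mul_inv_eq_iff_eq_mul.1 e2
      have e4 := e3.pow_left 3
      rw [← pow_mul, show 2 * 3 = 5 + 1 by rfl, pow_succ, hf, one_mul] at e4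
      rw [e4.eq]; group
    rcases h.fix hf hn (W := E ⊓ centralizer {f}) inf_le_left (fun w hw => by
      have := mem_centralizer_singleton_iff.1 hw.2
      rwa [← this, mul_inv_cancel_right]) ⟨h.mem, mem_centralizer_singleton_iff.2 (h.cen f).symm⟩
      with e | e
    · exact absurd (fun k hk => (mem_centralizer_singleton_iff.1 (e.symm ▸ hk).2).symm) hn
    · exact e k ⟨hk, mem_centralizer_singleton_iff.2 (mul_inv_eq_iff_eq_mul.1 hc').symm⟩
  have nrm : ∀ e ∈ E, cf f e 0 * (cf f e 1 * (cf f e 2 * (cf f e 3 * cf f e 4))) = 1 ∨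
      cf f e 0 * (cf f e 1 * (cf f e 2 * (cf f e 3 * cf f e 4))) = t := by
    intro e he
    have hm : cf f e 1 * (cf f e 2 * (cf f e 3 * cf f e 4)) ∈ E :=
      mul_mem (cE e he _) (mul_mem (cE e he _) (mul_mem (cE e he _) (cE e he _)))
    refine fixE _ (mul_mem (cE e he _) hm) ?_
    have e1 : f * (cf f e 0 * (cf f e 1 * (cf f e 2 * (cf f e 3 * cf f e 4)))) * f⁻¹ =
        cf f e 1 * (cf f e 2 * (cf f e 3 * cf f e 4)) * cf f e 0 := by
      calc _ = f * cf f e 0 * f⁻¹ * (f * cf f e 1 * f⁻¹ * (f * cf f e 2 * f⁻¹ * (f * cf f e 3 * f⁻¹))) *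
            (f * cf f e 4 * f⁻¹) := by group
        _ = _ := by simp only [cf_succ, Nat.reduceAdd, c5]
    rw [e1]
    exact h.comm _ hm _ (cE e he _)
  obtain ⟨e, he, ee, e1, et⟩ := h.exists_inv
  have sq : ∀ i, cf f e i * cf f e i = 1 := fun i => by
    calc _ = f ^ i * (e * e) * (f ^ i)⁻¹ := by simp only [cf]; group
      _ = 1 := by rw [ee]; group
  obtain ⟨u, hu, hu1⟩ : ∃ u, (u = 1 ∨ u = t) ∧ cf f e 0 * cf f e 1 = u * (cf f e 1 * cf f e 0) := by
    rcases h.comm _ (cE e he 0) _ (cE e he 1) with a | a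
    exacts [⟨1, Or.inl rfl, by rw [a, one_mul]⟩, ⟨t, Or.inr rfl, a⟩]
  obtain ⟨v, hv, hv1⟩ : ∃ u, (u = 1 ∨ u = t) ∧ cf f e 0 * cf f e 2 = u * (cf f e 2 * cf f e 0) := by
    rcases h.comm _ (cE e he 0) _ (cE e he 2) with a | a
    exacts [⟨1, Or.inl rfl, by rw [a, one_mul]⟩, ⟨t, Or.inr rfl, a⟩]
  have uc : ∀ g, g * u = u * g := by rcases hu with rfl | rfl; exacts [by simp, h.cen]
  have vc : ∀ g, g * v = v * g := by rcases hv with rfl | rfl; exacts [by simp, h.cen]
  have uu : u * u = 1 := by rcases hu with rfl | rfl; exacts [by simp, h.tt]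
  have vv : v * v = 1 := by rcases hv with rfl | rfl; exacts [by simp, h.tt]
  have a12 := cf_shift uc hu1
  have a23 := cf_shift uc a12
  have a34 := cf_shift uc a23
  have a04 := flip_comm uu (cf_shift uc a34)
  have a13 := cf_shift vc hv1
  have a24 := cf_shift vc a13
  have a03 := flip_comm vv (cf_shift vc a24)
  have a14 := flip_comm vv (cf_shift vc (cf_shift vc a24))
  simp only [Nat.reduceAdd, c5, c6] at a12 a23 a34 a04 a13 a24 a03 a14
  have uvc : ∀ g, g * (u * v) = u * v * g := fun g => by rw [← mul_assoc, uc g, mul_assoc, vc g, mul_assoc]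
  have uv2 : u * v * (u * v) = 1 := by
    rw [mul_assoc, ← mul_assoc v, uc v, mul_assoc, vv, mul_one, uu]
  have s3 := sq_mul_of uc a34 uu
  have s2 := sq_mul_of uvc (comm_mul_of vc a23 a24) uv2
  have b1 : cf f e 1 * (cf f e 2 * (cf f e 3 * cf f e 4)) =
      u * (cf f e 2 * (cf f e 3 * cf f e 4) * cf f e 1) := by
    have := comm_mul_of (by simp) a12 (vv ▸ comm_mul_of vc a13 a14)
    rwa [mul_one] at this
  have s1 := sq_mul_of uc b1 uu
  have b0 : cf f e 0 * (cf f e 1 * (cf f e 2 * (cf f e 3 * cf f e 4))) =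
      1 * (cf f e 1 * (cf f e 2 * (cf f e 3 * cf f e 4)) * cf f e 0) := by
    have k1 := comm_mul_of uc a03 a04
    have k2 := comm_mul_of (w := v * u) (fun g => by rw [← vc u]; exact uvc g) hv1 k1
    rw [← mul_assoc v v, vv, one_mul] at k2
    have k3 := comm_mul_of uc hu1 k2
    rwa [uu] at k3
  have s0 := sq_mul_of (by simp) b0 (by simp)
  rw [s1, s2, s3] at s0
  simp only [sq, one_mul, mul_one] at s0
  have huv : u = v := by
    have k : u * (u * v * u) = 1 := by
      rw [← s0]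
      rcases nrm e he with a | a <;> rw [a]
      exacts [one_mul _, h.tt]
    rw [← mul_assoc, ← mul_assoc, uu, one_mul, uc v] at k
    rw [← mul_one u, ← vv, ← mul_assoc, k, one_mul]
  subst huv
  have hut : u = t := by
    refine hu.resolve_left ?_
    rintro rfl
    simp only [one_mul] at hu1 hv1 a03 a04
    let D : Subgroup Γ := E ⊓ centralizer (Set.range (cf f e))
    have p5 : ∀ i, cf f e (i + 5) = cf f e i := fun i => by simp [cf, pow_add, hf]
    have m5 : ∀ i, cf f e i = cf f e (i % 5) := fun i => by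
      simp only [cf]; rw [pow_eq_pow_mod i hf]
    rcases h.fix hf hn (W := D) inf_le_left (fun w hw => ⟨Normal.conj_mem inferInstance w hw.1 f, by
      rintro _ ⟨i, rfl⟩
      have := hw.2 _ ⟨i + 4, rfl⟩
      rw [← p5 i, ← cf_succ e (i + 4)]
      calc _ = f * (cf f e (i + 4) * w) * f⁻¹ := by group
        _ = _ := by rw [this]; group⟩) ⟨h.mem, fun g _ => h.cen g⟩ with a | a
    · rcases h.zc e he (fun b hb => by
        have := (a.symm ▸ hb : b ∈ D).2 _ ⟨0, rfl⟩
        simpa [cf] using this) with k | k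
      exacts [e1 k, et k]
    · rcases a (cf f e 0) ⟨cE e he 0, by
        rintro _ ⟨i, rfl⟩
        rw [m5]
        have : i % 5 < 5 := Nat.mod_lt _ (by norm_num)
        generalize i % 5 = j at this
        interval_cases j
        exacts [rfl, hu1.symm, hv1.symm, a03.symm, a04.symm]⟩ with k | k
      · exact e1 (by simpa [cf] using k)
      · exact et (by simpa [cf] using k)
  subst hut
  rcases nrm e he with a | a
  · exact ⟨e, he, ee, hu1, hv1, a⟩
  · have ct : ∀ i, cf f (u * e) i = u * cf f e i := fun i => by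
      simp only [cf]; rw [← mul_assoc, uc]; group
    have k : ∀ g k : Γ, u * g * (u * k) = g * k := fun g k => by
      rw [mul_assoc, ← mul_assoc g, uc g, mul_assoc, ← mul_assoc, uu, one_mul]
    refine ⟨u * e, mul_mem h.mem he, by rw [k, ee], ?_, ?_, ?_⟩ <;> simp only [ct, k]
    · exact hu1
    · exact hv1
    · rw [mul_assoc u (cf f e 2), k, mul_assoc u, a, uu]

theorem Ex.pres [E.Normal] (h : Ex E t) (φ : Γ ⧸ E ≃* alternatingGroup (Fin 5)) (hf : f ^ 5 = 1)
    (hn : ¬ ∀ k ∈ E, f * k = k * f) : ∃ δ e x, PresQ δ e t f x := by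
  obtain ⟨e, he, ee, a01, a02, N⟩ := h.clifford hf hn
  have cE : ∀ i, cf f e i ∈ E := fun i => Normal.conj_mem inferInstance e he _
  have c5 : cf f e 5 = cf f e 0 := by simp [cf, hf]
  have sq : ∀ i, cf f e i * cf f e i = 1 := fun i => by
    calc _ = f ^ i * (e * e) * (f ^ i)⁻¹ := by simp only [cf]; group
      _ = 1 := by rw [ee]; group
  have a12 := cf_shift h.cen a01
  have a23 := cf_shift h.cen a12
  have a13 := cf_shift h.cen a02
  have a03 := flip_comm h.tt (cf_shift h.cen (cf_shift h.cen a13))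
  simp only [Nat.reduceAdd, c5] at a12 a23 a13 a03
  obtain ⟨ε, k0, k1, k2, k3, kt⟩ := hom_EE (sq 0) (sq 1) (sq 2) (sq 3) h.tt h.cen a01 a02 a03 a12 a13 a23
  have k4 : ε (eE 4) = cf f e 4 := by
    rw [ee_four.1, map_mul, map_mul, map_mul, k0, k1, k2, k3]
    rw [← mul_assoc, ← mul_assoc, ← mul_assoc] at N
    rw [eq_inv_of_mul_eq_one_left N, inv_eq_of_mul_eq_one_right (sq 4)]
  have ki : ∀ i : Fin 5, ε (eE i) = cf f e i := fun i => by
    fin_cases i
    exacts [k0, k1, k2, k3, k4]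
  have inj : Function.Injective ε := by
    rw [injective_iff_map_eq_one]
    intro m hm
    rcases ee_ker m with a | a | ⟨i, a⟩
    · exact a
    · exact absurd (kt.symm.trans (a ▸ hm)) h.t1
    · refine absurd ?_ h.t1
      rw [← kt, ← a]; simp [hm]
  have rng : ε.range = E := by
    refine eq_of_le_of_card_ge ?_ (by rw [h.card, Nat.card_congr (MonoidHom.ofInjective inj).symm.toEquiv,
      card_EE])
    rintro _ ⟨m, rfl⟩
    refine gen_EE (fun m => ε m ∈ E) (by simp) (fun m hm c c1 c2 => ?_) m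
    rw [map_mul]
    refine mul_mem hm ?_
    interval_cases c
    exacts [k0 ▸ cE 0, k1 ▸ cE 1, k2 ▸ cE 2, k3 ▸ cE 3, kt ▸ h.mem]
  let S : Γ → Fin 5 → Fin 5 → Prop := fun g i j =>
    g * ε (eE i) * g⁻¹ = ε (eE j) ∨ g * ε (eE i) * g⁻¹ = t * ε (eE j)
  have Sex : ∀ g i, ∃ j, S g i j := fun g i => by
    obtain ⟨m, hm⟩ : g * ε (eE i) * g⁻¹ ∈ ε.range :=
      rng ▸ Normal.conj_mem inferInstance _ (ki i ▸ cE i) g
    have hm2 : m * m = 1 := inj (by
      rw [map_mul, hm, map_one, ki]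
      calc _ = g * (cf f e i * cf f e i) * g⁻¹ := by group
        _ = 1 := by rw [sq]; group)
    rcases ee_inv m hm2 with a | a | ⟨j, a | a⟩
    · rw [a, map_one] at hm
      refine absurd (inj ?_) (ee_ne i i).2.2.1
      rw [map_one]
      calc _ = g⁻¹ * (g * ε (eE i) * g⁻¹) * g := by group
        _ = 1 := by rw [← hm]; group
    · rw [a, kt] at hm
      refine absurd (inj ?_) (ee_ne i i).2.2.2
      rw [kt]
      calc _ = g⁻¹ * (g * ε (eE i) * g⁻¹) * g := by group
        _ = t := by rw [← hm, h.cen]; group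
    · exact ⟨j, Or.inl (by rw [← hm, a])⟩
    · exact ⟨j, Or.inr (by rw [← hm, a, map_mul, kt])⟩
  have Suq : ∀ g i j k, S g i j → S g i k → j = k := by
    rintro g i j k (a | a) (b | b)
    · exact (ee_ne j k).1 (inj (a.symm.trans b))
    · exact absurd (inj (by rw [map_mul, kt, ← a, b])) (ee_ne j k).2.1
    · exact absurd (inj (by rw [map_mul, kt, ← a, b])) (ee_ne k j).2.1
    · exact (ee_ne j k).1 (inj (mul_left_cancel (a.symm.trans b)))
  have Smul : ∀ g g' i j k, S g' i j → S g j k → S (g * g') i k := by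
    have q : ∀ g g' z : Γ, g * g' * z * (g * g')⁻¹ = g * (g' * z * g'⁻¹) * g⁻¹ := fun _ _ _ => by group
    have q2 : ∀ g z : Γ, g * (t * z) * g⁻¹ = t * (g * z * g⁻¹) := fun g z => by
      rw [← mul_assoc g, h.cen g]; group
    rintro g g' i j k (a | a) (b | b) <;> simp only [S, q, a, q2, b]
    · simp
    · simp
    · simp
    · left; rw [← mul_assoc, h.tt, one_mul]
  choose σ hσ using Sex
  letI : MulAction Γ (Fin 5) :=
    { smul := σ
      one_smul := fun i => Suq 1 i _ _ (hσ 1 i) (Or.inl (by simp))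
      mul_smul := fun g g' i => Suq _ i _ _ (hσ _ i) (Smul _ _ _ _ _ (hσ g' i) (hσ g _)) }
  let π := MulAction.toPermHom Γ (Fin 5)
  have hπ : ∀ g i, S g i (π g i) := hσ
  have kE : E ≤ π.ker := fun k hk => by
    obtain ⟨m, rfl⟩ : k ∈ ε.range := rng ▸ hk
    ext1 i
    refine Suq _ i _ _ (hπ _ i) ?_
    rcases ee_cj m i with a | a
    · left; rw [← map_inv, ← map_mul, ← map_mul, a]; rfl
    · right; rw [← map_inv, ← map_mul, ← map_mul, a, map_mul, kt]; rfl
  have kE2 : π.ker = E := by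
    let ψ : Γ →* alternatingGroup (Fin 5) := φ.toMonoidHom.comp (QuotientGroup.mk' E)
    have hψ : Function.Surjective ψ := φ.surjective.comp (QuotientGroup.mk'_surjective E)
    have hk : ψ.ker = E := by
      ext g; simp [ψ, QuotientGroup.eq_one_iff]
    have hc : (π.ker.map ψ).comap ψ = π.ker := comap_map_eq_self (hk ▸ kE)
    rcases (Normal.map (inferInstance : π.ker.Normal) ψ hψ).eq_bot_or_eq_top with a | a
    · rw [← hc, a, MonoidHom.comap_bot, hk]
    · rw [a, comap_top] at hc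
      have h1 : π f = 1 := (hc ▸ mem_top f : f ∈ π.ker)
      have h2 := hπ f 0
      rw [h1] at h2
      exact absurd (Suq f 0 _ 1 h2 (Or.inl (by rw [ki, ki]; exact cf_succ e 0))) (by decide)
  have hr : π.range = alternatingGroup (Fin 5) := by
    refine Equiv.Perm.eq_alternatingGroup_of_index_eq_two ?_
    have h1 : Nat.card π.range = 60 := by
      rw [← index_ker, kE2, index_eq_card, Nat.card_congr φ.toEquiv, card_a5]
    have h2 := π.range.card_mul_index
    rw [h1, Nat.card_perm] at h2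
    simp [Nat.factorial] at h2
    omega
  obtain ⟨g, hg⟩ : Equiv.swap (0 : Fin 5) 1 * Equiv.swap 2 3 ∈ π.range :=
    hr ▸ Equiv.Perm.mem_alternatingGroup.2 (by decide)
  have sg : ∀ i j, π g i = j → ∃ a : Bool, g * ε (eE i) * g⁻¹ = ε (cond a tE 1 * eE j) := by
    rintro i _ rfl
    rcases hπ g i with a | a
    · exact ⟨false, by simpa using a⟩
    · exact ⟨true, by simpa [kt] using a⟩
  obtain ⟨b0, g0⟩ := sg 0 1 (by rw [hg]; decide)
  obtain ⟨b1, g1⟩ := sg 1 0 (by rw [hg]; decide)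
  obtain ⟨b2, g2⟩ := sg 2 3 (by rw [hg]; decide)
  obtain ⟨b3, g3⟩ := sg 3 2 (by rw [hg]; decide)
  obtain ⟨m, m0, m1, m2, m3⟩ := ee_sg b0 b1 b2 b3
  have fx : ∀ i j z, g * ε (eE i) * g⁻¹ = ε z → m * eE j * m⁻¹ = z →
      (ε m)⁻¹ * g * cf f e i * ((ε m)⁻¹ * g)⁻¹ = cf f e j := by
    intro i j z a b
    rw [← ki, ← ki]
    calc _ = (ε m)⁻¹ * (g * ε (eE i) * g⁻¹) * ε m := by group
      _ = _ := by rw [a, ← b]; simp only [map_mul, map_inv]; group
  obtain ⟨x, x0, x1, x2, x3⟩ : ∃ x : Γ, x * cf f e 0 * x⁻¹ = cf f e 1 ∧ x * cf f e 1 * x⁻¹ = cf f e 0 ∧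
      x * cf f e 2 * x⁻¹ = cf f e 3 ∧ x * cf f e 3 * x⁻¹ = cf f e 2 :=
    ⟨_, fx 0 1 _ g0 m0, fx 1 0 _ g1 m1, fx 2 3 _ g2 m2, fx 3 2 _ g3 m3⟩
  have x4 : x * cf f e 4 * x⁻¹ = cf f e 4 := by
    have a : cf f e 4 = cf f e 0 * cf f e 1 * cf f e 2 * cf f e 3 := by
      rw [← k4, ee_four.1, map_mul, map_mul, map_mul, k0, k1, k2, k3]
    have b : cf f e 4 = cf f e 1 * cf f e 0 * cf f e 3 * cf f e 2 := by
      rw [← k4, ee_four.2, map_mul, map_mul, map_mul, k0, k1, k2, k3]
    calc _ = x * cf f e 0 * x⁻¹ * (x * cf f e 1 * x⁻¹) * (x * cf f e 2 * x⁻¹) * (x * cf f e 3 * x⁻¹) := by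
          rw [a]; group
      _ = _ := by rw [x0, x1, x2, x3, ← b]
  have cen : ∀ z : Γ, (∀ i < 5, z * cf f e i * z⁻¹ = cf f e i) → z = 1 ∨ z = t := by
    intro z hz
    have hz1 : z ∈ E := by
      rw [← kE2]
      ext1 i
      exact Suq _ i _ _ (hπ _ i) (Or.inl (by rw [ki]; exact (hz i i.2).trans (ki i).symm))
    refine h.zc z hz1 fun b hb => ?_
    obtain ⟨m, rfl⟩ : b ∈ ε.range := rng ▸ hb
    refine gen_EE (fun m => z * ε m = ε m * z) (by simp) (fun m hm c c1 c2 => ?_) m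
    have : z * ε (gE c) = ε (gE c) * z := by
      interval_cases c
      exacts [k0 ▸ mul_inv_eq_iff_eq_mul.1 (hz 0 (by omega)), k1 ▸ mul_inv_eq_iff_eq_mul.1 (hz 1 (by omega)),
        k2 ▸ mul_inv_eq_iff_eq_mul.1 (hz 2 (by omega)), k3 ▸ mul_inv_eq_iff_eq_mul.1 (hz 3 (by omega)),
        kt ▸ h.cen z]
    rw [map_mul, ← mul_assoc, hm, mul_assoc, this, mul_assoc]
  have cj2 : ∀ a b z : Γ, a * b * z * (a * b)⁻¹ = a * (b * z * b⁻¹) * a⁻¹ := fun _ _ _ => by group
  have hx3 := cen ((x * f) ^ 3) (fun i hi => by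
    simp only [pow_succ, pow_zero, one_mul, cj2]
    interval_cases i <;> simp only [cf_succ, Nat.reduceAdd, c5, x0, x1, x2, x3, x4])
  have main : ∀ x : Γ, x * cf f e 0 * x⁻¹ = cf f e 1 → x * cf f e 2 * x⁻¹ = cf f e 3 →
      (x * x = 1 ∨ x * x = t) → (x * f) ^ 3 = 1 → ∃ δ e x, PresQ δ e t f x := by
    intro x x0 x2 hx hx3
    obtain ⟨δ, hδ⟩ : ∃ δ : Bool, x * x = cond δ t 1 := hx.elim (⟨false, ·⟩) (⟨true, ·⟩)
    have e0 : cf f e 0 = e := by simp [cf]
    have e1 : cf f e 1 = f * e * f⁻¹ := by simp [cf]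
    refine ⟨δ, e, x, ee, h.tt, hf, hx3, (h.cen e).symm, (h.cen f).symm, (h.cen x).symm, ?_, ?_, ?_,
      by rw [← e1, ← x0, e0], x2, hδ⟩
    · rw [← e1, ← e0, pow_two, sq_mul_of h.cen (by rwa [e0] at a01 ⊢) h.tt, sq, e0, sq]; simp
    · have := sq_mul_of h.cen a02 h.tt
      rw [sq, sq, e0] at this
      rw [pow_two]; simpa [cf] using this
    · calc (e * f) ^ 5 = cf f e 0 * (cf f e 1 * (cf f e 2 * (cf f e 3 * cf f e 4))) * f ^ 5 := by
            simp only [cf, pow_succ, pow_zero, mul_inv_rev, mul_assoc, one_mul, inv_one, mul_one,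
              inv_mul_cancel_left, mul_inv_cancel_left]
        _ = 1 := by rw [N, hf, one_mul]
  have hx2 := cen (x * x) (fun i hi => by
    simp only [cj2]
    interval_cases i <;> simp only [x0, x1, x2, x3, x4])
  rcases hx3 with a | a
  · exact main x x0 x2 hx2 a
  · have q : ∀ z, x * t * z * (x * t)⁻¹ = x * z * x⁻¹ := fun z => by
      rw [cj2, ← h.cen z, mul_inv_cancel_right]
    refine main (x * t) (by rw [q, x0]) (by rw [q, x2]) ?_ ?_
    · rwa [mul_assoc, ← mul_assoc t, ← h.cen x, mul_assoc x t, h.tt, mul_one]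
    · have c : Commute (x * f) t := h.cen _
      rw [mul_assoc, ← h.cen f, ← mul_assoc, c.mul_pow, a, pow_succ, pow_two, h.tt, one_mul, h.tt]

end Cfsg.Agent.H6.J3
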