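import Cfsg.Agent.H6.J3B
import Cfsg.Agent.H3.ZStar

/-! Simple groups with an involution centraliser `2^{1+4}.A₅`: identification of the centraliser. -/

set_option autoImplicit false

namespace Cfsg.Agent.H6.J3

open Subgroup Cfsg.Agent.H5

variable {G : Type*} [Group G] {δ : Bool}

structure Base (ι : Q δ →* G) : Prop where
  inj : Function.Injective ι
  cent : ∀ g, g * ι (tQ δ) = ι (tQ δ) * g → ∃ m, ι m = g

/-- conjugation relation -/
def Cj (ι : Q δ →* G) (g : G) (a b : Q δ) : Prop := g⁻¹ * ι a * g = ι b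

variable {ι : Q δ →* G} {g h : G} {a b c d : Q δ}

theorem Cj.mul (h1 : Cj ι g a b) (h2 : Cj ι g c d) : Cj ι g (a * c) (b * d) := by
  unfold Cj at *; rw [map_mul, map_mul, ← h1, ← h2]; group
theorem Cj.inv (h1 : Cj ι g a b) : Cj ι g a⁻¹ b⁻¹ := by
  unfold Cj at *; rw [map_inv, map_inv, ← h1]; group
theorem Cj.one : Cj ι g 1 1 := by simp [Cj]
theorem Cj.pow (h1 : Cj ι g a b) (n : ℕ) : Cj ι g (a ^ n) (b ^ n) := by
  induction n with
  | zero => simpa using Cj.one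
  | succ n ih => rw [pow_succ, pow_succ]; exact ih.mul h1
theorem Cj.comp (h1 : Cj ι g a b) (h2 : Cj ι h b c) : Cj ι (g * h) a c := by
  unfold Cj at *; rw [← h2, ← h1]; group
theorem Cj.symm (h1 : Cj ι g a b) : Cj ι g⁻¹ b a := by
  unfold Cj at *; rw [← h1]; group
theorem Cj.refl (a : Q δ) : Cj ι 1 a a := by simp [Cj]
theorem Cj.map (k a : Q δ) : Cj ι (ι k) a (k⁻¹ * a * k) := by simp [Cj]
theorem Cj.of {k : Q δ} (h1 : k⁻¹ * a * k = b) : Cj ι (ι k) a b := h1 ▸ Cj.map k a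
theorem Cj.eq (h1 : Cj ι g a b) {a' b' : Q δ} (e1 : a = a') (e2 : b = b') : Cj ι g a' b' :=
  e1 ▸ e2 ▸ h1
theorem Base.uq (B : Base ι) (h1 : Cj ι g a b) (h2 : Cj ι g a c) : b = c := B.inj (Eq.trans (Eq.symm h1) h2)
theorem Base.uq' (B : Base ι) (h1 : Cj ι g a c) (h2 : Cj ι g b c) : a = b := B.uq h1.symm h2.symm
theorem Base.comm (B : Base ι) (h1 : Cj ι g a b) (h2 : Cj ι g c d) (e : a * c = c * a) :
    b * d = d * b := B.uq (h1.mul h2) ((h2.mul h1).eq e.symm rfl)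
theorem Base.pow_eq (B : Base ι) (h1 : Cj ι g a b) {n : ℕ} (e : a ^ n = 1) : b ^ n = 1 :=
  B.uq (h1.pow n) (Cj.one.eq e.symm rfl)
theorem Base.ne_one (B : Base ι) (h1 : Cj ι g a b) (e : a ≠ 1) : b ≠ 1 :=
  fun e' => e (B.uq' h1 (Cj.one.eq rfl e'.symm))
theorem Base.ex (B : Base ι) (h1 : Cj ι g a (tQ δ)) (e : c * a = a * c) : ∃ d, Cj ι g c d := by
  obtain ⟨d, hd⟩ := B.cent (g⁻¹ * ι c * g) (by
    rw [← h1]
    calc _ = g⁻¹ * ι (c * a) * g := by rw [map_mul]; group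
      _ = _ := by rw [e, map_mul]; group)
  exact ⟨d, hd.symm⟩
theorem Base.of_fix (B : Base ι) (h1 : Cj ι g (tQ δ) (tQ δ)) : ∃ m, ι m = g :=
  B.cent g (by nth_rewrite 1 [← h1]; group)
theorem Base.cj_iff (B : Base ι) {k : Q δ} : Cj ι (ι k) a b ↔ k⁻¹ * a * k = b :=
  ⟨fun h => B.uq (Cj.map k a) h, Cj.of⟩

noncomputable def eiQ (δ : Bool) (i : Fin 5) : Q δ := Q.mk δ (eE i).val
noncomputable def jQ (m : Q δ) : Q δ := Q.mk δ (fld (cond δ jT1 jT0) (nat_lit 12) (nat_lit 4095) m.val)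

theorem q_ker : ∀ m : Q δ, m = 1 ∨ m = tQ δ ∨ ∃ i : Fin 5, ∃ j : Fin 5,
    m * eiQ δ i * m⁻¹ * (eiQ δ i)⁻¹ = tQ δ ∨
    m * eiQ δ i * m⁻¹ * (eiQ δ i)⁻¹ * eiQ δ j * (m * eiQ δ i * m⁻¹ * (eiQ δ i)⁻¹)⁻¹ * (eiQ δ j)⁻¹ =
      tQ δ := by
  cases δ <;> decide +kernel
theorem q_t : ∀ m : Q δ, m * tQ δ = tQ δ * m := by cases δ <;> decide +kernel
theorem q_inv : ∀ m : Q δ, m * m = 1 → m = 1 ∨ m = tQ δ ∨ (jQ m)⁻¹ * m * jQ m = eQ δ ∨
    (δ = false ∧ (jQ m)⁻¹ * m * jQ m = xQ δ) := by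
  cases δ <;> decide +kernel
theorem q_tt : tQ δ * tQ δ = 1 ∧ tQ δ ≠ 1 ∧ tQ δ ≠ eQ δ ∧ tQ δ ≠ xQ δ := by
  cases δ <;> decide +kernel

abbrev Q0 := Q false
def tt : Q0 := tQ false
def ee : Q0 := eQ false
def xx : Q0 := xQ false
def yy : Q0 := Q.mk false (nat_lit 1440)
def ss : Q0 := Q.mk false (nat_lit 8)
def nn : Q0 := Q.mk false (nat_lit 864)
def ww : Q0 := Q.mk false (nat_lit 92)
def vv (i : Fin 16) : Q0 := Q.mk false (fld vT (nat_lit 12) (nat_lit 4095) i.1)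

theorem q_cx : ∀ m : Q0, m * xx = xx * m → ∃ i, m = vv i := by decide +kernel
theorem q_vv : ∀ i j, vv i * vv j = vv j * vv i := by decide +kernel
theorem q_c1 : cntQ true (fun m => m * eQ true = eQ true * m ∧ m * m = tQ true) = 36 := by
  decide +kernel
theorem q_c2 : cntQ true (fun m => m * eQ true = eQ true * m ∧ m * m = eQ true) = 12 := by
  decide +kernel

theorem Base.noswap {ι : Q0 →* G} (B : Base ι) (h1 : Cj ι g ee tt) (h2 : Cj ι g tt xx) : False := by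
  obtain ⟨a, ha⟩ := B.ex h1 (c := xx) (by decide +kernel)
  obtain ⟨b, hb⟩ := B.ex h1 (c := ww) (by decide +kernel)
  obtain ⟨i, rfl⟩ := q_cx a (B.comm ha h2 (q_t _))
  obtain ⟨j, rfl⟩ := q_cx b (B.comm hb h2 (q_t _))
  exact absurd (B.comm ha.symm hb.symm (q_vv i j)) (by decide +kernel)

theorem Base.swap_e (B : Base ι) (h1 : Cj ι g (eQ δ) (tQ δ)) :
    ∃ g, Cj ι g (eQ δ) (tQ δ) ∧ Cj ι g (tQ δ) (eQ δ) := by
  obtain ⟨m, hm⟩ := B.ex h1 (c := tQ δ) (q_t _).symm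
  have h2 : m * m = 1 := by simpa [pow_two] using B.pow_eq hm (n := 2) (by rw [pow_two, q_tt.1])
  have h3 : Cj ι (g * ι (jQ m)) (eQ δ) (tQ δ) := h1.comp (Cj.of (by rw [mul_assoc, ← q_t]; simp))
  rcases q_inv m h2 with a | a | a | ⟨rfl, a⟩
  · exact absurd a (B.ne_one hm q_tt.2.1)
  · exact absurd (B.uq' (hm.eq rfl a) h1) q_tt.2.2.1
  · exact ⟨_, h3, hm.comp (Cj.of a)⟩
  · exact (B.noswap h3 (hm.comp (Cj.of a))).elim

theorem Base.swap_x {ι : Q0 →* G} (B : Base ι) (h1 : Cj ι g xx tt) :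
    ∃ g, Cj ι g xx tt ∧ Cj ι g tt xx := by
  obtain ⟨m, hm⟩ := B.ex h1 (c := tt) (q_t _).symm
  have h2 : m * m = 1 := by
    simpa [pow_two] using B.pow_eq hm (n := 2) (by rw [pow_two]; exact q_tt.1)
  have h3 : Cj ι (g * ι (jQ m)) xx tt := h1.comp (Cj.of (by rw [mul_assoc, tt, ← q_t]; simp))
  rcases q_inv m h2 with a | a | a | ⟨-, a⟩
  · exact absurd a (B.ne_one hm q_tt.2.1)
  · exact absurd (B.uq' (hm.eq rfl a) h1) q_tt.2.2.2
  · exact (B.noswap (hm.comp (Cj.of a)).symm h3.symm).elim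
  · exact ⟨_, h3, hm.comp (Cj.of a)⟩

theorem Base.not_true {ι : Q true →* G} (B : Base ι) (h1 : Cj ι g (eQ true) (tQ true)) : False := by
  obtain ⟨g, h1, h2⟩ := B.swap_e h1
  have key : ∀ m : {m : Q true // m * eQ true = eQ true * m ∧ m * m = tQ true},
      ∃ m' : {m : Q true // m * eQ true = eQ true * m ∧ m * m = eQ true}, Cj ι g m.1 m'.1 := by
    rintro ⟨m, a, b⟩
    obtain ⟨d, hd⟩ := B.ex h1 a
    exact ⟨⟨d, B.comm hd h2 (q_t _), B.uq (hd.mul hd) (h2.eq b.symm rfl)⟩, hd⟩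
  choose F hF using key
  have := Nat.card_le_card_of_injective F fun a b e => Subtype.ext (B.uq' (hF a) (e ▸ hF b))
  rw [card_eq_cnt, card_eq_cnt, q_c1, q_c2] at this
  omega

theorem exists_base [Finite G] [IsSimpleGroup G] {t : G} (ht : orderOf t = 2)
    (E : Subgroup (centralizer ({t} : Set G))) [E.Normal] (hE : Nat.card E = 32)
    (hX : IsExtraspecial 2 E) (φ : (centralizer ({t} : Set G)) ⧸ E ≃* alternatingGroup (Fin 5)) :
    ∃ ι : Q0 →* G, Base ι ∧ ι tt = t ∧ ((∃ g, Cj ι g ee tt) ∨ ∃ g, Cj ι g xx tt) := by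
  have t2 : t * t = 1 := by rw [← pow_two, ← ht, pow_orderOf_eq_one]
  have t1 : t ≠ 1 := by rintro rfl; simp at ht
  obtain ⟨g, hg1, hg2⟩ : ∃ g : G, Commute t (g * t * g⁻¹) ∧ g * t * g⁻¹ ≠ t := by
    by_contra hn
    push Not at hn
    obtain ⟨N, hN, hodd, hc⟩ := H3.zstar_commute t2 hn
    rcases hN.eq_bot_or_eq_top with rfl | rfl
    · have h1 : t ∈ center G := mem_center_iff.2 fun g => by
        have := mem_bot.1 (hc g)
        rw [mul_inv_eq_one, mul_inv_eq_iff_eq_mul] at this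
        exact this.symm
      rcases (inferInstance : (center G).Normal).eq_bot_or_eq_top with a | a
      · exact t1 (by rwa [a] at h1)
      · obtain ⟨u, v, huv⟩ := a5_not_comm
        obtain ⟨u, rfl⟩ := φ.surjective u
        obtain ⟨v, rfl⟩ := φ.surjective v
        obtain ⟨u, rfl⟩ := QuotientGroup.mk_surjective u
        obtain ⟨v, rfl⟩ := QuotientGroup.mk_surjective v
        refine huv ?_
        have : u * v = v * u :=
          Subtype.ext (mem_center_iff.1 (show (v : G) ∈ center G from a ▸ mem_top _) (u : G))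
        rw [← map_mul, ← map_mul, ← QuotientGroup.mk_mul, ← QuotientGroup.mk_mul, this]
    · have := orderOf_dvd_natCard t
      rw [ht] at this
      rw [card_top] at hodd
      exact (Nat.not_even_iff_odd.2 hodd) (even_iff_two_dvd.2 this)
  let T : centralizer ({t} : Set G) := ⟨t, mem_centralizer_singleton_iff.2 rfl⟩
  have hT : orderOf T = 2 := by rw [← ht, ← orderOf_coe]
  have X : Ex E T := ex_of hT (fun g => Subtype.ext (mem_centralizer_singleton_iff.1 g.2)) hE hX φ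
  let u : centralizer ({t} : Set G) := ⟨g * t * g⁻¹, mem_centralizer_singleton_iff.2 hg1.symm⟩
  by_cases h5 : ∀ f : centralizer ({t} : Set G), f ^ 5 = 1 → ∀ k ∈ E, f * k = k * f
  · exfalso
    obtain ⟨a, ha, b, hb, au, bu, ab⟩ := X.exists_noncomm (X.split_sign φ h5 u)
    have mem : ∀ a : centralizer ({t} : Set G), a * u = u * a →
        g⁻¹ * a * g ∈ centralizer ({t} : Set G) := fun a e => mem_centralizer_singleton_iff.2 (by
      have e' : (a : G) * (g * t * g⁻¹) = g * t * g⁻¹ * a := congrArg Subtype.val e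
      calc _ = g⁻¹ * (a * (g * t * g⁻¹)) * g := by group
        _ = _ := by rw [e']; group)
    have p4 : ∀ a : centralizer ({t} : Set G), a ∈ E → (g⁻¹ * a * g) ^ 4 = 1 := fun a ha => by
      have : (a : G) ^ 4 = 1 := congrArg Subtype.val (X.four ha)
      rw [show g⁻¹ * a * g = g⁻¹ * a * g⁻¹⁻¹ by simp, conj_pow, this]; simp
    have ab' : (a : G) * b = t * (b * a) := congrArg Subtype.val ab
    rcases X.split_comm φ h5 (a := ⟨_, mem a au⟩) (b := ⟨_, mem b bu⟩) (Subtype.ext (p4 a ha))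
      (Subtype.ext (p4 b hb)) (Subtype.ext (by
        have := p4 _ (mul_mem ha hb)
        change (g⁻¹ * a * g * (g⁻¹ * b * g)) ^ 4 = 1
        rw [← this]; congr 1; simp [mul_assoc])) with e | e
    · have e' : g⁻¹ * a * g * (g⁻¹ * b * g) = g⁻¹ * b * g * (g⁻¹ * a * g) := congrArg Subtype.val e
      have : (a : G) * b = b * a := by
        calc _ = g * (g⁻¹ * a * g * (g⁻¹ * b * g)) * g⁻¹ := by group
          _ = _ := by rw [e']; group
      rw [this] at ab'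
      exact t1 (by simpa using ab'.symm)
    · have e' : g⁻¹ * a * g * (g⁻¹ * b * g) = t * (g⁻¹ * b * g * (g⁻¹ * a * g)) :=
        congrArg Subtype.val e
      have : (a : G) * b = g * t * g⁻¹ * (b * a) := by
        calc _ = g * (g⁻¹ * a * g * (g⁻¹ * b * g)) * g⁻¹ := by group
          _ = _ := by rw [e']; group
      exact hg2 (mul_right_cancel (this.symm.trans ab'))
  push Not at h5
  obtain ⟨f, hf, k, hk, hfk⟩ := h5
  obtain ⟨δ, e, x, P⟩ := X.pres φ hf fun h => hfk (h k hk)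
  obtain ⟨ι0, -, i2, -, -⟩ := P.hom
  have inj : Function.Injective ι0 := by
    rw [injective_iff_map_eq_one]
    intro m hm
    rcases q_ker m with a | a | ⟨i, j, a | a⟩
    · exact a
    · exact absurd (i2.symm.trans (a ▸ hm)) X.t1
    · refine absurd ?_ X.t1
      rw [← i2, ← a]; simp [hm]
    · refine absurd ?_ X.t1
      rw [← i2, ← a]; simp [hm]
  have surj := (Function.Injective.bijective_of_nat_card_le inj (by rw [X.card_all φ, card_Q])).2
  let ι : Q δ →* G := (centralizer ({t} : Set G)).subtype.comp ι0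
  have it : ι (tQ δ) = t := congrArg Subtype.val i2
  have B : Base ι := ⟨Subtype.val_injective.comp inj, fun z hz => by
    obtain ⟨m, hm⟩ := surj ⟨z, mem_centralizer_singleton_iff.2 (by rwa [it] at hz)⟩
    exact ⟨m, congrArg Subtype.val hm⟩⟩
  obtain ⟨m, hm⟩ := surj u
  have hm' : Cj ι g m (tQ δ) := by
    have : ι m = g * t * g⁻¹ := congrArg Subtype.val hm
    unfold Cj; rw [this, it]; group
  have h2 : m * m = 1 := by
    simpa [pow_two] using B.pow_eq hm'.symm (n := 2) (by rw [pow_two, q_tt.1])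
  have key : (∃ g, Cj ι g (eQ δ) (tQ δ)) ∨ (δ = false ∧ ∃ g, Cj ι g (xQ δ) (tQ δ)) := by
    rcases q_inv m h2 with a | a | a | ⟨a, b⟩
    · exact absurd a (B.ne_one hm'.symm q_tt.2.1)
    · refine absurd ?_ hg2
      have : ι m = g * t * g⁻¹ := congrArg Subtype.val hm
      rw [← this, a, it]
    · exact Or.inl ⟨_, (Cj.of a).symm.comp hm'⟩
    · exact Or.inr ⟨a, _, (Cj.of b).symm.comp hm'⟩
  cases δ
  · exact ⟨ι, B, it, key.imp id (·.2)⟩
  · obtain ⟨g, hg⟩ := key.resolve_right (by simp)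
    exact (B.not_true hg).elim

end Cfsg.Agent.H6.J3
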