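import Cfsg.Agent.H6.J3D

set_option autoImplicit false
set_option maxRecDepth 100000

namespace Cfsg.Agent.H6.J3

open Cfsg.Agent.H5 Cfsg.Agent.H8.TC Cfsg.Agent.H6.TT

theorem jf_0 : blk jf (nat_lit 52326) (nat_lit 0) (nat_lit 16) = 0 := by decide +kernel
theorem jf_16 : blk jf (nat_lit 52326) (nat_lit 16) (nat_lit 16) = 0 := by decide +kernel
theorem jf_32 : blk jf (nat_lit 52326) (nat_lit 32) (nat_lit 16) = 0 := by decide +kernel
theorem jf_48 : blk jf (nat_lit 52326) (nat_lit 48) (nat_lit 16) = 0 := by decide +kernel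
theorem jf_64 : blk jf (nat_lit 52326) (nat_lit 64) (nat_lit 16) = 0 := by decide +kernel
theorem jf_80 : blk jf (nat_lit 52326) (nat_lit 80) (nat_lit 16) = 0 := by decide +kernel
theorem jf_96 : blk jf (nat_lit 52326) (nat_lit 96) (nat_lit 16) = 0 := by decide +kernel
theorem jf_112 : blk jf (nat_lit 52326) (nat_lit 112) (nat_lit 16) = 0 := by decide +kernel
theorem jf_128 : blk jf (nat_lit 52326) (nat_lit 128) (nat_lit 9) = 0 := by decide +kernel

end Cfsg.Agent.H6.J3
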