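import Cfsg.Agent.H6.J3D

set_option autoImplicit false
set_option maxRecDepth 100000

namespace Cfsg.Agent.H6.J3

open Cfsg.Agent.H5 Cfsg.Agent.H8.TC Cfsg.Agent.H6.TT

theorem jf_137 : blk jf (nat_lit 52326) (nat_lit 137) (nat_lit 16) = 0 := by decide +kernel
theorem jf_153 : blk jf (nat_lit 52326) (nat_lit 153) (nat_lit 16) = 0 := by decide +kernel
theorem jf_169 : blk jf (nat_lit 52326) (nat_lit 169) (nat_lit 16) = 0 := by decide +kernel
theorem jf_185 : blk jf (nat_lit 52326) (nat_lit 185) (nat_lit 16) = 0 := by decide +kernel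
theorem jf_201 : blk jf (nat_lit 52326) (nat_lit 201) (nat_lit 16) = 0 := by decide +kernel
theorem jf_217 : blk jf (nat_lit 52326) (nat_lit 217) (nat_lit 16) = 0 := by decide +kernel
theorem jf_233 : blk jf (nat_lit 52326) (nat_lit 233) (nat_lit 16) = 0 := by decide +kernel
theorem jf_249 : blk jf (nat_lit 52326) (nat_lit 249) (nat_lit 16) = 0 := by decide +kernel
theorem jf_265 : blk jf (nat_lit 52326) (nat_lit 265) (nat_lit 9) = 0 := by decide +kernel

end Cfsg.Agent.H6.J3
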