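import Cfsg.Agent.H6.J3D

set_option autoImplicit false
set_option maxRecDepth 100000

namespace Cfsg.Agent.H6.J3

open Cfsg.Agent.H5 Cfsg.Agent.H8.TC Cfsg.Agent.H6.TT

theorem jf_274 : blk jf (nat_lit 52326) (nat_lit 274) (nat_lit 16) = 0 := by decide +kernel
theorem jf_290 : blk jf (nat_lit 52326) (nat_lit 290) (nat_lit 16) = 0 := by decide +kernel
theorem jf_306 : blk jf (nat_lit 52326) (nat_lit 306) (nat_lit 16) = 0 := by decide +kernel
theorem jf_322 : blk jf (nat_lit 52326) (nat_lit 322) (nat_lit 16) = 0 := by decide +kernel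
theorem jf_338 : blk jf (nat_lit 52326) (nat_lit 338) (nat_lit 16) = 0 := by decide +kernel
theorem jf_354 : blk jf (nat_lit 52326) (nat_lit 354) (nat_lit 16) = 0 := by decide +kernel
theorem jf_370 : blk jf (nat_lit 52326) (nat_lit 370) (nat_lit 16) = 0 := by decide +kernel
theorem jf_386 : blk jf (nat_lit 52326) (nat_lit 386) (nat_lit 16) = 0 := by decide +kernel
theorem jf_402 : blk jf (nat_lit 52326) (nat_lit 402) (nat_lit 9) = 0 := by decide +kernel

end Cfsg.Agent.H6.J3
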