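import Cfsg.Agent.H6.J3D

set_option autoImplicit false
set_option maxRecDepth 100000

namespace Cfsg.Agent.H6.J3

open Cfsg.Agent.H5 Cfsg.Agent.H8.TC Cfsg.Agent.H6.TT

theorem jf_411 : blk jf (nat_lit 52326) (nat_lit 411) (nat_lit 16) = 0 := by decide +kernel
theorem jf_427 : blk jf (nat_lit 52326) (nat_lit 427) (nat_lit 16) = 0 := by decide +kernel
theorem jf_443 : blk jf (nat_lit 52326) (nat_lit 443) (nat_lit 16) = 0 := by decide +kernel
theorem jf_459 : blk jf (nat_lit 52326) (nat_lit 459) (nat_lit 16) = 0 := by decide +kernel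
theorem jf_475 : blk jf (nat_lit 52326) (nat_lit 475) (nat_lit 16) = 0 := by decide +kernel
theorem jf_491 : blk jf (nat_lit 52326) (nat_lit 491) (nat_lit 16) = 0 := by decide +kernel
theorem jf_507 : blk jf (nat_lit 52326) (nat_lit 507) (nat_lit 16) = 0 := by decide +kernel
theorem jf_523 : blk jf (nat_lit 52326) (nat_lit 523) (nat_lit 16) = 0 := by decide +kernel
theorem jf_539 : blk jf (nat_lit 52326) (nat_lit 539) (nat_lit 9) = 0 := by decide +kernel

end Cfsg.Agent.H6.J3
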