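import Cfsg.Agent.H6.J3D

set_option autoImplicit false
set_option maxRecDepth 100000

namespace Cfsg.Agent.H6.J3

open Cfsg.Agent.H5 Cfsg.Agent.H8.TC Cfsg.Agent.H6.TT

theorem jf_548 : blk jf (nat_lit 52326) (nat_lit 548) (nat_lit 16) = 0 := by decide +kernel
theorem jf_564 : blk jf (nat_lit 52326) (nat_lit 564) (nat_lit 16) = 0 := by decide +kernel
theorem jf_580 : blk jf (nat_lit 52326) (nat_lit 580) (nat_lit 16) = 0 := by decide +kernel
theorem jf_596 : blk jf (nat_lit 52326) (nat_lit 596) (nat_lit 16) = 0 := by decide +kernel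
theorem jf_612 : blk jf (nat_lit 52326) (nat_lit 612) (nat_lit 16) = 0 := by decide +kernel
theorem jf_628 : blk jf (nat_lit 52326) (nat_lit 628) (nat_lit 16) = 0 := by decide +kernel
theorem jf_644 : blk jf (nat_lit 52326) (nat_lit 644) (nat_lit 16) = 0 := by decide +kernel
theorem jf_660 : blk jf (nat_lit 52326) (nat_lit 660) (nat_lit 16) = 0 := by decide +kernel
theorem jf_676 : blk jf (nat_lit 52326) (nat_lit 676) (nat_lit 9) = 0 := by decide +kernel

end Cfsg.Agent.H6.J3
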