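import Cfsg.Agent.H6.J3D

set_option autoImplicit false
set_option maxRecDepth 100000

namespace Cfsg.Agent.H6.J3

open Cfsg.Agent.H5 Cfsg.Agent.H8.TC Cfsg.Agent.H6.TT

theorem jf_685 : blk jf (nat_lit 52326) (nat_lit 685) (nat_lit 16) = 0 := by decide +kernel
theorem jf_701 : blk jf (nat_lit 52326) (nat_lit 701) (nat_lit 16) = 0 := by decide +kernel
theorem jf_717 : blk jf (nat_lit 52326) (nat_lit 717) (nat_lit 16) = 0 := by decide +kernel
theorem jf_733 : blk jf (nat_lit 52326) (nat_lit 733) (nat_lit 16) = 0 := by decide +kernel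
theorem jf_749 : blk jf (nat_lit 52326) (nat_lit 749) (nat_lit 16) = 0 := by decide +kernel
theorem jf_765 : blk jf (nat_lit 52326) (nat_lit 765) (nat_lit 16) = 0 := by decide +kernel
theorem jf_781 : blk jf (nat_lit 52326) (nat_lit 781) (nat_lit 16) = 0 := by decide +kernel
theorem jf_797 : blk jf (nat_lit 52326) (nat_lit 797) (nat_lit 16) = 0 := by decide +kernel
theorem jf_813 : blk jf (nat_lit 52326) (nat_lit 813) (nat_lit 5) = 0 := by decide +kernel

end Cfsg.Agent.H6.J3
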