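import Cfsg.Agent.H6.J3C

/-! The normaliser of the four-group `⟨t, e⟩`. -/

set_option autoImplicit false

namespace Cfsg.Agent.H6.J3

open Subgroup Cfsg.Agent.H5

variable {G : Type*} [Group G] {ι : Q0 →* G} {g p : G}

noncomputable def hQ (m : Q0) : Q0 := Q.mk false (fld hT (nat_lit 12) (nat_lit 4095) m.val)
noncomputable def xs (i : Fin 3) : Q0 := (yy ^ i.1)⁻¹ * xx * yy ^ i.1
noncomputable def ws (i : Fin 3) : Q0 := (yy ^ i.1)⁻¹ * ww * yy ^ i.1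

theorem q_h3 : ∀ m : Q0, m * ee = ee * m → m ^ 3 = 1 → m ≠ 1 → hQ m * ee = ee * hQ m ∧
    ((hQ m)⁻¹ * m * hQ m = yy ∨ (hQ m)⁻¹ * m * hQ m = yy⁻¹) := by decide +kernel
theorem q_w6 : ∀ m : Q0, m * ee = ee * m → m ^ 2 = 1 → m ≠ 1 → (yy⁻¹ * m) ^ 3 = 1 →
    ∃ i, m = xs i ∨ m = ws i := by decide +kernel
theorem q_u : ∀ m : Q0, m * xx = xx * m → m * yy = yy * m → m * ww = ww * m →
    m = 1 ∨ m = tt ∨ m = ee ∨ m = ee * tt := by decide +kernel
theorem q_xs : ∀ i j : Fin 3, (∃ k, (yy ^ i.1)⁻¹ * xs j * yy ^ i.1 = xs k) ∧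
    ws i * ws j = ws j * ws i ∧ (∃ k : Fin 3, (yy ^ k.1)⁻¹ * xs i * yy ^ k.1 = xx) ∧
    ((xs i * xx) ^ 2 ≠ ee * tt) ∧ ((ws i * xx) ^ 2 = ee * tt → ws i = yy * ww * yy⁻¹) := by
  decide +kernel

def Cyc (ι : Q0 →* G) (g : G) : Prop := Cj ι g tt (ee * tt) ∧ Cj ι g ee tt
def Cyc2 (ι : Q0 →* G) (g : G) : Prop := Cj ι g tt ee ∧ Cj ι g ee (ee * tt)

theorem Cyc.third (h : Cyc ι g) : Cj ι g (ee * tt) ee := (h.2.mul h.1).eq rfl (by decide +kernel)
theorem Cyc2.third (h : Cyc2 ι g) : Cj ι g (ee * tt) tt := (h.2.mul h.1).eq rfl (by decide +kernel)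
theorem Cyc.sq (h : Cyc ι g) : Cyc2 ι (g * g) := ⟨h.1.comp h.third, h.2.comp h.1⟩
theorem Cyc2.sq (h : Cyc2 ι g) : Cyc ι (g * g) := ⟨h.1.comp h.2, h.2.comp h.third⟩
theorem cj_t (k : Q0) : Cj ι (ι k) tt tt := Cj.of (by rw [mul_assoc, tt, ← q_t]; simp)
theorem cj_comm {k a : Q0} (hk : k * a = a * k) : Cj ι (ι k) a a :=
  Cj.of (by rw [mul_assoc, ← hk]; simp)
theorem Cyc.right (h : Cyc ι g) {k : Q0} (hk : k * ee = ee * k) : Cyc ι (g * ι k) :=
  ⟨h.1.comp ((cj_comm hk).mul (cj_t k)), h.2.comp (cj_t k)⟩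
theorem comm_e {d : Q0} (h : d * (ee * tt) = ee * tt * d) : d * ee = ee * d := by
  rw [← mul_assoc, mul_assoc ee, tt, ← q_t d, ← mul_assoc] at h
  exact mul_right_cancel h
theorem Cyc.ex (B : Base ι) (h : Cyc ι g) {m : Q0} (hm : m * ee = ee * m) :
    ∃ d, Cj ι g m d ∧ d * ee = ee * d := by
  obtain ⟨d, hd⟩ := B.ex h.2 hm
  exact ⟨d, hd, comm_e (B.comm hd h.1 (q_t _))⟩
theorem Cyc2.ex (B : Base ι) (h : Cyc2 ι g) {m : Q0} (hm : m * ee = ee * m) :
    ∃ d, Cj ι g m d ∧ d * ee = ee * d := by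
  obtain ⟨d, hd⟩ := B.ex h.third (c := m) (by
    rw [← mul_assoc, hm, mul_assoc, mul_assoc, tt, q_t m])
  exact ⟨d, hd, B.comm hd h.1 (q_t _)⟩

theorem Base.six (B : Base ι) (hy : Cj ι g yy yy) {m d : Q0} (hd : Cj ι g m d) (h1 : d * ee = ee * d)
    (h2 : m ^ 2 = 1 ∧ m ≠ 1 ∧ (yy⁻¹ * m) ^ 3 = 1) : ∃ i, d = xs i ∨ d = ws i :=
  q_w6 d h1 (B.pow_eq hd h2.1) (B.ne_one hd h2.2.1) (B.pow_eq (hy.inv.mul hd) h2.2.2)

theorem Base.in_u (B : Base ι) {z : G} (h1 : Cj ι z xx xx) (h2 : Cj ι z yy yy) (h3 : Cj ι z ww ww) :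
    ∃ m, ι m = z ∧ (m = 1 ∨ m = tt ∨ m = ee ∨ m = ee * tt) := by
  obtain ⟨m, rfl⟩ := B.of_fix (((h3.mul h1).pow 2).eq (by decide +kernel) (by decide +kernel))
  have k : ∀ a, Cj ι (ι m) a a → m * a = a * m := fun a h => by
    have := B.cj_iff.1 h
    rw [mul_assoc, inv_mul_eq_iff_eq_mul] at this
    exact this.symm
  exact ⟨m, rfl, q_u m (k _ h1) (k _ h2) (k _ h3)⟩

structure JP (ι : Q0 →* G) (p : G) : Prop extends Base ι where
  p3 : p ^ 3 = 1
  px : Cj ι p xx xx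
  py : Cj ι p yy yy
  pw : Cj ι p ww (yy * ww * yy⁻¹)
  sp : ι ss * p * ι ss * ι yy * p = 1

theorem cyc_of (h1 : Cj ι p xx xx) (h3 : Cj ι p yy yy) (h2 : Cj ι p ww (yy * ww * yy⁻¹)) : Cyc ι p :=
  ⟨((h2.mul h1).pow 2).eq (by decide +kernel) (by decide +kernel),
    ((((h3.inv.mul h2).mul h3).mul h1).pow 2).eq (by decide +kernel) (by decide +kernel)⟩

theorem JP.cyc (J : JP ι p) : Cyc ι p := cyc_of J.px J.py J.pw

theorem Base.exists_p (B : Base ι) (h : Cj ι g ee tt) : ∃ p, JP ι p := by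
  obtain ⟨g, g1, g2⟩ := B.swap_e h
  have c1 : Cyc ι (g * ι ss) := ⟨g2.comp (Cj.of (by decide +kernel)), g1.comp (cj_t _)⟩
  obtain ⟨y1, hy1, hy2⟩ := c1.ex B (m := yy) (by decide +kernel)
  obtain ⟨k1, k2⟩ := q_h3 y1 hy2 (B.pow_eq hy1 (by decide +kernel)) (B.ne_one hy1 (by decide +kernel))
  have c2 := c1.right k1
  generalize hg2 : g * ι ss * ι (hQ y1) = g2 at c2
  have y2 : Cj ι (g2 * g2) yy yy := by
    rcases k2 with a | a
    · have := hy1.comp (Cj.of a)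
      rw [hg2] at this
      exact this.comp this
    · have := hy1.comp (Cj.of a)
      rw [hg2] at this
      exact this.comp (this.inv.eq rfl (inv_inv _))
  have c3 := c2.sq
  generalize g2 * g2 = g3 at c3 y2
  obtain ⟨x1, hx1, hx2⟩ := c3.ex B (m := xx) (by decide +kernel)
  obtain ⟨w1, hw1, hw2⟩ := c3.ex B (m := ww) (by decide +kernel)
  obtain ⟨i, hi⟩ := B.six y2 hx1 hx2 (by decide +kernel)
  obtain ⟨j, hj⟩ := B.six y2 hw1 hw2 (by decide +kernel)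
  obtain ⟨k, hk⟩ : ∃ k, Cj ι (g3 * g3) xx (xs k) := by
    rcases hi with rfl | rfl
    · obtain ⟨k, hk⟩ := (q_xs i i).1
      exact ⟨k, hx1.comp ((((y2.pow i).inv.mul hx1).mul (y2.pow i)).eq rfl hk)⟩
    · rcases hj with rfl | rfl
      · obtain ⟨k, hk⟩ := (q_xs i j).1
        exact ⟨k, hx1.comp ((((y2.pow i).inv.mul hw1).mul (y2.pow i)).eq rfl hk)⟩
      · exact absurd (B.comm hx1.symm hw1.symm (q_xs i j).2.1) (by decide +kernel)
  obtain ⟨l, hl⟩ := (q_xs k k).2.2.1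
  have hyl : yy ^ l.1 * ee = ee * yy ^ l.1 :=
    (Commute.pow_left (show yy * ee = ee * yy by decide +kernel) _).eq
  have c4 := c3.sq.right hyl
  have x4 := hk.comp (Cj.of hl)
  have y4 := (y2.comp y2).comp (cj_comm (k := yy ^ l.1) (a := yy) ((Commute.refl yy).pow_left _).eq)
  generalize g3 * g3 * ι (yy ^ l.1) = q at c4 x4 y4
  obtain ⟨w2, hw3, hw4⟩ := c4.ex B (m := ww) (by decide +kernel)
  obtain ⟨a, ha⟩ := B.six y4 hw3 hw4 (by decide +kernel)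
  have e1 : (w2 * xx) ^ 2 = ee * tt :=
    B.uq ((hw3.mul x4).pow 2) (c4.1.eq (by decide +kernel) rfl)
  have w4 : Cj ι q ww (yy * ww * yy⁻¹) := by
    rcases ha with rfl | rfl
    · exact absurd e1 (q_xs a a).2.2.2.1
    · exact hw3.eq rfl ((q_xs a a).2.2.2.2 e1)
  have w5 : Cj ι q (yy * ww * yy⁻¹) (yy * (yy * ww * yy⁻¹) * yy⁻¹) := (y4.mul w4).mul y4.inv
  have w6 : Cj ι q (yy * (yy * ww * yy⁻¹) * yy⁻¹) ww :=
    ((y4.mul w5).mul y4.inv).eq rfl (by decide +kernel)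
  have q3 : q ^ 3 = 1 := by
    obtain ⟨m, hm, hm2⟩ := B.in_u ((x4.comp x4).comp x4) ((y4.comp y4).comp y4)
      ((w4.comp w5).comp w6)
    have h1 : Cj ι q m m := by unfold Cj; rw [hm]; group
    have : m = 1 := by
      rcases hm2 with a | rfl | rfl | rfl
      exacts [a, absurd (B.uq h1 c4.1) (by decide +kernel), absurd (B.uq h1 c4.2) (by decide +kernel),
        absurd (B.uq h1 c4.third) (by decide +kernel)]
    rw [pow_succ, pow_two, ← hm, this, map_one]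
  have sx : Cj ι (ι ss) xx ww := Cj.of (by decide +kernel)
  have sw : Cj ι (ι ss) ww xx := Cj.of (by decide +kernel)
  have sy : Cj ι (ι ss) yy yy := Cj.of (by decide +kernel)
  obtain ⟨u, hu, hu2⟩ := B.in_u (z := ι ss * q * ι ss * ι yy * q)
    ((((sx.comp w4).comp (Cj.map ss _)).comp (Cj.map yy _)).comp (x4.eq (by decide +kernel) rfl))
    ((((sy.comp y4).comp sy).comp (cj_comm rfl)).comp y4)
    ((((sw.comp x4).comp sx).comp (Cj.map yy _)).comp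
      (((y4.inv.mul w4).mul y4).eq rfl (by decide +kernel)))
  have s2 : ι ss * ι ss = 1 := by rw [← map_mul, show ss * ss = 1 by decide +kernel, map_one]
  have sy' : ι ss * ι yy = ι yy * ι ss := by
    rw [← map_mul, ← map_mul, show ss * yy = yy * ss by decide +kernel]
  have qy : q * ι yy = ι yy * q := by
    nth_rewrite 1 [← y4]; group
  have uy : ι u * ι yy = ι yy * ι u := by
    rw [← map_mul, ← map_mul]
    rcases hu2 with rfl | rfl | rfl | rfl <;> exact congrArg ι (by decide +kernel)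
  have s1 : (ι ss)⁻¹ = ι ss := inv_eq_of_mul_eq_one_right s2
  have hcon : Cj ι q (ss * u * ss) u := by
    unfold Cj
    rw [map_mul, map_mul]
    have e2 : ι ss * q * ι ss = ι u * q⁻¹ * (ι yy)⁻¹ := by rw [hu]; group
    have e3 : ι ss * q⁻¹ * ι ss = ι yy * q * (ι u)⁻¹ := by
      rw [← s1, show (ι ss)⁻¹ * q⁻¹ * (ι ss)⁻¹ = (ι ss * q * ι ss)⁻¹ by group, e2]; group
    have e4 : ι ss * (ι yy)⁻¹ * ι ss = (ι yy)⁻¹ := by
      rw [show ι ss * (ι yy)⁻¹ = (ι yy)⁻¹ * ι ss from (Commute.inv_right sy').eq, mul_assoc, s2, mul_one]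
    have e5 : q = ι ss * ι u * ι ss * (ι yy * q * (ι u)⁻¹) * (ι yy)⁻¹ := by
      calc q = ι ss * (ι ss * q * ι ss) * ι ss := by
            rw [← mul_assoc, ← mul_assoc, s2, one_mul, mul_assoc, s2, mul_one]
        _ = ι ss * ι u * (ι ss * ι ss) * q⁻¹ * (ι ss * ι ss) * (ι yy)⁻¹ * ι ss := by
            rw [e2, s2]; group
        _ = ι ss * ι u * ι ss * (ι ss * q⁻¹ * ι ss) * (ι ss * (ι yy)⁻¹ * ι ss) := by group
        _ = _ := by rw [e3, e4]
    have e6 : (ι u)⁻¹ * (ι yy)⁻¹ = (ι yy)⁻¹ * (ι u)⁻¹ := (Commute.inv_inv uy).eq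
    rw [← qy, mul_assoc, mul_assoc (q * ι yy), e6, ← mul_assoc _ (ι yy)⁻¹, mul_inv_cancel_right] at e5
    calc _ = q⁻¹ * (ι ss * ι u * ι ss * (q * (ι u)⁻¹)) * ι u := by group
      _ = _ := by rw [← e5]; group
  rcases hu2 with rfl | rfl | rfl | rfl
  · exact ⟨q, B, q3, x4, y4, w4, by rw [← hu, map_one]⟩
  · exact absurd (B.uq (hcon.eq (by decide +kernel) rfl) c4.1) (by decide +kernel)
  · have ex : Cj ι (ι ee) xx xx := cj_comm (by decide +kernel)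
    have ey : Cj ι (ι ee) yy yy := cj_comm (by decide +kernel)
    have ew : Cj ι (ι ee) ww ww := cj_comm (by decide +kernel)
    have e1 : (ι ee)⁻¹ = ι ee := by
      rw [← map_inv]; exact congrArg ι (by decide +kernel)
    refine ⟨ι ee * q * ι ee, B, ?_, (ex.comp x4).comp ex, (ey.comp y4).comp ey,
      (ew.comp w4).comp ((ey.mul ew).mul ey.inv), ?_⟩
    · nth_rewrite 2 [← e1]
      rw [conj_pow, q3, mul_one, mul_inv_cancel]
    · have a1 : ι ee * q * ι ee = q * ι (tt * ee) := by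
        rw [map_mul, ← c4.2]; group
      have a2 : ι (tt * ee) * ι ss = ι ss * ι ee := by
        rw [← map_mul, ← map_mul]; exact congrArg ι (by decide +kernel)
      have a3 : ι ee * ι yy = ι yy * ι ee := uy
      have a4 : ι ee * q = q * ι tt := by rw [← c4.2]; group
      calc _ = ι ss * q * (ι (tt * ee) * ι ss) * ι yy * q * ι (tt * ee) := by rw [a1]; group
        _ = ι ss * q * ι ss * (ι ee * ι yy) * q * ι (tt * ee) := by rw [a2]; group
        _ = ι ss * q * ι ss * ι yy * (ι ee * q) * ι (tt * ee) := by rw [a3]; group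
        _ = ι ss * q * ι ss * ι yy * q * ι tt * ι (tt * ee) := by rw [a4]; group
        _ = 1 := by
          rw [← hu, ← map_mul, ← map_mul, ← map_one ι]; exact congrArg ι (by decide +kernel)
  · exact absurd (B.uq (hcon.eq (by decide +kernel) rfl) c4.2) (by decide +kernel)

end Cfsg.Agent.H6.J3
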