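import Cfsg.Agent.H6.J3P

/-! The normaliser of `V = C(x)` when `x` is conjugate to `t`. -/

set_option autoImplicit false

namespace Cfsg.Agent.H6.J3

open Subgroup Cfsg.Agent.H5

variable {G : Type*} [Group G] {ι : Q0 →* G} {g h p r : G} {α β : Fin 16 → Fin 16}

def lin (a b c d v : Fin 16) : Fin 16 :=
  (if v.1 % 2 = 1 then a else 0) ^^^ (if v.1 / 2 % 2 = 1 then b else 0) ^^^
    (if v.1 / 4 % 2 = 1 then c else 0) ^^^ (if v.1 / 8 % 2 = 1 then d else 0)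

def Act (ι : Q0 →* G) (g : G) (α : Fin 16 → Fin 16) : Prop := ∀ v, Cj ι g (vv v) (vv (α v))

theorem vv_xor : ∀ a b : Fin 16, vv (a ^^^ b) = vv a * vv b := by decide +kernel
theorem vv_inj : ∀ a b : Fin 16, vv a = vv b → a = b := by decide +kernel
theorem vv_val : vv 0 = 1 ∧ vv 1 = tt ∧ vv 2 = ee ∧ vv 4 = xx ∧ vv 8 = yy⁻¹ * xx * yy := by
  decide +kernel
theorem lin_id : ∀ v, lin 1 2 4 8 v = v := by decide +kernel
theorem q_nv : ∀ m : Q0, m⁻¹ * xx * m * xx = xx * (m⁻¹ * xx * m) → m * ee = ee * m := by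
  decide +kernel

theorem Act.comp (h1 : Act ι g α) (h2 : Act ι h β) : Act ι (g * h) (β ∘ α) :=
  fun v => (h1 v).comp (h2 _)
theorem Act.eq (h1 : Act ι g α) (e : ∀ v, α v = β v) : Act ι g β := fun v => e v ▸ h1 v
theorem act_lin {a b c d : Fin 16} (h1 : Cj ι g (vv 1) (vv a)) (h2 : Cj ι g (vv 2) (vv b))
    (h3 : Cj ι g (vv 4) (vv c)) (h4 : Cj ι g (vv 8) (vv d)) : Act ι g (lin a b c d) := fun v => by
  have z : Cj ι g (vv 0) (vv 0) := by rw [vv_val.1]; exact Cj.one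
  nth_rewrite 1 [← lin_id v]
  simp only [lin, vv_xor]
  refine ((Cj.mul ?_ ?_).mul ?_).mul ?_ <;> split_ifs <;> assumption
theorem act_v (j : Fin 16) : Act ι (ι (vv j)) id := fun v => cj_comm (q_vv j v)
theorem Base.act_inj (B : Base ι) (h1 : Act ι g α) {a b : Fin 16} (e : α a = α b) : a = b :=
  vv_inj _ _ (B.uq' (h1 a) (e ▸ h1 b))
theorem Base.act_uq (B : Base ι) (h1 : Act ι g α) (h2 : Act ι g β) (v : Fin 16) : α v = β v :=
  vv_inj _ _ (B.uq (h1 v) (h2 v))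
theorem Base.act_fix (B : Base ι) (h1 : Act ι g α) (e : α 1 = 1) : α 2 = 2 := by
  have a := h1 1
  rw [e, vv_val.2.1] at a
  obtain ⟨m, rfl⟩ := B.of_fix a
  have b := B.cj_iff.1 (h1 4)
  rw [vv_val.2.2.2.1] at b
  have c := q_nv m (by rw [b, ← vv_val.2.2.2.1]; exact q_vv _ _)
  exact vv_inj _ _ (B.uq (h1 2) (by rw [vv_val.2.2.1]; exact cj_comm c))
theorem Base.in_v (B : Base ι) (h1 : Cj ι g tt tt) (h2 : Cj ι g xx xx) : ∃ j, ι (vv j) = g := by
  obtain ⟨m, rfl⟩ := B.of_fix h1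
  have := B.cj_iff.1 h2
  rw [mul_assoc, inv_mul_eq_iff_eq_mul] at this
  obtain ⟨j, rfl⟩ := q_cx m this.symm
  exact ⟨j, rfl⟩
theorem Base.act_id (B : Base ι) (h1 : Act ι g id) : ∃ j, ι (vv j) = g :=
  B.in_v (vv_val.2.1 ▸ h1 1) (vv_val.2.2.2.1 ▸ h1 4)
theorem Base.act_ex (B : Base ι) (h1 : Cj ι g xx tt) (h2 : Cj ι g tt xx) :
    ∃ b d, Act ι g (lin 4 b 1 d) := by
  have k : ∀ v, ∃ j, Cj ι g (vv v) (vv j) := fun v => by
    obtain ⟨d, hd⟩ := B.ex h1 (c := vv v) (by rw [← vv_val.2.2.2.1]; exact q_vv _ _)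
    obtain ⟨j, rfl⟩ := q_cx d (B.comm hd h2 (q_t _))
    exact ⟨j, hd⟩
  obtain ⟨b, hb⟩ := k 2
  obtain ⟨d, hd⟩ := k 8
  exact ⟨b, d, act_lin (h2.eq vv_val.2.1.symm vv_val.2.2.2.1.symm) hb
    (h1.eq vv_val.2.2.2.1.symm vv_val.2.1.symm) hd⟩

abbrev aY := lin 1 2 8 12
abbrev aP := lin 3 1 4 8
abbrev aW := lin 1 2 5 11
abbrev aR := lin 4 12 1 3
abbrev aA := lin 3 1 8 12

theorem act_y : Act ι (ι yy) aY := fun v => Cj.of (by revert v; decide +kernel)
theorem act_w : Act ι (ι ww) aW := fun v => Cj.of (by revert v; decide +kernel)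
theorem JP.act (J : JP ι p) : Act ι p aP :=
  act_lin (J.cyc.1.eq (by decide +kernel) (by decide +kernel))
    (J.cyc.2.eq (by decide +kernel) (by decide +kernel))
    (J.px.eq (by decide +kernel) (by decide +kernel))
    (((J.py.inv.mul J.px).mul J.py).eq (by decide +kernel) (by decide +kernel))
theorem JP.acta (J : JP ι p) : Act ι (p * ι yy) aA := (J.act.comp act_y).eq (by decide +kernel)
theorem JP.cy (J : JP ι p) : Commute p (ι yy) := by
  change p * ι yy = ι yy * p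
  nth_rewrite 1 [← J.py]; group

def bad (α : Fin 16 → Fin 16) : Prop := α 1 = 1 ∧ α 2 ≠ 2
instance (α : Fin 16 → Fin 16) : Decidable (bad α) := by unfold bad; infer_instance

theorem lin_r : ∀ b d, (∃ u v, lin 4 b 1 d u = lin 4 b 1 d v ∧ u ≠ v) ∨
    bad (lin 4 b 1 d ∘ aP ∘ lin 4 b 1 d) ∨ bad (lin 4 b 1 d ∘ aP ∘ aP ∘ lin 4 b 1 d) ∨
    bad (lin 4 b 1 d ∘ aW ∘ lin 4 b 1 d ∘ aW ∘ lin 4 b 1 d) ∨ (b = 12 ∧ d = 3) := by decide +kernel

theorem JP.eq_one (J : JP ι p) (h1 : Act ι g id) (h2 : Commute g (p * ι yy)) : g = 1 := by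
  obtain ⟨j, rfl⟩ := J.act_id h1
  have : Cj ι (p * ι yy) (vv j) (vv j) := by unfold Cj; rw [mul_assoc, h2.eq]; group
  have e := vv_inj _ _ (J.uq (J.acta j) this)
  rw [(by decide +kernel : ∀ j, aA j = j → j = 0) j e, vv_val.1, map_one]

structure JR (ι : Q0 →* G) (p r : G) : Prop extends JP ι p where
  r2 : r * r = 1
  ry : r * ι yy * r = p
  rw3 : (r * ι ww) ^ 3 = 1
  actr : Act ι r aR

theorem JP.cw (J : JP ι p) : Commute (ι ww) (p * ι yy) := by
  have : Cj ι (p * ι yy) ww ww := J.pw.comp (Cj.of (by group))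
  change _ = _
  nth_rewrite 2 [← this]; group

theorem JP.exists_r (J : JP ι p) (h : Cj ι g xx tt) : ∃ r, JR ι p r := by
  obtain ⟨g, g1, g2⟩ := J.swap_x h
  obtain ⟨b, d, hg⟩ := J.act_ex g1 g2
  have nb : ∀ {z α}, Act ι z α → ¬ bad α := fun h1 h2 => h2.2 (J.act_fix h1 h2.1)
  obtain ⟨rfl, rfl⟩ : b = 12 ∧ d = 3 := by
    rcases lin_r b d with ⟨u, v, e, ne⟩ | a | a | a | a
    · exact absurd (J.act_inj hg e) ne
    · exact absurd a (nb ((hg.comp J.act).comp hg))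
    · exact absurd a (nb (((hg.comp J.act).comp J.act).comp hg))
    · exact absurd a (nb ((((hg.comp act_w).comp hg).comp act_w).comp hg))
    · exact a
  have inv : ∀ {z α β}, Act ι z α → (∀ v, α (β v) = v) → Act ι z⁻¹ β := fun h1 e v =>
    (h1 _).symm.eq (by rw [e]) rfl
  obtain ⟨j, hj⟩ := J.act_id ((((inv (β := aA ∘ aA) J.acta (by decide +kernel)).comp
    (inv (β := aR) hg (by decide +kernel))).comp J.acta).comp hg |>.eq (by decide +kernel))
  obtain ⟨u, hu⟩ := (by decide +kernel : ∀ j, ∃ u, aA u ^^^ u = j) j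
  have c : Commute (g * ι (vv u)) (p * ι yy) := by
    have e1 := J.acta u
    have e2 : ι (vv j) = ι (vv (aA u)) * (ι (vv u))⁻¹ := by
      rw [← hu, vv_xor, ← map_inv, ← map_mul, (by decide +kernel : ∀ u, (vv u)⁻¹ = vv u)]
    rw [← e1, hj] at e2
    change _ = _
    calc _ = g * (p * ι yy) * (((p * ι yy)⁻¹ * ι (vv u) * (p * ι yy)) * (ι (vv u))⁻¹) * ι (vv u) := by
          group
      _ = _ := by rw [← e2]; group
  have ar : Act ι (g * ι (vv u)) aR := hg.comp (act_v u)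
  generalize g * ι (vv u) = r at c ar
  have r2 : r * r = 1 := J.eq_one ((ar.comp ar).eq (by decide +kernel)) (c.mul_left c)
  have cy : Commute (ι yy) (p * ι yy) := J.cy.symm.mul_right (Commute.refl _)
  have cp : Commute p (p * ι yy) := (Commute.refl _).mul_right J.cy
  refine ⟨r, J, r2, ?_, ?_, ar⟩
  · rw [← mul_inv_eq_one]
    exact J.eq_one ((((ar.comp act_y).comp ar).comp (inv (β := aP ∘ aP) J.act
      (by decide +kernel))).eq (by decide +kernel)) (((c.mul_left cy).mul_left c).mul_left cp.inv_left)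
  · have a := ar.comp act_w
    rw [pow_succ, pow_two]
    have c2 := c.mul_left J.cw
    exact J.eq_one (((a.comp a).comp a).eq (by decide +kernel)) ((c2.mul_left c2).mul_left c2)

end Cfsg.Agent.H6.J3
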