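import Cfsg.Agent.H6.J3X0

/-! A group containing `A₅` whose involution centralisers have order 8 (counting involutions). -/

set_option autoImplicit false

namespace Cfsg.Agent.H6.J3

open Subgroup

variable {X : Type*} [Group X]

theorem coset_le {φ : A →* X} (inj : Function.Injective φ)
    (h8 : ∀ u z : X, u * u = 1 → u ≠ 1 → u * z = z * u → z ^ 8 = 1) {u : X} (hu : u * u = 1)
    (hn : u ∉ φ.range) : ∃ S : Finset A, S.card ≤ 6 ∧ ∀ d, u * φ d * u = φ d⁻¹ → d ∈ S := by
  classical
  have u1 : u ≠ 1 := fun e => hn (e ▸ one_mem _)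
  have Di : ∀ d, u * φ d * u = φ d⁻¹ → u * φ d⁻¹ * u = φ d⁻¹⁻¹ := fun d h => by
    rw [← h, inv_inv, ← mul_assoc, ← mul_assoc, hu, one_mul, mul_assoc, hu, mul_one]
  have W : ∀ l : List A, (∀ d ∈ l, u * φ d * u = φ d⁻¹) → u * φ (wd l) * u = φ (wi l) := by
    intro l hl
    induction l with
    | nil => simpa [wd, wi] using hu
    | cons a l ih =>
      have := ih fun d hd => hl d (List.mem_cons_of_mem _ hd)
      change u * φ (a * wd l) * u = φ (a⁻¹ * wi l)
      rw [map_mul, map_mul, ← this, ← hl a List.mem_cons_self]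
      calc _ = u * φ a * (u * u) * φ (wd l) * u := by rw [hu]; group
        _ = _ := by group
  have T3 : ∀ l : List A, (∀ d ∈ l, u * φ d * u = φ d⁻¹) → ¬ t3 l := fun l hl h => h.2 (inj (by
    rw [map_pow, ← W l hl]
    nth_rewrite 2 [← inv_eq_of_mul_eq_one_right hu]
    rw [conj_pow, ← map_pow, h.1]; simp))
  have TL : ∀ d, d ≠ 1 → d ^ 15 = 1 → u * φ d * u = φ d⁻¹ → ∀ l : List A,
      (∀ d ∈ l, u * φ d * u = φ d⁻¹) → ¬ tl d l := by
    rintro d d1 d15 hd l hl ⟨h1, h2, h3⟩
    have h4 := W l hl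
    rw [← h1] at h4
    generalize wd l = a at h2 h3 h4
    have a2 : φ a * φ a = 1 := by rw [← map_mul, h2, map_one]
    have h5 : (φ d) ^ 8 = 1 := h8 (u * φ a) _ (by rw [← mul_assoc, h4, a2])
      (fun e => hn ⟨a⁻¹, by rw [map_inv, eq_inv_of_mul_eq_one_left e]⟩) (by
        calc _ = u * (φ a * φ d) * (φ a * (u * u) * φ a) := by rw [hu, mul_one, a2]; group
          _ = u * (φ a * φ d * φ a) * (u * u) * φ a := by group
          _ = u * φ d⁻¹ * u * (u * φ a) := by rw [← map_mul, ← map_mul, h3]; group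
          _ = _ := by rw [Di d hd, inv_inv])
    have h6 : d ^ 8 = 1 := inj (by rw [map_pow, h5, map_one])
    exact d1 (by simpa using pow_gcd_eq_one.2 ⟨h6, d15⟩)
  by_cases h5 : ∃ d, u * φ d * u = φ d⁻¹ ∧ d ^ 5 = 1 ∧ d ≠ 1
  · obtain ⟨d, hd, d5, d1⟩ := h5
    have d15 : d ^ 15 = 1 := by rw [show 15 = 5 * 3 by rfl, pow_mul, d5, one_pow]
    refine ⟨{1, d, d ^ 2, d ^ 3, d ^ 4}, Finset.card_le_five.trans (by omega), fun e he => ?_⟩
    have := Di d hd
    have := Di e he
    rcases a_five d d5 d1 e with a | a | a | a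
    · exact a
    all_goals exact absurd a (TL d d1 d15 hd _ (by simp only [List.forall_mem_cons, List.not_mem_nil, false_imp_iff, implies_true, and_true]; tauto))
  by_cases h3 : ∃ d, u * φ d * u = φ d⁻¹ ∧ d ^ 3 = 1 ∧ d ≠ 1
  · obtain ⟨d, hd, d3, d1⟩ := h3
    have d15 : d ^ 15 = 1 := by rw [show 15 = 3 * 5 by rfl, pow_mul, d3, one_pow]
    have := Di d hd
    have B3 : ∀ e, u * φ e * u = φ e⁻¹ → ¬ b3 d e := fun e he h => by
      have := Di e he
      rcases h with a | a
      all_goals exact absurd a (TL d d1 d15 hd _ (by simp only [List.forall_mem_cons, List.not_mem_nil, false_imp_iff, implies_true, and_true]; tauto))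
    by_cases h4 : ∀ e, u * φ e * u = φ e⁻¹ → e ∈ ({1, d, d⁻¹} : Finset A)
    · exact ⟨_, Finset.card_le_three.trans (by omega), h4⟩
    push Not at h4
    obtain ⟨e, he, he2⟩ := h4
    refine ⟨{1, d, d⁻¹, e, d * e * d, d⁻¹ * e * d⁻¹}, Finset.card_le_six, fun f hf => ?_⟩
    rcases ((a_three d d3 d1 e).resolve_left he2).resolve_left (B3 e he) f with
      a | a | a | a | a | a | a | a | a | a | a
    · exact a
    iterate 6 exact absurd a (T3 _ (by simp only [List.forall_mem_cons, List.not_mem_nil, false_imp_iff, implies_true, and_true]; tauto))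
    iterate 3 exact absurd a (TL d d1 d15 hd _ (by simp only [List.forall_mem_cons, List.not_mem_nil, false_imp_iff, implies_true, and_true]; tauto))
    exact absurd a (B3 f hf)
  have h2 : ∀ e, u * φ e * u = φ e⁻¹ → e * e = 1 := fun e he => by
    by_cases e1 : e = 1
    · simp [e1]
    rcases a_ord e with a | a | a
    exacts [absurd ⟨e, he, a, e1⟩ h5, absurd ⟨e, he, a, e1⟩ h3, a]
  have hc : ∀ e, u * φ e * u = φ e⁻¹ → Commute u (φ e) := fun e he => by
    rw [inv_eq_of_mul_eq_one_right (h2 e he)] at he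
    change u * φ e = φ e * u
    nth_rewrite 2 [← he]
    rw [mul_assoc _ u, hu, mul_one]
  by_cases h4 : ∀ e, u * φ e * u = φ e⁻¹ → e ∈ ({1} : Finset A)
  · exact ⟨_, by simp, h4⟩
  push Not at h4
  obtain ⟨e, he, he2⟩ := h4
  refine ⟨_, a_two e (h2 e he) (by simpa using he2), fun f hf => ?_⟩
  simp only [Finset.mem_filter, Finset.mem_univ, true_and]
  refine ⟨h2 f hf, inj ?_⟩
  rw [map_pow, map_one, map_mul]
  exact h8 u _ hu u1 ((hc e he).mul_right (hc f hf))

theorem ncard_cls [Finite X] (d : X) :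
    {x | IsConj d x}.ncard * Nat.card (centralizer ({d} : Set X)) = Nat.card X := by
  have h2 : {x | IsConj d x} = MulAction.orbit (ConjAct X) d := by
    ext x
    rw [ConjAct.mem_orbit_conjAct]
    exact isConj_comm
  rw [h2, ← MulAction.index_stabilizer, ConjAct.stabilizer_eq_centralizer]
  exact (centralizer ({d} : Set X)).index_mul_card

theorem perm_odd {α : Type*} [Fintype α] [DecidableEq α] (h : Fintype.card α ≤ 6) (z : Equiv.Perm α)
    (hz : Odd (orderOf z)) : z ^ 3 = 1 ∨ z ^ 5 = 1 := by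
  have h1 := z.sum_cycleType_le
  have h2 : ∀ n ∈ z.cycleType, n = 3 ∨ n = 5 := fun n hn => by
    have a := Equiv.Perm.two_le_of_mem_cycleType hn
    have b := (Multiset.single_le_sum (by simp) n hn).trans h1
    have c := hz.of_dvd_nat (Equiv.Perm.dvd_of_mem_cycleType hn)
    rw [Nat.odd_iff] at c
    omega
  rw [← orderOf_dvd_iff_pow_eq_one, ← orderOf_dvd_iff_pow_eq_one, ← Equiv.Perm.lcm_cycleType,
    Multiset.lcm_dvd, Multiset.lcm_dvd]
  by_contra hc
  push Not at hc
  obtain ⟨⟨a, ha, a3⟩, b, hb, b5⟩ := hc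
  have e1 : a = 5 := (h2 a ha).resolve_left fun e => a3 (e ▸ dvd_rfl)
  have e2 : b = 3 := (h2 b hb).resolve_right fun e => b5 (e ▸ dvd_rfl)
  subst e1 e2
  obtain ⟨s, hs⟩ := Multiset.exists_cons_of_mem ha
  rw [hs] at hb h1
  have := Multiset.single_le_sum (by simp) 3 ((Multiset.mem_cons.1 hb).resolve_left (by omega))
  rw [Multiset.sum_cons] at h1
  omega

theorem cube_one [Finite X] {φ : A →* X} (inj : Function.Injective φ)
    (hc : ∀ u : X, u * u = 1 → u ≠ 1 → Nat.card (centralizer ({u} : Set X)) = 8) {m : X}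
    (hm : Commute m (φ hA)) : m ^ 3 = 1 := by
  classical
  have h8 : ∀ u z : X, u * u = 1 → u ≠ 1 → u * z = z * u → z ^ 8 = 1 := fun u z h1 h2 h3 => by
    have := pow_card_eq_one' (G := centralizer ({u} : Set X))
      (x := ⟨z, mem_centralizer_singleton_iff.2 h3.symm⟩)
    rw [hc u h1 h2] at this
    exact congrArg Subtype.val this
  have cL : Nat.card φ.range = 60 := by
    rw [← Nat.card_congr (MonoidHom.ofInjective inj).toEquiv, card_A]
  have cX := φ.range.card_mul_index
  rw [cL] at cX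
  have ne : ∀ z : A, z ≠ 1 → φ z ≠ 1 := fun z z1 e => z1 (inj (by rw [e, map_one]))
  have cls : ∀ z : A, z * z = 1 → z ≠ 1 → {x | IsConj (φ z) x}.ncard * 8 = 60 * φ.range.index :=
    fun z z2 z1 => by rw [cX, ← ncard_cls (φ z), hc _ (by rw [← map_mul, z2, map_one]) (ne z z1)]
  have inv : ∀ z : A, z * z = 1 → z ≠ 1 → ∀ x, IsConj (φ z) x → x * x = 1 ∧ x ≠ 1 := by
    intro z z2 z1 x hx
    obtain ⟨g, rfl⟩ := isConj_iff.1 hx
    refine ⟨?_, fun e => ne z z1 (by simpa using e)⟩
    calc _ = g * (φ z * φ z) * g⁻¹ := by group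
      _ = 1 := by rw [← map_mul, z2]; simp
  have inL : ∀ T : Set X, (∀ x ∈ T, x ∈ φ.range ∧ x * x = 1 ∧ x ≠ 1) → T.ncard ≤ 15 := fun T hT => by
    rw [← a_inv, ← Set.ncard_coe_finset, ← Set.ncard_image_of_injective _ inj]
    refine Set.ncard_le_ncard (fun x hx => ?_)
    obtain ⟨⟨a, rfl⟩, h1, h2⟩ := hT x hx
    refine ⟨a, ?_, rfl⟩
    simp only [Finset.coe_filter, Finset.mem_univ, true_and, Set.mem_ofPred_eq]
    exact ⟨inj (by rw [map_mul, h1, map_one]), fun e => h2 (by rw [e, map_one])⟩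
  have odd : ∀ z : X, Commute z (φ hA) → Odd (orderOf z) := fun z hz => by
    rw [← Nat.not_even_iff_odd]
    rintro ⟨k, hk⟩
    have k0 : 0 < k := by have := orderOf_pos z; omega
    have := h8 (z ^ k) _ (by rw [← pow_add, ← hk, pow_orderOf_eq_one])
      (pow_ne_one_of_lt_orderOf k0.ne' (by omega)) (hz.pow_left k)
    exact ne _ a_h.2.1 (by
      simpa using pow_gcd_eq_one.2 ⟨this, show φ hA ^ 3 = 1 by rw [← map_pow, a_h.1, map_one]⟩)
  let π := MulAction.toPermHom X (X ⧸ φ.range)
  by_cases hk : ∃ k ∈ π.ker, k ≠ 1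
  · obtain ⟨k, hk, k1⟩ := hk
    have le : π.ker ≤ φ.range := by
      rw [← normalCore_eq_ker]; exact normalCore_le _
    obtain ⟨a, rfl⟩ := le hk
    obtain ⟨z, hz, z2, z1⟩ : ∃ z : A, φ z ∈ π.ker ∧ z * z = 1 ∧ z ≠ 1 := by
      obtain ⟨g, h | h⟩ := a_nrm a (fun e => k1 (by rw [e, map_one]))
      · refine ⟨_, ?_, by rw [← pow_two, h.1], h.2⟩
        simp only [map_mul, map_inv]
        exact mul_mem hk (Normal.conj_mem inferInstance _ hk _)
      · refine ⟨_, ?_, by rw [← pow_two, h.1], h.2⟩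
        simp only [map_mul, map_inv, map_pow]
        exact mul_mem hk (Normal.conj_mem inferInstance _ (pow_mem hk _) _)
    have h1 := inL {x | IsConj (φ z) x} fun x hx => ⟨by
      obtain ⟨g, rfl⟩ := isConj_iff.1 hx
      exact le (Normal.conj_mem inferInstance _ hz _), inv z z2 z1 x hx⟩
    have h2 := cls z z2 z1
    have h3 : φ.range.index ≠ 0 := index_ne_zero_of_finite
    have h4 : m * m ∈ φ.range := by
      rcases (by omega : φ.range.index = 1 ∨ φ.range.index = 2) with e | e
      · rw [index_eq_one.1 e]; trivial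
      · exact mul_self_mem_of_index_two e m
    obtain ⟨n, hn⟩ := odd m hm
    obtain ⟨b, rfl⟩ : m ∈ φ.range := by
      have := pow_mem h4 (n + 1)
      rwa [← pow_two, ← pow_mul, show 2 * (n + 1) = 2 * n + 1 + 1 by ring, pow_succ, ← hn,
        pow_orderOf_eq_one, one_mul] at this
    rw [← map_pow, a_ch b (inj (by rw [map_mul, map_mul, hm.eq])), map_one]
  push Not at hk
  have pinj : Function.Injective π := (injective_iff_map_eq_one π).2 hk
  have h6 : φ.range.index ≤ 6 := by
    haveI := Fintype.ofFinite X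
    haveI := Fintype.ofFinite (X ⧸ φ.range)
    have h1 := cls wA a_h.2.2.1 a_h.2.2.2
    let T : Finset X := Finset.univ.filter fun x => IsConj (φ wA) x
    have h2 : {x | IsConj (φ wA) x}.ncard = T.card := by
      rw [← Set.ncard_coe_finset]; congr 1; ext; simp [T]
    have h3 := Finset.card_eq_sum_card_fiberwise (s := T) (t := Finset.univ)
      (f := fun x : X => (x : X ⧸ φ.range)) (fun _ _ => Finset.mem_univ _)
    have h4 : ∀ q : X ⧸ φ.range, (T.filter fun x : X => (x : X ⧸ φ.range) = q).card ≤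
        6 + if q = ((1 : X) : X ⧸ φ.range) then 9 else 0 := fun q => by
      split_ifs with hq
      · rw [← Set.ncard_coe_finset]
        refine inL _ fun x hx => ?_
        simp only [T, Finset.coe_filter, Finset.mem_filter, Finset.mem_univ, true_and,
          Set.mem_ofPred_eq] at hx
        refine ⟨?_, inv _ a_h.2.2.1 a_h.2.2.2 x hx.1⟩
        have := QuotientGroup.eq.1 (hq ▸ hx.2).symm
        simpa using this
      · rcases (T.filter fun x : X => (x : X ⧸ φ.range) = q).eq_empty_or_nonempty with e | ⟨u, hu⟩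
        · simp [e]
        simp only [T, Finset.mem_filter, Finset.mem_univ, true_and] at hu
        have u2 := (inv _ a_h.2.2.1 a_h.2.2.2 u hu.1).1
        obtain ⟨S, S6, hS⟩ := coset_le inj h8 u2 fun e => hq (by
          rw [← hu.2, eq_comm, QuotientGroup.eq]; simpa using e)
        refine le_trans ?_ ((Finset.card_image_le (f := fun d => u * φ d)).trans S6)
        refine Finset.card_le_card fun v hv => ?_
        simp only [T, Finset.mem_filter, Finset.mem_univ, true_and] at hv
        obtain ⟨d, hd⟩ := QuotientGroup.eq.1 (hu.2.trans hv.2.symm)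
        have e : v = u * φ d := by rw [hd]; group
        refine Finset.mem_image.2 ⟨d, hS d ?_, e.symm⟩
        have := (inv _ a_h.2.2.1 a_h.2.2.2 v hv.1).1
        rw [e, ← mul_assoc] at this
        rw [map_inv, eq_inv_of_mul_eq_one_left this]
    have h5 := Finset.sum_le_sum fun q (_ : q ∈ Finset.univ) => h4 q
    rw [← h3, Finset.sum_add_distrib, Finset.sum_ite_eq'] at h5
    simp only [Finset.sum_const, Finset.card_univ, smul_eq_mul, Finset.mem_univ, if_true] at h5
    rw [← Nat.card_eq_fintype_card, ← index_eq_card] at h5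
    omega
  have key : ∀ z : X, Commute z (φ hA) → z ^ 3 = 1 ∨ z ^ 5 = 1 := fun z hz => by
    haveI := Fintype.ofFinite (X ⧸ φ.range)
    have := perm_odd (by rw [← Nat.card_eq_fintype_card]; exact h6) (π z)
      (by rw [orderOf_injective π pinj]; exact odd z hz)
    exact this.imp (fun h => pinj (by rw [map_pow, h, map_one])) fun h => pinj (by rw [map_pow, h, map_one])
  have h3 : φ hA ^ 3 = 1 := by rw [← map_pow, a_h.1, map_one]
  rcases key m hm with a | a
  · exact a
  rcases key _ (hm.mul_left (Commute.refl _)) with b | b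
  · rwa [hm.mul_pow, h3, mul_one] at b
  · rw [hm.mul_pow, a, one_mul] at b
    exact absurd (by simpa using pow_gcd_eq_one.2 ⟨b, h3⟩) (ne _ a_h.2.1)

end Cfsg.Agent.H6.J3
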