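import Cfsg.Agent.H6.J3R
import Cfsg.Agent.H6.J3X

/-! The relation `(rs)^9 = 1`. -/

set_option autoImplicit false

namespace Cfsg.Agent.H6.J3

open Subgroup Cfsg.Agent.H5

theorem zp3 {C : Type*} [Group C] {a c : C} (a3 : a ^ 3 = 1) (hc : c ∈ zpowers a) : c ^ 3 = 1 := by
  obtain ⟨k, rfl⟩ := hc
  rw [← zpow_natCast, ← zpow_mul, mul_comm, zpow_mul, zpow_natCast, a3, one_zpow]

theorem quot_cent {C : Type*} [Group C] [Finite C] {a : C} (hz : ∀ g, Commute g a) (a3 : a ^ 3 = 1)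
    (a1 : a ≠ 1) [(zpowers a).Normal]
    (h : ∀ u : C, u * u = 1 → u ≠ 1 → Nat.card (centralizer ({u} : Set C)) = 24)
    (u : C ⧸ zpowers a) (u2 : u * u = 1) (u1 : u ≠ 1) :
    Nat.card (centralizer ({u} : Set (C ⧸ zpowers a))) = 8 := by
  haveI : Fact (Nat.Prime 3) := ⟨by norm_num⟩
  obtain ⟨v, rfl, v2⟩ : ∃ v : C, (v : C ⧸ zpowers a) = u ∧ v * v = 1 := by
    obtain ⟨w, rfl⟩ := QuotientGroup.mk_surjective u
    refine ⟨w ^ 3, by rw [QuotientGroup.mk_pow, pow_succ, pow_two, u2, one_mul], ?_⟩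
    rw [← QuotientGroup.mk_mul, QuotientGroup.eq_one_iff] at u2
    rw [← (Commute.refl w).mul_pow, zp3 a3 u2]
  have e : (centralizer ({(v : C ⧸ zpowers a)} : Set _)).comap (QuotientGroup.mk' _) =
      centralizer {v} := by
    ext z
    simp only [mem_comap, mem_centralizer_singleton_iff, QuotientGroup.mk'_apply,
      ← QuotientGroup.mk_mul, QuotientGroup.eq]
    refine ⟨fun hc => ?_, fun hc => by simp [hc]⟩
    have c3 := zp3 a3 hc
    have cc : Commute v ((z * v)⁻¹ * (v * z)) := by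
      obtain ⟨k, hk⟩ := hc
      exact hk ▸ (hz v).zpow_right k
    have e1 : z⁻¹ * v * z = v * ((z * v)⁻¹ * (v * z)) := by group
    generalize (z * v)⁻¹ * (v * z) = c at c3 cc e1
    have c2 : c ^ 2 = 1 := by
      have : (v * c) ^ 2 = 1 := by
        rw [← e1, pow_two]
        calc _ = z⁻¹ * (v * v) * z := by group
          _ = 1 := by rw [v2]; group
      rwa [cc.mul_pow, pow_two v, v2, one_mul] at this
    have c1 : c = 1 := by simpa using pow_gcd_eq_one.2 ⟨c2, c3⟩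
    rw [c1, mul_one, mul_assoc, inv_mul_eq_iff_eq_mul] at e1
    exact e1.symm
  have h1 := index_comap_of_surjective (centralizer ({(v : C ⧸ zpowers a)} : Set _))
    (QuotientGroup.mk'_surjective (zpowers a))
  have h2 := (centralizer ({(v : C ⧸ zpowers a)} : Set _)).card_mul_index
  have h3 := (centralizer ({v} : Set C)).card_mul_index
  have h4 := card_eq_card_quotient_mul_card_subgroup (zpowers a)
  rw [Nat.card_zpowers, orderOf_eq_prime a3 a1, ← h2, ← h3, h v v2 (fun e => u1 (by simp [e])),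
    ← h1, e] at h4
  have h5 : (centralizer ({v} : Set C)).index ≠ 0 := index_ne_zero_of_finite
  rw [mul_right_comm] at h4
  have := Nat.eq_of_mul_eq_mul_right (Nat.pos_of_ne_zero h5) h4
  omega

variable {G : Type*} [Group G] {ι : Q0 →* G} {g p r : G}

theorem q_three : ∀ m : Q0, m ^ 3 = 1 → m ≠ 1 → (jQ m)⁻¹ * m * jQ m = yy := by decide +kernel
theorem q_cy : cntQ false (fun m => m * yy = yy * m) = 24 := by decide +kernel
theorem a_cw : ∀ z : A, z * z = 1 → z ≠ 1 → ∃ g, g * z * g⁻¹ = wA := by decide +kernel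

/-- all involutions are conjugate to `t` -/
def One (ι : Q0 →* G) : Prop := ∀ u : G, u * u = 1 → u ≠ 1 → ∃ g, g⁻¹ * u * g = ι tt

theorem Base.card_cc (B : Base ι) (h : One ι) {a : G} (a3 : a ^ 3 = 1) (a1 : a ≠ 1)
    (u : centralizer ({a} : Set G)) (u2 : u * u = 1) (u1 : u ≠ 1) :
    Nat.card (centralizer ({u} : Set (centralizer ({a} : Set G)))) = 24 := by
  obtain ⟨g, hg⟩ := h u (congrArg Subtype.val u2) (fun e => u1 (Subtype.ext e))
  have ua := mem_centralizer_singleton_iff.1 u.2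
  obtain ⟨m, hm⟩ := B.cent (g⁻¹ * a * g) (by
    change _ * ι tt = ι tt * _
    rw [← hg]
    calc _ = g⁻¹ * (a * u) * g := by group
      _ = _ := by rw [← ua]; group)
  have m3 := q_three m (B.inj (by
    rw [map_pow, hm, map_one, show g⁻¹ * a * g = g⁻¹ * a * g⁻¹⁻¹ by simp, conj_pow, a3]; simp))
    (fun e => a1 (by
      rw [e, map_one] at hm
      calc a = g * (g⁻¹ * a * g) * g⁻¹ := by group
        _ = 1 := by rw [← hm]; group))
  have e1 : (u : G) = g * ι (jQ m) * ι tt * (g * ι (jQ m))⁻¹ := by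
    have : ι (jQ m) * ι tt = ι tt * ι (jQ m) := by rw [← map_mul, ← map_mul, tt, q_t]
    rw [mul_assoc g, this, ← hg]; group
  have e2 : a = g * ι (jQ m) * ι yy * (g * ι (jQ m))⁻¹ := by
    rw [← m3, map_mul, map_mul, map_inv, hm]; group
  generalize g * ι (jQ m) = k at e1 e2
  have cm : ∀ x y : G, k * x * k⁻¹ * (k * y * k⁻¹) = k * (x * y) * k⁻¹ := fun _ _ => by group
  rw [← q_cy, ← card_eq_cnt]
  refine (Nat.card_eq_of_bijective (fun n : {m : Q0 // m * yy = yy * m} =>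
    (⟨⟨k * ι n.1 * k⁻¹, mem_centralizer_singleton_iff.2 (by
      rw [e2, cm, cm, ← map_mul, n.2, map_mul])⟩, mem_centralizer_singleton_iff.2 (Subtype.ext (by
        change k * ι n.1 * k⁻¹ * u = u * (k * ι n.1 * k⁻¹)
        rw [e1, cm, cm, ← map_mul, ← map_mul, tt, q_t]))⟩ :
      centralizer ({u} : Set (centralizer ({a} : Set G))))) ⟨fun x y e => ?_, fun z => ?_⟩).symm
  · have : k * ι x.1 * k⁻¹ = k * ι y.1 * k⁻¹ := congrArg (fun z => z.1.1) e
    exact Subtype.ext (B.inj (by simpa using this))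
  · have z1 : z.1.1 * u = u * z.1.1 := congrArg Subtype.val (mem_centralizer_singleton_iff.1 z.2)
    have z2 := mem_centralizer_singleton_iff.1 z.1.2
    obtain ⟨n, hn⟩ := B.cent (k⁻¹ * z.1.1 * k) (by
      rw [e1] at z1
      calc _ = k⁻¹ * (z.1.1 * (k * ι tt * k⁻¹)) * k := by rw [tt]; group
        _ = _ := by rw [z1, tt]; group)
    refine ⟨⟨n, B.inj ?_⟩, Subtype.ext (Subtype.ext ?_)⟩
    · rw [map_mul, map_mul, hn]
      generalize z.1.1 = w at z2
      rw [e2] at z2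
      calc _ = k⁻¹ * (w * (k * ι yy * k⁻¹)) * k := by group
        _ = _ := by rw [z2]; group
    · change k * ι n * k⁻¹ = _
      rw [hn]; group

theorem ιeq {a b : Q0} (h : a = b) : ι a = ι b := congrArg ι h

theorem JR.rp (J : JR ι p r) : r * p * r = ι yy := by
  rw [← J.ry, ← mul_assoc, ← mul_assoc, J.r2, one_mul, mul_assoc, J.r2, mul_one]

theorem JR.rs9 [Finite G] (J : JR ι p r) (h : One ι) : (r * ι ss) ^ 9 = 1 := by
  have y3 : ι yy ^ 3 = 1 := by rw [← map_pow, ← map_one ι]; exact ιeq (by decide +kernel)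
  have a3 : (p * ι yy) ^ 3 = 1 := by rw [J.cy.mul_pow, J.p3, y3, one_mul]
  have a1 : p * ι yy ≠ 1 := fun e =>
    absurd (J.act_uq (e ▸ J.acta) (β := id) (fun v => Cj.refl _) 1) (by decide)
  have s2 : ι ss * ι ss = 1 := by rw [← map_mul, ← map_one ι]; exact ιeq (by decide +kernel)
  have sy : ι ss * ι yy * ι ss = ι yy := by rw [← map_mul, ← map_mul]; exact ιeq (by decide +kernel)
  have sp : ι ss * p * ι ss = p⁻¹ * (ι yy)⁻¹ := by
    rw [← mul_inv_rev, eq_inv_iff_mul_eq_one, ← mul_assoc, J.sp]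
  have r1 : r⁻¹ = r := inv_eq_of_mul_eq_one_right J.r2
  have s1 : (ι ss)⁻¹ = ι ss := inv_eq_of_mul_eq_one_right s2
  have cj : ∀ z, (r * ι ss)⁻¹ * z * (r * ι ss) = ι ss * (r * z * r) * ι ss := fun z => by
    rw [mul_inv_rev, r1, s1]; group
  have k1 : (r * ι ss)⁻¹ * p * (r * ι ss) = ι yy := by rw [cj, J.rp, sy]
  have k2 : (r * ι ss)⁻¹ * ι yy * (r * ι ss) = p⁻¹ * (ι yy)⁻¹ := by rw [cj, J.ry, sp]
  have k3 : (r * ι ss)⁻¹ * (p⁻¹ * (ι yy)⁻¹) * (r * ι ss) = p := by
    calc _ = ((r * ι ss)⁻¹ * ι yy * (r * ι ss) * ((r * ι ss)⁻¹ * p * (r * ι ss)))⁻¹ := by group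
      _ = _ := by rw [k1, k2]; group
  have k4 : r * (r * ι ss) * r = (r * ι ss)⁻¹ := by
    rw [← mul_assoc, J.r2, one_mul, mul_inv_rev, r1, s1]
  generalize r * ι ss = c at k1 k2 k3 k4
  have m3 : ∀ x y z, c⁻¹ * x * c = y → c⁻¹ * y * c = z → c⁻¹ * z * c = x → Commute (c ^ 3) x := by
    rintro x _ _ rfl rfl e
    change c ^ 3 * x = x * c ^ 3
    nth_rewrite 1 [← e]
    simp only [pow_succ, pow_zero, mul_assoc, one_mul, mul_inv_cancel_left]
  have mp := m3 _ _ _ k1 k2 k3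
  have my := m3 _ _ _ k2 k3 k1
  have cr : Commute r (p * ι yy) := by
    have : r * (p * ι yy) * r = p * ι yy := by
      calc _ = r * p * (r * r) * ι yy * r := by rw [J.r2]; group
        _ = r * p * r * (r * ι yy * r) := by group
        _ = _ := by rw [J.rp, J.ry, J.cy.eq]
    change r * (p * ι yy) = p * ι yy * r
    nth_rewrite 2 [← this]
    rw [mul_assoc _ r, J.r2, mul_one]
  have cy : Commute (ι yy) (p * ι yy) := J.cy.symm.mul_right (Commute.refl _)
  have cp : Commute p (p * ι yy) := (Commute.refl _).mul_right J.cy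
  let C := centralizer ({p * ι yy} : Set G)
  let el : ∀ z, Commute z (p * ι yy) → C := fun z hz => ⟨z, mem_centralizer_singleton_iff.2 hz⟩
  let a : C := el _ (Commute.refl _)
  have hz : ∀ g : C, Commute g a := fun g => Subtype.ext (mem_centralizer_singleton_iff.1 g.2)
  haveI : (zpowers a).Normal := ⟨by
    rintro _ ⟨k, rfl⟩ g
    exact ⟨k, by simp only [((hz g).zpow_right k).eq, mul_inv_cancel_right]⟩⟩
  have A3 : a ^ 3 = 1 := Subtype.ext a3
  have w2 : ι ww * ι ww = 1 := by rw [← map_mul, ← map_one ι]; exact ιeq (by decide +kernel)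
  have h3 : (ι yy * p⁻¹) ^ 3 = 1 := by rw [J.cy.symm.inv_right.mul_pow, y3, inv_pow, J.p3]; simp
  obtain ⟨ψ, ψw, ψr, ψh⟩ := hom_A (w := el _ J.cw) (r := el _ cr) (h := el _ (cy.mul_left cp.inv_left))
    (Subtype.ext w2) (Subtype.ext J.r2) (Subtype.ext h3) (Subtype.ext (by
      have b1 : Cj ι (ι yy * p⁻¹)⁻¹ ww (yy * (yy * ww * yy⁻¹) * yy⁻¹) := by
        rw [mul_inv_rev, inv_inv, ← map_inv]
        exact J.pw.comp (Cj.of (by group))
      have b0 : Cj ι (ι yy * p⁻¹)⁻¹ yy yy := by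
        rw [mul_inv_rev, inv_inv, ← map_inv]
        exact J.py.comp (Cj.of (by group))
      have b2 := (b1.comp ((((b0.mul b0).mul b1).mul b0.inv).mul b0.inv |>.eq (by group) rfl))
      change (ι yy * p⁻¹ * ι ww) ^ 3 = 1
      unfold Cj at b1 b2
      generalize ι yy * p⁻¹ = h at h3 b1 b2
      calc _ = h⁻¹⁻¹ * ι ww * h⁻¹ * ((h⁻¹ * h⁻¹)⁻¹ * ι ww * (h⁻¹ * h⁻¹)) * h ^ 3 * ι ww := by
            simp only [pow_succ, pow_zero, mul_assoc, one_mul, mul_inv_rev, inv_inv,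
              inv_mul_cancel_left]
        _ = 1 := by
          rw [b1, b2, h3, mul_one, ← map_mul, ← map_mul, ← map_one ι]; exact ιeq (by decide +kernel)))
    (Subtype.ext (by
      change (ι ww * r) ^ 3 = 1
      rw [show ι ww * r = r⁻¹ * (r * ι ww) * r⁻¹⁻¹ by group, conj_pow, J.rw3]; simp))
    (Subtype.ext (by
      change (ι yy * p⁻¹ * r) ^ 2 = 1
      calc _ = ι yy * p⁻¹ * (r * ι yy * r) * (r⁻¹ * p⁻¹ * r⁻¹) * (r * r) := by rw [pow_two]; group
        _ = 1 := by rw [J.ry, ← mul_inv_rev, ← mul_inv_rev, ← mul_assoc r, J.rp, J.r2]; group))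
  let φ : A →* C ⧸ zpowers a := (QuotientGroup.mk' _).comp ψ
  have inj : Function.Injective φ := by
    rw [injective_iff_map_eq_one]
    intro b hb
    by_contra b1
    obtain ⟨z, hz, z2, z1⟩ : ∃ z : A, φ z = 1 ∧ z * z = 1 ∧ z ≠ 1 := by
      obtain ⟨g, h | h⟩ := a_nrm b b1
      · exact ⟨_, by simp [hb], by rw [← pow_two, h.1], h.2⟩
      · exact ⟨_, by simp [hb], by rw [← pow_two, h.1], h.2⟩
    obtain ⟨g, hg⟩ := a_cw z z2 z1
    have : φ wA = 1 := by rw [← hg]; simp [hz]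
    have e : ι ww ^ 3 = 1 := by
      have := zp3 A3 ((QuotientGroup.eq_one_iff _).1 this)
      rw [ψw] at this
      exact congrArg Subtype.val this
    rw [← map_pow, ← map_one ι] at e
    exact absurd (J.inj e) (by decide +kernel)
  have key := cube_one inj (quot_cent hz A3 (fun e => a1 (congrArg Subtype.val e))
    (J.card_cc h a3 a1)) (m := (el _ (mp.mul_right my) : C)) (by
      have : Commute (el _ (mp.mul_right my)) (ψ hA) := by
        rw [ψh]; exact Subtype.ext (my.mul_right mp.inv_right)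
      exact this.map (QuotientGroup.mk' (zpowers a)))
  rw [← QuotientGroup.mk_pow, QuotientGroup.eq_one_iff] at key
  have e3 : (c ^ 9) ^ 3 = 1 := by
    have := congrArg Subtype.val (zp3 A3 key)
    rwa [show 9 = 3 * 3 by rfl, pow_mul]
  obtain ⟨k, hk⟩ := key
  have e1 : (p * ι yy) ^ k = c ^ 9 := by
    rw [show 9 = 3 * 3 by rfl, pow_mul]; exact congrArg Subtype.val hk
  have e2 : (c ^ 9) ^ 2 = 1 := by
    have : r * c ^ 9 * r⁻¹ = (c ^ 9)⁻¹ := by rw [← conj_pow, r1, k4, inv_pow]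
    rw [← e1, (cr.zpow_right k).eq, mul_inv_cancel_right, e1] at this
    rw [pow_two]; nth_rewrite 1 [this]; simp
  simpa using pow_gcd_eq_one.2 ⟨e2, e3⟩

end Cfsg.Agent.H6.J3
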