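import Cfsg.Agent.H6.J3M

/-! Finite checks in `A₅`. -/

set_option autoImplicit false

namespace Cfsg.Agent.H6.J3

open Subgroup

noncomputable def wd (l : List A) : A := l.foldr (· * ·) 1
noncomputable def wi (l : List A) : A := l.foldr (fun a b => a⁻¹ * b) 1
def tl (d : A) (l : List A) : Prop := wd l = wi l ∧ wd l * wd l = 1 ∧ wd l * d * wd l = d⁻¹
def t3 (l : List A) : Prop := wd l ^ 3 = 1 ∧ wi l ^ 3 ≠ 1
noncomputable instance (d : A) (l : List A) : Decidable (tl d l) := by unfold tl; infer_instance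
noncomputable instance (l : List A) : Decidable (t3 l) := by unfold t3; infer_instance
def b3 (d e : A) : Prop := tl d [d⁻¹, e⁻¹, d, e, d⁻¹, e⁻¹] ∨ tl d [d, e, d⁻¹, e⁻¹, d, e, d⁻¹, e⁻¹, d, e]
noncomputable instance (d e : A) : Decidable (b3 d e) := by unfold b3; infer_instance

theorem a_ord : ∀ a : A, a ^ 5 = 1 ∨ a ^ 3 = 1 ∨ a * a = 1 := by decide +kernel
theorem a_five : ∀ d : A, d ^ 5 = 1 → d ≠ 1 → ∀ e, e ∈ ({1, d, d ^ 2, d ^ 3, d ^ 4} : Finset A) ∨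
    tl d [e] ∨ tl d [d⁻¹, e⁻¹, d, e, d⁻¹, e⁻¹] ∨ tl d [d, e⁻¹, d⁻¹, d⁻¹, e, d, d, e⁻¹, d⁻¹] := by
  decide +kernel
set_option synthInstance.maxSize 1000 in
theorem a_three : ∀ d : A, d ^ 3 = 1 → d ≠ 1 → ∀ e, e ∈ ({1, d, d⁻¹} : Finset A) ∨ b3 d e ∨
    ∀ f, f ∈ ({1, d, d⁻¹, e, d * e * d, d⁻¹ * e * d⁻¹} : Finset A) ∨ t3 [d, e, f] ∨ t3 [d, f, e] ∨
      t3 [d, e, f, e, f] ∨ t3 [d, f, e, f, e] ∨ t3 [d, e, d⁻¹, f] ∨ t3 [d, f, d⁻¹, e] ∨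
      tl d [e, f, e] ∨ tl d [e, d, f, d, e] ∨ tl d [e, d⁻¹, f, d⁻¹, e] ∨ b3 d f := by
  decide +kernel
theorem a_two : ∀ e : A, e * e = 1 → e ≠ 1 →
    (Finset.univ.filter fun f => f * f = 1 ∧ (e * f) ^ 8 = 1).card ≤ 6 := by decide +kernel
theorem a_inv : (Finset.univ.filter fun f : A => f * f = 1 ∧ f ≠ 1).card = 15 := by decide +kernel
theorem a_nrm : ∀ a : A, a ≠ 1 → ∃ g : A, (a * (g * a * g⁻¹)) ^ 2 = 1 ∧ a * (g * a * g⁻¹) ≠ 1 ∨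
    (a * (g * a ^ 2 * g⁻¹)) ^ 2 = 1 ∧ a * (g * a ^ 2 * g⁻¹) ≠ 1 := by decide +kernel
theorem a_ch : ∀ m : A, m * hA = hA * m → m ^ 3 = 1 := by decide +kernel
theorem a_h : hA ^ 3 = 1 ∧ hA ≠ 1 ∧ wA * wA = 1 ∧ wA ≠ 1 := by decide +kernel

end Cfsg.Agent.H6.J3
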