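import Cfsg.Agent.H6.Cnt

/-!
Classes of elements of prime order in projective groups when the scalars contain the roots of
unity of that order.
-/

set_option autoImplicit false

namespace Cfsg.Agent.H6

open Polynomial Module Matrix

/-- multiplicity vectors of non-scalar matrices -/
def RotM (r n : ℕ) [NeZero r] : Type := {m : ZMod r → ℕ // ∑ k, m k = n ∧ ∀ k, m k ≠ n}

instance (r n : ℕ) [NeZero r] : MulAction (Multiplicative (ZMod r)) (RotM r n) where
  smul j m := ⟨fun k => m.1 (j.toAdd + k),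
    (Equiv.sum_comp (Equiv.addLeft j.toAdd) m.1).trans m.2.1, fun k => m.2.2 _⟩
  one_smul m := Subtype.ext (_root_.funext fun k => congrArg m.1 (zero_add k))
  mul_smul i j m := Subtype.ext (_root_.funext fun k => congrArg m.1 (by
    change i.toAdd + j.toAdd + k = j.toAdd + (i.toAdd + k)
    ring))

variable {r n : ℕ}

theorem RotM.smul_apply [NeZero r] (j : Multiplicative (ZMod r)) (m : RotM r n) (k : ZMod r) :
    (j • m).1 k = m.1 (j.toAdd + k) := rfl

instance [NeZero r] : Finite (RotM r n) :=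
  have := finite_sum_eq (ZMod r) n
  Finite.of_injective (fun m => (⟨m.1, m.2.1⟩ : {m : ZMod r → ℕ // ∑ k, m k = n}))
    fun _ _ h => Subtype.ext (congrArg (fun x : {m : ZMod r → ℕ // ∑ k, m k = n} => x.1) h)

theorem card_rotM [NeZero r] (hn : n ≠ 0) :
    Nat.card (RotM r n) = (n + r - 1).choose (r - 1) - r := by
  classical
  have := finite_sum_eq (ZMod r) n
  have := Fintype.ofFinite {m : ZMod r → ℕ // ∑ k, m k = n}
  have h1 := card_sum_eq (ZMod r) n
  have h0 := NeZero.pos r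
  rw [ZMod.card, show r + n - 1 = n + (r - 1) by omega, Nat.choose_symm_add,
    show n + (r - 1) = n + r - 1 by omega] at h1
  rw [← h1, RotM, ← Nat.card_congr (Equiv.subtypeSubtypeEquivSubtypeInter
      (fun m : ZMod r → ℕ => ∑ k, m k = n) fun m => ∀ k, m k ≠ n),
    Nat.card_eq_fintype_card, Nat.card_eq_fintype_card]
  simp only [← not_exists]
  rw [Fintype.card_subtype_compl]
  congr 1
  conv_rhs => rw [← ZMod.card r]
  refine (Fintype.card_congr (Equiv.ofBijective (fun k => ⟨⟨Pi.single k n, by simp⟩, k, by simp⟩)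
    ⟨fun k l h => ?_, ?_⟩)).symm
  · by_contra hkl
    have := congrFun (congrArg (fun x => x.1.1) h) k
    simp [hkl, hn] at this
  · rintro ⟨⟨m, hm⟩, k, hk⟩
    refine ⟨k, Subtype.ext (Subtype.ext (_root_.funext fun l => ?_))⟩
    rw [← Finset.add_sum_erase _ _ (Finset.mem_univ k)] at hm
    by_cases hl : l = k
    · subst hl; simpa using hk.symm
    · simp only at hk
      have := Finset.sum_eq_zero_iff.1 (show ∑ x ∈ Finset.univ.erase k, m x = 0 by omega) l
        (by simp [hl])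
      simp [hl, this]

theorem card_fixedBy_rot [hr : Fact r.Prime] (hn : n ≠ 0) {j : Multiplicative (ZMod r)}
    (hj : j ≠ 1) : Nat.card (MulAction.fixedBy (RotM r n) j) = if r ∣ n then 1 else 0 := by
  have h1 : ∀ m : MulAction.fixedBy (RotM r n) j, (∀ k, m.1.1 k = m.1.1 0) ∧ r * m.1.1 0 = n :=
    fun m => by
    have h2 : ∀ k, m.1.1 k = m.1.1 0 := fun k => by
      have h3 : ∀ a : ℕ, m.1.1 (a * j.toAdd) = m.1.1 0 := fun a => by
        induction a with
        | zero => simp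
        | succ a ih =>
          rw [← ih, Nat.cast_succ, add_mul, one_mul, add_comm, ← RotM.smul_apply, m.2]
      rw [← h3 (k / j.toAdd).val, ZMod.natCast_zmod_val, div_mul_cancel₀ _ hj]
    refine ⟨h2, ?_⟩
    have := m.1.2.1
    rw [Finset.sum_congr rfl fun k _ => h2 k] at this
    simpa using this
  split_ifs with h
  · obtain ⟨c, rfl⟩ := h
    have := hr.out.two_le
    refine Nat.card_eq_one_iff_unique.2 ⟨⟨fun a b => Subtype.ext (Subtype.ext (_root_.funext
      fun k => ?_))⟩, ⟨⟨fun _ => c, by simp, fun _ h => ?_⟩, rfl⟩⟩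
    · rw [(h1 a).1, (h1 b).1]
      exact Nat.eq_of_mul_eq_mul_left (by omega) ((h1 a).2.trans (h1 b).2.symm)
    · have : c ≠ 0 := by rintro rfl; simp at hn
      simp only at h
      nlinarith [Nat.pos_of_ne_zero this]
  · exact Nat.card_eq_zero.2 (Or.inl ⟨fun m => h ⟨_, (h1 m).2.symm⟩⟩)

theorem card_rot_orbits [hr : Fact r.Prime] (hn : n ≠ 0) :
    Nat.card (MulAction.orbitRel.Quotient (Multiplicative (ZMod r)) (RotM r n)) =
      ((n + r - 1).choose (r - 1) - r - (if r ∣ n then 1 else 0)) / r +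
        (if r ∣ n then 1 else 0) := by
  classical
  have := Fintype.ofFinite (RotM r n)
  have h := MulAction.sum_card_fixedBy_eq_card_orbits_mul_card_group (Multiplicative (ZMod r))
    (RotM r n)
  rw [← Finset.add_sum_erase _ _ (Finset.mem_univ 1), Finset.sum_congr rfl fun j hj => by
    rw [← Nat.card_eq_fintype_card, card_fixedBy_rot hn (Finset.mem_erase.1 hj).1],
    Finset.sum_const, Finset.card_erase_of_mem (Finset.mem_univ _), Finset.card_univ,
    Fintype.card_multiplicative, ZMod.card, smul_eq_mul, ← Nat.card_eq_fintype_card,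
    ← Nat.card_eq_fintype_card, MulAction.fixedBy_one_eq_univ, Nat.card_univ] at h
  rw [← card_rotM hn]
  have h2 := hr.out.two_le
  change _ = Nat.card (MulAction.orbitRel.Quotient (Multiplicative (ZMod r)) (RotM r n)) * r at h
  generalize Nat.card (MulAction.orbitRel.Quotient (Multiplicative (ZMod r)) (RotM r n)) = o at *
  generalize Nat.card (RotM r n) = a at *
  split_ifs at h ⊢
  · obtain _ | o := o
    · omega
    · rw [show a - 1 = o * r by rw [add_mul] at h; omega, Nat.mul_div_cancel _ (by omega)]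
  · rw [show a - 0 = o * r by omega, Nat.mul_div_cancel _ (by omega), add_zero]

variable {F L : Type*} [Field F] [Field L] {ι : Type*} [Fintype ι] [DecidableEq ι]
  {e : F →+* L} {ζ : L}

theorem aeval_X_pow_sub_C {A : Matrix ι ι F} {m : ℕ} {c : F} :
    aeval A (X ^ m - C c) = 0 ↔ A ^ m = c • 1 := by
  rw [map_sub, map_pow, aeval_X, aeval_C, Algebra.algebraMap_eq_smul_one, sub_eq_zero]

theorem card_proj_classes [hr : Fact r.Prime] [Finite F] [Finite L] [Nonempty ι]
    (hζ : IsPrimitiveRoot ζ r) {G : Type*} [Group G] (ρ : G →* Matrix ι ι F)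
    (inj : Function.Injective ρ) (Λ : Subgroup Fˣ) (hΛ : r ∣ Nat.card Λ)
    (hZ : ∀ g ∈ Subgroup.center G, ∃ c : Λ, ρ g = c.1.1 • 1)
    (hs : ∀ c : Λ, ∃ g, ρ g = c.1.1 • 1)
    (hpow : ∀ (c : Λ) (d : F), d ^ r = c.1.1 → ∃ d : Λ, d ^ r = c)
    (hconj : ∀ a b, IsConj (ρ a) (ρ b) → IsConj a b)
    (hex : ∀ m : ZMod r → ℕ, ∑ k, m k = Fintype.card ι → ∃ g, g ^ r = 1 ∧ em e ζ r (ρ g) = m)
    (hex' : r ∣ Fintype.card ι → ∀ c : Λ, Irreducible (X ^ r - C c.1.1) →
      ∃ g, ρ g ^ r = c.1.1 • 1) :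
    Nat.card {C : ConjClasses (G ⧸ Subgroup.center G) //
        ∃ g, ConjClasses.mk g = C ∧ orderOf g = r} =
      ((Fintype.card ι + r - 1).choose (r - 1) - r - (if r ∣ Fintype.card ι then 1 else 0)) / r +
        r * (if r ∣ Fintype.card ι then 1 else 0) := by
  have hZ' : ∀ (g : G) (c : F), ρ g = c • 1 → g ∈ Subgroup.center G := fun g c h =>
    Subgroup.mem_center_iff.2 fun x => inj (by simp [h])
  have hsc : ∀ {a b : F}, a • (1 : Matrix ι ι F) = b • 1 → a = b := fun h =>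
    smul_left_injective F one_ne_zero h
  have hmk : ∀ (c : Λ) (g : G), ∃ g', ρ g' = c.1.1 • ρ g ∧
      (QuotientGroup.mk g' : G ⧸ Subgroup.center G) = QuotientGroup.mk g := fun c g => by
    obtain ⟨z, hz⟩ := hs c
    exact ⟨g * z, by simp [hz], QuotientGroup.mk_mul_of_mem _ (hZ' z _ hz)⟩
  have hc : ∀ g g' : G, IsConj (QuotientGroup.mk g : G ⧸ Subgroup.center G) (QuotientGroup.mk g') ↔
      ∃ c : Λ, IsConj (ρ g) (c.1.1 • ρ g') := fun g g' => by
    constructor
    · intro h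
      obtain ⟨x, hx⟩ := isConj_iff.1 h
      obtain ⟨x, rfl⟩ := QuotientGroup.mk_surjective x
      obtain ⟨c, hc⟩ := hZ _ (QuotientGroup.eq.1 hx.symm)
      refine ⟨c, ?_⟩
      rw [← mul_one (ρ g'), ← mul_smul_comm, ← hc, ← map_mul, mul_inv_cancel_left]
      exact ρ.map_isConj (isConj_iff.2 ⟨x, rfl⟩)
    · rintro ⟨c, h⟩
      obtain ⟨g'', h1, h2⟩ := hmk c g'
      rw [← h2]
      exact (QuotientGroup.mk' _).map_isConj (hconj _ _ (h1 ▸ h))
  have hab : ∀ {A B : Matrix ι ι F} {a b c : F}, A ^ r = a • 1 → B ^ r = b • 1 → IsConj A (c • B) →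
      a = c ^ r * b := fun h1 h2 h => by
    have := aeval_X_pow_sub_C.1 (IsConj.aeval_eq_zero h (aeval_X_pow_sub_C.2 h1))
    rw [_root_.smul_pow, h2, smul_smul] at this
    exact (hsc this).symm
  have hj : ∀ j : ZMod r, ∃ c : Λ, e c.1.1 = ζ ^ j.val := fun j => by
    obtain ⟨c, hc⟩ := exists_prime_orderOf_dvd_card' r hΛ
    have h1 : IsPrimitiveRoot (e c.1.1) r := by
      refine IsPrimitiveRoot.map_of_injective ?_ e.injective
      simpa only [orderOf_units, Subgroup.orderOf_coe, hc] using IsPrimitiveRoot.orderOf c.1.1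
    obtain ⟨i, -, hi⟩ := h1.eq_pow_of_pow_eq_one (ξ := ζ ^ j.val) (by
      rw [← pow_mul, mul_comm, pow_mul, hζ.pow_eq_one, one_pow])
    exact ⟨c ^ i, by simpa using hi⟩
  have hρ : ∀ g : G, g ^ r = 1 → ρ g ^ r = 1 := fun g hg => by rw [← map_pow, hg, map_one]
  have hirr : ∀ c : Λ, (QuotientGroup.mk c : Λ ⧸ (powMonoidHom r).range) ≠ 1 →
      Irreducible (X ^ r - C c.1.1) := fun c h =>
    X_pow_sub_C_irreducible_of_prime hr.out fun d hd =>
      h ((QuotientGroup.eq_one_iff _).2 (hpow c d hd))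
  have hne : ∀ g : G, g ^ r = 1 → ((QuotientGroup.mk g : G ⧸ Subgroup.center G) ≠ 1 ↔
      ∀ k, em e ζ r (ρ g) k ≠ Fintype.card ι) := fun g hg => by
    rw [Ne, QuotientGroup.eq_one_iff]
    refine ⟨fun h k hk => h ?_, fun h h' => ?_⟩
    · obtain ⟨c, hc⟩ := hj k
      refine hZ' g c.1.1 (Matrix.map_injective e.injective ?_)
      simp only
      rw [(em_eq_card_iff _ _).1 hk, ← hc]
      ext i j
      by_cases h : i = j <;> simp [h, one_apply]
    · obtain ⟨c, hc⟩ := hZ g h'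
      have h1 := hρ g hg
      rw [hc, _root_.smul_pow, one_pow] at h1
      obtain ⟨k, hk⟩ := exists_zp hζ (x := e c.1.1) (by
        rw [← map_pow, hsc (h1.trans (one_smul _ _).symm), map_one])
      refine h k ((em_eq_card_iff _ _).2 ?_)
      rw [hc, ← hk]
      ext i j
      by_cases h : i = j <;> simp [h, one_apply]
  rw [card_classes (T := MulAction.orbitRel.Quotient (Multiplicative (ZMod r))
      (RotM r (Fintype.card ι)) ⊕ {t : Λ ⧸ (powMonoidHom r).range // r ∣ Fintype.card ι ∧ t ≠ 1}) _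
    (fun x t => t.elim (fun o => ∃ (g : G) (m : RotM r (Fintype.card ι)), QuotientGroup.mk g = x ∧
      g ^ r = 1 ∧ em e ζ r (ρ g) = m.1 ∧ Quotient.mk'' m = o)
      fun t => ∃ (g : G) (c : Λ), QuotientGroup.mk g = x ∧ ρ g ^ r = c.1.1 • 1 ∧
        QuotientGroup.mk c = t.1) ?_ ?_ ?_, Nat.card_sum, card_rot_orbits Fintype.card_ne_zero,
      add_assoc]
  · congr 1
    split_ifs with h
    · rw [card_and_ne (fun _ : Λ ⧸ (powMonoidHom r).range => r ∣ Fintype.card ι) (a₀ := 1) h,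
        Nat.card_congr (Equiv.subtypeUnivEquiv fun _ => h), ← Subgroup.index,
        IsCyclic.index_powMonoidHom_range, Nat.gcd_eq_right hΛ]
      have := hr.out.two_le
      omega
    · simp [h]
  · intro x hx
    obtain ⟨g, rfl⟩ := QuotientGroup.mk_surjective x
    obtain ⟨h1, h2⟩ := orderOf_eq_prime_iff.1 hx
    obtain ⟨c, hc⟩ := hZ _ ((QuotientGroup.eq_one_iff _).1 h1)
    rw [map_pow] at hc
    by_cases h : (QuotientGroup.mk c : Λ ⧸ (powMonoidHom r).range) = 1
    · obtain ⟨d, rfl⟩ := (QuotientGroup.eq_one_iff _).1 h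
      obtain ⟨g', h3, h4⟩ := hmk d⁻¹ g
      have h5 : g' ^ r = 1 := inj (by
        rw [map_pow, h3, _root_.smul_pow, hc, smul_smul, map_one]
        simp)
      exact ⟨.inl _, g', ⟨_, em_sum hζ (hρ _ h5), (hne g' h5).1 (h4 ▸ h2)⟩, h4, h5, rfl, rfl⟩
    · have := natDegree_dvd_card (aeval_X_pow_sub_C.2 hc) (hirr c h)
      rw [natDegree_X_pow_sub_C] at this
      exact ⟨.inr ⟨_, this, h⟩, g, c, rfl, hc, rfl⟩
  · rintro (o | ⟨t, h1, h2⟩)
    · obtain ⟨m, rfl⟩ := Quotient.exists_rep o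
      obtain ⟨g, h1, h2⟩ := hex m.1 m.2.1
      exact ⟨_, orderOf_eq_prime (by rw [← QuotientGroup.mk_pow, h1]; rfl)
        ((hne g h1).2 (h2 ▸ m.2.2)), g, m, rfl, h1, h2, rfl⟩
    · obtain ⟨c, rfl⟩ := QuotientGroup.mk_surjective t
      obtain ⟨g, hg⟩ := hex' h1 c (hirr c h2)
      refine ⟨_, orderOf_eq_prime ((QuotientGroup.eq_one_iff _).2 (hZ' _ _ ((map_pow _ _ _).trans hg)))
        fun h => h2 ?_, g, c, rfl, hg, rfl⟩
      obtain ⟨d, hd⟩ := hZ g ((QuotientGroup.eq_one_iff _).1 h)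
      rw [hd, _root_.smul_pow, one_pow] at hg
      exact (QuotientGroup.eq_one_iff _).2 ⟨d, Subtype.ext (Units.ext (hsc hg))⟩
  · rintro _ _ (o | ⟨t, h1, h2⟩) (o' | ⟨t', h1', h2'⟩) - - ⟨g, m, rfl, h3⟩ ⟨g', m', rfl, h3'⟩ <;>
      rw [hc]
    · obtain ⟨h3, h4, rfl⟩ := h3
      obtain ⟨h3', h4', rfl⟩ := h3'
      rw [Sum.inl.injEq, eq_comm, Quotient.eq'', MulAction.orbitRel_apply]
      constructor
      · rintro ⟨c, h⟩
        have h5 := hab ((hρ g h3).trans (one_smul _ _).symm) ((hρ g' h3').trans (one_smul _ _).symm) h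
        obtain ⟨j, hj⟩ := exists_zp hζ (x := e c.1.1) (by
          rw [← map_pow, ← mul_one (_ ^ r), ← h5, map_one])
        refine ⟨Multiplicative.ofAdd j, Subtype.ext (_root_.funext fun k => ?_)⟩
        rw [RotM.smul_apply, ← h4, ← h4', IsConj.em_eq h]
        exact em_smul hζ hj _ _
      · rintro ⟨j, rfl⟩
        obtain ⟨c, hc⟩ := hj j.toAdd
        refine ⟨c, isConj_of_em (e := e) hζ (hρ g h3) ?_ (_root_.funext fun k => ?_)⟩
        · rw [_root_.smul_pow, hρ g' h3', e.injective (a₁ := c.1.1 ^ r) (a₂ := 1) (by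
            rw [map_pow, hc, ← pow_mul, mul_comm, pow_mul, hζ.pow_eq_one, one_pow, map_one]),
            one_smul]
        · obtain ⟨k, rfl⟩ := (Equiv.addLeft j.toAdd).surjective k
          rw [Equiv.coe_addLeft, em_smul hζ hc, h4, h4']
          rfl
    · refine iff_of_false ?_ Sum.inl_ne_inr
      rintro ⟨c, h⟩
      have h5 := hab ((hρ g h3.1).trans (one_smul _ _).symm) h3'.1 h
      refine h2' (h3'.2.symm.trans ((QuotientGroup.eq_one_iff _).2 ⟨c⁻¹, ?_⟩))
      rw [powMonoidHom_apply, inv_pow, inv_eq_iff_mul_eq_one]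
      exact Subtype.ext (Units.ext h5.symm)
    · refine iff_of_false ?_ Sum.inr_ne_inl
      rintro ⟨c, h⟩
      have h5 := hab h3.1 ((hρ g' h3'.1).trans (one_smul _ _).symm) h
      exact h2 (h3.2.symm.trans ((QuotientGroup.eq_one_iff _).2 ⟨c, Subtype.ext (Units.ext
        (by simpa using h5.symm))⟩))
    · obtain ⟨h3, rfl⟩ := h3
      obtain ⟨h3', rfl⟩ := h3'
      rw [Sum.inr.injEq, Subtype.mk.injEq, eq_comm, QuotientGroup.eq]
      constructor
      · rintro ⟨c, h⟩
        refine ⟨c, ?_⟩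
        rw [powMonoidHom_apply, eq_inv_mul_iff_mul_eq, mul_comm]
        exact Subtype.ext (Units.ext (hab h3 h3' h).symm)
      · rintro ⟨c, h⟩
        rw [powMonoidHom_apply, eq_inv_mul_iff_mul_eq, mul_comm] at h
        refine ⟨c, isConj_of_irreducible (aeval_X_pow_sub_C.2 h3) (aeval_X_pow_sub_C.2 ?_)
          (hirr m h2)⟩
        rw [_root_.smul_pow, h3', smul_smul, ← h]
        rfl

theorem card_pgl_classes {F : Type*} [Field F] [Fintype F] [Nonempty ι] (hr : r.Prime)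
    (h : r ∣ Fintype.card F - 1) :
    Nat.card {C : ConjClasses (GL ι F ⧸ Subgroup.center (GL ι F)) //
        ∃ g, ConjClasses.mk g = C ∧ orderOf g = r} =
      ((Fintype.card ι + r - 1).choose (r - 1) - r - (if r ∣ Fintype.card ι then 1 else 0)) / r +
        r * (if r ∣ Fintype.card ι then 1 else 0) := by
  have : Fact r.Prime := ⟨hr⟩
  have h1 : (Fintype.card F : ZMod r) = 1 := by
    have := (ZMod.natCast_eq_zero_iff _ _).2 h
    rwa [Nat.cast_sub Fintype.card_pos, Nat.cast_one, sub_eq_zero] at this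
  obtain ⟨L, _, _, e, φ, ζ, S⟩ := exists_spl F hr fun h0 => by
    obtain ⟨c, hc⟩ := h
    have := congrArg (Nat.cast : ℕ → F) hc
    simp [Nat.cast_sub Fintype.card_pos, h0] at this
  refine card_proj_classes (e := e) S.prim (Units.coeHom _) Units.val_injective ⊤
    (by rwa [Subgroup.card_top, Nat.card_units, Nat.card_eq_fintype_card]) (fun g hg => ?_)
    (fun c => ⟨GeneralLinearGroup.scalar ι c.1, coe_gl_scalar c.1⟩) (fun c d hd => ?_) (fun a b h => isConj_units_iff.2 h)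
    (fun m hm => ?_) fun h c hc => ?_
  · obtain ⟨u, rfl⟩ := (mem_center_gl_iff' g).1 hg
    exact ⟨⟨u, trivial⟩, coe_gl_scalar u⟩
  · exact ⟨⟨Units.mk0 d fun h => c.1.ne_zero (by rw [← hd, h, zero_pow hr.ne_zero]), trivial⟩,
      Subtype.ext (Units.ext hd)⟩
  · obtain ⟨A, h2, h3⟩ := S.exists_em m (by simp [h1]) hm
    obtain ⟨g, rfl⟩ := IsUnit.of_pow_eq_one h2 hr.ne_zero
    exact ⟨g, Units.ext h2, h3⟩
  · obtain ⟨A, hA⟩ := exists_aeval_eq_zero (ι := ι) hc.ne_zero (by rwa [natDegree_X_pow_sub_C])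
    rw [aeval_X_pow_sub_C] at hA
    obtain ⟨g, rfl⟩ := (isUnit_pow_iff hr.ne_zero).1 (hA ▸ coe_gl_scalar (ι := ι) c.1 ▸ Units.isUnit _)
    exact ⟨g, hA⟩

end Cfsg.Agent.H6
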