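import Cfsg.Agent.H6.Ord
import Cfsg.Agent.H7.Classify

/-!
Restriction of scalars for forms.
-/

set_option autoImplicit false

namespace Cfsg.Agent.H6

open Matrix Module

variable {F K : Type*} [Field F] [Field K] {ι κ : Type*} [Fintype ι] [DecidableEq ι] [Fintype κ]
  [DecidableEq κ]

theorem exists_symp_equiv {V : Type*} [AddCommGroup V] [Module F V] [Module.Finite F V]
    (β : LinearMap.BilinForm F V) (h1 : ∀ v, β v v = 0) (h2 : ∀ u, (∀ v, β u v = 0) → u = 0)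
    (h3 : finrank F V = 2 * Fintype.card κ) :
    ∃ Φ : V ≃ₗ[F] (κ ⊕ κ → F), ∀ u v, bf (J κ F) (Φ u) (Φ v) = β u v := by
  let b : Basis (κ ⊕ κ) F V := (Module.finBasisOfFinrankEq F V
    (n := Fintype.card (κ ⊕ κ)) (by simp [h3, two_mul])).reindex (Fintype.equivFin _).symm
  have h4 : ∀ u v, bf (LinearMap.BilinForm.toMatrix b β) (b.equivFun u) (b.equivFun v) = β u v :=
    fun u v => (LinearMap.BilinForm.apply_eq_dotProduct_toMatrix_mulVec b β u v).symm
  obtain ⟨h, hh⟩ := exists_symp_basis (A := LinearMap.BilinForm.toMatrix b β) (fun v => by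
    obtain ⟨v, rfl⟩ := b.equivFun.surjective v
    rw [h4, h1]) ((LinearMap.BilinForm.nondegenerate_iff_det_ne_zero b).1
      (.ofSeparatingLeft h2))
  refine ⟨b.equivFun.trans (GeneralLinearGroup.toLin h⁻¹).toLinearEquiv, fun u v => ?_⟩
  rw [← h4, ← hh, ← bf_mulVec]
  change bf _ (h.1 *ᵥ (h⁻¹.1 *ᵥ _)) (h.1 *ᵥ (h⁻¹.1 *ᵥ _)) = _
  simp only [mulVec_mulVec, Units.mul_inv, one_mulVec]
  rfl

variable [Algebra F K]

theorem exists_res (Φ : (κ → K) ≃ₗ[F] (ι → F)) : ∃ r : Matrix κ κ K →+* Matrix ι ι F,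
    Function.Injective r ∧ ∀ M v, r M *ᵥ Φ v = Φ (M *ᵥ v) := by
  have h : ∀ (M : Matrix κ κ K) v, LinearMap.toMatrix' (Φ.conj (M.mulVecLin.restrictScalars F)) *ᵥ v =
      Φ (M *ᵥ Φ.symm v) := fun M v => by
    rw [LinearMap.toMatrix'_mulVec]; rfl
  refine ⟨⟨⟨⟨fun M => LinearMap.toMatrix' (Φ.conj (M.mulVecLin.restrictScalars F)),
    ext_mulVec fun v => by simp [h]⟩, fun M N => ext_mulVec fun v => ?_⟩,
    ext_mulVec fun v => by simp [h], fun M N => ext_mulVec fun v => ?_⟩,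
    fun M N e => ext_mulVec fun v => ?_, fun M v => (h M _).trans (by simp)⟩
  · simp only [← mulVec_mulVec, h, LinearEquiv.symm_apply_apply]
  · rw [add_mulVec, h, h, h, add_mulVec, map_add]
  · simpa [h] using (h M (Φ v)).symm.trans ((congrArg (· *ᵥ Φ v) e).trans (h N (Φ v)))

/-- the trace form of a sesquilinear form -/
def trForm (t : K →ₗ[F] F) (c : K) (σ : K →+* K) (hσ : ∀ x, σ (algebraMap F K x) = algebraMap F K x)
    (A : Matrix κ κ K) : LinearMap.BilinForm F (κ → K) :=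
  LinearMap.mk₂ F (fun u v => t (c * sf σ A u v))
    (fun u u' v => by rw [sf_add_left, mul_add, map_add])
    (fun a u v => by
      rw [← algebraMap_smul K a u, sf_smul_left, mul_left_comm, ← Algebra.smul_def, map_smul])
    (fun u v v' => by rw [sf_add_right, mul_add, map_add])
    (fun a u v => by
      rw [← algebraMap_smul K a v, sf_smul_right, hσ, mul_left_comm, ← Algebra.smul_def, map_smul])

omit [DecidableEq κ] in
theorem trForm_apply (t : K →ₗ[F] F) (c : K) (σ : K →+* K)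
    (hσ : ∀ x, σ (algebraMap F K x) = algebraMap F K x) (A : Matrix κ κ K) (u v : κ → K) :
    trForm t c σ hσ A u v = t (c * sf σ A u v) := rfl

theorem eq_zero_of_tr {t : K →ₗ[F] F} (ht : t ≠ 0) {x : K} (h : ∀ y, t (y * x) = 0) : x = 0 := by
  by_contra hx
  exact ht (LinearMap.ext fun y => by simpa [hx] using h (y * x⁻¹))

theorem trForm_nondeg {t : K →ₗ[F] F} (ht : t ≠ 0) {c : K} (hc : c ≠ 0) {σ : K ≃+* K}
    (hσ : ∀ x, (σ : K →+* K) (algebraMap F K x) = algebraMap F K x) {A : Matrix κ κ K}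
    (hA : A.det ≠ 0) (u : κ → K) (h : ∀ v, trForm t c σ hσ A u v = 0) : u = 0 :=
  sf_nondeg_left (σ := σ) hA fun v => (mul_eq_zero.1 (eq_zero_of_tr ht fun y => by
    have := h (σ.symm y • v)
    rwa [trForm_apply, sf_smul_right, RingHom.coe_coe, σ.apply_symm_apply, mul_left_comm]
      at this)).resolve_left hc

omit [Algebra F K] in
theorem exists_quad_ext [Fintype F] [Fintype K] {q : ℕ} (hK : Fintype.card K = q ^ 2)
    (hF : Fintype.card F = q) : ∃ (τ : K ≃+* K) (_ : Algebra F K) (t : K →ₗ[F] F),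
      orderOf τ = 2 ∧ (∀ x, τ x = x ^ q) ∧ finrank F K = 2 ∧ t ≠ 0 ∧
      (∀ x, τ x = x ↔ ∃ y, algebraMap F K y = x) ∧ ∀ x, algebraMap F K (t x) = x + τ x := by
  obtain ⟨τ, hσ, hτ⟩ := exists_conj_aut hK
  obtain ⟨e, he⟩ := exists_emb_fixF τ F (by
    have := card_fixF_pow τ
    rw [hσ, Nat.card_eq_fintype_card (α := K), hK] at this
    exact hF.trans (Nat.pow_left_injective two_ne_zero this).symm)
  let _ := e.toAlgebra
  choose t ht using fun x => (he (x + τ x)).1 (by rw [map_add, sq_of_orderOf_two hσ, add_comm])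
  refine ⟨τ, inferInstance, ⟨⟨t, fun x y => e.injective ?_⟩, fun a x => e.injective ?_⟩, hσ, hτ, ?_,
    fun h => ?_, he, ht⟩
  · simp only [map_add, ht]
    ring
  · rw [ht, smul_eq_mul, map_mul, ht, Algebra.smul_def, map_mul,
      (he (algebraMap F K a)).2 ⟨a, rfl⟩, mul_add]
    rfl
  · have := Module.natCard_eq_pow_finrank (K := F) (V := K)
    rw [Nat.card_eq_fintype_card, Nat.card_eq_fintype_card, hK, hF] at this
    exact (Nat.pow_right_injective (two_le_of_card_sq hK) this).symm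
  · obtain ⟨x, hx⟩ := exists_trace_ne_zero hσ
    exact hx ((ht x).symm.trans ((congrArg e (LinearMap.congr_fun h x)).trans (map_zero e)))

theorem finrank_res (h : finrank F K = 2) : finrank F (κ → K) = 2 * Fintype.card κ := by
  have : Module.Finite F K := Module.finite_of_finrank_pos (by omega)
  simp [Module.finrank_pi_fintype, h, mul_comm]

theorem exists_sp_emb {G : Type*} [Group G] {ρ : G →* Matrix κ κ K} (inj : Function.Injective ρ)
    (β : LinearMap.BilinForm F (κ → K)) {m : ℕ} (Φ : (κ → K) ≃ₗ[F] (Fin m ⊕ Fin m → F))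
    (hΦ : ∀ u v, bf (J (Fin m) F) (Φ u) (Φ v) = β u v)
    (h : ∀ g u v, β (ρ g *ᵥ u) (ρ g *ᵥ v) = β u v) :
    ∃ φ : G →* symplecticGroup (Fin m) F, Function.Injective φ ∧
      ∀ g v, (φ g).1 *ᵥ Φ v = Φ (ρ g *ᵥ v) := by
  obtain ⟨r, h1, h2⟩ := exists_res Φ
  refine ⟨(r.toMonoidHom.comp ρ).codRestrict _ fun g => SymplecticGroup.mem_iff'.2
    (gram_of_isom fun u v => ?_), fun a b e => inj (h1 (congrArg Subtype.val e)), fun g => h2 _⟩
  obtain ⟨u, rfl⟩ := Φ.surjective u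
  obtain ⟨v, rfl⟩ := Φ.surjective v
  exact (congrArg₂ (bf _) (h2 _ u) (h2 _ v)).trans (by rw [hΦ, hΦ, h])

theorem exists_og_emb {G : Type*} [Group G] {ρ : G →* Matrix κ κ K} (inj : Function.Injective ρ)
    (Q : (κ → K) → F) {ι : Type} [Fintype ι] [DecidableEq ι] {Q' : (ι → F) → F}
    (Φ : (ι → F) ≃ₗ[F] (κ → K)) (hΦ : ∀ x, Q (Φ x) = Q' x) (h : ∀ g v, Q (ρ g *ᵥ v) = Q v) :
    ∃ φ : G →* isometryGroup F Q', Function.Injective φ := by
  obtain ⟨r, h1, h2⟩ := exists_res Φ.symm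
  refine ⟨(r.toMonoidHom.comp ρ).toHomUnits.codRestrict _ fun g => H7.mem_isometryGroup.2
    fun u => ?_, fun a b e => inj (h1 (congrArg (·.1.1) e))⟩
  obtain ⟨u, rfl⟩ := Φ.symm.surjective u
  exact (congrArg Q' (h2 _ u)).trans (by
    rw [← hΦ, ← hΦ, Φ.apply_symm_apply, Φ.apply_symm_apply, h])

variable {τ : K ≃+* K} {t : K →ₗ[F] F} (hσ : orderOf τ = 2) (h2 : finrank F K = 2) (ht : t ≠ 0)
  (he : ∀ x, τ x = x ↔ ∃ y, algebraMap F K y = x) (htr : ∀ x, algebraMap F K (t x) = x + τ x)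

include he in
theorem fix_alg (x : F) : (τ : K →+* K) (algebraMap F K x) = algebraMap F K x := (he _).2 ⟨x, rfl⟩

include hσ h2 ht he htr

theorem exists_herm_symp (m : ℕ) : ∃ (k : K) (Φ : (Fin m → K) ≃ₗ[F] (Fin m ⊕ Fin m → F)), k ≠ 0 ∧
    ∀ u v, bf (J (Fin m) F) (Φ u) (Φ v) = t (k * hf τ u v) := by
  have : Module.Finite F K := Module.finite_of_finrank_pos (by omega)
  obtain ⟨k, h0, hk⟩ := exists_trace_zero hσ
  obtain ⟨Φ, hΦ⟩ := exists_symp_equiv (κ := Fin m)
    (trForm t k (τ : K →+* K) (fix_alg he) (1 : Matrix (Fin m) (Fin m) K))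
    (fun v => (algebraMap F K).injective (by
      rw [trForm_apply, htr, ← hf_def, map_mul, hf_conj hσ, ← add_mul, hk, zero_mul, map_zero]))
    (trForm_nondeg ht h0 _ (by simp)) (finrank_res h2)
  exact ⟨k, Φ, h0, hΦ⟩

omit h2 in
theorem exists_herm_quad (κ : Type*) [Fintype κ] [DecidableEq κ] :
    ∃ Q : QuadraticForm F (κ → K), H7.ND Q ∧ ∀ v, algebraMap F K (Q v) = hf τ v v := by
  obtain ⟨a, ha⟩ := exists_trace_eq hσ (map_one τ)
  let Q := (trForm t a (τ : K →+* K) (fix_alg he)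
    (1 : Matrix κ κ K)).toQuadraticMap
  have h1 : ∀ v, algebraMap F K (Q v) = hf τ v v := fun v => by
    rw [LinearMap.BilinMap.toQuadraticMap_apply, trForm_apply, htr, ← hf_def, map_mul, hf_conj hσ,
      ← add_mul, ha, one_mul]
  refine ⟨Q, H7.nd_of fun x hx => trForm_nondeg ht one_ne_zero (fix_alg he)
    (A := 1) (by simp) x fun v => (algebraMap F K).injective ?_, h1⟩
  rw [← hx v, trForm_apply, htr, ← hf_def, one_mul, hf_conj hσ, QuadraticMap.polar, map_sub,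
    map_sub, h1, h1, h1, hf_add_left, hf_add_right, hf_add_right]
  ring

end Cfsg.Agent.H6
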