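import Cfsg.Agent.H6.SpU

/-!
Splitting off a semisimple eigenvalue; semisimple classes in symplectic groups.
-/

set_option autoImplicit false

namespace Cfsg.Agent.H6

open Matrix Module

attribute [-instance] CStarMatrix.instHMulOfFintypeOfMulOfAddCommMonoid

variable {F : Type*} [Field F] {ι κ κ' : Type*} [Fintype ι] [DecidableEq ι] [Fintype κ]
  [DecidableEq κ] [Fintype κ'] [DecidableEq κ']

omit [Fintype ι] [DecidableEq ι] in
theorem ext_mv {A B : Matrix ι κ F} (h : ∀ v, A *ᵥ v = B *ᵥ v) : A = B := by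
  ext i j
  simpa using congrFun (h (Pi.single j 1)) i

omit [DecidableEq ι] in
theorem exists_cols (W : Submodule F (ι → F)) : ∃ P : Matrix ι (Fin (finrank F W)) F,
    Function.Injective P.mulVec ∧ ∀ v, v ∈ W ↔ ∃ x, P *ᵥ x = v := by
  let b := (Module.finBasis F W).equivFun.symm
  refine ⟨LinearMap.toMatrix' (W.subtype ∘ₗ b.toLinearMap), fun x y h => ?_, fun v => ?_⟩
  · simp only [LinearMap.toMatrix'_mulVec] at h
    exact b.injective (Subtype.ext h)
  · simp only [LinearMap.toMatrix'_mulVec]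
    exact ⟨fun h => ⟨b.symm ⟨v, h⟩, by simp⟩, fun ⟨x, h⟩ => h ▸ (b x).2⟩

omit [DecidableEq κ'] in
theorem exists_left_inv {P : Matrix ι κ F} (h : Function.Injective P.mulVec) :
    ∃ L : Matrix κ ι F, L * P = 1 := by
  obtain ⟨L, hL⟩ := P.mulVecLin.exists_leftInverse_of_injective (LinearMap.ker_eq_bot.2 h)
  exact ⟨LinearMap.toMatrix' L, ext_mulVec fun v => by
    rw [← mulVec_mulVec, LinearMap.toMatrix'_mulVec, one_mulVec]
    exact LinearMap.congr_fun hL v⟩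

/-- the eigenvalue `c` of `A` is semisimple -/
def SsE (A : Matrix ι ι F) (c : F) : Prop :=
  ∀ v, (A - c • 1) *ᵥ ((A - c • 1) *ᵥ v) = 0 → (A - c • 1) *ᵥ v = 0

theorem ssE_of_pow {A : Matrix ι ι F} {n : ℕ} (h : A ^ n = 1) (hn : (n : F) ≠ 0) (c : F) :
    SsE A c := fun v hv => by
  obtain ⟨n, rfl⟩ := Nat.exists_eq_succ_of_ne_zero (show n ≠ 0 by rintro rfl; simp at hn)
  generalize hw : (A - c • 1) *ᵥ v = w at hv
  rw [sub_mulVec, smul_mulVec, one_mulVec] at hv hw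
  have h1 : ∀ k : ℕ, A ^ k *ᵥ w = c ^ k • w ∧
      A ^ (k + 1) *ᵥ v = c ^ (k + 1) • v + ((k + 1 : ℕ) * c ^ k) • w := fun k => by
    induction k with
    | zero => simp [← hw]
    | succ k ih =>
      rw [pow_succ' A k, pow_succ' A (k + 1), ← mulVec_mulVec, ← mulVec_mulVec, ih.1, ih.2,
        mulVec_add, mulVec_smul, mulVec_smul, mulVec_smul, sub_eq_zero.1 hv,
        sub_eq_iff_eq_add.1 hw]
      push_cast
      exact ⟨by module, by module⟩
  by_contra h0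
  have h2 := (h1 (n + 1)).1
  have h3 := (h1 n).2
  rw [h, one_mulVec] at h2 h3
  have h4 : c ^ (n + 1) = 1 := (smul_left_injective F h0 (h2.symm.trans (one_smul _ _).symm))
  rw [h4, one_smul, left_eq_add, smul_eq_zero_iff_left h0, mul_eq_zero_iff_left hn] at h3
  rw [pow_succ, h3, zero_mul] at h4
  exact zero_ne_one h4

structure Spt (A : Matrix ι ι F) (c : F) (P : Matrix ι κ F) (P' : Matrix ι κ' F)
    (Q : Matrix (κ ⊕ κ') ι F) (A' : Matrix κ' κ' F) : Prop where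
  pq : fromCols P P' * Q = 1
  qp : Q * fromCols P P' = 1
  eig : A * P = c • P
  res : A * P' = P' * A'
  unit : IsUnit (A' - c • 1)

theorem SsE.exists_spt {A : Matrix ι ι F} {c : F} (h : SsE A c) :
    ∃ (a b : ℕ) (P : Matrix ι (Fin a) F) (P' : Matrix ι (Fin b) F) (Q : Matrix (Fin a ⊕ Fin b) ι F)
      (A' : Matrix (Fin b) (Fin b) F), Spt A c P P' Q A' := by
  obtain ⟨P, h1, h2⟩ := exists_cols (LinearMap.ker (A - c • 1).mulVecLin)
  obtain ⟨P', h3, h4⟩ := exists_cols (LinearMap.range (A - c • 1).mulVecLin)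
  have h5 : ∀ x, (A - c • 1) *ᵥ (P *ᵥ x) = 0 := fun x => (h2 _).2 ⟨x, rfl⟩
  have h6 : ∀ y, (A - c • 1) *ᵥ (P' *ᵥ y) = 0 → y = 0 := fun y hy => by
    obtain ⟨w, hw⟩ := (h4 _).2 ⟨y, rfl⟩
    rw [mulVecLin_apply] at hw
    exact h3 (by rw [← hw, h w (hw ▸ hy), mulVec_zero])
  obtain ⟨Q, hQ⟩ := exists_left_inv (P := fromCols P P') ((injective_iff_map_eq_zero
    (fromCols P P').mulVecLin).2 fun x hx => by
      rw [mulVecLin_apply, fromCols_mulVec] at hx
      have h7 := h6 (x ∘ Sum.inr) (by rw [eq_neg_of_add_eq_zero_right hx, mulVec_neg, h5, neg_zero])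
      rw [h7, mulVec_zero, add_zero] at hx
      rw [← Sum.elim_comp_inl_inr x, h7, h1 (hx.trans (mulVec_zero _).symm)]
      simp)
  obtain ⟨L, hL⟩ := exists_left_inv h3
  have h7 : (A - c • 1) * P' = P' * (L * ((A - c • 1) * P')) := ext_mv fun v => by
    obtain ⟨x, hx⟩ := (h4 _).1 ⟨P' *ᵥ v, rfl⟩
    rw [mulVecLin_apply] at hx
    simp only [← mulVec_mulVec]
    rw [← hx, mulVec_mulVec x L, hL, one_mulVec]
  refine ⟨_, _, P, P', Q, L * ((A - c • 1) * P') + c • 1, (mul_eq_one_comm_of_equiv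
    (Fintype.equivOfCardEq ?_)).1 hQ, hQ, ext_mv fun v => ?_, ?_, ?_⟩
  · have := (A - c • 1).mulVecLin.finrank_range_add_finrank_ker
    simp only [Fintype.card_sum, Fintype.card_fin, finrank_fintype_fun_eq_card] at this ⊢
    omega
  · have := h5 v
    rwa [sub_mulVec, smul_mulVec, one_mulVec, sub_eq_zero, mulVec_mulVec, ← smul_mulVec] at this
  · rw [Matrix.mul_add, ← h7, Matrix.sub_mul]
    simp
  · rw [add_sub_cancel_right, ← mulVec_injective_iff_isUnit]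
    refine (injective_iff_map_eq_zero (mulVecLin _)).2 fun y hy => h6 y ?_
    rw [mulVec_mulVec, h7, ← mulVec_mulVec, ← mulVecLin_apply (L * _), hy, mulVec_zero]

namespace Spt

variable {A G G' : Matrix ι ι F} {c : F} {P : Matrix ι κ F} {P' : Matrix ι κ' F}
  {Q : Matrix (κ ⊕ κ') ι F} {A' : Matrix κ' κ' F} (S : Spt A c P P' Q A')

include S

theorem inj : Function.Injective P'.mulVec := (injective_iff_map_eq_zero P'.mulVecLin).2 fun y hy => by
  have : Q *ᵥ (fromCols P P' *ᵥ Sum.elim 0 y) = Sum.elim (0 : κ → F) y := by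
    rw [mulVec_mulVec, S.qp, one_mulVec]
  rw [fromCols_mulVec_sumElim, mulVec_zero, zero_add, ← mulVecLin_apply P', hy, mulVec_zero] at this
  exact funext fun i => (congrFun this (.inr i)).symm

theorem decomp (v : ι → F) : ∃ x y, v = P *ᵥ x + P' *ᵥ y :=
  ⟨(Q *ᵥ v) ∘ Sum.inl, (Q *ᵥ v) ∘ Sum.inr, by
    rw [← fromCols_mulVec, mulVec_mulVec, S.pq, one_mulVec]⟩

theorem sub_mulVec (d : F) (y : κ' → F) :
    (A - d • 1) *ᵥ (P' *ᵥ y) = P' *ᵥ ((A' - d • 1) *ᵥ y) := by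
  simp [mulVec_mulVec, Matrix.sub_mul, Matrix.mul_sub, S.res]

theorem ssE {d : F} (h : SsE A d) : SsE A' d := fun y hy => S.inj (by
  rw [← S.sub_mulVec, h _ (by rw [S.sub_mulVec, S.sub_mulVec, hy, mulVec_zero]), mulVec_zero])

theorem isUnit {d : F} (h : IsUnit (A - d • 1)) : IsUnit (A' - d • 1) :=
  mulVec_injective_iff_isUnit.1 fun x y hxy => S.inj (mulVec_injective_iff_isUnit.2 h (by
    rw [S.sub_mulVec, S.sub_mulVec, hxy]))

theorem pow {n : ℕ} (h : A ^ n = 1) : A' ^ n = 1 := by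
  have : ∀ k, A ^ k * P' = P' * A' ^ k := fun k => by
    induction k with
    | zero => simp
    | succ k ih => rw [pow_succ, Matrix.mul_assoc, S.res, ← Matrix.mul_assoc, ih, Matrix.mul_assoc,
        pow_succ]
  exact ext_mulVec fun v => S.inj (by
    rw [mulVec_mulVec, ← this, h, Matrix.one_mul, one_mulVec])

theorem blk : A * fromCols P P' = fromCols P P' * fromBlocks (c • (1 : Matrix κ κ F)) 0 0 A' := by
  simp [mul_fromCols, fromCols_mul_fromBlocks, S.eig, S.res]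

theorem blk' : Q * A = fromBlocks (c • (1 : Matrix κ κ F)) 0 0 A' * Q := by
  rw [← Matrix.mul_one (Q * A), ← S.pq, ← Matrix.mul_assoc, Matrix.mul_assoc Q, S.blk,
    ← Matrix.mul_assoc, S.qp, Matrix.one_mul]

theorem isom (h : Aᵀ * G * A = G) : A'ᵀ * (P'ᵀ * G * P') * A' = P'ᵀ * G * P' := by
  conv_rhs => rw [← h]
  simp only [Matrix.mul_assoc, ← S.res]
  simp only [← Matrix.mul_assoc, ← transpose_mul, ← S.res]

variable (hc : c * c = 1)
include hc

theorem orth (h : Aᵀ * G * A = G) : Pᵀ * G * P' = 0 := by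
  have : Pᵀ * G * P' = c • (Pᵀ * G * P' * A') := by
    conv_lhs => rw [← h]
    rw [← Matrix.mul_assoc, ← Matrix.mul_assoc, ← transpose_mul, S.eig, Matrix.mul_assoc, S.res]
    simp [Matrix.mul_assoc]
  obtain ⟨u, hu⟩ := S.unit.exists_right_inv
  rw [← Matrix.mul_one (_ * P'), ← hu, ← Matrix.mul_assoc, Matrix.mul_sub, Matrix.mul_smul,
    Matrix.mul_one]
  nth_rw 2 [this]
  rw [smul_smul, hc, one_smul, sub_self, Matrix.zero_mul]

theorem gram (h : Aᵀ * G * A = G) : (fromCols P P')ᵀ * G * fromCols P P' =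
    fromBlocks (Pᵀ * G * P) 0 0 (P'ᵀ * G * P') := by
  have := congrArg transpose (S.orth hc (G := Gᵀ) (by
    conv_rhs => rw [← h]
    simp [Matrix.mul_assoc]))
  rw [transpose_mul, transpose_mul, transpose_transpose, transpose_transpose, transpose_zero,
    ← Matrix.mul_assoc] at this
  rw [transpose_fromCols, fromRows_mul, fromRows_mul_fromCols, S.orth hc h, this]

theorem eq_gram (h : Aᵀ * G * A = G) :
    G = Qᵀ * fromBlocks (Pᵀ * G * P) 0 0 (P'ᵀ * G * P') * Q := by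
  rw [← S.gram hc h, ← Matrix.mul_assoc, ← Matrix.mul_assoc, ← transpose_mul, Matrix.mul_assoc,
    S.pq]
  simp

omit hc in
theorem det_ne_zero {M : Matrix (κ ⊕ κ') (κ ⊕ κ') F} : (Qᵀ * M * Q).det ≠ 0 ↔ M.det ≠ 0 := by
  have h1 := congrArg transpose S.pq
  have h2 := congrArg transpose S.qp
  rw [transpose_mul, transpose_one] at h1 h2
  rw [← isUnit_iff_ne_zero, ← isUnit_iff_ne_zero, ← isUnit_iff_isUnit_det, ← isUnit_iff_isUnit_det]
  constructor
  · intro h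
    obtain ⟨N, hN⟩ := h.exists_right_inv
    refine IsUnit.of_mul_eq_one (Q * N * Qᵀ) ?_
    have := congrArg (fun X => (fromCols P P')ᵀ * X * Qᵀ) hN
    simp only [← Matrix.mul_assoc, h2, Matrix.one_mul, Matrix.mul_one] at this ⊢
    exact this
  · intro h
    obtain ⟨N, hN⟩ := h.exists_right_inv
    refine IsUnit.of_mul_eq_one (fromCols P P' * N * (fromCols P P')ᵀ) ?_
    rw [Matrix.mul_assoc (fromCols P P'), Matrix.mul_assoc, ← Matrix.mul_assoc Q, S.qp,
      Matrix.one_mul, Matrix.mul_assoc, ← Matrix.mul_assoc M, hN, Matrix.one_mul, h1]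

theorem det (h : Aᵀ * G * A = G) (hG : G.det ≠ 0) :
    (Pᵀ * G * P).det ≠ 0 ∧ (P'ᵀ * G * P').det ≠ 0 := by
  rwa [S.eq_gram hc h, S.det_ne_zero, det_fromBlocks_zero₂₁, mul_ne_zero_iff] at hG

theorem cong (h : Aᵀ * G * A = G) (h' : Aᵀ * G' * A = G') {Y : Matrix κ κ F} {Y' : Matrix κ' κ' F}
    (h1 : Yᵀ * (Pᵀ * G * P) * Y = Pᵀ * G' * P) (h2 : Y' * A' = A' * Y')
    (h3 : Y'ᵀ * (P'ᵀ * G * P') * Y' = P'ᵀ * G' * P') : ∃ Z, Z * A = A * Z ∧ Zᵀ * G * Z = G' := by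
  refine ⟨fromCols P P' * fromBlocks Y 0 0 Y' * Q, ?_, ?_⟩
  · rw [Matrix.mul_assoc, S.blk', ← Matrix.mul_assoc, ← Matrix.mul_assoc, ← Matrix.mul_assoc, S.blk]
    simp [Matrix.mul_assoc, fromBlocks_multiply, h2]
  · rw [S.eq_gram hc h', ← h1, ← h3, transpose_mul, transpose_mul]
    simp only [Matrix.mul_assoc]
    rw [← Matrix.mul_assoc G, ← Matrix.mul_assoc (fromCols P P')ᵀ, ← Matrix.mul_assoc _ G, S.gram hc h]
    simp [← Matrix.mul_assoc, fromBlocks_transpose, fromBlocks_multiply]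

theorem form {H : Matrix κ κ F} {H' : Matrix κ' κ' F} (h : A'ᵀ * H' * A' = H') :
    Aᵀ * (Qᵀ * fromBlocks H 0 0 H' * Q) * A = Qᵀ * fromBlocks H 0 0 H' * Q := by
  rw [Matrix.mul_assoc, Matrix.mul_assoc, Matrix.mul_assoc, S.blk', ← Matrix.mul_assoc,
    ← transpose_mul, S.blk', transpose_mul]
  simp only [Matrix.mul_assoc]
  rw [← Matrix.mul_assoc (fromBlocks H 0 0 H'), ← Matrix.mul_assoc _ _ Q]
  simp [← Matrix.mul_assoc, fromBlocks_transpose, fromBlocks_multiply, h, smul_smul, hc]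

end Spt

theorem alt_wall_cong [Finite F] {A G G' : Matrix ι ι F} (h1 : SsE A 1) (h2 : SsE A (-1))
    (hG : G.det ≠ 0) (hG' : G'.det ≠ 0) (a : IsAlt G) (a' : IsAlt G') (h : Aᵀ * G * A = G)
    (h' : Aᵀ * G' * A = G') : ∃ Y, Y * A = A * Y ∧ Yᵀ * G * Y = G' := by
  obtain ⟨_, _, P, P', Q, B, S⟩ := h1.exists_spt
  obtain ⟨_, _, R, R', Q', C, S'⟩ := (S.ssE h2).exists_spt
  have e : (-1 : F) * -1 = 1 := by simp
  have d := S.det (mul_one _) h hG
  have d' := S.det (mul_one _) h' hG'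
  have f := S'.det e (S.isom h) d.2
  have f' := S'.det e (S.isom h') d'.2
  obtain ⟨Y, hY⟩ := alt_cong (a.congr P) (a'.congr P) d.1 d'.1
  obtain ⟨Y', hY'⟩ := alt_cong ((a.congr P').congr R) ((a'.congr P').congr R) f.1 f'.1
  obtain ⟨Z, h3, h4⟩ := wall_cong (σ := RingHom.id F) (fun _ => rfl) f.2 f'.2
    ((a.congr P').congr R').eh ((a'.congr P').congr R').eh (S'.isom (S.isom h))
    (S'.isom (S.isom h')) (Or.inr (by
      convert (S'.isUnit S.unit).mul S'.unit using 1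
      simp [mul_add, sub_mul]))
  obtain ⟨Z', h5, h6⟩ := S'.cong e (S.isom h) (S.isom h') hY' h3 h4
  exact S.cong (mul_one _) h h' hY h5 h6

theorem sp_ss_conj [Finite F] {A B : symplecticGroup κ F} {n : ℕ} (h : A.1 ^ n = 1)
    (hn : (n : F) ≠ 0) (hc : IsConj A.1 B.1) : IsConj A B := by
  obtain ⟨g, hg⟩ := hc
  obtain ⟨Y, h1, h2⟩ := alt_wall_cong (ssE_of_pow h hn 1) (ssE_of_pow h hn _) det_J_ne_zero
    (det_gram_ne_zero (σ := RingHom.id F) det_J_ne_zero (GeneralLinearGroup.det_ne_zero g))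
    isAlt_J (isAlt_J.congr g.1) (SymplecticGroup.mem_iff'.1 A.2)
    (isom_of_conj (σ := RingHom.id F) hg.eq (SymplecticGroup.mem_iff'.1 B.2))
  obtain ⟨y, h6, h7⟩ := isom_conj_of_cong (σ := RingHom.id F) det_J_ne_zero hg.eq h1 h2
  exact isConj_iff.2 ⟨⟨y.1, SymplecticGroup.mem_iff'.2 h6⟩,
    mul_inv_eq_iff_eq_mul.2 (Subtype.ext h7)⟩

theorem isAlt_fromBlocks {H : Matrix κ κ F} {H' : Matrix κ' κ' F} (h : IsAlt H) (h' : IsAlt H') :
    IsAlt (fromBlocks H 0 0 H') := by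
  rw [isAlt_iff] at *
  exact ⟨by simp [fromBlocks_transpose, fromBlocks_neg, h.1, h'.1], by simp [h.2, h'.2]⟩

theorem exists_alt (h : Even (Fintype.card ι)) : ∃ G : Matrix ι ι F, IsAlt G ∧ G.det ≠ 0 := by
  obtain ⟨k, hk⟩ := h
  have e : Fin k ⊕ Fin k ≃ ι := Fintype.equivOfCardEq (by simp [hk])
  refine ⟨reindex e e (J (Fin k) F), ?_, by simpa using det_J_ne_zero⟩
  have := isAlt_iff.1 (isAlt_J (F := F) (κ := Fin k))
  exact isAlt_iff.2 ⟨by simp [transpose_submatrix, submatrix_neg], fun i => this.2 _⟩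

theorem sp_ss_exists [Finite F] {A G : Matrix (κ ⊕ κ) (κ ⊕ κ) F} {n : ℕ} (h : A ^ n = 1)
    (hn : (n : F) ≠ 0) (ho : Odd n) (hG : G.det ≠ 0) (hA : Aᵀ * G * A = G) :
    ∃ B : symplecticGroup κ F, IsConj A B.1 := by
  obtain ⟨a, b, P, P', Q, B, S⟩ := (ssE_of_pow h hn 1).exists_spt
  have h1 : IsUnit (B - 1) := by simpa using S.unit
  obtain ⟨H, h2, h3, h4⟩ := wall_exists (σ := RingHom.id F) (ε := -1) (fun _ => rfl)
    (S.det (mul_one _) hA hG).2 (by simp) (S.isom hA) (Or.inr (by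
      obtain ⟨k, rfl⟩ := ho
      have h2 := (Commute.one_right (B * B)).mul_geom_sum₂ (k + 1)
      rw [← sq, ← pow_mul, mul_add, mul_one, pow_succ B (2 * k + 1), S.pow h, one_mul, one_pow,
        sq] at h2
      exact isUnit_of_mul_isUnit_left (h2 ▸ h1)))
  have h5 : IsAlt H := fun v => by
    obtain ⟨w, rfl⟩ := mulVec_surjective_iff_isUnit.2 h1 v
    have h5 : bf H (B *ᵥ w) (B *ᵥ w) = bf H w w := by rw [sf_mulVec]; exact congrArg (bf · w w) h4
    have h6 := h3 w w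
    have h7 := h3 w (B *ᵥ w)
    simp only [RingHom.id_apply] at h6 h7
    rw [sub_mulVec, one_mulVec, sf_sub_left, sf_sub_right, sf_sub_right]
    linear_combination h5 + h6 - h7
  obtain ⟨H', h6, h7⟩ := exists_alt (F := F) (ι := Fin a) (by
    have h6 := even_card_of_isAlt h5 h2
    have h7 := (rank_mul_mul S.qp 1).symm.trans (congrArg rank ((congrArg (· * Q)
      (Matrix.mul_one _)).trans S.pq))
    simp only [rank_one, Fintype.card_sum, Fintype.card_fin] at h6 h7 ⊢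
    exact (Nat.even_add.1 (h7 ▸ ⟨_, rfl⟩)).2 h6)
  obtain ⟨g, hg⟩ := exists_symp_basis ((isAlt_fromBlocks h6 h5).congr Q) (S.det_ne_zero.2 (by
    rw [det_fromBlocks_zero₂₁]; exact mul_ne_zero h7 h2))
  have h9 : g.1 * (g⁻¹.1 * A * g.1) = A * g.1 := by simp [← mul_assoc]
  have := isom_of_conj (σ := RingHom.id F) h9 (S.form (H := H') (mul_one _) h4)
  erw [hg] at this
  exact ⟨⟨_, SymplecticGroup.mem_iff'.2 this⟩, IsConj.symm ⟨g, h9⟩⟩

end Cfsg.Agent.H6
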