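import Mathlib

/-!
Shintani descent (abstract group theory).
-/

set_option autoImplicit false

namespace Cfsg.Agent.H6

variable {X : Type*} [Group X] (σ : MulAut X)

theorem pow_apply_comm (i : ℕ) (x : X) : (σ ^ i) (σ x) = σ ((σ ^ i) x) := by
  rw [← MulAut.mul_apply, ← MulAut.mul_apply, ← pow_succ, ← pow_succ']

theorem prod_telescope (a : X) (d : ℕ) :
    ((List.range d).map (fun i => (σ ^ i) (a * (σ a)⁻¹))).prod = a * ((σ ^ d) a)⁻¹ := by
  induction d with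
  | zero => simp
  | succ d ih =>
    rw [List.range_succ, List.map_append, List.prod_append, ih, List.map_singleton,
      List.prod_singleton, map_mul, map_inv, pow_succ, MulAut.mul_apply]
    group

variable {σ} {e : ℕ}

theorem shin_fixed {a : X} (hg : (σ ^ e) (a * (σ a)⁻¹) = a * (σ a)⁻¹) :
    σ (((σ ^ e) a)⁻¹ * a) = ((σ ^ e) a)⁻¹ * a := by
  rw [map_mul, map_inv, pow_apply_comm] at hg
  rw [map_mul, map_inv]
  calc (σ ((σ ^ e) a))⁻¹ * σ a
      = ((σ ^ e) a)⁻¹ * ((σ ^ e) a * (σ ((σ ^ e) a))⁻¹) * σ a := by group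
    _ = _ := by rw [hg]; group

theorem shin_fixed' {a : X} (h : σ (((σ ^ e) a)⁻¹ * a) = ((σ ^ e) a)⁻¹ * a) :
    (σ ^ e) (a * (σ a)⁻¹) = a * (σ a)⁻¹ := by
  rw [map_mul, map_inv] at h
  rw [map_mul, map_inv, pow_apply_comm]
  calc (σ ^ e) a * (σ ((σ ^ e) a))⁻¹
      = (σ ^ e) a * ((σ ((σ ^ e) a))⁻¹ * σ a) * (σ a)⁻¹ := by group
    _ = _ := by rw [h]; group

theorem pow_fixed {h : X} (hh : σ h = h) (i : ℕ) : (σ ^ i) h = h := by
  induction i with
  | zero => rfl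
  | succ i ih => rw [pow_succ, MulAut.mul_apply, hh, ih]

theorem shin_rel (a b k : X) :
    ((σ ^ e) k = k ∧ b * (σ b)⁻¹ = k * (a * (σ a)⁻¹) * (σ k)⁻¹) ↔
      (σ (b⁻¹ * k * a) = b⁻¹ * k * a ∧ ((σ ^ e) b)⁻¹ * b =
        (b⁻¹ * k * a) * (((σ ^ e) a)⁻¹ * a) * (b⁻¹ * k * a)⁻¹) := by
  have h1 : b * (σ b)⁻¹ = k * (a * (σ a)⁻¹) * (σ k)⁻¹ ↔ σ (b⁻¹ * k * a) = b⁻¹ * k * a := by
    rw [map_mul, map_mul, map_inv]
    constructor
    · intro h
      calc (σ b)⁻¹ * σ k * σ a = b⁻¹ * (b * (σ b)⁻¹) * σ k * σ a := by group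
        _ = _ := by rw [h]; group
    · intro h
      calc b * (σ b)⁻¹ = b * ((σ b)⁻¹ * σ k * σ a) * (σ a)⁻¹ * (σ k)⁻¹ := by group
        _ = _ := by rw [h]; group
  rw [h1, and_comm]
  refine and_congr_right fun h => ?_
  have h2 := pow_fixed h e
  rw [map_mul, map_mul, map_inv] at h2
  have h3 : b⁻¹ * k * a * (((σ ^ e) a)⁻¹ * a) * (b⁻¹ * k * a)⁻¹ =
      ((σ ^ e) b)⁻¹ * ((σ ^ e) k * k⁻¹) * b := by
    nth_rw 1 [← h2]
    group
  rw [h3, mul_assoc, mul_right_inj, eq_comm (a := b), mul_eq_right, mul_inv_eq_one]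

theorem card_rel {A B C : Type*} (R : A → B → Prop) (h : ∀ a, Nonempty ({b // R a b} ≃ C)) :
    Nat.card {p : A × B // R p.1 p.2} = Nat.card A * Nat.card C := by
  rw [← Nat.card_prod]
  exact Nat.card_congr ((Equiv.subtypeProdEquivSigmaSubtype R).trans
    ((Equiv.sigmaCongrRight fun a => (h a).some).trans (Equiv.sigmaEquivProd A C)))

theorem card_rel_swap {A B : Type*} (R : A → B → Prop) :
    Nat.card {p : A × B // R p.1 p.2} = Nat.card {p : B × A // R p.2 p.1} :=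
  Nat.card_congr ((Equiv.prodComm A B).subtypeEquiv fun _ => Iff.rfl)

end Cfsg.Agent.H6
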