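import Cfsg.Agent.H6.Inv2

/-!
Similarities of symmetric and alternating forms.
-/

set_option autoImplicit false

namespace Cfsg.Agent.H6

open Matrix Module

attribute [-instance] CStarMatrix.instHMulOfFintypeOfMulOfAddCommMonoid

theorem equiv_of_rel {A N : Type*} [Group A] [Group N] (S : Subgroup A) (K : Subgroup N) [K.Normal]
    (R : A → N → Prop) (h1 : ∀ a ∈ S, ∃ y, R a y) (h2 : ∀ y, ∃ a ∈ S, R a y)
    (h3 : ∀ a y a' y', R a y → R a' y' → R (a * a') (y * y'))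
    (h4 : ∀ a a' y, R a y → R a' y → a = a') (h5 : ∀ a y, R a y → (a = 1 ↔ y ∈ K)) :
    Nonempty (S ≃* N ⧸ K) := by
  choose f hf hf' using h2
  refine equiv_of_range_ker (MonoidHom.mk' f fun y y' => h4 _ _ _ (hf' _) (h3 _ _ _ _ (hf' _) (hf' _)))
    K S (Subgroup.ext fun y => h5 _ _ (hf' y)) (le_antisymm ?_ fun a ha => ?_)
  · rintro _ ⟨y, rfl⟩
    exact hf y
  · obtain ⟨y, hy⟩ := h1 a ha
    exact ⟨y, h4 _ _ _ (hf' y) hy⟩

/-- the subgroup generated by squares has index at most two -/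
def SqI (G : Type*) [Group G] : Prop :=
  ∀ T : Subgroup G, (∀ g, g * g ∈ T) → ∀ x y, x ∈ T ∨ y ∈ T ∨ x * y ∈ T

theorem SqI.equiv {G H : Type*} [Group G] [Group H] (h : SqI G) (e : G ≃* H) : SqI H :=
  fun T hT x y => by
    simpa using h (T.comap e.toMonoidHom) (fun g => by simpa using hT (e g)) (e.symm x) (e.symm y)

theorem sqI_quot {G : Type*} [Group G] (K : Subgroup G) [K.Normal] : SqI (G ⧸ K) ↔
    ∀ T : Subgroup G, K ≤ T → (∀ g, g * g ∈ T) → ∀ x y, x ∈ T ∨ y ∈ T ∨ x * y ∈ T := by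
  refine ⟨fun h T hK hT x y => ?_, fun h T hT x y => ?_⟩
  · have e : (T.map (QuotientGroup.mk' K)).comap (QuotientGroup.mk' K) = T := by
      rw [Subgroup.comap_map_eq, QuotientGroup.ker_mk', sup_eq_left.2 hK]
    rw [← e]
    exact h (T.map (QuotientGroup.mk' K)) (fun g => by
      obtain ⟨g, rfl⟩ := QuotientGroup.mk_surjective g
      exact ⟨_, hT g, rfl⟩) x y
  · obtain ⟨x, rfl⟩ := QuotientGroup.mk_surjective x
    obtain ⟨y, rfl⟩ := QuotientGroup.mk_surjective y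
    exact h (T.comap (QuotientGroup.mk' K)) (fun k hk => by
      simp [Subgroup.mem_comap, (QuotientGroup.eq_one_iff k).2 hk]) (fun g => hT g) x y

theorem index_sq_comap {C : Type*} [CommGroup C] [Finite C] [IsCyclic C] (h : Even (Nat.card C))
    (m : ℕ) : ((powMonoidHom (2 * m) : C →* C).range.comap (powMonoidHom 2)).index =
      Nat.gcd (2 * m) (Nat.card C) / 2 := by
  have := Subgroup.relIndex_mul_index (H := (powMonoidHom (2 * m) : C →* C).range)
    (K := (powMonoidHom 2 : C →* C).range) (by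
      rintro _ ⟨x, rfl⟩
      exact ⟨x ^ m, by simp [← pow_mul, mul_comm]⟩)
  rw [IsCyclic.index_powMonoidHom_range, IsCyclic.index_powMonoidHom_range,
    Nat.gcd_eq_right h.two_dvd] at this
  rw [Subgroup.index_comap, Nat.gcd_comm, ← this, Nat.mul_div_cancel _ two_pos]

variable {F : Type*} [Field F] {ι κ : Type*} [Fintype ι] [DecidableEq ι] [Fintype κ]
  [DecidableEq κ] {B B' B'' : Matrix ι ι F} {P P' : GL ι F}

/-- `P` is a similarity from `B'` to `B` -/
def Sim (B B' : Matrix ι ι F) (P : GL ι F) : Prop := ∃ c : Fˣ, P.1ᵀ * B * P.1 = c.1 • B'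

theorem sim_of (h : B'.det ≠ 0) {c : F} (hc : c ≠ 0) (e : ∃ M : Matrix ι ι F, Mᵀ * B * M = c • B') :
    ∃ P : GL ι F, P.1ᵀ * B * P.1 = c • B' := by
  obtain ⟨M, e⟩ := e
  obtain ⟨P, rfl⟩ := (isUnit_iff_isUnit_det M).2 (det_ne_zero_of_isom (κ := Unit)
    (σ := RingHom.id F) (by simp [hc, h]) e).isUnit
  exact ⟨P, e⟩

theorem sim_of' (h : B'.det ≠ 0) (e : ∃ M : Matrix ι ι F, Mᵀ * B * M = B') : ∃ P, Sim B B' P :=
  (sim_of h one_ne_zero (by simpa using e)).imp fun _ h => ⟨1, h⟩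

theorem gram_mul_smul {M N : Matrix ι ι F} {c d : F} (h : Mᵀ * B * M = c • B')
    (h' : Nᵀ * B' * N = d • B'') : (M * N)ᵀ * B * (M * N) = (c * d) • B'' := by
  rw [mul_smul, ← h', ← smul_mul_assoc, ← mul_smul_comm, ← h, transpose_mul]
  simp only [mul_assoc]

theorem gram_inv_smul {c : Fˣ} (h : P.1ᵀ * B * P.1 = c.1 • B') :
    P⁻¹.1ᵀ * B' * P⁻¹.1 = c⁻¹.1 • B := by
  rw [show B' = c⁻¹.1 • (P.1ᵀ * B * P.1) by simp [h], mul_smul_comm, smul_mul_assoc]
  simp [← mul_assoc, ← transpose_mul, -coe_units_inv]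

theorem Sim.alt (h : Sim B B' P) (hB : IsAlt B) : IsAlt B' := by
  obtain ⟨c, hc⟩ := h
  simpa [hc] using (hB.congr P.1).smul c⁻¹.1

theorem Sim.symm (h : Sim B B' P) : Sim B' B P⁻¹ := h.elim fun _ h => ⟨_, gram_inv_smul h⟩

variable (B) in
/-- the similarity group -/
def simG : Subgroup (GL ι F) where
  carrier := {g | Sim B B g}
  one_mem' := ⟨1, by simp⟩
  mul_mem' := fun ⟨c, h⟩ ⟨d, h'⟩ => ⟨c * d, gram_mul_smul h h'⟩
  inv_mem' := Sim.symm

theorem det_sq_of_gram (hB : B.det ≠ 0) {M : Matrix ι ι F} {c : F} (h : Mᵀ * B * M = c • B) :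
    M.det ^ 2 = c ^ Fintype.card ι := by
  have := congrArg det h
  rw [det_mul, det_mul, det_transpose, det_smul] at this
  exact mul_right_cancel₀ hB (by linear_combination this)

theorem smul_cancel [Nonempty ι] (hB : B.det ≠ 0) {c d : F} (h : c • B = d • B) : c = d :=
  smul_left_injective F (by rintro rfl; simp at hB) h

theorem isAlt_submatrix (h : IsAlt B) (e : κ → ι) : IsAlt (B.submatrix e e) :=
  isAlt_iff.2 ⟨by rw [transpose_submatrix, (isAlt_iff.1 h).1]; rfl, fun _ => (isAlt_iff.1 h).2 _⟩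

theorem sim_alt (h : IsAlt B) (h' : IsAlt B') (hB : B.det ≠ 0) (hB' : B'.det ≠ 0) :
    ∃ P, Sim B B' P := sim_of' hB' (alt_cong h h' hB hB')

theorem exists_sim_alt (h : IsAlt B) (hB : B.det ≠ 0) {m : ℕ} (hm : Fintype.card ι = 2 * m)
    {c : F} (hc : c ≠ 0) : ∃ P : GL ι F, P.1ᵀ * B * P.1 = c • B ∧ P.1.det = c ^ m := by
  have e : ι ≃ Fin m ⊕ Fin m := Fintype.equivOfCardEq (by simp [hm, two_mul])
  obtain ⟨R, d, hR⟩ := sim_alt (isAlt_submatrix isAlt_J e) h (by simpa using det_J_ne_zero) hB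
  have h1 : ((fromBlocks 1 0 0 (c • 1)).submatrix e e)ᵀ * (J (Fin m) F).submatrix e e *
      (fromBlocks 1 0 0 (c • 1)).submatrix e e = c • (J (Fin m) F).submatrix e e := by
    rw [transpose_submatrix, submatrix_mul_equiv, submatrix_mul_equiv]
    change _ = (c • J (Fin m) F).submatrix e e
    simp [J, fromBlocks_transpose, fromBlocks_multiply, fromBlocks_smul]
  have h2 := gram_mul_smul (gram_mul_smul (gram_inv_smul hR) h1) hR
  rw [mul_right_comm, d.inv_mul, one_mul] at h2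
  obtain ⟨P, hP⟩ := (isUnit_iff_isUnit_det _).2 (det_ne_zero_of_isom (κ := Unit)
    (σ := RingHom.id F) (by simp [hc, hB]) h2).isUnit
  refine ⟨P, hP ▸ h2, ?_⟩
  rw [hP, det_mul, det_mul, mul_right_comm, ← det_mul, R.inv_mul]
  simp [det_fromBlocks_zero₂₁]

theorem det_sim_alt (h : IsAlt B) (hB : B.det ≠ 0) {m : ℕ} (hm : Fintype.card ι = 2 * m)
    {c : Fˣ} (hP : P.1ᵀ * B * P.1 = c.1 • B) : P.1.det = c ^ m := by
  obtain ⟨R, h1, h2⟩ := exists_sim_alt h hB hm c.ne_zero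
  have h3 := gram_mul_smul hP (gram_inv_smul h1)
  rw [c.mul_inv, one_smul] at h3
  have h4 : (P.1 * R⁻¹.1).det = 1 := (isoGrp_spLike h hB).det_eq_one ⟨P * R⁻¹, h3⟩
  rw [← h2, ← one_mul R.1.det, ← h4, ← det_mul, Units.inv_mul_cancel_right]

theorem exists_refl (h : Bᵀ = B) (h' : ¬ IsAlt B) :
    ∃ P : GL ι F, P.1ᵀ * B * P.1 = B ∧ P.1.det = -1 := by
  obtain ⟨a, ha⟩ := not_forall.1 h'
  have h1 : ∀ u v, bf B u v = bf B v u := fun u v => by rw [← bf_transpose, h]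
  have h2 : (tv a ((-2 / bf B a a) • pb B a)).det = -1 := by
    rw [det_tv', smul_dotProduct, pb_dot, smul_eq_mul, div_mul_cancel₀ _ ha]
    norm_num
  obtain ⟨P, hP⟩ := (isUnit_iff_isUnit_det _).2 (h2 ▸ isUnit_one.neg)
  refine ⟨P, gram_of_isom fun u v => ?_, hP ▸ h2⟩
  simp only [hP, tv_mulVec, smul_dotProduct, pb_dot, smul_eq_mul, sf_add_left, sf_add_right,
    sf_smul_left, bf_smul_right, h1 a v]
  field_simp
  ring

theorem not_alt_of_symm [Nonempty ι] (two : (2 : F) ≠ 0) (h : Bᵀ = B) (hB : B.det ≠ 0) :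
    ¬ IsAlt B := fun h' => by
  have := (isAlt_iff.1 h').1
  rw [h, ← neg_one_smul F, ← one_smul F B, smul_smul] at this
  exact two (by linear_combination smul_cancel hB this)

variable [Finite F]

theorem sim_symm_iff (two : (2 : F) ≠ 0) (h : Bᵀ = B) (h' : B'ᵀ = B') (hB : B.det ≠ 0)
    (hB' : B'.det ≠ 0) (he : Even (Fintype.card ι)) :
    (∃ P, Sim B B' P) ↔ (IsSquare B.det ↔ IsSquare B'.det) := by
  refine ⟨fun ⟨P, c, hP⟩ => ?_, fun e => sim_of' hB' (sym_cong two h h' hB hB' e)⟩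
  obtain ⟨m, hm⟩ := he
  rw [isSquare_det_of_cong (by simp [hB']) hP, isSquare_det_of_cong (P := 1) (A := B') hB' (by simp),
    det_smul, hm, pow_add]
  exact ⟨fun h => by simpa [← mul_assoc, mul_assoc, mul_comm, mul_left_comm] using
    (IsSquare.mul_self (c.1 ^ m)⁻¹).mul h, (IsSquare.mul_self _).mul⟩

theorem exists_sim_symm (two : (2 : F) ≠ 0) (h : Bᵀ = B) (hB : B.det ≠ 0) {m : ℕ}
    (hm : Fintype.card ι = 2 * m) {c d : F} (hc : c ≠ 0) (hd : d ^ 2 = c ^ (2 * m)) (h0 : m ≠ 0) :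
    ∃ P : GL ι F, P.1ᵀ * B * P.1 = c • B ∧ P.1.det = d := by
  have : Nonempty ι := Fintype.card_pos_iff.1 (by omega)
  obtain ⟨P, hP⟩ := sim_of hB hc (sym_cong two h (by simp [h]) hB (by simp [hB, hc]) (by
    rw [det_smul, hm, two_mul, pow_add]
    exact ⟨(IsSquare.mul_self _).mul, fun h => by
      simpa [← mul_assoc, mul_assoc, mul_comm, mul_left_comm, hc] using
        (IsSquare.mul_self (c ^ m)⁻¹).mul h⟩))
  rcases sq_eq_sq_iff_eq_or_eq_neg.1 ((det_sq_of_gram hB hP).trans (hm ▸ hd.symm)) with e | e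
  · exact ⟨P, hP, e⟩
  obtain ⟨R, h1, h2⟩ := exists_refl h (not_alt_of_symm two h hB)
  exact ⟨P * R, by simpa using gram_mul_smul hP (h1.trans (one_smul F B).symm), by
    rw [Units.val_mul, det_mul, e, h2]; ring⟩

theorem det_sim_sq (hB : B.det ≠ 0) (h : Odd (Fintype.card ι) ∨ (2 : F) = 0) {c : Fˣ}
    (hP : P.1ᵀ * B * P.1 = c.1 • B) : ∃ l : F, c = l ^ 2 ∧ P.1.det = l ^ Fintype.card ι := by
  have h1 := det_sq_of_gram hB hP
  rcases h with ⟨k, hk⟩ | h
  · refine ⟨P.1.det / c ^ k, ?_, ?_⟩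
    · rw [div_pow, h1, hk]; field_simp; ring
    · rw [hk, pow_succ, pow_mul, show (P.1.det / c ^ k) ^ 2 = c by
        rw [div_pow, h1, hk]; field_simp; ring]
      field_simp
  · obtain ⟨l, hl⟩ := H7.isSquare_of_two h c.1
    refine ⟨l, by rw [hl, sq], ?_⟩
    rw [hl, ← sq, ← pow_mul, mul_comm, pow_mul, sq_eq_sq_iff_eq_or_eq_neg] at h1
    exact h1.elim id fun h1 => h1.trans (by linear_combination -(l ^ Fintype.card ι) * h)

theorem sim_two [CharP F 2] (h : Bᵀ = B) (h' : B'ᵀ = B') (hB : B.det ≠ 0) (hB' : B'.det ≠ 0)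
    (ha : ¬ IsAlt B) (ha' : ¬ IsAlt B') : ∃ P, Sim B B' P := by
  have key : ∀ {B : Matrix ι ι F}, Bᵀ = B → B.det ≠ 0 → ¬ IsAlt B → ∃ (k : ℕ)
      (P : Matrix ι (Fin k ⊕ Fin k) F) (z : ι → F), Function.Injective P.mulVec ∧ z ≠ 0 ∧
      B = P * J (Fin k) F * Pᵀ + vecMulVec z z ∧
      (z ∈ LinearMap.range P.mulVecLin → Fintype.card ι = 2 * k) ∧
      (z ∉ LinearMap.range P.mulVecLin → Fintype.card ι = 2 * k + 1) := fun {B} h hB ha => by
    choose z hz using fun i => H7.isSquare_of_two CharTwo.two_eq_zero (B i i)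
    have h4 : IsAlt (B - vecMulVec z z) := isAlt_iff.2 ⟨by
      rw [transpose_sub, h, transpose_vecMulVec]
      ext
      exact (CharTwo.neg_eq _).symm, fun i => by simp [hz, vecMulVec_apply]⟩
    obtain ⟨k, P, h5, h6⟩ := h4.exists_fact
    have h7 : LinearMap.range P.mulVecLin ⊔ F ∙ z = ⊤ := eq_top_iff.2 fun v _ => by
      obtain ⟨v, rfl⟩ := mulVec_surjective_iff_isUnit.2 ((isUnit_iff_isUnit_det _).2 hB.isUnit) v
      rw [sub_eq_iff_eq_add.1 h6, add_mulVec, vecMulVec_mulVec, Matrix.mul_assoc, ← mulVec_mulVec]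
      exact Submodule.add_mem_sup ⟨_, rfl⟩ (Submodule.smul_mem _ (z ⬝ᵥ v)
        (Submodule.mem_span_singleton_self z) |> fun h => by simpa using h)
    have h8 := congrArg (fun W : Submodule F (ι → F) => finrank F W) h7
    refine ⟨k, P, z, h5, fun h0 => ha (by simpa [h0] using h4), sub_eq_iff_eq_add.1 h6,
      fun h => ?_, fun h => ?_⟩
    · rw [sup_eq_left.2 ((Submodule.span_singleton_le_iff_mem _ _).2 h),
        LinearMap.finrank_range_of_inj h5] at h8
      simpa [two_mul] using h8.symm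
    · rw [finrank_sup_span h, LinearMap.finrank_range_of_inj h5] at h8
      simpa [two_mul] using h8.symm
  obtain ⟨k, P, z, h1, h2, rfl, h3, h4⟩ := key h hB ha
  obtain ⟨k', P', z', h1', h2', rfl, h3', h4'⟩ := key h' hB' ha'
  obtain ⟨L, hL⟩ := exists_left_inv h1
  obtain rfl : k = k' := by
    by_cases h : z ∈ LinearMap.range P.mulVecLin <;> by_cases h' : z' ∈ LinearMap.range P'.mulVecLin
    exacts [by have := h3 h; have := h3' h'; omega, by have := h3 h; have := h4' h'; omega,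
      by have := h4 h; have := h3' h'; omega, by have := h4 h; have := h4' h'; omega]
  obtain ⟨R, M, h5, h6⟩ : ∃ (R : Matrix ι ι F) (M : symplecticGroup (Fin k) F),
      R * P = P' * M.1 ∧ R *ᵥ z = z' := by
    by_cases h : z ∈ LinearMap.range P.mulVecLin
    · obtain ⟨y', rfl⟩ : z' ∈ LinearMap.range P'.mulVecLin := by
        by_contra h'
        have := h3 h; have := h4' h'; omega
      obtain ⟨y, rfl⟩ := h
      obtain ⟨M, -, hM⟩ := spLike.witt_step (W := ⊥) (x := y) (y := y')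
        (fun h => h2 (by rw [show y = 0 from h, map_zero]))
        (fun h => h2' (by rw [show y' = 0 from h, map_zero])) (by simp [sf_zero_left])
      refine ⟨P' * M.1 * L, M, by rw [Matrix.mul_assoc, hL, Matrix.mul_one], ?_⟩
      rw [mulVecLin_apply, mulVec_mulVec, Matrix.mul_assoc, hL, Matrix.mul_one, ← mulVec_mulVec]
      exact congrArg _ hM
    · obtain ⟨f, h5, h6⟩ := exists_bf_of_notMem (A := 1) (by simp) h
      simp only [bf_eq, one_mulVec] at h5 h6
      refine ⟨P' * L + vecMulVec (z' - (P' * L) *ᵥ z) f, 1, ext_mv fun v => ?_, ?_⟩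
      · rw [← mulVec_mulVec, add_mulVec, vecMulVec_mulVec, dotProduct_comm, h6 (P *ᵥ v) ⟨v, rfl⟩,
          mulVec_mulVec, Matrix.mul_assoc, hL]
        simp
      · rw [add_mulVec, vecMulVec_mulVec, dotProduct_comm, h5]
        simp
  refine sim_of' hB' ⟨Rᵀ, ?_⟩
  rw [transpose_transpose, mul_add, add_mul, mul_vecMulVec, vecMulVec_mul, vecMul_transpose, h6,
    ← Matrix.mul_assoc, ← Matrix.mul_assoc, Matrix.mul_assoc _ Pᵀ, ← transpose_mul, h5, transpose_mul]
  nth_rw 2 [← SymplecticGroup.mem_iff.1 M.2]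
  simp only [Matrix.mul_assoc]

omit [Finite F] in
theorem symm_of_odd (ho : Odd (Fintype.card ι)) (h : Bᵀ = B ∨ Bᵀ = -B) (hB : B.det ≠ 0) :
    Bᵀ = B ∧ ¬ IsAlt B := by
  have h1 : ¬ IsAlt B := fun h => Nat.not_even_iff_odd.2 ho (even_card_of_isAlt h hB)
  refine ⟨h.elim id fun h => ?_, h1⟩
  by_cases two : (2 : F) = 0
  · rw [h]
    ext i j
    rw [neg_apply]
    linear_combination -B i j * two
  · exact absurd (isAlt_of_skew two h) h1

theorem sim_odd (ho : Odd (Fintype.card ι)) (h : Bᵀ = B ∨ Bᵀ = -B) (h' : B'ᵀ = B' ∨ B'ᵀ = -B')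
    (hB : B.det ≠ 0) (hB' : B'.det ≠ 0) : ∃ P, Sim B B' P := by
  obtain ⟨h1, h2⟩ := symm_of_odd ho h hB
  obtain ⟨h1', h2'⟩ := symm_of_odd ho h' hB'
  by_cases two : (2 : F) = 0
  · have : CharP F 2 := (CharP.charP_iff_prime_eq_zero Nat.prime_two).2 two
    exact sim_two h1 h1' hB hB' h2 h2'
  obtain ⟨k, hk⟩ := ho
  have hc := mul_ne_zero hB hB'
  obtain ⟨P, hP⟩ := sim_of hB' hc (sym_cong two h1 (by simp [h1']) hB (by simp [hB, hB']) (by
    rw [det_smul, hk, show (B.det * B'.det) ^ (2 * k + 1) * B'.det =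
      ((B.det * B'.det) ^ k * B'.det) * ((B.det * B'.det) ^ k * B'.det) * B.det by ring]
    generalize hx : (B.det * B'.det) ^ k * B'.det = x
    have : x ≠ 0 := hx ▸ mul_ne_zero (pow_ne_zero _ hc) hB'
    exact ⟨(IsSquare.mul_self _).mul, fun h => by
      simpa [← mul_assoc, mul_assoc, mul_comm, mul_left_comm, this] using
        (IsSquare.mul_self x⁻¹).mul h⟩))
  exact ⟨P, Units.mk0 _ hc, hP⟩

end Cfsg.Agent.H6
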