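import Cfsg.Agent.H6.Sim

/-!
Projective similarity groups.
-/

set_option autoImplicit false

namespace Cfsg.Agent.H6

open Matrix Module

attribute [-instance] CStarMatrix.instHMulOfFintypeOfMulOfAddCommMonoid

variable {F : Type*} [Field F] {ι : Type} [Fintype ι] [DecidableEq ι] {B : Matrix ι ι F} {m : ℕ}

theorem gsp_eq : GSp m F = simG (J (Fin m) F) := Subgroup.ext mem_GSp_iff

theorem quadSim_eq (two : (2 : F) ≠ 0) (Q : QuadraticForm F (ι → F)) :
    Geo.quadSimilarityGroup (F := F) Q = simG (pG Q) :=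
  Subgroup.ext fun g => exists_congr fun c => ⟨fun h => sf_ext (σ := RingHom.id F) fun u v => by
    rw [← bf_mulVec, sf_smul_mat, bf_pG, bf_pG]
    simp only [QuadraticMap.polar, ← mulVec_add, h]
    ring, fun h v => mul_left_cancel₀ two (by
    rw [← H7.B_self, ← bf_pG, bf_mulVec, h, sf_smul_mat, bf_pG, H7.B_self]
    ring)⟩

theorem smul_gram (c : F) (M : Matrix ι ι F) : (c • M)ᵀ * B * (c • M) = c ^ 2 • (Mᵀ * B * M) := by
  simp [smul_smul, sq]

theorem sqI_pgsp [Finite F] (two : (2 : F) ≠ 0) : SqI (PGSp m F) := by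
  classical
  obtain ⟨p, hp⟩ := CharP.exists F
  have hp' := CharP.char_is_prime F p
  obtain ⟨k, hk⟩ := hp'.odd_of_ne_two (by rintro rfl; exact two CharTwo.two_eq_zero)
  refine (sqI_quot _).2 fun T hK hT => ?_
  let j : symplecticGroup (Fin m) F →* GSp m F := (spJ F m).codRestrict _ spJ_mem_GSp
  have h1 : ∀ s, j s ∈ T := fun s => by
    have : tvSub (jRho (spJ F m)) ≤ T.comap j := (Subgroup.closure_le _).2 fun t ⟨a, f, h⟩ => by
      have h1 := hT (j (t ^ (k + 1)))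
      rwa [← map_mul, ← pow_add, show k + 1 + (k + 1) = p + 1 by omega, pow_succ,
        tvAt_pow spLike.inj p ⟨f, h⟩, one_mul] at h1
    exact this ((spLike (F := F)).tvSub_eq_top.ge (Subgroup.mem_top s))
  have h2 : ∀ (g : GSp m F) (c : F), g.1.1ᵀ * J (Fin m) F * g.1.1 = c • J (Fin m) F → c ≠ 0 →
      IsSquare c → g ∈ T := by
    rintro g _ h h0 ⟨l, rfl⟩
    have hl : l ≠ 0 := left_ne_zero_of_mul h0
    let s : symplecticGroup (Fin m) F := ⟨l⁻¹ • g.1.1, SymplecticGroup.mem_iff'.2 (by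
      rw [smul_gram, h, smul_smul, ← sq, ← mul_pow, inv_mul_cancel₀ hl, one_pow, one_smul])⟩
    have := mul_mem (hK (x := g * (j s)⁻¹) ((Geo.mem_scalars_iff _).2 ⟨Units.mk0 l hl, by
      have : g.1.1 = l • (j s).1.1 := (smul_inv_smul₀ hl _).symm
      rw [Subgroup.coe_subtype, Subgroup.coe_mul, Units.val_mul, this, smul_mul_assoc,
        Subgroup.coe_inv, Units.mul_inv]
      rfl⟩)) (h1 s)
    rwa [inv_mul_cancel_right] at this
  intro x y
  obtain ⟨c, hc⟩ := (mem_GSp_iff _).1 x.2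
  obtain ⟨d, hd⟩ := (mem_GSp_iff _).1 y.2
  by_cases h3 : IsSquare c.1
  · exact Or.inl (h2 x _ hc c.ne_zero h3)
  by_cases h4 : IsSquare d.1
  · exact Or.inr (Or.inl (h2 y _ hd d.ne_zero h4))
  refine Or.inr (Or.inr (h2 _ _ (gram_mul_smul hc hd) (c * d).ne_zero ?_))
  rw [← H7.chi_eq_neg_one_iff] at h3 h4
  rw [← H7.chi_eq_one_iff (mul_ne_zero c.ne_zero d.ne_zero), map_mul, h3, h4]
  rfl

theorem not_sqI [Finite F] (two : (2 : F) ≠ 0) (h : Bᵀ = B) (hB : B.det ≠ 0)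
    (hm : Fintype.card ι = 2 * m) (h0 : m ≠ 0) : ¬ SqI (projQuot (simG B)) := fun hs => by
  have : Nonempty ι := Fintype.card_pos_iff.1 (by omega)
  let T : Subgroup (simG B) :=
    { carrier := {g | ∃ l : Fˣ, g.1.1ᵀ * B * g.1.1 = (l ^ 2).1 • B ∧ g.1.1.det = (l ^ 2).1 ^ m}
      one_mem' := ⟨1, by simp⟩
      mul_mem' := fun ⟨c, h1, h2⟩ ⟨d, h3, h4⟩ => ⟨c * d, by
        rw [mul_pow]; exact gram_mul_smul h1 h3, by
        rw [Subgroup.coe_mul, Units.val_mul, det_mul, h2, h4, mul_pow, Units.val_mul, mul_pow]⟩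
      inv_mem' := fun ⟨c, h1, h2⟩ => ⟨c⁻¹, by rw [inv_pow]; exact gram_inv_smul h1, by
        rw [Subgroup.coe_inv, det_coe_inv, h2]; simp⟩ }
  obtain ⟨δ, hδ⟩ := FiniteField.exists_nonsquare (F := F) fun h => two (by
    simpa [h] using ringChar.Nat.cast_ringChar (R := F))
  have hδ0 : δ ≠ 0 := by rintro rfl; simp at hδ
  obtain ⟨x, h1, h2⟩ := exists_refl h (not_alt_of_symm two h hB)
  obtain ⟨y, h3, -⟩ := exists_sim_symm two h hB hm hδ0 (by rw [← pow_mul, mul_comm]) h0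
  rw [← one_smul F B, mul_smul_comm, smul_mul_assoc, one_smul] at h1
  rcases (sqI_quot _).1 hs T (fun g hg => by
      obtain ⟨c, hc⟩ := (Geo.mem_scalars_iff _).1 hg
      exact ⟨c, by erw [hc, smul_gram]; simp, by erw [hc]; simp [hm, pow_mul]⟩)
    (fun g => by
      obtain ⟨c, hc⟩ := g.2
      exact ⟨c, by rw [sq]; exact gram_mul_smul hc hc, by
        rw [Subgroup.coe_mul, Units.val_mul, det_mul, ← sq, det_sq_of_gram hB hc, hm, pow_mul]; rfl⟩)
    ⟨x, 1, h1⟩ ⟨y, Units.mk0 δ hδ0, h3⟩ with ⟨l, h4, h5⟩ | ⟨l, h4, -⟩ | ⟨l, h4, -⟩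
  · rw [← smul_cancel hB (h1.symm.trans h4), one_pow, h2] at h5
    exact two (by linear_combination -h5)
  · exact hδ ⟨l, by rw [smul_cancel hB (h3.symm.trans h4), sq]; rfl⟩
  · exact hδ ⟨l, by rw [← one_mul δ, smul_cancel hB ((gram_mul_smul h1 h3).symm.trans h4), sq]; rfl⟩

theorem isSquare_pG [Finite F] {Q : QuadraticForm F (ι → F)} (hQ : H7.ND Q) :
    IsSquare (pG Q).det ↔ H7.disc Q = 1 := by
  rw [← H7.isSquare_gram_iff hQ (Pi.basisFun F ι), H7.gram_eq_toMatrix,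
    LinearMap.BilinForm.toMatrix_basisFun, pG]

section two

variable [Finite F] [CharP F 2]

omit [Finite F] in
theorem eq_one_of_gram [Nonempty ι] (hB : B.det ≠ 0) {M : Matrix ι ι F} {c : F}
    (h : Mᵀ * B * M = B) (h' : (c • M)ᵀ * B * (c • M) = B) : c = 1 := by
  rw [smul_gram, h] at h'
  have := smul_cancel hB (h'.trans (one_smul F B).symm)
  exact (sq_eq_one_iff.1 this).elim id fun h => h.trans (CharTwo.neg_eq 1)

theorem proj_equiv_two [Nonempty ι] (hB : B.det ≠ 0) {A : Type*} [Group A] (S : Subgroup A)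
    (ρ : A →* Matrix ι ι F) (inj : Function.Injective ρ)
    (hS : ∀ M, Mᵀ * B * M = B ↔ ∃ s ∈ S, ρ s = M) : Nonempty (S ≃* projQuot (simG B)) := by
  refine equiv_of_rel S _ (fun s g => s ∈ S ∧ ∃ l : Fˣ, g.1.1 = l.1 • ρ s) (fun s hs => ?_)
    (fun g => ?_) ?_ ?_ ?_
  · exact ⟨⟨ρ.toHomUnits s, 1, by simpa using (hS _).2 ⟨s, hs, rfl⟩⟩, hs, 1, by simp⟩
  · obtain ⟨c, hc⟩ := g.2
    obtain ⟨l, h1, -⟩ := det_sim_sq hB (Or.inr CharTwo.two_eq_zero) hc
    have hl : l ≠ 0 := by rintro rfl; simp at h1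
    obtain ⟨s, h2, h3⟩ := (hS (l⁻¹ • g.1.1)).1 (by
      rw [smul_gram, hc, h1, smul_smul, ← mul_pow, inv_mul_cancel₀ hl, one_pow, one_smul])
    exact ⟨s, h2, h2, Units.mk0 l hl, by rw [h3]; exact (smul_inv_smul₀ hl _).symm⟩
  · rintro s g s' g' ⟨h1, l, h2⟩ ⟨h3, l', h4⟩
    exact ⟨mul_mem h1 h3, l * l', by
      rw [Subgroup.coe_mul, Units.val_mul, h2, h4, map_mul, smul_mul_smul_comm]; rfl⟩
  · rintro s s' g ⟨h1, l, h2⟩ ⟨h3, l', h4⟩
    have h5 : ρ s = (l⁻¹ * l').1 • ρ s' := by rw [Units.val_mul, mul_smul, ← h4, h2]; simp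
    rw [eq_one_of_gram hB ((hS _).2 ⟨s', h3, rfl⟩) ((hS _).2 ⟨s, h1, h5⟩), one_smul] at h5
    exact inj h5
  · rintro s g ⟨h1, l, h2⟩
    refine ⟨fun h => (Geo.mem_scalars_iff _).2 ⟨l, by simpa [h] using h2⟩, fun h => ?_⟩
    obtain ⟨c, hc⟩ := (Geo.mem_scalars_iff _).1 h
    have h5 : ρ s = (l⁻¹ * c).1 • 1 := by
      rw [Units.val_mul, mul_smul, ← hc]; erw [h2]; simp
    rw [eq_one_of_gram hB (by simp) ((hS _).2 ⟨s, h1, h5⟩), one_smul] at h5
    exact inj (h5.trans (map_one ρ).symm)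

theorem pgsp_two (h0 : m ≠ 0) :
    Nonempty (projQuot (simG (J (Fin m) F)) ≃* symplecticGroup (Fin m) F) := by
  have : NeZero m := ⟨h0⟩
  obtain ⟨e⟩ := proj_equiv_two det_J_ne_zero ⊤ (symplecticGroup (Fin m) F).subtype
    Subtype.val_injective fun M => ⟨fun h => ⟨⟨M, SymplecticGroup.mem_iff'.2 h⟩, trivial, rfl⟩,
      fun ⟨s, _, h⟩ => h ▸ SymplecticGroup.mem_iff'.1 s.2⟩
  exact ⟨e.symm.trans Subgroup.topEquiv⟩

omit [Finite F] in
theorem char_vec {C M : Matrix ι ι F} {a : ι → F} (hC : IsAlt C)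
    (h : Mᵀ * (C + vecMulVec a a) * M = C + vecMulVec a a) : a ᵥ* M = a ∧ Mᵀ * C * M = C := by
  have h1 : a ᵥ* M = a := funext fun i => by
    have := congrArg (bf · (Pi.single i 1) (Pi.single i 1)) h
    simp only [← bf_mulVec, bf_add_mat, hC _, bf_vecMulVec, zero_add, dotProduct_mulVec,
      dotProduct_single_one] at this
    rw [← sub_eq_zero, CharTwo.sub_eq_add, ← CharTwo.add_sq, pow_eq_zero_iff two_ne_zero] at this
    rw [← sub_eq_zero, CharTwo.sub_eq_add, this]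
  rw [mul_add, add_mul, mul_vecMulVec, vecMulVec_mul, mulVec_transpose, h1, add_left_inj] at h
  exact ⟨h1, h⟩

theorem pgo_tv_two (h0 : m ≠ 0) : ∃ (B : Matrix (Fin m ⊕ Fin m) (Fin m ⊕ Fin m) F)
    (t : symplecticGroup (Fin m) F), Bᵀ = B ∧ B.det ≠ 0 ∧ ¬ IsAlt B ∧ IsTransvection t.1 ∧
      Nonempty (projQuot (simG B) ≃* Subgroup.centralizer {t}) := by
  have : NeZero m := ⟨h0⟩
  let z : Fin m ⊕ Fin m → F := Pi.single (.inl 0) 1
  have hz : z ≠ 0 := Pi.single_ne_zero_iff.2 one_ne_zero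
  have h1 : pb (J (Fin m) F) z ⬝ᵥ z = 0 := by rw [pb_dot, isAlt_J]
  have h2 := pf_ne_zero (τ := RingEquiv.refl F) det_J_ne_zero hz
  obtain ⟨t, ht⟩ := spLike.exists_tv' z
  replace ht : ∀ v, t.1 *ᵥ v = v + bf (J (Fin m) F) v z • z := ht
  have h3 : t.1 - 1 = vecMulVec z (pb (J (Fin m) F) z) := ext_mulVec fun v => by
    rw [sub_mulVec, ht, vecMulVec_mulVec, pb_dot]; simp
  have h4 : (J (Fin m) F + vecMulVec (pb (J (Fin m) F) z) (pb (J (Fin m) F) z)).det ≠ 0 := by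
    rw [show J (Fin m) F + vecMulVec (pb (J (Fin m) F) z) (pb (J (Fin m) F) z) =
      J (Fin m) F * t.1 by
        rw [sub_eq_iff_eq_add'.1 h3, mul_add, mul_one, mul_vecMulVec]; rfl, det_mul]
    exact mul_ne_zero det_J_ne_zero (GeneralLinearGroup.det_ne_zero (spJ F m t))
  obtain ⟨e⟩ := proj_equiv_two h4 (Subgroup.centralizer {t}) (symplecticGroup (Fin m) F).subtype
    Subtype.val_injective fun M => ⟨fun h => by
      obtain ⟨h5, h6⟩ := char_vec isAlt_J h
      let s : symplecticGroup (Fin m) F := ⟨M, SymplecticGroup.mem_iff'.2 h6⟩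
      have h7 : M *ᵥ z = z := sub_eq_zero.1 (sf_nondeg_right (σ := RingHom.id F) det_J_ne_zero
        fun v => by
          obtain ⟨v, rfl⟩ := mulVec_surjective_iff_isUnit.2 (spJ F m s).isUnit v
          erw [sf_sub_right, spLike.isom s, ← pb_dot, ← pb_dot, dotProduct_mulVec, h5, sub_self])
      exact ⟨s, Subgroup.mem_centralizer_singleton_iff.2 (Subtype.ext (comm_sub_one.1 (by
        rw [h3, mul_vecMulVec, vecMulVec_mul, h5, h7]))), rfl⟩, by
      rintro ⟨s, hs, rfl⟩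
      have h5 : ∀ v, bf (J (Fin m) F) v z • s.1 *ᵥ z = bf (J (Fin m) F) (s.1 *ᵥ v) z • z := fun v => by
        have := congrArg (·.1 *ᵥ v) (Subgroup.mem_centralizer_singleton_iff.1 hs)
        simpa [← mulVec_mulVec, ht, mulVec_add, mulVec_smul] using this
      obtain ⟨v, hv⟩ := exists_bf_one det_J_ne_zero hz
      have h6 := h5 v
      have h7 : bf _ (s.1 *ᵥ v) (s.1 *ᵥ z) = _ := spLike.isom s v z
      rw [hv, one_smul] at h6
      rw [h6, bf_smul_right, hv, mul_self_eq_one_iff, CharTwo.neg_eq, or_self] at h7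
      rw [h7, one_smul] at h6
      have h8 : pb (J (Fin m) F) z ᵥ* s.1 = pb (J (Fin m) F) z := dotProduct_eq _ _ fun w => by
        rw [← dotProduct_mulVec, pb_dot, pb_dot, ← spLike.isom s w]
        exact congrArg _ h6.symm
      rw [mul_add, add_mul, mul_vecMulVec, vecMulVec_mul, mulVec_transpose]
      erw [h8, SymplecticGroup.mem_iff'.1 s.2]⟩
  refine ⟨_, t, by simp [isAlt_J.symm], h4, fun h => ?_, ⟨?_, ?_⟩, ⟨e.symm⟩⟩
  · obtain ⟨v, hv⟩ := exists_bf_one det_J_ne_zero hz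
    simpa [bf_add_mat, isAlt_J v, bf_vecMulVec, pb_dot, hv] using h v
  · refine le_antisymm (h3 ▸ rank_vecMulVec_le _ _) (Nat.pos_of_ne_zero fun h => ?_)
    rw [H6.rank_eq_zero_iff, h3, vecMulVec_eq_zero] at h
    exact h.elim hz h2
  · rw [h3, vecMulVec_mul_vecMulVec, h1]; simp

omit [Finite F] [CharP F 2] in
theorem block_of_gram {M : Matrix (Unit ⊕ ι) (Unit ⊕ ι) F} (hB : B.det ≠ 0) {c : F} (hc : c ≠ 0)
    (h : Mᵀ * fromBlocks 0 0 0 B * M = c • fromBlocks 0 0 0 B) :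
    M.toBlocks₂₂ᵀ * B * M.toBlocks₂₂ = c • B ∧ M.toBlocks₂₁ = 0 := by
  rw [← fromBlocks_toBlocks M, fromBlocks_transpose, fromBlocks_multiply, fromBlocks_multiply,
    fromBlocks_smul, fromBlocks_inj] at h
  obtain ⟨-, -, h1, h2⟩ := h
  simp only [Matrix.mul_zero, Matrix.zero_mul, zero_add, smul_zero] at h1 h2
  have h3 := det_ne_zero_of_isom (κ := Unit) (σ := RingHom.id F) (by simp [hc, hB]) h2
  refine ⟨h2, mul_cancel_of_inj (mulVec_injective_iff_isUnit.2 ((isUnit_iff_isUnit_det _).2 ?_))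
    (h1.trans (Matrix.mul_zero _).symm)⟩
  simp [h3, hB]

theorem pgo_odd_two :
    Nonempty (projQuot (simG (fromBlocks (1 : Matrix Unit Unit F) 0 0 (J (Fin m) F))) ≃*
      PGO F (quadFormOdd m F)) := by
  let ρ : symplecticGroup (Fin m) F →* Matrix (Unit ⊕ Fin m ⊕ Fin m) (Unit ⊕ Fin m ⊕ Fin m) F :=
    ⟨⟨fun s => fromBlocks 1 0 0 s.1, fromBlocks_one⟩, fun s t => by simp [fromBlocks_multiply]⟩
  obtain ⟨e⟩ := proj_equiv_two (B := fromBlocks (1 : Matrix Unit Unit F) 0 0 (J (Fin m) F))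
    (by simpa [det_fromBlocks_zero₂₁] using det_J_ne_zero) ⊤ ρ
    (fun s t h => Subtype.ext (fromBlocks_inj.1 h).2.2.2) fun M => ⟨fun h => by
      have e : fromBlocks (1 : Matrix Unit Unit F) 0 0 (J (Fin m) F) = fromBlocks 0 0 0 (J (Fin m) F) +
          vecMulVec (Pi.single (.inl ()) 1) (Pi.single (.inl ()) 1) := by
        ext (i | i) (j | j) <;> simp [vecMulVec_apply]
      obtain ⟨h1, h2⟩ := char_vec (isAlt_fromBlocks (fun _ => by simp [bf_eq]) isAlt_J) (e ▸ h)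
      obtain ⟨h3, h4⟩ := block_of_gram det_J_ne_zero one_ne_zero (h2.trans (one_smul _ _).symm)
      refine ⟨⟨_, SymplecticGroup.mem_iff'.2 (h3.trans (one_smul _ _))⟩, trivial, ?_⟩
      rw [single_one_vecMul] at h1
      ext (i | i) (j | j)
      · simpa [ρ] using (congrFun h1 (.inl j)).symm
      · simpa [ρ] using (congrFun h1 (.inr j)).symm
      · exact (congrFun (congrFun h4 i) j).symm
      · rfl, by
      rintro ⟨s, -, rfl⟩
      simp [ρ, fromBlocks_transpose, fromBlocks_multiply, SymplecticGroup.mem_iff'.1 s.2]⟩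
  have h0 : ∀ u v, QuadraticMap.polar (H7.QP F m) u v = bf (J (Fin m) F) u v := fun u v => by
    simp [H7.polar_QP, bf_eq, J, dotProduct, fromBlocks_mulVec, neg_mulVec, CharTwo.neg_eq,
      Finset.sum_add_distrib, mul_comm]
  have h1 : pG (H7.QO F m) = fromBlocks 0 0 0 (J (Fin m) F) := pG_eq_iff.2 fun u v => by
    simp [H7.polar_QO, bf_eq, J, dotProduct, fromBlocks_mulVec, neg_mulVec, CharTwo.neg_eq,
      Finset.sum_add_distrib, mul_comm, CharTwo.two_eq_zero]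
  have h2 : ∀ v, quadFormOdd m F v = v (.inl ()) ^ 2 + H7.QP F m (v ∘ Sum.inr) := H7.QO_apply
  have h3 : ∀ (g : Geo.quadSimilarityGroup (F := F) (quadFormOdd m F)) (c : Fˣ),
      (∀ v, quadFormOdd m F (g.1.1 *ᵥ v) = c * quadFormOdd m F v) →
      g.1.1.toBlocks₂₂ᵀ * J (Fin m) F * g.1.1.toBlocks₂₂ = c.1 • J (Fin m) F ∧
        g.1.1.toBlocks₂₁ = 0 ∧ g.1.1 (.inl ()) (.inl ()) ^ 2 = c := fun g c h => by
    obtain ⟨h3, h4⟩ := block_of_gram (M := g.1.1) det_J_ne_zero c.ne_zero (h1 ▸ sf_ext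
      (σ := RingHom.id F) fun u v => by
        rw [← bf_mulVec, sf_smul_mat, bf_pG, bf_pG]
        simp only [QuadraticMap.polar, ← mulVec_add, H7.coe_QO, h]
        ring)
    refine ⟨h3, h4, ?_⟩
    have := h (Pi.single (.inl ()) 1)
    rw [h2, h2, mulVec_single_one, show g.1.1.col (.inl ()) ∘ Sum.inr = 0 from
      funext fun i => congrFun (congrFun h4 i) (), show (Pi.single (.inl ()) 1 : Unit ⊕ _ → F) ∘
        Sum.inr = 0 from funext fun i => by simp] at this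
    simpa using this
  obtain ⟨e'⟩ := equiv_of_rel (⊤ : Subgroup (symplecticGroup (Fin m) F)) ((Geo.scalars _ F).subgroupOf
    (Geo.quadSimilarityGroup (F := F) (quadFormOdd m F)))
    (fun s g => ∃ (l : Fˣ) (r : _), g.1.1 = fromBlocks (l.1 • 1) r 0 (l.1 • s.1)) (fun s _ => by
      have := Fact.mk Nat.prime_two
      let φ := frobeniusEquiv F 2
      have h4 : ∀ x, φ x = x ^ 2 := fun _ => rfl
      let l : Dual F (Fin m ⊕ Fin m → F) :=
        { toFun := fun v => φ.symm (H7.QP F m v - H7.QP F m (s.1 *ᵥ v))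
          map_add' := fun u v => by
            rw [← map_add, mulVec_add, H7.Q_add, H7.Q_add, h0, h0]
            erw [spLike.isom s]
            congr 1
            ring
          map_smul' := fun c v => φ.injective (by
            rw [mulVec_smul, H7.Q_smul, H7.Q_smul, smul_eq_mul, map_mul, φ.apply_symm_apply,
              φ.apply_symm_apply, h4, mul_sub]
            rfl) }
      obtain ⟨g, hg⟩ := (isUnit_iff_isUnit_det (fromBlocks 1 (LinearMap.toMatrix'
        (LinearMap.pi fun _ : Unit => l)) 0 s.1)).2 (by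
          simpa [det_fromBlocks_zero₂₁] using GeneralLinearGroup.det_ne_zero (spJ F m s))
      refine ⟨⟨g, 1, fun v => ?_⟩, 1, _, by simpa using hg⟩
      have h5 : l (v ∘ Sum.inr) ^ 2 = _ := φ.apply_symm_apply _
      rw [hg, h2, h2, fromBlocks_mulVec]
      simp [CharTwo.add_sq, h5, add_assoc]) (fun g => by
      obtain ⟨c, hc⟩ := g.2
      obtain ⟨h4, h5, h6⟩ := h3 g c hc
      have h7 : g.1.1 (.inl ()) (.inl ()) ≠ 0 := fun h => by simp [h] at h6; exact c.ne_zero h6.symm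
      refine ⟨⟨(g.1.1 (.inl ()) (.inl ()))⁻¹ • g.1.1.toBlocks₂₂, SymplecticGroup.mem_iff'.2 (by
        rw [smul_gram, h4, ← h6, smul_smul, ← mul_pow, inv_mul_cancel₀ h7, one_pow, one_smul])⟩,
        trivial, Units.mk0 _ h7, g.1.1.toBlocks₁₂, ?_⟩
      rw [Units.val_mk0, smul_inv_smul₀ h7, ← h5]
      ext (i | i) (j | j) <;> simp [toBlocks₁₂, toBlocks₂₁, toBlocks₂₂]) (by
      rintro s g s' g' ⟨l, r, h⟩ ⟨l', r', h'⟩
      exact ⟨l * l', l.1 • r' + l'.1 • (r * s'.1), by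
        rw [Subgroup.coe_mul, Units.val_mul, h, h', fromBlocks_multiply]
        simp [smul_smul, mul_comm]⟩) (by
      rintro s s' g ⟨l, r, h⟩ ⟨l', r', h'⟩
      obtain ⟨h4, -, -, h5⟩ := fromBlocks_inj.1 (h.symm.trans h')
      rw [smul_left_injective F one_ne_zero h4] at h5
      exact Subtype.ext (smul_right_injective _ l'.ne_zero h5)) (by
      rintro s g ⟨l, r, h⟩
      rw [Subgroup.mem_subgroupOf, Geo.mem_scalars_iff]
      constructor
      · rintro rfl
        obtain ⟨c, hc⟩ := g.2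
        have h4 := (h3 g c hc).2.2
        refine ⟨l, h.trans ?_⟩
        rw [ext_mv (A := r) (B := 0) fun v => funext fun i => by
          have := hc (Sum.elim 0 v)
          rw [← h4, h, h2, h2, fromBlocks_mulVec] at this
          simpa [smul_mulVec, H7.Q_smul] using this, ← fromBlocks_one, fromBlocks_smul]
        simp
      · rintro ⟨c, hc⟩
        rw [h, ← fromBlocks_one, fromBlocks_smul, fromBlocks_inj] at hc
        rw [smul_left_injective F one_ne_zero hc.1] at hc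
        exact Subtype.ext (smul_right_injective _ c.ne_zero hc.2.2.2))
  exact ⟨e.symm.trans e'⟩

end two

end Cfsg.Agent.H6
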