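import Cfsg.Agent.H6.QF

/-!
Unipotent classes of symplectic groups in odd characteristic.
-/

set_option autoImplicit false

namespace Cfsg.Agent.H6

open Matrix Module

variable {F : Type*} [Field F] [Finite F] {T : Type*} [Fintype T] [DecidableEq T] {m : ℕ}
  {d : T → ℕ} (two : (2 : F) ≠ 0)

local notation "ι" => Fin m ⊕ Fin m
local notation "JJ" => Matrix.J (Fin m) F
local notation "σ₁" => RingHom.id F

omit [Finite F] in
theorem sp_adj (u : symplecticGroup (Fin m) F) : adj σ₁ JJ u.1 * u.1 = 1 :=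
  (isom_iff_adj (fun _ => rfl) det_J_ne_zero).1 (SymplecticGroup.mem_iff'.1 u.2)

omit [Finite F] in
theorem EH.transpose_eq {κ : Type*} [Fintype κ] [DecidableEq κ] {G : Matrix κ κ F} {ε : F}
    (h : EH σ₁ ε G) : Gᵀ = ε • G := by
  conv_lhs => rw [(eh_iff.1 h).1]
  simp

omit [Finite F] in
theorem sign_even {i : ℕ} (hi : Even i) (h0 : i ≠ 0) : (-1 : F) ^ (i - 1) * -1 = 1 := by
  rw [← pow_succ, Nat.sub_add_cancel (Nat.pos_of_ne_zero h0), hi.neg_one_pow]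

omit [Finite F] in
theorem sign_odd {i : ℕ} (hi : Odd i) : (-1 : F) ^ (i - 1) * -1 = -1 := by
  rw [← pow_succ, Nat.sub_add_cancel hi.pos, hi.neg_one_pow]

include two

theorem sp_conj_iff {u u' : symplecticGroup (Fin m) F} {e c e' c' : T → ι → F}
    (J : JF (u.1 - 1) d e c) (J' : JF (u'.1 - 1) d e' c') : IsConj u u' ↔ ∀ i, Even i →
      (∃ k, d k = i) → (IsSquare (bG σ₁ JJ u.1 d e i).det ↔ IsSquare (bG σ₁ JJ u'.1 d e' i).det) := by
  have h0 : ∀ x, σ₁ (σ₁ x) = x := fun _ => rfl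
  have h1 : EH σ₁ (-1) JJ := isAlt_J.eh
  constructor
  · intro h i _ _
    obtain ⟨g, hg⟩ := isConj_iff.1 h
    obtain ⟨P, hP⟩ := J'.bG_cong h0 det_J_ne_zero h1 (sp_adj u') J
      (SymplecticGroup.mem_iff'.1 g.2) (congrArg Subtype.val (mul_inv_eq_iff_eq_mul.1 hg)) i
    exact (isSquare_det_of_cong (J.det_bG h0 det_J_ne_zero h1 (sp_adj u) i) hP).symm
  intro h
  obtain ⟨k, hk⟩ := J.nil
  obtain ⟨k', hk'⟩ := J'.nil
  obtain ⟨g, hg⟩ := isConj_of_unip_one hk hk' fun j => by rw [J.rank, J'.rank]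
  have h2 := det_gram_ne_zero (σ := RingHom.id F) (det_J_ne_zero (κ := Fin m))
    (GeneralLinearGroup.det_ne_zero g)
  have h3 := (isom_iff_adj h0 h2).1 (isom_of_conj hg.eq (SymplecticGroup.mem_iff'.1 u'.2))
  obtain ⟨Y, h4, h5⟩ := J.cong_lift h0 det_J_ne_zero h1 (sp_adj u) two h2 (h1.congr g.1) h3
    fun i => by
    have h4 := J.det_bG h0 det_J_ne_zero h1 (sp_adj u) i
    have h5 := J.det_bG h0 h2 (h1.congr g.1) h3 i
    have h6 := (J.eh_bG h0 det_J_ne_zero h1 (sp_adj u) i).transpose_eq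
    have h7 := (J.eh_bG h0 h2 (h1.congr g.1) h3 i).transpose_eq
    by_cases h8 : ∃ k, d k = i
    swap
    · have : IsEmpty {k // d k = i} := ⟨fun k => h8 ⟨k.1, k.2⟩⟩
      exact ⟨1, Subsingleton.elim _ _⟩
    rcases Nat.even_or_odd i with hi | hi
    · obtain ⟨P, hP⟩ := J'.bG_cong h0 det_J_ne_zero h1 (sp_adj u') J rfl hg.eq i
      rw [sign_even hi (by obtain ⟨k, rfl⟩ := h8; exact (J.pos k).trans_lt' one_pos |>.ne'),
        one_smul] at h6 h7
      exact sym_cong two h6 h7 h4 h5 ((h i hi h8).trans (isSquare_det_of_cong h5 hP))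
    · rw [sign_odd hi, neg_one_smul] at h6 h7
      exact alt_cong (isAlt_of_skew two h6) (isAlt_of_skew two h7) h4 h5
  obtain ⟨y, h6, h7⟩ := isom_conj_of_cong det_J_ne_zero hg.eq h4 h5
  exact isConj_iff.2 ⟨⟨y.1, SymplecticGroup.mem_iff'.2 h6⟩,
    mul_inv_eq_iff_eq_mul.2 (Subtype.ext h7)⟩

theorem sp_exists_signs {u : symplecticGroup (Fin m) F} {e c : T → ι → F} (J : JF (u.1 - 1) d e c)
    (s : ℕ → Prop) : ∃ (u' : symplecticGroup (Fin m) F) (e' c' : T → ι → F), JF (u'.1 - 1) d e' c' ∧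
      ∀ i, Even i → (∃ k, d k = i) → (IsSquare (bG σ₁ JJ u'.1 d e' i).det ↔ s i) := by
  classical
  have h0 : ∀ x, σ₁ (σ₁ x) = x := fun _ => rfl
  have h1 : EH σ₁ (-1) JJ := isAlt_J.eh
  obtain ⟨δ, hδ⟩ := FiniteField.exists_nonsquare (F := F) fun h => two (by
    simpa [h] using ringChar.Nat.cast_ringChar (R := F))
  have hn : ∀ k, d k < Finset.univ.sup d + 1 :=
    fun k => Nat.lt_succ_of_le (Finset.le_sup (f := d) (Finset.mem_univ k))
  have : ∀ i, ∃ H : Matrix {k // d k = i} {k // d k = i} F, H.det ≠ 0 ∧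
      EH σ₁ ((-1) ^ (i - 1) * -1) H ∧ (Even i → (∃ k, d k = i) → (IsSquare H.det ↔ s i)) := fun i => by
    by_cases h : Even i ∧ ∃ k, d k = i
    · obtain ⟨h2, k, hk⟩ := h
      rw [sign_even h2 (by rw [← hk]; exact (J.pos k).trans_lt' one_pos |>.ne')]
      by_cases h3 : s i
      · exact ⟨1, by simp, eh_of_symm (by simp), by simp [h3]⟩
      · exact ⟨diagonal (Function.update 1 ⟨k, hk⟩ δ), by
          simpa [Finset.prod_update_of_mem] using fun h : δ = 0 => hδ (h ▸ IsSquare.zero),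
          eh_of_symm (by simp), by simp [Finset.prod_update_of_mem, h3, hδ]⟩
    · exact ⟨_, J.det_bG h0 det_J_ne_zero h1 (sp_adj u) i, J.eh_bG h0 det_J_ne_zero h1 (sp_adj u) i,
        fun h2 h3 => absurd ⟨h2, h3⟩ h⟩
  choose H h2 h3 h4 using this
  obtain ⟨G, h5, h6, h7, h8⟩ := J.exists_form h0 det_J_ne_zero h1 (sp_adj u) two hn (fun i => H i)
    (fun i => h2 i) fun i => h3 i
  obtain ⟨g, hg⟩ := exists_symp_basis (isAlt_of_skew two (by simpa using h6.transpose_eq)) h5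
  have h9 : g.1 * (g⁻¹.1 * u.1 * g.1) = u.1 * g.1 := by simp [← mul_assoc]
  have := isom_of_conj (G := G) (σ := RingHom.id F) h9 ((isom_iff_adj h0 h5).2 h7)
  erw [hg] at this
  obtain ⟨e', c', J'⟩ := exists_jf J.pos fun k =>
    (IsConj.rank_sub_one_pow ⟨g, h9⟩ k).trans (J.rank k)
  refine ⟨⟨_, SymplecticGroup.mem_iff'.2 this⟩, e', c', J', fun i hi hk => ?_⟩
  obtain ⟨P, hP⟩ := J.bG_cong h0 h5 h6 h7 J' hg h9 i
  rw [← isSquare_det_of_cong (J'.det_bG h0 det_J_ne_zero h1 ((isom_iff_adj h0 det_J_ne_zero).1 this)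
    i) hP, ← h4 i hi hk]
  obtain ⟨k, rfl⟩ := hk
  rw [h8 ⟨d k, hn k⟩]

theorem card_sp_unip (P : Nat.Partition (2 * m) → Prop) [DecidablePred P]
    (R : symplecticGroup (Fin m) F → Prop) (hR : ∀ u, R u → IsNilpotent (u.1 - 1))
    (hP : ∀ u μ, (∀ k, ((u.1 - 1) ^ k).rank = (μ.parts.map (· - k)).sum) → (R u ↔ P μ))
    [DecidablePred fun μ : Nat.Partition (2 * m) => P μ ∧ ∀ j, Odd j → Even (μ.parts.count j)] :
    Nat.card {C : ConjClasses (symplecticGroup (Fin m) F) // ∃ u, ConjClasses.mk u = C ∧ R u} =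
      ∑ μ ∈ Finset.univ.filter fun μ => P μ ∧ ∀ j, Odd j → Even (μ.parts.count j),
        2 ^ (μ.parts.toFinset.filter Even).card := by
  choose t d hd using fun μ : Nat.Partition (2 * m) => exists_fin_of_multiset μ.parts
  have h1 : ∀ μ i, i ∈ μ.parts.toFinset.filter Even ↔ Even i ∧ ∃ k, d μ k = i := fun μ i => by
    rw [Finset.mem_filter, Multiset.mem_toFinset, ← hd, Multiset.mem_map, and_comm]
    simp
  have h2 : ∀ μ k, 1 ≤ d μ k := fun μ k => μ.parts_pos (hd μ ▸ Multiset.mem_map_of_mem _ (by simp))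
  have h3 : ∀ μ k, ∑ j, (d μ j - k) = (μ.parts.map (· - k)).sum := fun μ k => by
    rw [← hd, sum_map_univ]
  rw [card_classes (T := Σ μ : {μ // P μ ∧ ∀ j, Odd j → Even (μ.parts.count j)},
      (μ.1.parts.toFinset.filter Even → Prop)) R
    (fun u x => ∃ e c, JF (u.1 - 1) (d x.1) e c ∧
      ∀ i, IsSquare (bG σ₁ JJ u.1 (d x.1) e i.1).det ↔ x.2 i) ?_ ?_ ?_, Nat.card_sigma,
    Finset.sum_subtype (F := inferInstance)
      (p := fun μ => P μ ∧ ∀ j, Odd j → Even (μ.parts.count j)) _ (by simp)]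
  · exact Finset.sum_congr rfl fun μ _ => by
      rw [Nat.card_fun, Nat.card_eq_fintype_card, Fintype.card_prop, Nat.card_eq_fintype_card,
        Fintype.card_coe]
  · intro u hu
    obtain ⟨k, hk⟩ := hR u hu
    obtain ⟨μ, hμ⟩ := exists_partition (n := 2 * m) (by simp [two_mul]) hk
    obtain ⟨e, c, J⟩ := exists_jf (h2 μ) fun k => (hμ k).trans (h3 μ k).symm
    exact ⟨⟨⟨μ, (hP u μ hμ).1 hu, fun j hj => by
      rw [← hd, count_map_univ]
      exact J.even_of_alt det_J_ne_zero isAlt_J (SymplecticGroup.mem_iff'.1 u.2) hj⟩,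
      fun i => IsSquare (bG σ₁ JJ u.1 (d μ) e i.1).det⟩,
      e, c, J, fun _ => Iff.rfl⟩
  · rintro ⟨⟨μ, h4, h5⟩, s⟩
    obtain ⟨u, hu⟩ := exists_sp_unip (F := F) h5 μ.parts_sum
    obtain ⟨e, c, J⟩ := exists_jf (h2 μ) fun k => (hu k).trans (h3 μ k).symm
    obtain ⟨u', e', c', J', h⟩ := sp_exists_signs two J fun i => ∃ h, s ⟨i, h⟩
    exact ⟨u', (hP u' μ fun k => (J'.rank k).trans (h3 μ k)).2 h4, e', c', J', fun i =>
      (h i ((h1 μ i).1 i.2).1 ((h1 μ i).1 i.2).2).trans ⟨fun h => h.2, fun h => ⟨i.2, h⟩⟩⟩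
  · rintro u u' ⟨⟨μ, h4⟩, s⟩ ⟨⟨μ', h4'⟩, s'⟩ - - ⟨e, c, J, h⟩ ⟨e', c', J', h'⟩
    constructor
    · intro hc
      obtain rfl : μ = μ' := Nat.Partition.ext (multiset_ext_of_sum_sub
        (fun h => (μ.parts_pos h).false) (fun h => (μ'.parts_pos h).false) fun k => by
          rw [← h3, ← h3, ← J.rank, ← J'.rank]
          exact IsConj.rank_sub_one_pow ((jRho (spJ F m)).map_isConj hc) k)
      rw [sp_conj_iff two J J'] at hc
      exact congrArg _ (funext fun i => propext ((h i).symm.trans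
        ((hc i ((h1 μ i).1 i.2).1 ((h1 μ i).1 i.2).2).trans (h' i))))
    · intro hc
      cases hc
      exact (sp_conj_iff two J J').2 fun i h5 h6 =>
        (h ⟨i, (h1 μ i).2 ⟨h5, h6⟩⟩).trans (h' ⟨i, (h1 μ i).2 ⟨h5, h6⟩⟩).symm

end Cfsg.Agent.H6
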