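import Cfsg.Agent.H7.AltF4
import Mathlib.RingTheory.Polynomial.Cyclotomic.Roots
import Mathlib.LinearAlgebra.Charpoly.Basic

/-!
Elements of prime order in Weyl groups; elements of prime order of the split torus.
-/

set_option autoImplicit false
set_option linter.unusedSectionVars false

namespace Cfsg.Agent.H6A

open Subgroup Cfsg.Agent.H9.Chev Dat Cfsg.Agent.H7.Alt Module Polynomial

section cy
variable {V : Type*} [AddCommGroup V] [Module ℚ V] [FiniteDimensional ℚ V]

lemma cy0 (f : End ℚ V) {m : ℕ} (hm : 0 < m) (U : Submodule ℚ V) (h0 : U ≠ ⊥) (h1 : ∀ u ∈ U, f u ∈ U)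
    (h2 : ∀ u ∈ U, aeval f (cyclotomic m ℚ) u = 0) : m.totient ≤ finrank ℚ U := by
  haveI := Submodule.nontrivial_iff_ne_bot.mpr h0
  have h3 : aeval (f.restrict h1) (cyclotomic m ℚ) = 0 := LinearMap.ext fun u => Subtype.ext (by
    refine Eq.trans ?_ (h2 u u.2)
    generalize cyclotomic m ℚ = q
    induction q using Polynomial.induction_on' with
    | add p q hp hq => simp [hp, hq]
    | monomial n c => simp [aeval_monomial, End.pow_restrict n h1, Algebra.algebraMap_eq_smul_one])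
  rw [← natDegree_cyclotomic m ℚ, minpoly.eq_of_irreducible_of_monic (cyclotomic.irreducible_rat hm) h3
    (cyclotomic.monic m ℚ), ← LinearMap.charpoly_natDegree (f.restrict h1)]
  exact natDegree_le_of_dvd (LinearMap.minpoly_dvd_charpoly _) (LinearMap.charpoly_monic _).ne_zero

lemma cy1 (f : End ℚ V) {l k : ℕ} [Fact l.Prime] (h : f ^ l ^ (k + 1) = 1) (h0 : f ^ l ^ k ≠ 1) :
    l ^ k * (l - 1) ≤ finrank ℚ (LinearMap.range (f ^ l ^ k - 1)) := by
  rw [← Nat.totient_prime_pow_succ Fact.out]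
  refine cy0 f (pow_pos (Fact.out : l.Prime).pos _) _
    (fun e => h0 (sub_eq_zero.mp (LinearMap.range_eq_bot.mp e))) ?_ ?_
  · rintro _ ⟨v, rfl⟩
    exact ⟨f v, LinearMap.congr_fun (((Commute.refl f).pow_left _).sub_left (Commute.one_left f)).eq v⟩
  · rintro _ ⟨v, rfl⟩
    have := congrArg (aeval f) (cyclotomic_prime_pow_mul_X_pow_sub_one ℚ l k)
    simp only [map_mul, map_sub, map_pow, aeval_X, map_one, h, sub_self] at this
    exact LinearMap.congr_fun this v

lemma cy2 {f g : End ℚ V} {l : ℕ} [Fact l.Prime] (hf : f ^ l = 1) (hg : g ^ l = 1) (hc : Commute g f)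
    {v : V} (h1 : f v = v) (h2 : g v ≠ v) (hn : finrank ℚ V + 2 < 2 * l) : f = 1 := by
  by_contra h
  have h3 := cy1 f (l := l) (k := 0) (by simpa using hf) (by simpa using h)
  have h4 := (f - 1).finrank_range_add_finrank_ker
  have h5 := congrArg (aeval g) (cyclotomic_prime_mul_X_sub_one ℚ l)
  simp only [map_mul, map_sub, map_pow, aeval_X, map_one, hg, sub_self] at h5
  have h6 := cy0 g (Fact.out : l.Prime).pos
    (LinearMap.ker (f - 1) ⊓ LinearMap.ker (aeval g (cyclotomic l ℚ)))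
    ((Submodule.ne_bot_iff _).mpr ⟨g v - v, ⟨by
      simp [← End.mul_apply f g, ← hc.eq, h1], LinearMap.congr_fun h5 v⟩, sub_ne_zero.mpr h2⟩)
    (fun u hu => ⟨by
      rw [SetLike.mem_coe, LinearMap.mem_ker, ← End.mul_apply,
        ← (hc.sub_right (Commute.one_right g)).eq, End.mul_apply, LinearMap.mem_ker.mp hu.1, map_zero], by
      have := congrArg (aeval g) (mul_comm X (cyclotomic l ℚ))
      simp only [map_mul, aeval_X] at this
      rw [SetLike.mem_coe, LinearMap.mem_ker, ← End.mul_apply, ← this, End.mul_apply,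
        LinearMap.mem_ker.mp hu.2, map_zero]⟩) fun u hu => hu.2
  have h7 := Submodule.finrank_mono (inf_le_left (a := LinearMap.ker (f - 1))
    (b := LinearMap.ker (aeval g (cyclotomic l ℚ))))
  rw [Nat.totient_prime Fact.out] at h6
  rw [pow_zero, pow_one, one_mul] at h3
  omega

end cy

variable {n : ℕ}

/-- extension of scalars to the rationals -/
noncomputable def qE : AddMonoid.End (Fin n → ℤ) →+* End ℚ (Fin n → ℚ) :=
  (Matrix.toLinAlgEquiv' (R := ℚ)).toRingEquiv.toRingHom.comp ((Int.castRingHom ℚ).mapMatrix.comp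
    ((LinearMap.toMatrixAlgEquiv' (R := ℤ)).toRingEquiv.toRingHom.comp
      (addMonoidEndRingEquivInt _).toRingHom))

lemma qE_apply (W : AddMonoid.End (Fin n → ℤ)) (v : Fin n → ℤ) :
    qE W (fun i => (v i : ℚ)) = fun i => (W v i : ℚ) := by
  funext i
  have := ((Int.castRingHom ℚ).map_mulVec
    (LinearMap.toMatrixAlgEquiv' (addMonoidEndRingEquivInt _ W)) v i).symm
  rw [← Matrix.toLinAlgEquiv'_apply, ← Matrix.toLinAlgEquiv'_apply,
    Matrix.toLinAlgEquiv'_toMatrixAlgEquiv'] at this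
  exact this

lemma qE_eq {W W' : AddMonoid.End (Fin n → ℤ)} {v v' : Fin n → ℤ} :
    qE W (fun i => (v i : ℚ)) = qE W' (fun i => (v' i : ℚ)) ↔ W v = W' v' := by
  simp [qE_apply, funext_iff]

lemma qE_inj : Function.Injective (qE (n := n)) := fun W W' h =>
  AddMonoidHom.ext fun v => qE_eq.mp (by rw [h])

lemma end_pow {W : AddMonoid.End (Fin n → ℤ)} {l : ℕ} [Fact l.Prime] (j : ℕ)
    (hn : n < l ^ j * (l - 1)) (k : ℕ) (h : W ^ l ^ k = 1) : W ^ l ^ j = 1 := by
  induction k with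
  | zero => simp_all
  | succ k ih =>
    rcases le_or_gt (k + 1) j with h1 | h1
    · obtain ⟨c, rfl⟩ := Nat.exists_eq_add_of_le h1
      rw [pow_add, pow_mul, h, one_pow]
    refine ih (qE_inj ?_)
    by_contra h2
    rw [map_pow, map_one] at h2
    have h3 := (cy1 (qE W) (by rw [← map_pow, h, map_one]) h2).trans (Submodule.finrank_le _)
    have h4 := Nat.mul_le_mul_right (l - 1)
      (Nat.pow_le_pow_right (Fact.out : l.Prime).pos (Nat.lt_succ_iff.mp h1))
    simp only [finrank_fintype_fun_eq_card, Fintype.card_fin] at h3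
    omega

lemma end_eq_one {W W0 : AddMonoid.End (Fin n → ℤ)} {l : ℕ} [Fact l.Prime] (hf : W ^ l = 1)
    (hg : W0 ^ l = 1) (hc : Commute W0 W) {v : Fin n → ℤ} (h1 : W v = v) (h2 : W0 v ≠ v)
    (hn : n + 2 < 2 * l) : W = 1 :=
  qE_inj ((cy2 (l := l) (by rw [← map_pow, hf, map_one]) (by rw [← map_pow, hg, map_one]) (hc.map qE)
    (v := fun i => (v i : ℚ)) (by rw [qE_apply, h1])
    (fun e => h2 (qE_eq.mp (e.trans (by rw [map_one]; rfl) : _ = qE 1 _))) (by simpa using hn)).trans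
      (map_one _).symm)

lemma end_ext {W W' : AddMonoid.End (Fin n → ℤ)} (h : ∀ p, W (Pi.single p 1) = W' (Pi.single p 1)) :
    W = W' := AddMonoidHom.functions_ext' _ _ _ fun p => AddMonoidHom.ext_int (h p)

variable {I Φ : Type} [Fintype I] [DecidableEq I] {F : Type*} [Field F] {d : Dat I Φ n F}

lemma char_ext {χ ψ : AddChar (Fin n → ℤ) Fˣ} (h : ∀ p, χ (Pi.single p 1) = ψ (Pi.single p 1)) :
    χ = ψ := by
  have : χ.toAddMonoidHom = ψ.toAddMonoidHom :=
    AddMonoidHom.functions_ext' _ _ _ fun p => AddMonoidHom.ext_int (h p)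
  exact AddChar.toAddMonoidHomEquiv.injective this

/-- the pairing -/
def evZ {l : ℕ} (a : Fin n → ZMod l) : (Fin n → ℤ) →+ ZMod l where
  toFun v := ∑ i, (v i : ZMod l) * a i
  map_zero' := by simp
  map_add' v w := by simp [add_mul, Finset.sum_add_distrib]

lemma evZ_apply {l : ℕ} (a : Fin n → ZMod l) (v : Fin n → ℤ) :
    evZ a v = ∑ i, (v i : ZMod l) * a i := rfl

lemma evZ_single {l : ℕ} (a : Fin n → ZMod l) (p : Fin n) : evZ a (Pi.single p 1) = a p := by
  rw [evZ_apply, Finset.sum_eq_single p] <;> simp +contextual [Pi.single_apply]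

lemma evZ_smul {l : ℕ} (c : ZMod l) (a : Fin n → ZMod l) (v : Fin n → ℤ) :
    evZ (c • a) v = c * evZ a v := by
  simp [evZ_apply, Finset.mul_sum, mul_left_comm]

lemma evZ_add {l : ℕ} (a b : Fin n → ZMod l) (v : Fin n → ℤ) :
    evZ (a + b) v = evZ a v + evZ b v := by
  simp [evZ_apply, mul_add, Finset.sum_add_distrib]

variable {l : ℕ} [NeZero l] {ζ : Fˣ} (hζ : IsPrimitiveRoot ζ l)

/-- elements of order `l` of the torus -/
noncomputable def tor (d : Dat I Φ n F) : Multiplicative (Fin n → ZMod l) →* GL I F :=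
  d.D.comp (MonoidHom.mk' (fun a => (AddChar.zmodChar l hζ.pow_eq_one).compAddMonoidHom
    (evZ a.toAdd)) fun a b => by ext v; simp [evZ_add, AddChar.map_add_eq_mul])

lemma tor_mem (a : Multiplicative (Fin n → ZMod l)) : tor hζ d a ∈ d.T := D_mem _

variable (h : d.Ax)
include h

lemma D_inj : Function.Injective d.D := fun χ ψ e => char_ext fun p => by
  have := congrArg (fun g : GL I F => g.1 (d.e (d.sm p)) (d.e (d.sm p))) e
  simp only [D_val, Matrix.diagonal_apply_eq, Units.val_inj] at this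
  rwa [← h.rt_sm]

lemma exists_tor {x : GL I F} (hx : x ∈ d.T) (hl : x ^ l = 1) : ∃ a, tor hζ d a = x := by
  obtain ⟨χ, rfl⟩ := hx
  have h1 : χ ^ l = 1 := D_inj h (by rw [map_pow, hl, map_one])
  choose a h2 h3 using fun p => hζ.eq_pow_of_mem_rootsOfUnity (ξ := χ (Pi.single p 1))
    ((mem_rootsOfUnity _ _).mpr (by rw [← AddChar.pow_apply, h1]; rfl))
  refine ⟨Multiplicative.ofAdd fun p => a p, congrArg d.D (char_ext fun p => ?_)⟩
  simp [evZ_single, AddChar.zmodChar_apply, ZMod.val_cast_of_lt (h2 p), h3]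

lemma tor_conj {L : List (Fin n)} {a b : Multiplicative (Fin n → ZMod l)}
    (e : d.nw L * tor hζ d a * (d.nw L)⁻¹ = tor hζ d b) (v : Fin n → ℤ) :
    evZ a.toAdd v = evZ b.toAdd (WL d L v) := by
  rw [mul_inv_eq_iff_eq_mul] at e
  have := DFunLike.congr_fun (D_inj h (mul_left_cancel (e.trans (nw_D h L _).symm))) v
  exact ZMod.val_injective _ (hζ.pow_inj (ZMod.val_lt _) (ZMod.val_lt _) this)

lemma tor_inj : Function.Injective (tor hζ d) := fun a b e => funext fun p => by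
  have := tor_conj hζ h (L := []) (a := a) (b := b) (by simpa [nw] using e) (Pi.single p 1)
  exact (evZ_single _ p).symm.trans (this.trans (evZ_single _ p))

lemma fuse_tor [Finite Φ] {g : GL I F} (hg : g ∈ GH d) : ∃ L, ∀ a b, g * tor hζ d a * g⁻¹ = tor hζ d b →
    ∀ v, evZ a.toAdd v = evZ b.toAdd (WL d L v) := by
  obtain ⟨L, u, -, t, -, v, -, -, H⟩ := fuse h hg
  exact ⟨L, fun a b e => tor_conj hζ h ((H _ (tor_mem hζ a) (e ▸ tor_mem hζ b)).1.symm.trans e)⟩

lemma WL_eq {t t' : GL I F} (ht : t ∈ d.T) (ht' : t' ∈ d.T) {L L' : List (Fin n)}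
    (e : t * d.nw L = t' * d.nw L') : WL d L = WL d L' := end_ext fun p => by
  obtain ⟨χ, rfl⟩ := ht
  obtain ⟨ψ, rfl⟩ := ht'
  obtain ⟨a, ha⟩ : ∃ a, (d.nw L).1 a (d.e (d.sm p)) ≠ 0 := by
    by_contra h1
    push Not at h1
    have := congrFun (congrFun (d.nw L).inv_mul (d.e (d.sm p))) (d.e (d.sm p))
    simp [Matrix.mul_apply, h1] at this
  have h1 := congrArg (fun g : GL I F => g.1 a (d.e (d.sm p))) e
  simp only [Units.val_mul, D_val, Matrix.diagonal_mul] at h1
  rw [← h.rt_sm, Dat.rt, ← nw_gr h L a _ ha, ← nw_gr h L' a _ fun e => ha (by simpa [e] using h1)]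

lemma WL_sum {M : Type*} [AddCommMonoid M] (S : Finset (Fin n → ℤ)) (hS : ∀ p, ∀ s ∈ S, d.W p s ∈ S)
    (L : List (Fin n)) (f : (Fin n → ℤ) → M) : ∑ s ∈ S, f (WL d L s) = ∑ s ∈ S, f s := by
  induction L generalizing f with
  | nil => rfl
  | cons p L ih =>
    exact (ih fun s => f (d.W p s)).trans
      (Finset.sum_nbij' (d.W p) (d.W p) (hS p) (hS p) (fun _ _ => h.W_W p _) (fun _ _ => h.W_W p _)
        fun _ _ => rfl)

include hζ in
lemma reg_tor [Finite Φ] (hr : ∀ r, ∃ j, ¬ (l : ℤ) ∣ d.rt r j) {g : GL I F} (hg : g ∈ GH d)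
    (H : ∀ a, g⁻¹ * tor hζ d a * g ∈ d.T) : ∃ t ∈ d.T, ∃ L, g = t * d.nw L :=
  reg_main h hg fun r => by
    obtain ⟨j, hj⟩ := hr r
    refine ⟨_, fun e => hj ?_, H (Multiplicative.ofAdd (Pi.single j 1))⟩
    have := hζ.pow_inj (ZMod.val_lt _) (NeZero.pos l) (e.trans (pow_zero ζ).symm)
    rw [ZMod.val_eq_zero, toAdd_ofAdd, evZ_apply, Finset.sum_eq_single j] at this
    · simpa [ZMod.intCast_zmod_eq_zero_iff_dvd] using this
    · simp +contextual [Pi.single_apply]
    · simp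

end Cfsg.Agent.H6A
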